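import Mathlib
import Cfsg.Prelude.Def_KGroupFacts
import Cfsg.Agent.Lib.Helper8.Schur

set_option autoImplicit false

namespace Cfsg.Agent.Lib.Helper8

universe u v

/-- the central extension of `G` by `A` given by a biadditive cocycle `β` -/
structure h8_BExt {A : Type u} {G : Type v} [AddCommGroup A] [AddCommGroup G] (β : G →+ G →+ A) where
  z : A
  g : G

namespace h8_BExt

variable {A : Type u} {G : Type v} [AddCommGroup A] [AddCommGroup G] (β : G →+ G →+ A)

theorem ext' {x y : h8_BExt β} (hz : x.z = y.z) (hg : x.g = y.g) : x = y := by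
  cases x; cases y; simp_all

instance : Mul (h8_BExt β) := ⟨fun x y => ⟨x.z + y.z + β x.g y.g, x.g + y.g⟩⟩
instance : One (h8_BExt β) := ⟨⟨0, 0⟩⟩
instance : Inv (h8_BExt β) := ⟨fun x => ⟨-x.z + β x.g x.g, -x.g⟩⟩

@[simp] theorem mul_z (x y : h8_BExt β) : (x * y).z = x.z + y.z + β x.g y.g := rfl
@[simp] theorem mul_g (x y : h8_BExt β) : (x * y).g = x.g + y.g := rfl
@[simp] theorem one_z : (1 : h8_BExt β).z = 0 := rfl
@[simp] theorem one_g : (1 : h8_BExt β).g = 0 := rfl
@[simp] theorem inv_z (x : h8_BExt β) : (x⁻¹).z = -x.z + β x.g x.g := rfl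
@[simp] theorem inv_g (x : h8_BExt β) : (x⁻¹).g = -x.g := rfl

instance : Group (h8_BExt β) where
  mul_assoc x y w := by
    apply ext'
    · simp only [mul_z, mul_g, map_add, AddMonoidHom.add_apply]; abel
    · simp only [mul_g]; abel
  one_mul x := by
    apply ext'
    · simp
    · simp
  mul_one x := by
    apply ext'
    · simp
    · simp
  inv_mul_cancel x := by
    apply ext'
    · simp
    · simp

/-- the projection onto the quotient -/
def proj : h8_BExt β →* Multiplicative G where
  toFun x := Multiplicative.ofAdd x.g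
  map_one' := rfl
  map_mul' _ _ := rfl

theorem proj_surjective : Function.Surjective (proj β) := fun y => ⟨⟨0, Multiplicative.toAdd y⟩, rfl⟩

theorem mem_ker_proj {x : h8_BExt β} : x ∈ (proj β).ker ↔ x.g = 0 := by
  rw [MonoidHom.mem_ker]
  show Multiplicative.ofAdd x.g = 1 ↔ x.g = 0
  exact ofAdd_eq_one

theorem ker_le_center : (proj β).ker ≤ Subgroup.center (h8_BExt β) := by
  intro x hx
  rw [mem_ker_proj] at hx
  rw [Subgroup.mem_center_iff]
  intro y
  apply ext'
  · simp [hx, add_comm]
  · simp [hx]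

theorem comm_eq (x y : h8_BExt β) :
    x * y * x⁻¹ * y⁻¹ = (⟨β x.g y.g - β y.g x.g, 0⟩ : h8_BExt β) := by
  have h1 : x * y = (⟨β x.g y.g - β y.g x.g, 0⟩ : h8_BExt β) * (y * x) := by
    apply ext'
    · simp only [mul_z, mul_g, map_zero, AddMonoidHom.zero_apply]; abel
    · simp only [mul_g]; abel
  rw [h1]; group

theorem pow_central (c : A) (k : ℕ) : (⟨c, 0⟩ : h8_BExt β) ^ k = ⟨k • c, 0⟩ := by
  induction k with
  | zero => apply ext' <;> simp
  | succ k ih =>
    rw [pow_succ, ih]
    apply ext'
    · simp [add_smul]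
    · simp

/-- the kernel of the projection is `A` -/
def kerEquiv : (proj β).ker ≃* Multiplicative A where
  toFun x := Multiplicative.ofAdd (x : h8_BExt β).z
  invFun t := ⟨⟨Multiplicative.toAdd t, 0⟩, (mem_ker_proj β).2 rfl⟩
  left_inv x := by
    apply Subtype.ext
    apply ext'
    · rfl
    · exact ((mem_ker_proj β).1 x.2).symm
  right_inv t := rfl
  map_mul' x y := by
    have hx := (mem_ker_proj β).1 x.2
    show Multiplicative.ofAdd ((x : h8_BExt β).z + (y : h8_BExt β).z +
      β (x : h8_BExt β).g (y : h8_BExt β).g) = _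
    rw [hx, map_zero, AddMonoidHom.zero_apply, add_zero]
    rfl

instance [Finite A] [Finite G] : Finite (h8_BExt β) :=
  Finite.of_injective (fun x : h8_BExt β => (x.z, x.g)) (by
    intro x y h
    exact ext' β (congrArg Prod.fst h) (congrArg Prod.snd h))

end h8_BExt

end Cfsg.Agent.Lib.Helper8
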