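import Mathlib
import Cfsg.Prelude.Def_KGroupFacts
import Cfsg.Agent.Lib.Helper8.Schur
import Cfsg.Agent.Lib.Helper8.BilinExt

set_option autoImplicit false

namespace Cfsg.Agent.Lib.Helper8

universe u

/-- A nonsymmetric biadditive form with values in `ZMod p` on a finite abelian group gives a
finite stem extension with nontrivial kernel. -/
theorem h8_exists_stem_of_bilin {G : Type u} [CommGroup G] [Finite G] {p : ℕ} [Fact p.Prime]
    (β : Additive G →+ Additive G →+ ZMod p) (x y : Additive G) (hxy : β x y - β y x ≠ 0) :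
    ∃ (Γ : Type u) (_ : Group Γ) (_ : Finite Γ) (σ : Γ →* G),
      Cfsg.IsStemExtension σ ∧ σ.ker ≠ ⊥ := by
  have hfin : Finite (Additive G) := inferInstanceAs (Finite G)
  have : NeZero p := ⟨(Fact.out : p.Prime).pos.ne'⟩
  have hker : ((MulEquiv.multiplicativeAdditive G).toMonoidHom.comp (h8_BExt.proj β)).ker =
      (h8_BExt.proj β).ker := by
    ext t
    rw [MonoidHom.mem_ker, MonoidHom.mem_ker, MonoidHom.comp_apply]
    exact (MulEquiv.multiplicativeAdditive G).map_eq_one_iff
  -- the commutator of the two lifts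
  have h1 : (⟨β x y - β y x, 0⟩ : h8_BExt β) =
      (⟨0, x⟩ : h8_BExt β) * ⟨0, y⟩ * (⟨0, x⟩ : h8_BExt β)⁻¹ * (⟨0, y⟩ : h8_BExt β)⁻¹ := by
    rw [h8_BExt.comm_eq]
  refine ⟨h8_BExt β, inferInstance, inferInstance,
    (MulEquiv.multiplicativeAdditive G).toMonoidHom.comp (h8_BExt.proj β), ⟨?_, ?_, ?_⟩, ?_⟩
  · exact (MulEquiv.multiplicativeAdditive G).surjective.comp (h8_BExt.proj_surjective β)
  · rw [hker]; exact h8_BExt.ker_le_center β
  · rw [hker]
    intro t ht
    rw [h8_BExt.mem_ker_proj] at ht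
    -- t = ⟨t.z, 0⟩ = c ^ k
    obtain ⟨k, hk⟩ : ∃ k : ℕ, t.z = k • (β x y - β y x) := by
      have hu : IsUnit (β x y - β y x) := (isUnit_iff_ne_zero).2 hxy
      obtain ⟨w, hw⟩ := hu
      refine ⟨(t.z * (w⁻¹ : (ZMod p)ˣ)).val, ?_⟩
      rw [nsmul_eq_mul, ZMod.natCast_val, ZMod.cast_id', id, ← hw, mul_assoc, Units.inv_mul,
        mul_one]
    have h2 : t = (⟨β x y - β y x, 0⟩ : h8_BExt β) ^ k := by
      rw [h8_BExt.pow_central]
      apply h8_BExt.ext'
      · exact hk
      · exact ht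
    rw [h2, h1, commutator_def]
    apply Subgroup.pow_mem
    exact Subgroup.commutator_mem_commutator (Subgroup.mem_top _) (Subgroup.mem_top _)
  · rw [hker]
    intro hbot
    have h3 : (⟨β x y - β y x, 0⟩ : h8_BExt β) ∈ (h8_BExt.proj β).ker :=
      (h8_BExt.mem_ker_proj β).2 rfl
    rw [hbot, Subgroup.mem_bot] at h3
    exact hxy (congrArg h8_BExt.z h3)

/-- A finite abelian group all of whose finite stem extensions have trivial kernel is cyclic. -/
theorem h8_isCyclic_of_forall_stem_ker_bot {G : Type u} [CommGroup G] [Finite G]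
    (h : ∀ (Γ : Type u) [Group Γ] [Finite Γ] (σ : Γ →* G), Cfsg.IsStemExtension σ → σ.ker = ⊥) :
    IsCyclic G := by
  obtain ⟨ι, _, n, hn, ⟨e⟩⟩ := CommGroup.equiv_prod_multiplicative_zmod_of_finite G
  classical
  by_cases hcop : Pairwise (Function.onFun Nat.Coprime n)
  · -- cyclic by the Chinese remainder theorem
    let f : Multiplicative (ZMod (∏ i, n i)) ≃* G :=
      ((AddEquiv.toMultiplicative (ZMod.prodEquivPi n hcop).toAddEquiv).trans
        (MulEquiv.piMultiplicative _)).trans e.symm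
    exact isCyclic_of_surjective f.toMonoidHom f.surjective
  · exfalso
    rw [Pairwise] at hcop
    push Not at hcop
    obtain ⟨i, j, hij, hc⟩ := hcop
    obtain ⟨p, hp, hpi, hpj⟩ := Nat.Prime.not_coprime_iff_dvd.1 hc
    have : Fact p.Prime := ⟨hp⟩
    let φ₁ : Additive G →+ ZMod p := (ZMod.castHom hpi (ZMod p)).toAddMonoidHom.comp
      (MonoidHom.toAdditiveLeft ((Pi.evalMonoidHom _ i).comp e.toMonoidHom))
    let φ₂ : Additive G →+ ZMod p := (ZMod.castHom hpj (ZMod p)).toAddMonoidHom.comp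
      (MonoidHom.toAdditiveLeft ((Pi.evalMonoidHom _ j).comp e.toMonoidHom))
    let β : Additive G →+ Additive G →+ ZMod p :=
      ((AddMonoidHom.mul : ZMod p →+ ZMod p →+ ZMod p).comp φ₁).compl₂ φ₂
    let x : Additive G := Additive.ofMul (e.symm (Pi.mulSingle i (Multiplicative.ofAdd 1)))
    let y : Additive G := Additive.ofMul (e.symm (Pi.mulSingle j (Multiplicative.ofAdd 1)))
    have hβ : ∀ a b, β a b = φ₁ a * φ₂ b := fun a b => rfl
    have h1 : φ₁ x = 1 := by
      show ZMod.castHom hpi (ZMod p) (Multiplicative.toAdd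
        ((e (e.symm (Pi.mulSingle i (Multiplicative.ofAdd 1)))) i)) = 1
      rw [MulEquiv.apply_symm_apply, Pi.mulSingle_eq_same, toAdd_ofAdd, map_one]
    have h2 : φ₂ y = 1 := by
      show ZMod.castHom hpj (ZMod p) (Multiplicative.toAdd
        ((e (e.symm (Pi.mulSingle j (Multiplicative.ofAdd 1)))) j)) = 1
      rw [MulEquiv.apply_symm_apply, Pi.mulSingle_eq_same, toAdd_ofAdd, map_one]
    have h3 : φ₁ y = 0 := by
      show ZMod.castHom hpi (ZMod p) (Multiplicative.toAdd
        ((e (e.symm (Pi.mulSingle j (Multiplicative.ofAdd 1)))) i)) = 0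
      rw [MulEquiv.apply_symm_apply, Pi.mulSingle_eq_of_ne hij, toAdd_one, map_zero]
    have hxy : β x y - β y x ≠ 0 := by
      rw [hβ, hβ, h1, h2, h3, zero_mul, mul_one, sub_zero]
      exact one_ne_zero
    obtain ⟨Γ, _, _, σ, hσ, hne⟩ := h8_exists_stem_of_bilin β x y hxy
    exact hne (h Γ σ hσ)

/-- A finite abelian group has trivial Schur multiplier iff it is cyclic. -/
theorem h8_abelian_schur_one_iff {G : Type u} [CommGroup G] [Finite G] :
    Cfsg.HasCyclicSchurMultiplier G 1 ↔ IsCyclic G := by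
  constructor
  · intro h
    apply h8_isCyclic_of_forall_stem_ker_bot
    intro Γ _ _ σ hσ
    obtain ⟨π, hπ⟩ := h.2 Γ σ hσ
    rw [eq_bot_iff]
    intro t ht
    obtain ⟨w, hw⟩ := hπ ⟨t, ht⟩
    have hs : Subsingleton (Multiplicative (ZMod 1)) := by
      show Subsingleton (ZMod 1)
      infer_instance
    have hw1 : w = 1 := Subsingleton.elim _ _
    rw [hw1, map_one] at hw
    rw [Subgroup.mem_bot]
    exact (congrArg Subtype.val hw).symm
  · intro hc
    exact h8_schur_one_of_forall_ker_bot (fun Γ _ _ σ hσ => h8_stem_ker_bot_of_isCyclic σ hσ)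

end Cfsg.Agent.Lib.Helper8
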