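import Mathlib

set_option autoImplicit false

namespace Cfsg.Agent.Lib.Helper8

universe u

/-- if `a ^ p = 1` on an abelian group then the `p`-torsion is at most the `p`-th power of the
fixed points -/
theorem h8_card_torsion_le {A : Type u} [AddCommGroup A] [Finite A] (p : ℕ) [Fact p.Prime]
    (a : AddMonoid.End A) (ha : a ^ p = 1) :
    Nat.card {w : A // p • w = 0} ≤ Nat.card {w : A // a w = w} ^ p := by
  have hp : p.Prime := Fact.out
  have hT : ∀ w : A, p • w = 0 → ((a - 1) ^ p) w = 0 := by
    intro w hw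
    obtain ⟨r, hr⟩ := Commute.exists_add_pow_prime_eq hp (Commute.neg_one_right a)
    have e1 : (p : AddMonoid.End A) * a * (-1) * r = (a * (-1) * r) * (p : AddMonoid.End A) := by
      rw [mul_assoc, mul_assoc, ← mul_assoc a]
      exact (Nat.cast_commute p _).eq
    have e2 : ((a * (-1) * r) * (p : AddMonoid.End A)) w = 0 := by
      show (a * (-1) * r) ((p : AddMonoid.End A) w) = 0
      rw [AddMonoid.End.natCast_apply, hw, map_zero]
    have e3 : ((1 : AddMonoid.End A) + (-1) ^ p) w = 0 := by
      rcases hp.eq_two_or_odd' with h2 | hodd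
      · subst h2
        have : ((1 : AddMonoid.End A) + (-1) ^ 2) = ((2 : ℕ) : AddMonoid.End A) := by
          norm_num
        rw [this, AddMonoid.End.natCast_apply, hw]
      · rw [hodd.neg_one_pow]
        simp
    rw [sub_eq_add_neg, hr, ha, e1]
    show ((1 : AddMonoid.End A) + (-1) ^ p) w + ((a * (-1) * r) * (p : AddMonoid.End A)) w = 0
    rw [e2, e3, add_zero]
  let K : ℕ → AddSubgroup A := fun k =>
    { carrier := {w | p • w = 0 ∧ ((a - 1) ^ k) w = 0}
      add_mem' := by
        intro x y hx hy
        exact ⟨by rw [nsmul_add, hx.1, hy.1, add_zero], by rw [map_add, hx.2, hy.2, add_zero]⟩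
      zero_mem' := ⟨nsmul_zero p, map_zero _⟩
      neg_mem' := by
        intro x hx
        exact ⟨by rw [smul_neg, hx.1, neg_zero], by rw [map_neg, hx.2, neg_zero]⟩ }
  have hKmem : ∀ k w, w ∈ K k ↔ (p • w = 0 ∧ ((a - 1) ^ k) w = 0) := fun k w => Iff.rfl
  have hK0 : Nat.card (K 0) = 1 := by
    have : K 0 = ⊥ := by
      ext w
      rw [hKmem, AddSubgroup.mem_bot]
      constructor
      · rintro ⟨_, h⟩
        rw [pow_zero] at h
        simpa using h
      · rintro rfl
        exact ⟨nsmul_zero p, map_zero _⟩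
    rw [this, AddSubgroup.card_bot]
  have hstep : ∀ k, Nat.card (K (k + 1)) ≤ Nat.card (K 1) * Nat.card (K k) := by
    intro k
    let f : ↥(K (k + 1)) →+ A := (a - 1 : AddMonoid.End A).comp (K (k + 1)).subtype
    have h1 := f.ker.card_mul_index
    rw [AddSubgroup.index_ker] at h1
    have hr : f.range ≤ K k := by
      rintro _ ⟨x, rfl⟩
      have hx := (hKmem (k + 1) x.1).1 x.2
      rw [hKmem]
      refine ⟨?_, ?_⟩
      · show p • (a - 1 : AddMonoid.End A) (x : A) = 0
        rw [← map_nsmul, hx.1, map_zero]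
      · have := hx.2
        rw [pow_succ] at this
        exact this
    have hk : Nat.card f.ker ≤ Nat.card (K 1) := by
      have hle : f.ker.map (K (k + 1)).subtype ≤ K 1 := by
        rintro _ ⟨x, hx, rfl⟩
        have hx1 := (hKmem (k + 1) x.1).1 x.2
        rw [hKmem]
        refine ⟨hx1.1, ?_⟩
        rw [pow_one]
        exact hx
      calc Nat.card f.ker = Nat.card (f.ker.map (K (k + 1)).subtype) :=
            (AddSubgroup.card_map_of_injective (AddSubgroup.subtype_injective _)).symm
        _ ≤ Nat.card (K 1) := AddSubgroup.card_le_of_le hle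
    calc Nat.card (K (k + 1)) = Nat.card f.ker * Nat.card f.range := h1.symm
      _ ≤ Nat.card (K 1) * Nat.card (K k) := Nat.mul_le_mul hk (AddSubgroup.card_le_of_le hr)
  have hKk : ∀ k, Nat.card (K k) ≤ Nat.card (K 1) ^ k := by
    intro k
    induction k with
    | zero => rw [hK0, pow_zero]
    | succ k ih =>
      calc Nat.card (K (k + 1)) ≤ Nat.card (K 1) * Nat.card (K k) := hstep k
        _ ≤ Nat.card (K 1) * Nat.card (K 1) ^ k := Nat.mul_le_mul_left _ ih
        _ = Nat.card (K 1) ^ (k + 1) := by rw [pow_succ, mul_comm]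
  have hKp : Nat.card {w : A // p • w = 0} = Nat.card (K p) := by
    apply Nat.card_congr
    exact Equiv.subtypeEquivRight (fun w => ⟨fun h => ⟨h, hT w h⟩, fun h => h.1⟩)
  have hK1 : Nat.card (K 1) ≤ Nat.card {w : A // a w = w} := by
    apply Nat.card_le_card_of_injective (fun x : K 1 => (⟨x.1, by
      have := ((hKmem 1 x.1).1 x.2).2
      rw [pow_one] at this
      have h2 : a (x : A) - (x : A) = 0 := this
      exact sub_eq_zero.1 h2⟩ : {w : A // a w = w}))
    intro x y h
    have h' : (x : A) = (y : A) := congrArg (fun t : {w : A // a w = w} => (t : A)) h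
    exact Subtype.ext h'
  calc Nat.card {w : A // p • w = 0} = Nat.card (K p) := hKp
    _ ≤ Nat.card (K 1) ^ p := hKk p
    _ ≤ _ := Nat.pow_le_pow_left hK1 p

/-- generators modulo a subgroup of index `p ^ d` in a `p`-group -/
theorem h8_exists_gens_mod {V : Type u} [Group V] [Finite V] (p N : ℕ) [Fact p.Prime]
    (hV : Nat.card V = p ^ N) (R : Subgroup V) (d : ℕ) (hR : Nat.card R * p ^ d = Nat.card V) :
    ∃ S : Finset V, S.card ≤ d ∧ R ⊔ Subgroup.closure (S : Set V) = ⊤ := by
  classical
  have hp : p.Prime := Fact.out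
  have key : ∀ k : ℕ, ∃ S : Finset V, S.card ≤ k ∧
      (R ⊔ Subgroup.closure (S : Set V) = ⊤ ∨
        Nat.card R * p ^ k ≤ Nat.card (R ⊔ Subgroup.closure (S : Set V) : Subgroup V)) := by
    intro k
    induction k with
    | zero =>
      refine ⟨∅, le_refl _, Or.inr ?_⟩
      simp
    | succ k ih =>
      obtain ⟨S, hS, h⟩ := ih
      rcases h with h | h
      · exact ⟨S, by omega, Or.inl h⟩
      · by_cases htop : R ⊔ Subgroup.closure (S : Set V) = ⊤
        · exact ⟨S, by omega, Or.inl htop⟩
        obtain ⟨x, hx⟩ : ∃ x, x ∉ R ⊔ Subgroup.closure (S : Set V) := by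
          by_contra hcon
          push Not at hcon
          exact htop ((Subgroup.eq_top_iff' _).2 hcon)
        refine ⟨insert x S, (Finset.card_insert_le x S).trans (by omega), Or.inr ?_⟩
        have hle : R ⊔ Subgroup.closure (S : Set V) ≤
            R ⊔ Subgroup.closure ((insert x S : Finset V) : Set V) := by
          apply sup_le_sup_left
          apply Subgroup.closure_mono
          intro y hy
          simp only [Finset.coe_insert]
          exact Set.mem_insert_of_mem x hy
        have hxin : x ∈ R ⊔ Subgroup.closure ((insert x S : Finset V) : Set V) := by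
          apply (le_sup_right : Subgroup.closure ((insert x S : Finset V) : Set V) ≤ _)
          apply Subgroup.subset_closure
          simp
        obtain ⟨i, _, hi⟩ := (Nat.dvd_prime_pow hp).1
          (hV ▸ Subgroup.card_subgroup_dvd_card (R ⊔ Subgroup.closure (S : Set V)))
        obtain ⟨i', _, hi'⟩ := (Nat.dvd_prime_pow hp).1
          (hV ▸ Subgroup.card_subgroup_dvd_card
            (R ⊔ Subgroup.closure ((insert x S : Finset V) : Set V)))
        have hlt : i < i' := by
          by_contra hcon
          have hge : Nat.card (R ⊔ Subgroup.closure ((insert x S : Finset V) : Set V) :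
              Subgroup V) ≤ Nat.card (R ⊔ Subgroup.closure (S : Set V) : Subgroup V) := by
            rw [hi, hi']
            exact Nat.pow_le_pow_right hp.pos (by omega)
          have heq := Subgroup.eq_of_le_of_card_ge hle hge
          exact hx (heq ▸ hxin)
        rw [hi'] 
        rw [hi] at h
        calc Nat.card R * p ^ (k + 1) = (Nat.card R * p ^ k) * p := by rw [pow_succ, mul_assoc]
          _ ≤ p ^ i * p := Nat.mul_le_mul_right _ h
          _ = p ^ (i + 1) := by rw [pow_succ]
          _ ≤ p ^ i' := Nat.pow_le_pow_right hp.pos hlt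
  obtain ⟨S, hS, h⟩ := key d
  refine ⟨S, hS, ?_⟩
  rcases h with h | h
  · exact h
  · apply Subgroup.eq_top_of_card_eq
    rw [hR] at h
    exact le_antisymm (Subgroup.card_le_card_group _) h

/-- Frattini argument for abelian `p`-groups -/
theorem h8_eq_top_of_pow_range_sup {V : Type u} [CommGroup V] [Finite V] (p : ℕ) [Fact p.Prime]
    (hV : IsPGroup p V) (H : Subgroup V)
    (h : (powMonoidHom p : V →* V).range ⊔ H = ⊤) : H = ⊤ := by
  have key : ∀ (k : ℕ) (x : V), ∃ h ∈ H, ∃ u : V, x = h * u ^ (p ^ k) := by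
    intro k
    induction k with
    | zero =>
      intro x
      exact ⟨1, H.one_mem, x, by simp⟩
    | succ k ih =>
      intro x
      obtain ⟨h₁, hh₁, u, rfl⟩ := ih x
      have hu : u ∈ (powMonoidHom p : V →* V).range ⊔ H := by rw [h]; exact Subgroup.mem_top u
      obtain ⟨y, ⟨w, rfl⟩, z, hz, rfl⟩ := Subgroup.mem_sup.1 hu
      refine ⟨h₁ * z ^ (p ^ k), H.mul_mem hh₁ (H.pow_mem hz _), w, ?_⟩
      rw [mul_pow, powMonoidHom_apply, ← pow_mul, ← pow_succ']
      rw [mul_assoc, mul_comm (w ^ p ^ (k + 1))]
  obtain ⟨N, hN⟩ := hV.exists_card_eq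
  rw [Subgroup.eq_top_iff']
  intro x
  obtain ⟨h₁, hh₁, u, rfl⟩ := key N x
  have : u ^ (p ^ N) = 1 := by rw [← hN]; exact pow_card_eq_one'
  rw [this, mul_one]
  exact hh₁

/-- an abelian `p`-group with an automorphism of order `p` having `p ^ n` fixed points is
generated by `p * n` elements -/
theorem h8_gens_of_aut {V : Type u} [CommGroup V] [Finite V] {p : ℕ} [Fact p.Prime]
    (hV : IsPGroup p V) (α : MulAut V) (hα : orderOf α = p) (n : ℕ)
    (hfix : Nat.card {v : V // α v = v} = p ^ n) :
    ∃ S : Finset V, S.card ≤ p * n ∧ Subgroup.closure (S : Set V) = ⊤ := by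
  have hp : p.Prime := Fact.out
  obtain ⟨N, hN⟩ := hV.exists_card_eq
  let a : AddMonoid.End (Additive V) := MonoidHom.toAdditive α.toMonoidHom
  have hak : ∀ (k : ℕ) (x : Additive V), (a ^ k) x = Additive.ofMul ((α ^ k) x.toMul) := by
    intro k
    induction k with
    | zero => intro x; simp
    | succ k ih =>
      intro x
      rw [pow_succ, pow_succ]
      show (a ^ k) (a x) = Additive.ofMul ((α ^ k) (α x.toMul))
      rw [ih]
      rfl
  have ha : a ^ p = 1 := by
    refine DFunLike.ext _ _ (fun x => ?_)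
    rw [hak, ← hα, pow_orderOf_eq_one]
    rfl
  have hL := h8_card_torsion_le p a ha
  have e1 : Nat.card {w : Additive V // p • w = 0} =
      Nat.card (powMonoidHom p : V →* V).ker := rfl
  have e2 : Nat.card {w : Additive V // a w = w} = Nat.card {v : V // α v = v} := rfl
  rw [e1, e2, hfix, ← pow_mul] at hL
  obtain ⟨d, _, hd⟩ := (Nat.dvd_prime_pow hp).1
    (hN ▸ Subgroup.card_subgroup_dvd_card (powMonoidHom p : V →* V).ker)
  have hdn : d ≤ p * n := by
    rw [hd] at hL
    have := (Nat.pow_le_pow_iff_right hp.one_lt).1 hL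
    rw [mul_comm]; exact this
  have hcard := (powMonoidHom p : V →* V).ker.card_mul_index
  rw [Subgroup.index_ker, hd, mul_comm] at hcard
  obtain ⟨S, hS, hSR⟩ := h8_exists_gens_mod p N hN (powMonoidHom p : V →* V).range d hcard
  exact ⟨S, hS.trans hdn, h8_eq_top_of_pow_range_sup p hV _ hSR⟩

end Cfsg.Agent.Lib.Helper8
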