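import Mathlib
import Cfsg.Prelude.Def_Local
import Cfsg.Prelude.Def_Transfer
import Cfsg.Agent.Lib.Helper8.Basic
import Cfsg.Agent.Lib.Helper8.CoprimeOmega
import Cfsg.Agent.Lib.Helper7.PQ

set_option autoImplicit false
set_option linter.style.haveILetI false
universe u

namespace Cfsg.Agent.Lib.Helper8

theorem h8_s1443 {G : Type u} [Group G] [Finite G] (p : ℕ) [Fact p.Prime] (hp : p ≠ 2)
    (H E A : Subgroup G) (hH : IsPGroup p H) (hE : E ≤ H) (hEe : Cfsg.IsElementaryAbelian p E)
    (hA : (A ≤ Subgroup.normalizer (H : Set G))) (hcop : (Nat.card A).Coprime p)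
    (hfix : ∀ x ∈ (H ⊓ Subgroup.centralizer (E : Set G)), orderOf x = p →
      A ≤ Subgroup.centralizer ({x} : Set G)) :
    A ≤ Subgroup.centralizer (H : Set G) := by
  have hpp := (Fact.out : p.Prime)
  obtain ⟨C, hC⟩ : ∃ C : Subgroup G, C = H ⊓ Subgroup.centralizer (E : Set G) := ⟨_, rfl⟩
  have hCp : IsPGroup p C := by rw [hC]; exact hH.to_le inf_le_left
  have hCmem : ∀ x, x ∈ C ↔ x ∈ H ∧ ∀ e ∈ E, e * x = x * e := by
    intro x; rw [hC, Subgroup.mem_inf, Subgroup.mem_centralizer_iff]; rfl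
  have hEC : E ≤ C := by
    intro e he
    rw [hCmem]
    refine ⟨hE he, fun e' he' => ?_⟩
    have h1 := hEe.1.is_comm.comm (⟨e', he'⟩ : E) ⟨e, he⟩
    exact congrArg Subtype.val h1
  -- elements of order dividing p of C are fixed by A
  have hfix' : ∀ a ∈ A, ∀ x ∈ C, x ^ p = 1 → a * x = x * a := by
    intro a ha x hx hxp
    by_cases hx1 : x = 1
    · rw [hx1]; simp
    · have ho : orderOf x = p := orderOf_eq_prime hxp hx1
      have h1 := hfix x (by rw [← hC]; exact hx) ho ha
      rw [Subgroup.mem_centralizer_iff] at h1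
      exact (h1 x (Set.mem_singleton x)).symm
  have hLE : ∀ a ∈ A, ∀ e ∈ E, a * e = e * a := by
    intro a ha e he
    exact hfix' a ha e (hEC he) (hEe.2 e he)
  have hLC : ∀ l ∈ A, ∀ x ∈ C, l * x = x * l := by
    intro l hl
    have hln : l ^ Nat.card A = 1 := by
      have h1 := pow_card_eq_one' (G := A) (x := ⟨l, hl⟩)
      exact congrArg Subtype.val h1
    apply h8_coprime_aut_omega p p dvd_rfl
      (hpp.dvd_choose_self (by norm_num) (by have := hpp.two_le; omega)) l (Nat.card A) hcop hln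
      (Nat.card C) C rfl hCp
    · intro x hx
      rw [hCmem] at hx ⊢
      have hlH := hA hl
      rw [Subgroup.mem_normalizer_iff] at hlH
      refine ⟨(hlH x).1 hx.1, fun e he => ?_⟩
      have h1 := hLE l hl e he
      have h2 := hx.2 e he
      calc e * (l * x * l⁻¹) = (e * l) * x * l⁻¹ := by group
        _ = (l * e) * x * l⁻¹ := by rw [h1]
        _ = l * (e * x) * l⁻¹ := by group
        _ = l * (x * e) * l⁻¹ := by rw [h2]
        _ = l * x * l⁻¹ * (l * e) * l⁻¹ := by group
        _ = l * x * l⁻¹ * (e * l) * l⁻¹ := by rw [h1]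
        _ = l * x * l⁻¹ * e := by group
    · intro x hx hxp
      exact hfix' l hl x hx hxp
  apply Cfsg.Agent.Lib.Helper7.pxq_lemma p E A H (hH.to_le hE) hcop hH
  · intro e he
    rw [Subgroup.mem_centralizer_iff]
    intro l hl
    exact hLE l hl e he
  · exact hE.trans Subgroup.le_normalizer
  · exact hA
  · intro x hx
    rw [Subgroup.mem_centralizer_iff]
    intro l hl
    exact hLC l hl x (by rw [hC]; exact hx)

end Cfsg.Agent.Lib.Helper8
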