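import Mathlib
import Cfsg.Agent.Lib.Helper7.Coprime
import Cfsg.Agent.Lib.Helper8.Basic

set_option autoImplicit false

namespace Cfsg.Agent.Lib.Helper8

open scoped commutatorElement

universe u

theorem h8_s1460_c {G : Type u} [Group G] [Finite G] [Group.IsSolvable G] (K U H : Subgroup G)
    [hKn : K.Normal] (hKU : K ⊔ U = ⊤) (hH : H ≤ U) (hcop : (Nat.card H).Coprime (Nat.card K))
    (g : G) (hg : H.map (MulAut.conj g).toMonoidHom ≤ U) :
    ∃ u ∈ U, ∃ c ∈ K ⊓ Subgroup.centralizer (H : Set G), g = u * c := by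
  have hUK : U ≤ Subgroup.normalizer (K : Set G) := by
    rw [Subgroup.normalizer_eq_top]; exact le_top
  have hHK : H ≤ Subgroup.normalizer (K : Set G) := hH.trans hUK
  have hgm : g ∈ K ⊔ U := by rw [hKU]; exact Subgroup.mem_top g
  obtain ⟨k', hk', u, hu, hgku⟩ := Cfsg.Agent.Lib.Helper7.exists_mul_of_mem_sup hUK hgm
  obtain ⟨k, hkdef⟩ : ∃ k, k = u⁻¹ * k' * u := ⟨_, rfl⟩
  have hkK : k ∈ K := by
    rw [hkdef]
    have := hKn.conj_mem k' hk' u⁻¹
    rwa [inv_inv] at this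
  have hguk : g = u * k := by rw [hkdef, hgku]; group
  have hkH : ∀ h ∈ H, k * h * k⁻¹ ∈ U := by
    intro h hh
    have h1 : g * h * g⁻¹ ∈ U := hg ⟨h, hh, by simp⟩
    have h2 : k * h * k⁻¹ = u⁻¹ * (g * h * g⁻¹) * u := by rw [hguk]; group
    rw [h2]
    exact U.mul_mem (U.mul_mem (U.inv_mem hu) h1) hu
  have hHKU : H ≤ Subgroup.normalizer ((K ⊓ U : Subgroup G) : Set G) := by
    intro h hh
    rw [Subgroup.mem_normalizer_iff]
    intro x
    constructor
    · rintro ⟨hxK, hxU⟩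
      exact ⟨hKn.conj_mem x hxK h, U.mul_mem (U.mul_mem (hH hh) hxU) (U.inv_mem (hH hh))⟩
    · rintro ⟨hxK, hxU⟩
      have e : x = h⁻¹ * (h * x * h⁻¹) * h := by group
      rw [e]
      refine ⟨?_, U.mul_mem (U.mul_mem (U.inv_mem (hH hh)) hxU) (hH hh)⟩
      have := hKn.conj_mem _ hxK h⁻¹
      rwa [inv_inv] at this
  have hcop' : (Nat.card H).Coprime (Nat.card (K ⊓ U : Subgroup G)) :=
    Nat.Coprime.coprime_dvd_right (Subgroup.card_dvd_of_le inf_le_left) hcop
  have hsolvH : Group.IsSolvable H := inferInstance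
  obtain ⟨n, hn, hnk⟩ := Cfsg.Agent.Lib.Helper7.exists_mul_mem_normalizer H (K ⊓ U) hHKU hcop'
    (Or.inl hsolvH) k (by
      intro a ha
      refine ⟨?_, ?_⟩
      · have h1 : a * k * a⁻¹ * k⁻¹ = (a * k * a⁻¹) * k⁻¹ := by group
        rw [h1]
        exact K.mul_mem (hKn.conj_mem k hkK a) (K.inv_mem hkK)
      · have h1 : a * k * a⁻¹ * k⁻¹ = a * (k * a⁻¹ * k⁻¹) := by group
        rw [h1]
        exact U.mul_mem (hH ha) (hkH a⁻¹ (H.inv_mem ha)))
  have hcK : n * k ∈ K := K.mul_mem hn.1 hkK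
  have hcC : n * k ∈ Subgroup.centralizer (H : Set G) :=
    Cfsg.Agent.Lib.Helper7.mem_centralizer_of_mem_normalizer_coprime hHK hcop hcK hnk
  refine ⟨u * n⁻¹, U.mul_mem hu (U.inv_mem hn.2), n * k, ⟨hcK, hcC⟩, ?_⟩
  rw [hguk]; group

theorem h8_s1460 {G : Type u} [Group G] [Finite G] [Group.IsSolvable G] (K U H : Subgroup G)
    [hKn : K.Normal] (hKU : K ⊔ U = ⊤) (hH : H ≤ U) (hcop : (Nat.card H).Coprime (Nat.card K)) :
    H ⊓ commutator G = H ⊓ ⁅U, U⁆ ∧
      Subgroup.normalizer (H : Set G) = (K ⊓ Subgroup.centralizer (H : Set G)) ⊔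
        (U ⊓ Subgroup.normalizer (H : Set G)) ∧
      ∀ g : G, H.map (MulAut.conj g).toMonoidHom ≤ U →
        ∃ u ∈ U, ∃ c ∈ K ⊓ Subgroup.centralizer (H : Set G), g = u * c := by
  have hUK : U ≤ Subgroup.normalizer (K : Set G) := by
    rw [Subgroup.normalizer_eq_top]; exact le_top
  have hU'U : ⁅U, U⁆ ≤ U := by
    rw [Subgroup.commutator_le]
    intro a ha b hb
    rw [commutatorElement_def]
    exact U.mul_mem (U.mul_mem (U.mul_mem ha hb) (U.inv_mem ha)) (U.inv_mem hb)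
  refine ⟨?_, ?_, fun g hg => h8_s1460_c K U H hKU hH hcop g hg⟩
  · apply le_antisymm
    · rintro h ⟨hhH, hhG⟩
      refine ⟨hhH, ?_⟩
      -- G' ≤ K ⊔ U'
      have hG' : commutator G ≤ K ⊔ ⁅U, U⁆ := by
        rw [commutator_def, Subgroup.commutator_le]
        intro a _ b _
        have ha : a ∈ K ⊔ U := by rw [hKU]; exact Subgroup.mem_top a
        have hb : b ∈ K ⊔ U := by rw [hKU]; exact Subgroup.mem_top b
        obtain ⟨k₁, hk₁, u₁, hu₁, rfl⟩ := Cfsg.Agent.Lib.Helper7.exists_mul_of_mem_sup hUK ha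
        obtain ⟨k₂, hk₂, u₂, hu₂, rfl⟩ := Cfsg.Agent.Lib.Helper7.exists_mul_of_mem_sup hUK hb
        have h1 : ⁅k₁ * u₁, k₂ * u₂⁆ * ⁅u₁, u₂⁆⁻¹ ∈ K := by
          rw [← QuotientGroup.eq_one_iff]
          have e1 : ((k₁ : G) : G ⧸ K) = 1 := (QuotientGroup.eq_one_iff k₁).2 hk₁
          have e2 : ((k₂ : G) : G ⧸ K) = 1 := (QuotientGroup.eq_one_iff k₂).2 hk₂
          simp only [commutatorElement_def, QuotientGroup.mk_mul, QuotientGroup.mk_inv, e1, e2,
            one_mul]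
          group
        have h2 : ⁅k₁ * u₁, k₂ * u₂⁆ = (⁅k₁ * u₁, k₂ * u₂⁆ * ⁅u₁, u₂⁆⁻¹) * ⁅u₁, u₂⁆ := by group
        rw [h2]
        exact Subgroup.mul_mem_sup h1 (Subgroup.commutator_mem_commutator hu₁ hu₂)
      have hU'K : ⁅U, U⁆ ≤ Subgroup.normalizer (K : Set G) := hU'U.trans hUK
      obtain ⟨k, hk, u', hu', hku⟩ :=
        Cfsg.Agent.Lib.Helper7.exists_mul_of_mem_sup hU'K (hG' hhG)
      have hkU : k ∈ U := by
        have e : k = h * u'⁻¹ := by rw [hku]; group
        rw [e]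
        exact U.mul_mem (hH hhH) (U.inv_mem (hU'U hu'))
      have hmap : (commutator ↥U).map U.subtype = ⁅U, U⁆ := by
        rw [commutator_def, Subgroup.map_commutator, ← MonoidHom.range_eq_map,
          Subgroup.range_subtype]
      have hu'c : (⟨u', hU'U hu'⟩ : U) ∈ commutator ↥U := by
        have h3 : u' ∈ (commutator ↥U).map U.subtype := by rw [hmap]; exact hu'
        obtain ⟨y, hy, hyu⟩ := h3
        have : y = ⟨u', hU'U hu'⟩ := Subtype.ext hyu
        rwa [← this]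
      have hφu : Abelianization.of (⟨u', hU'U hu'⟩ : U) = 1 := by
        rw [← MonoidHom.mem_ker, Abelianization.ker_of]; exact hu'c
      have hφ : Abelianization.of (⟨h, hH hhH⟩ : U) = Abelianization.of (⟨k, hkU⟩ : U) := by
        have e : (⟨h, hH hhH⟩ : U) = ⟨k, hkU⟩ * ⟨u', hU'U hu'⟩ := Subtype.ext hku
        rw [e, map_mul, hφu, mul_one]
      have ho1 : orderOf (Abelianization.of (⟨h, hH hhH⟩ : U)) ∣ Nat.card H := by
        have h4 : orderOf (Abelianization.of (⟨h, hH hhH⟩ : U)) ∣ orderOf (⟨h, hH hhH⟩ : U) :=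
          orderOf_map_dvd _ _
        have h5 : orderOf (⟨h, hH hhH⟩ : U) = orderOf h := by rw [← Subgroup.orderOf_coe]
        have h6 : orderOf (⟨h, hhH⟩ : H) ∣ Nat.card H := orderOf_dvd_natCard _
        rw [← Subgroup.orderOf_coe] at h6
        rw [h5] at h4
        exact h4.trans h6
      have ho2 : orderOf (Abelianization.of (⟨h, hH hhH⟩ : U)) ∣ Nat.card K := by
        rw [hφ]
        have h4 : orderOf (Abelianization.of (⟨k, hkU⟩ : U)) ∣ orderOf (⟨k, hkU⟩ : U) :=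
          orderOf_map_dvd _ _
        have h5 : orderOf (⟨k, hkU⟩ : U) = orderOf k := by rw [← Subgroup.orderOf_coe]
        have h6 : orderOf (⟨k, hk⟩ : K) ∣ Nat.card K := orderOf_dvd_natCard _
        rw [← Subgroup.orderOf_coe] at h6
        rw [h5] at h4
        exact h4.trans h6
      have h7 : Abelianization.of (⟨h, hH hhH⟩ : U) = 1 :=
        orderOf_eq_one_iff.mp (Nat.eq_one_of_dvd_coprimes hcop ho1 ho2)
      have h8 : (⟨h, hH hhH⟩ : U) ∈ commutator ↥U := by
        rw [← Abelianization.ker_of]; exact h7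
      rw [← hmap]
      exact ⟨⟨h, hH hhH⟩, h8, rfl⟩
    · refine inf_le_inf_left H ?_
      rw [commutator_def]
      exact Subgroup.commutator_mono le_top le_top
  · apply le_antisymm
    · intro g hg
      have hmap : H.map (MulAut.conj g).toMonoidHom ≤ U := by
        rw [h8_map_conj_eq_of_mem_normalizer hg]; exact hH
      obtain ⟨u, hu, c, hc, hguc⟩ := h8_s1460_c K U H hKU hH hcop g hmap
      have hcN : c ∈ Subgroup.normalizer (H : Set G) := Subgroup.centralizer_le_normalizer _ hc.2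
      have huN : u ∈ Subgroup.normalizer (H : Set G) := by
        have e : u = g * c⁻¹ := by rw [hguc]; group
        rw [e]
        exact Subgroup.mul_mem _ hg (Subgroup.inv_mem _ hcN)
      rw [hguc]
      exact Subgroup.mul_mem _ (Subgroup.mem_sup_right ⟨hu, huN⟩) (Subgroup.mem_sup_left hc)
    · exact sup_le (inf_le_right.trans (Subgroup.centralizer_le_normalizer _)) inf_le_right

end Cfsg.Agent.Lib.Helper8
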