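import Mathlib
import Cfsg.Prelude.Def_LieExceptional
import Cfsg.Prelude.Def_OddOrderLocal
import Cfsg.Agent.Lib.Helper8.CNMax
import Cfsg.Agent.Lib.Helper7.PCore

set_option autoImplicit false
set_option linter.style.haveILetI false
universe u

open scoped Pointwise

namespace Cfsg.Agent.Lib.Helper8

theorem h8_nilp_of_le {G : Type u} [Group G] {A B : Subgroup G} (hB : Group.IsNilpotent B)
    (h : A ≤ B) : Group.IsNilpotent A := by
  haveI := hB
  have h1 : Group.IsNilpotent (A.subgroupOf B) := inferInstance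
  exact Group.nilpotent_of_mulEquiv (Subgroup.subgroupOfEquivOfLe h)

/-- a complement acting fixed-point-freely on a nontrivial normal subgroup is a Frobenius
complement -/
theorem h8_frob_compl_of_fpf {G : Type u} [Group G] [Finite G] (K E : Subgroup G) [hKn : K.Normal]
    (hc : Subgroup.IsComplement' K E) (hK : K ≠ ⊥) (hE : E ≠ ⊥)
    (hfpf : ∀ e ∈ E, e ≠ 1 → K ⊓ Subgroup.centralizer ({e} : Set G) = ⊥) :
    Cfsg.IsFrobeniusComplement E := by
  have hdis : ∀ x : G, x ∈ K → x ∈ E → x = 1 := fun x hxK hxE =>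
    Subgroup.disjoint_def.1 hc.disjoint hxK hxE
  refine ⟨hE, ?_, ?_⟩
  · intro htop
    apply hK
    rw [Subgroup.eq_bot_iff_forall]
    intro x hx
    exact hdis x hx (by rw [htop]; exact Subgroup.mem_top x)
  · intro g hg
    rw [Subgroup.eq_bot_iff_forall]
    intro y hy
    by_contra hy1
    obtain ⟨hyE, hy2⟩ := Subgroup.mem_inf.1 hy
    obtain ⟨y', hy'E, hy'⟩ := (Subgroup.mem_smul_pointwise_iff_exists _ _ _).1 hy2
    have hy'' : g * y' * g⁻¹ = y := by
      rw [← hy']; rfl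
    obtain ⟨⟨f, e⟩, hfe⟩ := hc.2 g
    have hfe' : (f : G) * (e : G) = g := hfe
    have hyy : (e : G) * y' * (e : G)⁻¹ ∈ E := E.mul_mem (E.mul_mem e.2 hy'E) (E.inv_mem e.2)
    have hy3 : y = (f : G) * ((e : G) * y' * (e : G)⁻¹) * (f : G)⁻¹ := by
      rw [← hy'', ← hfe']; group
    have h1 : y * ((e : G) * y' * (e : G)⁻¹)⁻¹ ∈ K := by
      have h2 : y * ((e : G) * y' * (e : G)⁻¹)⁻¹ =
          (f : G) * (((e : G) * y' * (e : G)⁻¹) * (f : G)⁻¹ * ((e : G) * y' * (e : G)⁻¹)⁻¹) := by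
        rw [hy3]; group
      rw [h2]
      exact K.mul_mem f.2 (hKn.conj_mem _ (K.inv_mem f.2) _)
    have h3 : y * ((e : G) * y' * (e : G)⁻¹)⁻¹ = 1 :=
      hdis _ h1 (E.mul_mem hyE (E.inv_mem hyy))
    have h4 : (e : G) * y' * (e : G)⁻¹ = y := (mul_inv_eq_one.1 h3).symm
    rw [h4] at hy3
    have h5 : y * (f : G) = (f : G) * y := by
      calc y * (f : G) = ((f : G) * y * (f : G)⁻¹) * (f : G) := by rw [← hy3]
        _ = (f : G) * y := by group
    have h6 : (f : G) ∈ K ⊓ Subgroup.centralizer ({y} : Set G) :=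
      Subgroup.mem_inf.2 ⟨f.2, (h8_mem_centralizer_singleton y f).2 h5⟩
    rw [hfpf y hyE hy1, Subgroup.mem_bot] at h6
    apply hg
    rw [← hfe', h6, one_mul]
    exact e.2

theorem h8_fittingHall_le {G : Type u} [Group G] (S : Subgroup G) (hn : S.Normal)
    (hnil : Group.IsNilpotent S) (hcop : (Nat.card S).Coprime S.index) :
    S ≤ Cfsg.fittingHall G :=
  le_sSup ⟨hn, hnil, hcop⟩

theorem h8_fittingHall_nilp (G : Type u) [Group G] [Finite G] :
    Group.IsNilpotent (Cfsg.fittingHall G) := by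
  have hle : Cfsg.fittingHall G ≤ Cfsg.fittingSubgroup G :=
    sSup_le_sSup (fun N hN => ⟨hN.1, hN.2.1⟩)
  exact h8_nilp_of_le (Cfsg.Agent.Lib.Helper7.fitting_isNilpotent G) hle

theorem h8_fittingHall_hall (G : Type u) [Group G] [Finite G] :
    (Nat.card (Cfsg.fittingHall G)).Coprime (Cfsg.fittingHall G).index := by
  by_contra hnc
  obtain ⟨q, hq, hqF, hqI⟩ := Nat.Prime.not_coprime_iff_dvd.1 hnc
  have hex : ∃ N : Subgroup G, N.Normal ∧ Group.IsNilpotent N ∧ (Nat.card N).Coprime N.index ∧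
      q ∣ Nat.card N := by
    by_contra hcon
    push Not at hcon
    have hle : Cfsg.fittingHall G ≤ Cfsg.pPrimeCore q G := by
      apply sSup_le
      intro N hN
      apply Cfsg.Agent.Lib.Helper7.le_pPrimeCore hN.1
      exact ((Nat.Prime.coprime_iff_not_dvd hq).2 (hcon N hN.1 hN.2.1 hN.2.2)).symm
    have h1 := Cfsg.Agent.Lib.Helper7.pPrimeCore_coprime q G
    have h2 := Nat.Coprime.coprime_dvd_left (Subgroup.card_dvd_of_le hle) h1
    exact (Nat.Prime.coprime_iff_not_dvd hq).1 h2.symm hqF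
  obtain ⟨N, hNn, hNnil, hNcop, hqN⟩ := hex
  have hNF : N ≤ Cfsg.fittingHall G := h8_fittingHall_le N hNn hNnil hNcop
  have h3 : q ∣ N.index := hqI.trans (Subgroup.index_dvd_of_le hNF)
  have h4 := Nat.Coprime.eq_one_of_dvd (Nat.Coprime.coprime_dvd_left hqN hNcop) h3
  exact hq.one_lt.ne' h4

section CN

variable {G : Type u} [Group G] [Finite G]

/-- in a CN-group, an element of order prime to the largest normal nilpotent Hall subgroup `F`
acts fixed-point-freely on it -/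
theorem h8_cn_fpf (hCN : Cfsg.IsCNGroup G) (F : Subgroup G) [hFn : F.Normal]
    (hFnil : Group.IsNilpotent F)
    (hFmax : ∀ S : Subgroup G, S.Normal → Group.IsNilpotent S → (Nat.card S).Coprime S.index →
      S ≤ F)
    (e : G) (he1 : e ≠ 1) (heF : (orderOf e).Coprime (Nat.card F)) :
    F ⊓ Subgroup.centralizer ({e} : Set G) = ⊥ := by
  by_contra hne
  obtain ⟨⟨x, hx⟩, hx1⟩ := (Subgroup.ne_bot_iff_exists_ne_one).1 hne
  have hx1' : x ≠ 1 := fun h => hx1 (Subtype.ext h)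
  have hxe : Commute e x := (h8_mem_centralizer_singleton e x).1 hx.2
  -- prime-order powers
  have hoe : orderOf e ≠ 1 := fun h => he1 (orderOf_eq_one_iff.1 h)
  obtain ⟨r, hr, hrd⟩ := Nat.exists_prime_and_dvd hoe
  have hox : orderOf x ≠ 1 := fun h => hx1' (orderOf_eq_one_iff.1 h)
  obtain ⟨q, hq, hqd⟩ := Nat.exists_prime_and_dvd hox
  haveI : Fact r.Prime := ⟨hr⟩
  haveI : Fact q.Prime := ⟨hq⟩
  obtain ⟨e₁, he₁⟩ : ∃ e₁ : G, e₁ = e ^ (orderOf e / r) := ⟨_, rfl⟩
  obtain ⟨x₁, hx₁⟩ : ∃ x₁ : G, x₁ = x ^ (orderOf x / q) := ⟨_, rfl⟩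
  have hoe₁ : orderOf e₁ = r := by
    rw [he₁]; exact orderOf_pow_orderOf_div (orderOf_pos e).ne' hrd
  have hox₁ : orderOf x₁ = q := by
    rw [hx₁]; exact orderOf_pow_orderOf_div (orderOf_pos x).ne' hqd
  have hx₁F : x₁ ∈ F := by rw [hx₁]; exact F.pow_mem hx.1 _
  have hex₁ : e₁ * x₁ = x₁ * e₁ := by
    rw [he₁, hx₁]; exact (hxe.pow_pow _ _).eq
  have hx₁1 : x₁ ≠ 1 := by
    intro h
    rw [h, orderOf_one] at hox₁
    exact hq.one_lt.ne hox₁
  have he₁r : e₁ ^ (r ^ 1) = 1 := by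
    rw [pow_one, ← hoe₁]; exact pow_orderOf_eq_one e₁
  have hrF : Nat.Coprime r (Nat.card F) := Nat.Coprime.coprime_dvd_left hrd heF
  have hqF : q ∣ Nat.card F := by
    have h1 : orderOf (⟨x₁, hx₁F⟩ : F) = q := by rw [Subgroup.orderOf_mk]; exact hox₁
    rw [← h1]; exact orderOf_dvd_natCard _
  have hrq : r ≠ q := by
    rintro rfl
    exact (Nat.Prime.coprime_iff_not_dvd hr).1 hrF hqF
  have hFr : ∀ f : G, f ∈ F → (orderOf f).Coprime r := by
    intro f hf
    have h1 : orderOf f ∣ Nat.card F := by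
      have := orderOf_dvd_natCard (⟨f, hf⟩ : F)
      rwa [Subgroup.orderOf_mk] at this
    exact (Nat.Coprime.coprime_dvd_right h1 hrF).symm
  -- a central element z of F of q-power order
  obtain ⟨Q⟩ := (inferInstance : Nonempty (Sylow q F))
  obtain ⟨z, hzQ, hz1, hzc⟩ := h8_sylow_center_elt q Q hqF
  have hzcen := h8_nilp_sylow_center hFnil q Q z hzQ hzc
  have hzcenG : ∀ f : G, f ∈ F → f * (z : G) = z * f := fun f hf =>
    congrArg Subtype.val (hzcen ⟨f, hf⟩)
  have hz1' : (z : G) ≠ 1 := fun h => hz1 (Subtype.ext h)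
  obtain ⟨kz, hkz⟩ : ∃ k : ℕ, (z : G) ^ (q ^ k) = 1 := by
    obtain ⟨k, hk⟩ := Q.isPGroup' ⟨z, hzQ⟩
    refine ⟨k, ?_⟩
    have := congrArg (fun w : (Q : Subgroup F) => ((w : F) : G)) hk
    simpa using this
  -- e₁ commutes with z
  have he₁z : e₁ * (z : G) = z * e₁ := by
    have hC₁ := hCN x₁ hx₁1
    have hzC : (z : G) ∈ Subgroup.centralizer ({x₁} : Set G) :=
      (h8_mem_centralizer_singleton _ _).2 (hzcenG x₁ hx₁F)
    have heC : e₁ ∈ Subgroup.centralizer ({x₁} : Set G) :=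
      (h8_mem_centralizer_singleton _ _).2 hex₁.symm
    have h2 := h8_nilp_commute_coprime' hC₁ q ⟨e₁, heC⟩ ⟨(z : G), hzC⟩
      (by rw [Subgroup.orderOf_mk, hoe₁]; exact (Nat.coprime_primes hr hq).2 hrq) kz
      (Subtype.ext (by simpa using hkz))
    exact congrArg Subtype.val h2
  -- e₁ centralises F
  have hC₂ := hCN (z : G) hz1'
  have he₁F : ∀ f : G, f ∈ F → f * e₁ = e₁ * f := by
    intro f hf
    have hfC : f ∈ Subgroup.centralizer ({(z : G)} : Set G) :=
      (h8_mem_centralizer_singleton _ _).2 (hzcenG f hf).symm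
    have heC : e₁ ∈ Subgroup.centralizer ({(z : G)} : Set G) :=
      (h8_mem_centralizer_singleton _ _).2 he₁z.symm
    have h2 := h8_nilp_commute_coprime' hC₂ r ⟨f, hfC⟩ ⟨e₁, heC⟩
      (by rw [Subgroup.orderOf_mk]; exact hFr f hf) 1 (Subtype.ext (by simpa using he₁r))
    exact congrArg Subtype.val h2
  -- T = C_G(F)
  obtain ⟨T, hT⟩ : ∃ T : Subgroup G, T = Subgroup.centralizer (F : Set G) := ⟨_, rfl⟩
  haveI hTn : T.Normal := by rw [hT]; infer_instance
  have hTmem : ∀ t : G, t ∈ T ↔ ∀ f ∈ F, f * t = t * f := by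
    intro t; rw [hT]; exact Subgroup.mem_centralizer_iff
  have he₁T : e₁ ∈ T := (hTmem e₁).2 he₁F
  have hTnil : Group.IsNilpotent T := by
    apply h8_nilp_of_le hC₂
    intro t ht
    rw [h8_mem_centralizer_singleton]
    exact (hTmem t).1 ht z z.2
  haveI := hTnil
  obtain ⟨R₀⟩ := (inferInstance : Nonempty (Sylow r T))
  have hrT : r ∣ Nat.card T := by
    have h1 : orderOf (⟨e₁, he₁T⟩ : T) = r := by rw [Subgroup.orderOf_mk]; exact hoe₁
    rw [← h1]; exact orderOf_dvd_natCard _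
  have hR₀ne : (R₀ : Subgroup T) ≠ ⊥ := R₀.ne_bot_of_dvd_card hrT
  have hR₀n : (R₀ : Subgroup T).Normal := inferInstance
  haveI hR₀c : (R₀ : Subgroup T).Characteristic := Sylow.characteristic_of_normal R₀ hR₀n
  obtain ⟨R, hR⟩ : ∃ R : Subgroup G, R = (R₀ : Subgroup T).map T.subtype := ⟨_, rfl⟩
  haveI hRn : R.Normal := by rw [hR]; exact ConjAct.normal_of_characteristic_of_normal
  have hRr : IsPGroup r R := by rw [hR]; exact R₀.isPGroup'.map T.subtype
  have hRT : R ≤ T := by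
    rw [hR]; rintro _ ⟨w, -, rfl⟩; exact w.2
  obtain ⟨S, hS⟩ := hRr.exists_le_sylow
  haveI hNn : (R.subgroupOf (S : Subgroup G)).Normal := inferInstance
  have hNne : R.subgroupOf (S : Subgroup G) ≠ ⊥ := by
    intro hbot
    obtain ⟨⟨w₀, hw₀⟩, hw₀1⟩ := (Subgroup.ne_bot_iff_exists_ne_one).1 hR₀ne
    have hw₀R : (w₀ : G) ∈ R := by rw [hR]; exact ⟨w₀, hw₀, rfl⟩
    have h1 : (⟨(w₀ : G), hS hw₀R⟩ : (S : Subgroup G)) ∈ R.subgroupOf (S : Subgroup G) :=
      Subgroup.mem_subgroupOf.2 hw₀R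
    rw [hbot, Subgroup.mem_bot] at h1
    have h2 : (w₀ : G) = 1 := congrArg Subtype.val h1
    exact hw₀1 (Subtype.ext (Subtype.ext h2))
  have hcen := h8_normal_inf_center_ne_bot S.isPGroup' (R.subgroupOf (S : Subgroup G)) hNne
  obtain ⟨⟨⟨w, hwS⟩, hw⟩, hw1⟩ := (Subgroup.ne_bot_iff_exists_ne_one).1 hcen
  have hwR : w ∈ R := Subgroup.mem_subgroupOf.1 hw.1
  have hw1' : w ≠ 1 := fun h => hw1 (Subtype.ext (Subtype.ext h))
  have hwS' : ∀ s ∈ (S : Subgroup G), s * w = w * s := by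
    intro s hs
    have := Subgroup.mem_center_iff.1 hw.2 ⟨s, hs⟩
    exact congrArg Subtype.val this
  have hwF : ∀ f ∈ F, f * w = w * f := (hTmem w).1 (hRT hwR)
  have hC₃ := hCN w hw1'
  have hST : (S : Subgroup G) ≤ T := by
    intro s hs
    rw [hTmem]
    intro f hf
    have hfC : f ∈ Subgroup.centralizer ({w} : Set G) :=
      (h8_mem_centralizer_singleton _ _).2 (hwF f hf).symm
    have hsC : s ∈ Subgroup.centralizer ({w} : Set G) :=
      (h8_mem_centralizer_singleton _ _).2 (hwS' s hs).symm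
    obtain ⟨k, hk⟩ := S.isPGroup' ⟨s, hs⟩
    have hk' : s ^ (r ^ k) = 1 := by
      have := congrArg Subtype.val hk
      simpa using this
    have h2 := h8_nilp_commute_coprime' hC₃ r ⟨f, hfC⟩ ⟨s, hsC⟩
      (by rw [Subgroup.orderOf_mk]; exact hFr f hf) k (Subtype.ext (by simpa using hk'))
    exact congrArg Subtype.val h2
  have hSR : (S : Subgroup G) ≤ R := by
    have h1 : (S : Subgroup G).subgroupOf T = (R₀ : Subgroup T) := by
      apply R₀.is_maximal' (S.isPGroup'.comap_of_injective T.subtype T.subtype_injective)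
      intro w hw
      refine Subgroup.mem_subgroupOf.2 (hS ?_)
      rw [hR]; exact ⟨w, hw, rfl⟩
    intro s hs
    have h2 : (⟨s, hST hs⟩ : T) ∈ (S : Subgroup G).subgroupOf T := Subgroup.mem_subgroupOf.2 hs
    rw [h1] at h2
    rw [hR]; exact ⟨⟨s, hST hs⟩, h2, rfl⟩
  have hSeq : (S : Subgroup G) = R := le_antisymm hSR hS
  have hSn : (S : Subgroup G).Normal := by rw [hSeq]; exact hRn
  have hSF : (S : Subgroup G) ≤ F :=
    hFmax _ hSn S.isPGroup'.isNilpotent S.card_coprime_index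
  have hrG : r ∣ Nat.card G := by rw [← hoe₁]; exact orderOf_dvd_natCard _
  have hrS : r ∣ Nat.card (S : Subgroup G) := S.dvd_card_of_dvd_card hrG
  exact (Nat.Prime.coprime_iff_not_dvd hr).1 hrF (hrS.trans (Subgroup.card_dvd_of_le hSF))

theorem h8_s1474_aux (hCN : Cfsg.IsCNGroup G) (hnn : ¬ Group.IsNilpotent G)
    (F : Subgroup G) [hFn : F.Normal] (hFnil : Group.IsNilpotent F)
    (hFhall : (Nat.card F).Coprime F.index)
    (hFmax : ∀ S : Subgroup G, S.Normal → Group.IsNilpotent S →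
      (Nat.card S).Coprime S.index → S ≤ F) (p : ℕ) [Fact p.Prime]
    (P : Sylow p G) (hP1 : (P : Subgroup G) ≠ ⊥) (hPn : (P : Subgroup G).Normal) :
    F ≠ ⊥ ∧ F ≠ ⊤ ∧
      (∃ E : Subgroup G, Subgroup.IsComplement' F E ∧
        Cfsg.IsFrobeniusComplement E ∧
        ∀ e ∈ E, e ≠ 1 → F ⊓ Subgroup.centralizer ({e} : Set G) = ⊥) ∧
      Group.IsNilpotent (G ⧸ F) := by
  have hPF : (P : Subgroup G) ≤ F := hFmax _ hPn P.isPGroup'.isNilpotent P.card_coprime_index
  have hFbot : F ≠ ⊥ := by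
    intro h
    rw [h] at hPF
    exact hP1 (le_bot_iff.1 hPF)
  have hFtop : F ≠ ⊤ := by
    intro h
    apply hnn
    rw [h] at hFnil
    haveI := hFnil
    exact Group.nilpotent_of_mulEquiv (Subgroup.topEquiv : (⊤ : Subgroup G) ≃* G)
  obtain ⟨E, hc⟩ := Subgroup.exists_right_complement'_of_coprime hFhall
  have hEcard : Nat.card E = F.index := by
    have h1 := hc.card_mul_card
    have h2 := Subgroup.card_mul_index F
    have h3 : Nat.card F * Nat.card E = Nat.card F * F.index := by rw [h1, h2]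
    exact Nat.eq_of_mul_eq_mul_left Nat.card_pos h3
  have hfpf : ∀ e ∈ E, e ≠ 1 → F ⊓ Subgroup.centralizer ({e} : Set G) = ⊥ := by
    intro e he he1
    apply h8_cn_fpf hCN F hFnil hFmax e he1
    have h1 : orderOf e ∣ Nat.card E := by
      have := orderOf_dvd_natCard (⟨e, he⟩ : E)
      rwa [Subgroup.orderOf_mk] at this
    rw [hEcard] at h1
    exact (Nat.Coprime.coprime_dvd_right h1 hFhall).symm
  have hEbot : E ≠ ⊥ := by
    intro h
    apply hFtop
    rw [← Subgroup.card_eq_iff_eq_top, ← hc.card_mul_card, h, Subgroup.card_bot, mul_one]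
  have hEnil : Group.IsNilpotent E := by
    have hcen := h8_s0069 F E hFbot hEbot hfpf
    obtain ⟨⟨z, hz⟩, hz1⟩ := (Subgroup.ne_bot_iff_exists_ne_one).1 hcen
    have hz1' : (z : G) ≠ 1 := fun h => hz1 (Subtype.ext (Subtype.ext h))
    apply h8_nilp_of_le (hCN (z : G) hz1')
    intro e he
    rw [h8_mem_centralizer_singleton]
    have := Subgroup.mem_center_iff.1 hz ⟨e, he⟩
    exact (congrArg Subtype.val this).symm
  refine ⟨hFbot, hFtop, ⟨E, hc, h8_frob_compl_of_fpf F E hc hFbot hEbot hfpf, hfpf⟩, ?_⟩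
  haveI := hEnil
  apply Group.nilpotent_of_surjective ((QuotientGroup.mk' F).comp E.subtype)
  intro y
  obtain ⟨g, rfl⟩ := QuotientGroup.mk_surjective y
  obtain ⟨⟨f, e⟩, hfe⟩ := hc.2 g
  have hfe' : (f : G) * (e : G) = g := hfe
  refine ⟨e, ?_⟩
  show (QuotientGroup.mk' F) (e : G) = QuotientGroup.mk g
  rw [← hfe']
  show (QuotientGroup.mk (e : G) : G ⧸ F) = QuotientGroup.mk ((f : G) * (e : G))
  rw [QuotientGroup.mk_mul, (QuotientGroup.eq_one_iff (f : G)).2 f.2, one_mul]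

theorem h8_s1474 (hCN : Cfsg.IsCNGroup G) (hnn : ¬ Group.IsNilpotent G) (p : ℕ) [Fact p.Prime]
    (P : Sylow p G) (hP1 : (P : Subgroup G) ≠ ⊥) (hPn : (P : Subgroup G).Normal) :
    Cfsg.fittingHall G ≠ ⊥ ∧ Cfsg.fittingHall G ≠ ⊤ ∧
      (∃ E : Subgroup G, Subgroup.IsComplement' (Cfsg.fittingHall G) E ∧
        Cfsg.IsFrobeniusComplement E ∧
        ∀ e ∈ E, e ≠ 1 → Cfsg.fittingHall G ⊓ Subgroup.centralizer ({e} : Set G) = ⊥) ∧
      Group.IsNilpotent (G ⧸ Cfsg.fittingHall G) :=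
  h8_s1474_aux hCN hnn (Cfsg.fittingHall G) (h8_fittingHall_nilp G) (h8_fittingHall_hall G)
    (fun S h1 h2 h3 => h8_fittingHall_le S h1 h2 h3) p P hP1 hPn

end CN

end Cfsg.Agent.Lib.Helper8
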