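import Mathlib
import Cfsg.Agent.Lib.Helper8.CNFrob
import Cfsg.Agent.Lib.Helper8.FrobKernelSq
import Cfsg.Agent.Lib.Helper1.UniqueInv

set_option autoImplicit false
set_option linter.style.haveILetI false
universe u

namespace Cfsg.Agent.Lib.Helper8

/-- a finite nilpotent group of odd order in which commuting elements of equal prime order
generate the same subgroup is cyclic -/
theorem h8_cyclic_of_nilp_ha_odd {E : Type u} [Group E] [Finite E] (hE : Group.IsNilpotent E)
    (ha : ∀ p : ℕ, p.Prime → ∀ x y : E, orderOf x = p → orderOf y = p → x * y = y * x →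
      y ∈ Subgroup.zpowers x)
    (hodd : ¬ 2 ∣ Nat.card E) : IsCyclic E := by
  haveI := hE
  haveI : IsZGroup E := by
    refine ⟨fun q hq P => ?_⟩
    haveI : Fact q.Prime := ⟨hq⟩
    by_cases hq2 : q = 2
    · subst hq2
      have h1 : Nat.card (P : Subgroup E) = 1 := by
        rw [P.card_eq_multiplicity, Nat.factorization_eq_zero_of_not_dvd hodd, pow_zero]
      haveI : Subsingleton (P : Subgroup E) := (Nat.card_eq_one_iff_unique.1 h1).1
      exact isCyclic_of_subsingleton
    · exact h8_cyclic_of_no_elab ha q hq2 (P : Subgroup E) P.isPGroup'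
  infer_instance

/-- a finite nilpotent group in which commuting elements of equal prime order generate the same
subgroup is cyclic, or the product of a cyclic group of odd order and a generalised quaternion
group -/
theorem h8_nilp_ha_structure {E : Type u} [Group E] [Finite E] (hE : Group.IsNilpotent E)
    (ha : ∀ p : ℕ, p.Prime → ∀ x y : E, orderOf x = p → orderOf y = p → x * y = y * x →
      y ∈ Subgroup.zpowers x) :
    IsCyclic E ∨ ∃ C Q : Subgroup E, C ⊔ Q = ⊤ ∧ (∀ a ∈ C, ∀ b ∈ Q, a * b = b * a) ∧ IsCyclic C ∧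
      Odd (Nat.card C) ∧ ∃ n : ℕ, Nonempty (Q ≃* QuaternionGroup (2 ^ n)) := by
  haveI := hE
  by_cases h2 : 2 ∣ Nat.card E
  swap
  · exact Or.inl (h8_cyclic_of_nilp_ha_odd hE ha h2)
  haveI : Fact (Nat.Prime 2) := ⟨Nat.prime_two⟩
  obtain ⟨Q₂⟩ := (inferInstance : Nonempty (Sylow 2 E))
  obtain ⟨z, hzQ, hz1, hzc⟩ := h8_sylow_center_elt 2 Q₂ h2
  have hoz : 2 ∣ orderOf z := by
    obtain ⟨k, hk⟩ := Q₂.isPGroup' ⟨z, hzQ⟩
    have hk' : z ^ (2 ^ k) = 1 := by simpa using congrArg Subtype.val hk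
    obtain ⟨j, -, hj⟩ := (Nat.dvd_prime_pow Nat.prime_two).1 (orderOf_dvd_of_pow_eq_one hk')
    rw [hj]
    have hj0 : j ≠ 0 := by
      rintro rfl
      rw [pow_zero, orderOf_eq_one_iff] at hj
      exact hz1 hj
    exact dvd_pow_self 2 hj0
  obtain ⟨c, hc⟩ : ∃ c : E, c = z ^ (orderOf z / 2) := ⟨_, rfl⟩
  have hoc : orderOf c = 2 := by
    rw [hc]; exact orderOf_pow_orderOf_div (orderOf_pos z).ne' hoz
  have hcQ : c ∈ Q₂ := by rw [hc]; exact Subgroup.pow_mem _ hzQ _
  have hcc : ∀ x ∈ Q₂, x * c = c * x := by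
    intro x hx
    have h1 : Commute x z := hzc x hx
    rw [hc]; exact (h1.pow_right _).eq
  have huniq : ∀ y : (Q₂ : Subgroup E), orderOf y = 2 → y = ⟨c, hcQ⟩ := by
    intro y hy
    have hy' : orderOf (y : E) = 2 := by rw [Subgroup.orderOf_coe]; exact hy
    have h1 := ha 2 Nat.prime_two c (y : E) hoc hy' (hcc y y.2).symm
    obtain ⟨i, hi⟩ := Subgroup.mem_zpowers_iff.1 h1
    have h3 : c ^ i = c ^ (i % 2) := by
      have := zpow_mod_orderOf c i
      rw [hoc] at this
      simpa using this.symm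
    rcases Int.emod_two_eq_zero_or_one i with h4 | h4
    · rw [h3, h4, zpow_zero] at hi
      rw [← hi, orderOf_one] at hy'
      omega
    · rw [h3, h4, zpow_one] at hi
      exact Subtype.ext hi.symm
  have hz2 : orderOf (⟨c, hcQ⟩ : (Q₂ : Subgroup E)) = 2 := by
    rw [Subgroup.orderOf_mk]; exact hoc
  rcases Cfsg.Agent.Lib.Helper1.ui_cyclic_or_quat Q₂.isPGroup' ⟨c, hcQ⟩ hz2 huniq with
    hcyc | ⟨n, -, hn⟩
  · left
    haveI : IsZGroup E := by
      refine ⟨fun q hq P => ?_⟩
      haveI : Fact q.Prime := ⟨hq⟩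
      by_cases hq2 : q = 2
      · subst hq2
        haveI := Sylow.unique_of_normal Q₂ inferInstance
        have hPQ : P = Q₂ := Subsingleton.elim _ _
        rw [hPQ]; exact hcyc
      · exact h8_cyclic_of_no_elab ha q hq2 (P : Subgroup E) P.isPGroup'
    infer_instance
  · right
    obtain ⟨C, hC⟩ := Subgroup.exists_right_complement'_of_coprime Q₂.card_coprime_index
    have hCcard : Nat.card C = (Q₂ : Subgroup E).index := by
      have h1 := hC.card_mul_card
      have h2 := Subgroup.card_mul_index (Q₂ : Subgroup E)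
      have h3 : Nat.card (Q₂ : Subgroup E) * Nat.card C =
          Nat.card (Q₂ : Subgroup E) * (Q₂ : Subgroup E).index := by rw [h1, h2]
      exact Nat.eq_of_mul_eq_mul_left Nat.card_pos h3
    have hCodd : ¬ 2 ∣ Nat.card C := by rw [hCcard]; exact Q₂.not_dvd_index
    refine ⟨C, Q₂, ?_, ?_, ?_, Nat.odd_iff.2 (by omega), n, hn⟩
    · rw [sup_comm]; exact hC.sup_eq_top
    · intro a ha' b hb
      apply h8_nilp_commute_coprime hE 2 Q₂ a _ b hb
      have h1 : orderOf a ∣ Nat.card C := by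
        have := orderOf_dvd_natCard (⟨a, ha'⟩ : C)
        rwa [Subgroup.orderOf_mk] at this
      exact Nat.Coprime.coprime_dvd_left h1
        ((Nat.Prime.coprime_iff_not_dvd Nat.prime_two).2 hCodd).symm
    · apply h8_cyclic_of_nilp_ha_odd (inferInstance : Group.IsNilpotent C) _ hCodd
      intro s hs x y hx hy hxy
      have h1 := ha s hs (x : E) (y : E) (by rw [Subgroup.orderOf_coe]; exact hx)
        (by rw [Subgroup.orderOf_coe]; exact hy) (congrArg Subtype.val hxy)
      obtain ⟨i, hi⟩ := Subgroup.mem_zpowers_iff.1 h1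
      exact Subgroup.mem_zpowers_iff.2 ⟨i, Subtype.ext (by simpa using hi)⟩

section Lift

variable {G : Type u} [Group G] [Finite G]

/-- a `p'`-subgroup of `G/H`, `H` a normal `p`-subgroup, lifts isomorphically to `G` -/
theorem h8_lift_pprime (H : Subgroup G) [H.Normal] (p : ℕ) [Fact p.Prime] (hH : IsPGroup p H)
    (D : Subgroup (G ⧸ H)) (hD : (Nat.card D).Coprime p) :
    ∃ D₀ : Subgroup G, D₀ ⊓ H = ⊥ ∧ D₀.map (QuotientGroup.mk' H) = D := by
  obtain ⟨X, hX⟩ : ∃ X : Subgroup G, X = D.comap (QuotientGroup.mk' H) := ⟨_, rfl⟩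
  have hXmap : X.map (QuotientGroup.mk' H) = D := by
    rw [hX]; exact Subgroup.map_comap_eq_self_of_surjective (QuotientGroup.mk'_surjective H) D
  haveI : (H.subgroupOf X).Normal := inferInstance
  have hcop : (Nat.card (H.subgroupOf X)).Coprime (H.subgroupOf X).index := by
    have h1 : (H.subgroupOf X).index = Nat.card D := by
      have h2 := Subgroup.relIndex_comap (H := (⊥ : Subgroup (G ⧸ H))) (QuotientGroup.mk' H) X
      rw [MonoidHom.comap_bot, QuotientGroup.ker_mk', Subgroup.relIndex_bot_left, hXmap] at h2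
      exact h2
    rw [h1]
    obtain ⟨k, hk⟩ := IsPGroup.iff_card.1
      (hH.comap_of_injective X.subtype X.subtype_injective)
    have hk' : Nat.card (H.subgroupOf X) = p ^ k := hk
    rw [hk']
    exact Nat.Coprime.pow_left k hD.symm
  obtain ⟨D', hD'⟩ := Subgroup.exists_right_complement'_of_coprime hcop
  refine ⟨D'.map X.subtype, ?_, ?_⟩
  · rw [Subgroup.eq_bot_iff_forall]
    intro x hx
    obtain ⟨hx1, hxH⟩ := Subgroup.mem_inf.1 hx
    obtain ⟨d, hd, rfl⟩ := hx1
    have h1 : d ∈ H.subgroupOf X := Subgroup.mem_subgroupOf.2 hxH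
    have h2 : d = 1 := Subgroup.disjoint_def.1 hD'.disjoint h1 hd
    rw [h2]; rfl
  · apply le_antisymm
    · rintro _ ⟨_, ⟨d, hd, rfl⟩, rfl⟩
      have h5 : (d : G) ∈ D.comap (QuotientGroup.mk' H) := hX ▸ d.2
      exact Subgroup.mem_comap.1 h5
    · intro y hy
      rw [← hXmap] at hy
      obtain ⟨g, hg, rfl⟩ := hy
      obtain ⟨⟨n, d⟩, hnd⟩ := hD'.2 ⟨g, hg⟩
      have hnd' : (n : X) * (d : X) = ⟨g, hg⟩ := hnd
      refine ⟨((d : X) : G), ⟨(d : X), d.2, rfl⟩, ?_⟩
      have h3 : g = ((n : X) : G) * ((d : X) : G) := by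
        have := congrArg Subtype.val hnd'
        simpa using this.symm
      rw [h3, map_mul]
      have h4 : QuotientGroup.mk' H ((n : X) : G) = 1 :=
        (QuotientGroup.eq_one_iff _).2 (Subgroup.mem_subgroupOf.1 n.2)
      rw [h4, one_mul]

omit [Finite G] in
theorem h8_lift_inj (H : Subgroup G) [H.Normal] (D₀ : Subgroup G) (hdis : D₀ ⊓ H = ⊥)
    (a b : G) (ha : a ∈ D₀) (hb : b ∈ D₀)
    (hab : (QuotientGroup.mk' H) a = (QuotientGroup.mk' H) b) : a = b := by
  have h1 : a⁻¹ * b ∈ H := by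
    have h2 : (QuotientGroup.mk' H) (a⁻¹ * b) = 1 := by
      rw [map_mul, map_inv, hab, inv_mul_cancel]
    exact (QuotientGroup.eq_one_iff _).1 h2
  have h3 : a⁻¹ * b ∈ D₀ ⊓ H := Subgroup.mem_inf.2 ⟨D₀.mul_mem (D₀.inv_mem ha) hb, h1⟩
  rw [hdis, Subgroup.mem_bot] at h3
  exact (inv_mul_eq_one.1 h3)

omit [Finite G] in
theorem h8_lift_card (H : Subgroup G) [H.Normal] (D₀ : Subgroup G) (hdis : D₀ ⊓ H = ⊥) :
    Nat.card (D₀.map (QuotientGroup.mk' H)) = Nat.card D₀ := by
  symm
  apply Nat.card_congr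
  refine Equiv.ofBijective ((QuotientGroup.mk' H).subgroupMap D₀)
    ⟨?_, (QuotientGroup.mk' H).subgroupMap_surjective D₀⟩
  intro a b hab
  have h1 : (QuotientGroup.mk' H) (a : G) = (QuotientGroup.mk' H) (b : G) :=
    congrArg Subtype.val hab
  exact Subtype.ext (h8_lift_inj H D₀ hdis a b a.2 b.2 h1)

end Lift

end Cfsg.Agent.Lib.Helper8
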