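import Mathlib
import Cfsg.Agent.Lib.Helper8.CNSolvA
import Cfsg.Agent.Lib.Helper7.Coprime

set_option autoImplicit false
set_option linter.style.haveILetI false
universe u

namespace Cfsg.Agent.Lib.Helper8

theorem h8_cn_of_mulEquiv {A B : Type u} [Group A] [Group B] (e : A ≃* B)
    (hA : Cfsg.IsCNGroup A) : Cfsg.IsCNGroup B := by
  intro b hb
  have ha : e.symm b ≠ 1 := by
    intro h
    apply hb
    have := congrArg e h
    simpa using this
  have hnil := hA (e.symm b) ha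
  haveI := hnil
  have hmap : Group.IsNilpotent ((Subgroup.centralizer {e.symm b}).map e.toMonoidHom) :=
    Group.nilpotent_of_surjective _ (e.toMonoidHom.subgroupMap_surjective _)
  apply h8_nilp_of_le hmap
  intro g hg
  refine ⟨e.symm g, ?_, by simp⟩
  rw [h8_mem_centralizer_singleton] at hg
  show e.symm g ∈ Subgroup.centralizer {e.symm b}
  rw [h8_mem_centralizer_singleton, ← map_mul, ← map_mul, hg]

section CNQ

variable {G : Type u} [Group G] [Finite G]

/-- the preimage of the centraliser of a nontrivial `p`-element of `G/M`, `M` a normal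
`p`-subgroup of a CN-group, is nilpotent -/
theorem h8_cn_quot_p (hCN : Cfsg.IsCNGroup G) (p : ℕ) [Fact p.Prime] (M : Subgroup G)
    [hMn : M.Normal] (hMp : IsPGroup p M) (x : G) (hxM : x ∉ M) (k : ℕ)
    (hxk : x ^ (p ^ k) ∈ M) :
    ∃ N : Subgroup G, Group.IsNilpotent N ∧ ∀ g : G, g * x * g⁻¹ * x⁻¹ ∈ M → g ∈ N := by
  have hp := (Fact.out : p.Prime)
  have hx1 : x ≠ 1 := by
    rintro rfl
    exact hxM M.one_mem
  by_cases hM1 : M = ⊥
  · refine ⟨Subgroup.centralizer {x}, hCN x hx1, ?_⟩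
    intro g hg
    rw [hM1, Subgroup.mem_bot] at hg
    rw [h8_mem_centralizer_singleton]
    calc x * g = (g * x * g⁻¹ * x⁻¹)⁻¹ * (g * x) := by group
      _ = g * x := by rw [hg, inv_one, one_mul]
  obtain ⟨C, hC⟩ : ∃ C : Subgroup G, ∀ g, g ∈ C ↔ g * x * g⁻¹ * x⁻¹ ∈ M := by
    refine ⟨(Subgroup.centralizer {(QuotientGroup.mk' M) x}).comap (QuotientGroup.mk' M), ?_⟩
    intro g
    have e1 : g * x * g⁻¹ * x⁻¹ ∈ M ↔ ((g * x * g⁻¹ * x⁻¹ : G) : G ⧸ M) = 1 :=
      (QuotientGroup.eq_one_iff _).symm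
    rw [e1, Subgroup.mem_comap, h8_mem_centralizer_singleton]
    show (QuotientGroup.mk x : G ⧸ M) * QuotientGroup.mk g =
      QuotientGroup.mk g * QuotientGroup.mk x ↔ _
    rw [QuotientGroup.mk_mul, QuotientGroup.mk_mul, QuotientGroup.mk_mul, QuotientGroup.mk_inv,
      QuotientGroup.mk_inv]
    constructor
    · intro h
      rw [← h]; group
    · intro h
      calc (QuotientGroup.mk x : G ⧸ M) * QuotientGroup.mk g
          = ((QuotientGroup.mk g : G ⧸ M) * QuotientGroup.mk x * (QuotientGroup.mk g)⁻¹ *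
              (QuotientGroup.mk x)⁻¹)⁻¹ * (QuotientGroup.mk g * QuotientGroup.mk x) := by group
        _ = QuotientGroup.mk g * QuotientGroup.mk x := by rw [h, inv_one, one_mul]
  have hMC : M ≤ C := by
    intro m hm
    rw [hC]
    have e : m * x * m⁻¹ * x⁻¹ = m * (x * m⁻¹ * x⁻¹) := by group
    rw [e]; exact M.mul_mem hm (hMn.conj_mem _ (M.inv_mem hm) _)
  have hxC : x ∈ C := by
    rw [hC]
    have e : x * x * x⁻¹ * x⁻¹ = 1 := by group
    rw [e]; exact M.one_mem
  have hxp : IsPGroup p (Subgroup.zpowers x) := by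
    obtain ⟨j, hj⟩ := hMp ⟨_, hxk⟩
    have hj' : (x ^ (p ^ k)) ^ (p ^ j) = 1 := by simpa using congrArg Subtype.val hj
    have h1 : x ^ (p ^ (k + j)) = 1 := by rw [pow_add, pow_mul]; exact hj'
    obtain ⟨i, -, hi⟩ := (Nat.dvd_prime_pow hp).1 (orderOf_dvd_of_pow_eq_one h1)
    exact IsPGroup.of_card (n := i) (by rw [Nat.card_zpowers, hi])
  have hP₁p : IsPGroup p (M ⊔ Subgroup.zpowers x : Subgroup G) :=
    IsPGroup.to_sup_of_normal_left hMp hxp
  have hP₁C : M ⊔ Subgroup.zpowers x ≤ C :=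
    sup_le hMC (by rw [Subgroup.zpowers_le]; exact hxC)
  obtain ⟨S, hS⟩ := (hP₁p.comap_of_injective C.subtype C.subtype_injective).exists_le_sylow
  obtain ⟨SG, hSG⟩ : ∃ SG : Subgroup G, SG = (S : Subgroup C).map C.subtype := ⟨_, rfl⟩
  have hSGp : IsPGroup p SG := by rw [hSG]; exact S.isPGroup'.map _
  have hP₁S : M ⊔ Subgroup.zpowers x ≤ SG := by
    intro w hw
    rw [hSG]
    exact ⟨⟨w, hP₁C hw⟩, hS (Subgroup.mem_comap.2 hw), rfl⟩
  have hMS : M ≤ SG := le_sup_left.trans hP₁S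
  have hxS : x ∈ SG := hP₁S (Subgroup.mem_sup_right (Subgroup.mem_zpowers x))
  haveI : (M.subgroupOf SG).Normal := inferInstance
  have hNne : M.subgroupOf SG ≠ ⊥ := by
    intro hbot
    obtain ⟨⟨w₀, hw₀⟩, hw₀1⟩ := (Subgroup.ne_bot_iff_exists_ne_one).1 hM1
    have h1 : (⟨w₀, hMS hw₀⟩ : SG) ∈ M.subgroupOf SG := Subgroup.mem_subgroupOf.2 hw₀
    rw [hbot, Subgroup.mem_bot] at h1
    have h2 : w₀ = 1 := congrArg Subtype.val h1
    exact hw₀1 (Subtype.ext h2)
  have hcen := h8_normal_inf_center_ne_bot hSGp (M.subgroupOf SG) hNne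
  obtain ⟨⟨⟨z, hzS⟩, hz⟩, hz1⟩ := (Subgroup.ne_bot_iff_exists_ne_one).1 hcen
  have hzM : z ∈ M := Subgroup.mem_subgroupOf.1 hz.1
  have hz1' : z ≠ 1 := fun h => hz1 (Subtype.ext (Subtype.ext h))
  have hzS' : ∀ s ∈ SG, s * z = z * s := by
    intro s hs
    have := Subgroup.mem_center_iff.1 hz.2 ⟨s, hs⟩
    exact congrArg Subtype.val this
  have hCz := hCN z hz1'
  refine ⟨Subgroup.centralizer {z}, hCz, ?_⟩
  have hkey : ∀ y : G, y ∈ C → (orderOf y).Coprime p → y * z = z * y := by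
    intro y hyC hyp
    have hAN : Subgroup.zpowers y ≤ Subgroup.normalizer (M : Set G) := by
      rw [Subgroup.normalizer_eq_top]; exact le_top
    have hcop : (Nat.card (Subgroup.zpowers y)).Coprime (Nat.card M) := by
      obtain ⟨j, hj⟩ := IsPGroup.iff_card.1 hMp
      rw [hj, Nat.card_zpowers]; exact Nat.Coprime.pow_right j hyp
    have hk' : ∀ a ∈ Subgroup.zpowers y, a * x * a⁻¹ * x⁻¹ ∈ M := by
      intro a ha
      rw [← hC]
      exact (Subgroup.zpowers_le.2 hyC) ha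
    haveI : Group.IsSolvable M := by
      haveI := hMp.isNilpotent
      infer_instance
    obtain ⟨n, hnM, hn⟩ := Cfsg.Agent.Lib.Helper7.exists_mul_mem_normalizer
      (Subgroup.zpowers y) M hAN hcop (Or.inr inferInstance) x hk'
    obtain ⟨x', hx'⟩ : ∃ x' : G, x' = n * x := ⟨_, rfl⟩
    have hx'N : x' ∈ Subgroup.normalizer ((Subgroup.zpowers y : Subgroup G) : Set G) := by
      rw [hx']; exact hn
    have hx'1 : x' ≠ 1 := by
      intro h
      apply hxM
      rw [hx'] at h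
      rw [eq_inv_of_mul_eq_one_right h]
      exact M.inv_mem hnM
    have h1 : x' * y * x'⁻¹ * y⁻¹ ∈ Subgroup.zpowers y :=
      Subgroup.mul_mem _ ((Subgroup.mem_normalizer_iff.1 hx'N y).1 (Subgroup.mem_zpowers y))
        (Subgroup.inv_mem _ (Subgroup.mem_zpowers y))
    have h2 : x' * y * x'⁻¹ * y⁻¹ ∈ M := by
      have h3 : y * x * y⁻¹ * x⁻¹ ∈ M := (hC y).1 hyC
      have h4 : y * x' * y⁻¹ * x'⁻¹ ∈ M := by
        have e : y * x' * y⁻¹ * x'⁻¹ = (y * n * y⁻¹) * (y * x * y⁻¹ * x⁻¹) * n⁻¹ := by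
          rw [hx']; group
        rw [e]
        exact M.mul_mem (M.mul_mem (hMn.conj_mem n hnM y) h3) (M.inv_mem hnM)
      have e2 : x' * y * x'⁻¹ * y⁻¹ = (y * x' * y⁻¹ * x'⁻¹)⁻¹ := by group
      rw [e2]; exact M.inv_mem h4
    have h5 : x' * y * x'⁻¹ * y⁻¹ = 1 :=
      Cfsg.Agent.Lib.Helper7.eq_one_of_mem_of_mem_coprime hcop h1 h2
    have hx'y : x' * y = y * x' := by
      calc x' * y = (x' * y * x'⁻¹ * y⁻¹) * (y * x') := by group
        _ = y * x' := by rw [h5, one_mul]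
    have hzx' : x' * z = z * x' := by
      have h6 : n * z = z * n := hzS' n (hMS hnM)
      have h7 : x * z = z * x := hzS' x hxS
      rw [hx']
      calc n * x * z = n * (x * z) := by group
        _ = n * (z * x) := by rw [h7]
        _ = (n * z) * x := by group
        _ = z * (n * x) := by rw [h6]; group
    have hCx' := hCN x' hx'1
    have hyC' : y ∈ Subgroup.centralizer ({x'} : Set G) :=
      (h8_mem_centralizer_singleton _ _).2 hx'y
    have hzC' : z ∈ Subgroup.centralizer ({x'} : Set G) :=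
      (h8_mem_centralizer_singleton _ _).2 hzx'
    obtain ⟨j, hj⟩ := hMp ⟨z, hzM⟩
    have hj' : z ^ (p ^ j) = 1 := by simpa using congrArg Subtype.val hj
    have h8 := h8_nilp_commute_coprime' hCx' p ⟨y, hyC'⟩ ⟨z, hzC'⟩
      (by rw [Subgroup.orderOf_mk]; exact hyp) j (Subtype.ext (by simpa using hj'))
    exact congrArg Subtype.val h8
  have htop : (Subgroup.centralizer ({z} : Set G)).subgroupOf C = ⊤ := by
    apply h8_eq_top_of_sylows
    intro q hqf
    by_cases hqp : q = p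
    · subst hqp
      refine ⟨S, fun s hs => ?_⟩
      rw [Subgroup.mem_subgroupOf, h8_mem_centralizer_singleton]
      exact (hzS' (s : G) (by rw [hSG]; exact ⟨s, hs, rfl⟩)).symm
    · obtain ⟨Q⟩ := (inferInstance : Nonempty (Sylow q C))
      refine ⟨Q, fun y' hy' => ?_⟩
      rw [Subgroup.mem_subgroupOf, h8_mem_centralizer_singleton]
      have hyord : (orderOf (y' : G)).Coprime p := by
        obtain ⟨j, hj⟩ := Q.isPGroup' ⟨y', hy'⟩
        have hj' : (y' : G) ^ (q ^ j) = 1 := by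
          have := congrArg (fun w : (Q : Subgroup C) => ((w : C) : G)) hj
          simpa using this
        obtain ⟨i, -, hi⟩ := (Nat.dvd_prime_pow hqf.out).1 (orderOf_dvd_of_pow_eq_one hj')
        rw [hi]
        exact Nat.Coprime.pow_left i ((Nat.coprime_primes hqf.out hp).2 hqp)
      exact (hkey (y' : G) y'.2 hyord).symm
  intro g hg
  have hgC : g ∈ C := (hC g).2 hg
  have h1 : (⟨g, hgC⟩ : C) ∈ (Subgroup.centralizer ({z} : Set G)).subgroupOf C := by
    rw [htop]; exact Subgroup.mem_top _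
  exact Subgroup.mem_subgroupOf.1 h1

/-- the centraliser of a nontrivial `p'`-element of `G/M` is covered by a nilpotent subgroup -/
theorem h8_cn_quot_pprime (hCN : Cfsg.IsCNGroup G) (p : ℕ) [Fact p.Prime] (M : Subgroup G)
    [hMn : M.Normal] (hMp : IsPGroup p M) (y : G ⧸ M) (hy1 : y ≠ 1)
    (hyp : (orderOf y).Coprime p) :
    ∃ N : Subgroup G, Group.IsNilpotent N ∧
      Subgroup.centralizer ({y} : Set (G ⧸ M)) ≤ N.map (QuotientGroup.mk' M) := by
  have hD : (Nat.card (Subgroup.zpowers y)).Coprime p := by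
    rw [Nat.card_zpowers]; exact hyp
  obtain ⟨D₀, hdis, hmap⟩ := h8_lift_pprime M p hMp (Subgroup.zpowers y) hD
  have hcard : Nat.card D₀ = Nat.card (Subgroup.zpowers y) := by
    rw [← hmap]; exact (h8_lift_card M D₀ hdis).symm
  obtain ⟨y₀, hy₀D, hy₀⟩ : ∃ y₀ ∈ D₀, QuotientGroup.mk' M y₀ = y := by
    have h1 : y ∈ D₀.map (QuotientGroup.mk' M) := by rw [hmap]; exact Subgroup.mem_zpowers y
    exact h1
  have hy₀1 : y₀ ≠ 1 := by
    rintro rfl
    exact hy1 (by rw [← hy₀, map_one])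
  refine ⟨Subgroup.centralizer {y₀}, hCN y₀ hy₀1, ?_⟩
  intro gbar hg
  obtain ⟨g, rfl⟩ := QuotientGroup.mk_surjective gbar
  have hgy : y * (QuotientGroup.mk g : G ⧸ M) = QuotientGroup.mk g * y :=
    (h8_mem_centralizer_singleton _ _).1 hg
  have hAN : D₀ ≤ Subgroup.normalizer (M : Set G) := by
    rw [Subgroup.normalizer_eq_top]; exact le_top
  have hcop : (Nat.card D₀).Coprime (Nat.card M) := by
    obtain ⟨j, hj⟩ := IsPGroup.iff_card.1 hMp
    rw [hj, hcard]; exact Nat.Coprime.pow_right j hD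
  have hcomm : Commute y (QuotientGroup.mk g : G ⧸ M) := hgy
  have hk : ∀ a ∈ D₀, a * g * a⁻¹ * g⁻¹ ∈ M := by
    intro a ha
    rw [← QuotientGroup.eq_one_iff]
    have ha' : (QuotientGroup.mk' M) a ∈ Subgroup.zpowers y := by
      rw [← hmap]; exact ⟨a, ha, rfl⟩
    obtain ⟨i, hi⟩ := Subgroup.mem_zpowers_iff.1 ha'
    have h1 : Commute ((QuotientGroup.mk a : G ⧸ M)) (QuotientGroup.mk g : G ⧸ M) := by
      have h2 : (QuotientGroup.mk a : G ⧸ M) = y ^ i := hi.symm
      rw [h2]; exact hcomm.zpow_left i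
    rw [QuotientGroup.mk_mul, QuotientGroup.mk_mul, QuotientGroup.mk_mul, QuotientGroup.mk_inv,
      QuotientGroup.mk_inv, h1.eq]
    group
  haveI : Group.IsSolvable M := by
    haveI := hMp.isNilpotent
    infer_instance
  obtain ⟨n, hnM, hn⟩ := Cfsg.Agent.Lib.Helper7.exists_mul_mem_normalizer D₀ M hAN hcop
    (Or.inr inferInstance) g hk
  obtain ⟨g', hg'⟩ : ∃ g' : G, g' = n * g := ⟨_, rfl⟩
  have hg'N : g' ∈ Subgroup.normalizer (D₀ : Set G) := by rw [hg']; exact hn
  have hg'mk : (QuotientGroup.mk g' : G ⧸ M) = QuotientGroup.mk g := by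
    rw [hg', QuotientGroup.mk_mul, (QuotientGroup.eq_one_iff n).2 hnM, one_mul]
  have hy₀' : (QuotientGroup.mk y₀ : G ⧸ M) = y := hy₀
  have hcomm' : y₀ * g' = g' * y₀ := by
    have h1 : g' * y₀ * g'⁻¹ ∈ D₀ := (Subgroup.mem_normalizer_iff.1 hg'N y₀).1 hy₀D
    have h2 : (QuotientGroup.mk' M) (g' * y₀ * g'⁻¹) = (QuotientGroup.mk' M) y₀ := by
      show ((g' * y₀ * g'⁻¹ : G) : G ⧸ M) = ((y₀ : G) : G ⧸ M)
      rw [QuotientGroup.mk_mul, QuotientGroup.mk_mul, QuotientGroup.mk_inv, hg'mk, hy₀', ← hgy]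
      group
    have h3 := h8_lift_inj M D₀ hdis _ _ h1 hy₀D h2
    calc y₀ * g' = (g' * y₀ * g'⁻¹) * g' := by rw [h3]
      _ = g' * y₀ := by group
  exact ⟨g', (h8_mem_centralizer_singleton _ _).2 hcomm', hg'mk⟩

theorem h8_cn_quot_pgroup (hCN : Cfsg.IsCNGroup G) (p : ℕ) [Fact p.Prime] (M : Subgroup G)
    [M.Normal] (hMp : IsPGroup p M) : Cfsg.IsCNGroup (G ⧸ M) := by
  have hp := (Fact.out : p.Prime)
  intro xbar hx1
  have hmapnil : ∀ N : Subgroup G, Group.IsNilpotent N →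
      Group.IsNilpotent (N.map (QuotientGroup.mk' M)) := by
    intro N hN
    haveI := hN
    exact Group.nilpotent_of_surjective _ ((QuotientGroup.mk' M).subgroupMap_surjective N)
  obtain ⟨k, m, hpm, hkm⟩ :=
    Nat.exists_eq_pow_mul_and_not_dvd (orderOf_pos xbar).ne' p hp.ne_one
  by_cases hm : xbar ^ m = 1
  · have hyp : (orderOf xbar).Coprime p :=
      Nat.Coprime.coprime_dvd_left (orderOf_dvd_of_pow_eq_one hm)
        ((Nat.Prime.coprime_iff_not_dvd hp).2 hpm).symm
    obtain ⟨N, hN, hle⟩ := h8_cn_quot_pprime hCN p M hMp xbar hx1 hyp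
    exact h8_nilp_of_le (hmapnil N hN) hle
  · obtain ⟨x, rfl⟩ := QuotientGroup.mk_surjective xbar
    have huM : x ^ m ∉ M := by
      intro h
      apply hm
      rw [← QuotientGroup.mk_pow]; exact (QuotientGroup.eq_one_iff _).2 h
    have huk : (x ^ m) ^ (p ^ k) ∈ M := by
      rw [← QuotientGroup.eq_one_iff, QuotientGroup.mk_pow, QuotientGroup.mk_pow, ← pow_mul,
        mul_comm, ← hkm, pow_orderOf_eq_one]
    obtain ⟨N, hN, hN'⟩ := h8_cn_quot_p hCN p M hMp (x ^ m) huM k huk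
    apply h8_nilp_of_le (hmapnil N hN)
    intro gbar hg
    obtain ⟨g, rfl⟩ := QuotientGroup.mk_surjective gbar
    refine ⟨g, hN' g ?_, rfl⟩
    rw [← QuotientGroup.eq_one_iff]
    have hgx : Commute (QuotientGroup.mk x : G ⧸ M) (QuotientGroup.mk g) :=
      (h8_mem_centralizer_singleton _ _).1 hg
    have h1 : Commute (QuotientGroup.mk g : G ⧸ M) ((QuotientGroup.mk x : G ⧸ M) ^ m) :=
      (hgx.pow_left m).symm
    rw [QuotientGroup.mk_mul, QuotientGroup.mk_mul, QuotientGroup.mk_mul, QuotientGroup.mk_inv,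
      QuotientGroup.mk_inv, QuotientGroup.mk_pow, h1.eq]
    group

/-- a nontrivial solvable normal subgroup contains a nontrivial normal `p`-subgroup -/
theorem h8_cnq_exists_normal_pgroup (H : Subgroup G) [hHn : H.Normal] (hH : Group.IsSolvable H)
    (hH1 : H ≠ ⊥) :
    ∃ (p : ℕ) (_ : Fact p.Prime) (M : Subgroup G), M.Normal ∧ IsPGroup p M ∧ M ≠ ⊥ ∧ M ≤ H := by
  classical
  have hex := hH.solvable
  have hn := Nat.find_spec hex
  have hn0 : Nat.find hex ≠ 0 := by
    intro h0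
    rw [h0, derivedSeries_zero] at hn
    apply hH1
    rw [Subgroup.eq_bot_iff_forall]
    intro x hx
    have h1 : (⟨x, hx⟩ : H) ∈ (⊤ : Subgroup H) := Subgroup.mem_top _
    rw [hn, Subgroup.mem_bot] at h1
    exact congrArg Subtype.val h1
  obtain ⟨j, hj⟩ := Nat.exists_eq_succ_of_ne_zero hn0
  have hA1 : derivedSeries H j ≠ ⊥ := Nat.find_min hex (by omega)
  have hAab : ∀ a ∈ derivedSeries H j, ∀ b ∈ derivedSeries H j, a * b = b * a := by
    have h1 : ⁅derivedSeries H j, derivedSeries H j⁆ = ⊥ := by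
      rw [← derivedSeries_succ, ← Nat.succ_eq_add_one, ← hj]; exact hn
    have h2 := Subgroup.commutator_eq_bot_iff_le_centralizer.1 h1
    intro a ha b hb
    exact (Subgroup.mem_centralizer_iff.1 (h2 ha) b hb).symm
  obtain ⟨A, hA⟩ : ∃ A : Subgroup G, A = (derivedSeries H j).map H.subtype := ⟨_, rfl⟩
  haveI hAn : A.Normal := by rw [hA]; exact ConjAct.normal_of_characteristic_of_normal
  have hAH : A ≤ H := by
    rw [hA]; rintro _ ⟨w, -, rfl⟩; exact w.2
  have hAne : A ≠ ⊥ := by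
    intro hb
    obtain ⟨⟨w, hw⟩, hw1⟩ := (Subgroup.ne_bot_iff_exists_ne_one).1 hA1
    have h1 : (w : G) ∈ A := by rw [hA]; exact ⟨w, hw, rfl⟩
    rw [hb, Subgroup.mem_bot] at h1
    exact hw1 (Subtype.ext (Subtype.ext h1))
  have hAcomm : ∀ a ∈ A, ∀ b ∈ A, a * b = b * a := by
    intro a ha b hb
    rw [hA] at ha hb
    obtain ⟨a', ha', rfl⟩ := ha
    obtain ⟨b', hb', rfl⟩ := hb
    exact congrArg Subtype.val (hAab a' ha' b' hb')
  have hA1' : Nat.card A ≠ 1 := fun h => hAne (Subgroup.card_eq_one.1 h)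
  obtain ⟨p, hp, hpA⟩ := Nat.exists_prime_and_dvd hA1'
  haveI : Fact p.Prime := ⟨hp⟩
  obtain ⟨M, hM⟩ : ∃ M : Subgroup G, ∀ a, a ∈ M ↔ a ∈ A ∧ ∃ k : ℕ, a ^ (p ^ k) = 1 := by
    refine ⟨{ carrier := {a | a ∈ A ∧ ∃ k : ℕ, a ^ (p ^ k) = 1}
              mul_mem' := ?_
              one_mem' := ?_
              inv_mem' := ?_ }, fun a => Iff.rfl⟩
    · rintro a b ⟨ha, k, hk⟩ ⟨hb, j, hj⟩
      refine ⟨A.mul_mem ha hb, k + j, ?_⟩
      have hc : Commute a b := hAcomm a ha b hb
      have ea : a ^ (p ^ (k + j)) = 1 := by rw [pow_add, pow_mul, hk, one_pow]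
      have eb : b ^ (p ^ (k + j)) = 1 := by rw [pow_add, mul_comm, pow_mul, hj, one_pow]
      rw [hc.mul_pow, ea, eb, one_mul]
    · exact ⟨A.one_mem, 0, by simp⟩
    · rintro a ⟨ha, k, hk⟩
      exact ⟨A.inv_mem ha, k, by rw [inv_pow, hk, inv_one]⟩
  refine ⟨p, inferInstance, M, ?_, ?_, ?_, ?_⟩
  · constructor
    intro a ha g
    rw [hM] at ha ⊢
    obtain ⟨ha1, k, hk⟩ := ha
    exact ⟨hAn.conj_mem a ha1 g, k, by rw [conj_pow, hk]; group⟩
  · intro ⟨a, ha⟩
    obtain ⟨-, k, hk⟩ := (hM a).1 ha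
    refine ⟨k, Subtype.ext ?_⟩
    show a ^ (p ^ k) = 1
    exact hk
  · obtain ⟨a, ha⟩ := exists_prime_orderOf_dvd_card' p hpA
    intro hb
    have ha' : orderOf (a : G) = p := by rw [Subgroup.orderOf_coe]; exact ha
    have h1 : (a : G) ∈ M :=
      (hM _).2 ⟨a.2, 1, by rw [pow_one, ← ha']; exact pow_orderOf_eq_one _⟩
    rw [hb, Subgroup.mem_bot] at h1
    rw [h1, orderOf_one] at ha'
    exact hp.one_lt.ne ha'
  · intro a ha
    exact hAH ((hM a).1 ha).1

end CNQ

theorem h8_cn_quot_solv_aux : ∀ (n : ℕ) (G : Type u) [Group G] [Finite G], Cfsg.IsCNGroup G →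
    ∀ (H : Subgroup G) [H.Normal], Group.IsSolvable H → Nat.card H ≤ n →
      Cfsg.IsCNGroup (G ⧸ H) := by
  intro n
  induction n with
  | zero =>
    intro G _ _ hCN H _ hH hcard
    have := Nat.card_pos (α := H)
    omega
  | succ n ih =>
    intro G _ _ hCN H hHn hH hcard
    by_cases hH1 : H = ⊥
    · subst hH1
      exact h8_cn_of_mulEquiv (QuotientGroup.quotientBot (G := G)).symm hCN
    · obtain ⟨p, hp, M, hMn, hMp, hM1, hMH⟩ := h8_cnq_exists_normal_pgroup H hH hH1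
      haveI := hp
      haveI := hMn
      have hCN' := h8_cn_quot_pgroup hCN p M hMp
      haveI hH'n : (H.map (QuotientGroup.mk' M)).Normal :=
        hHn.map _ (QuotientGroup.mk'_surjective M)
      have hH's : Group.IsSolvable (H.map (QuotientGroup.mk' M)) := by
        haveI := hH
        exact Group.isSolvable_of_surjective ((QuotientGroup.mk' M).subgroupMap_surjective H)
      have hlt : Nat.card (H.map (QuotientGroup.mk' M)) < Nat.card H := by
        have hφ := (QuotientGroup.mk' M).subgroupMap_surjective H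
        have e1 := Subgroup.card_eq_card_quotient_mul_card_subgroup
          ((QuotientGroup.mk' M).subgroupMap H).ker
        have e2 : Nat.card (H ⧸ ((QuotientGroup.mk' M).subgroupMap H).ker) =
            Nat.card (H.map (QuotientGroup.mk' M)) :=
          Nat.card_congr (QuotientGroup.quotientKerEquivOfSurjective _ hφ).toEquiv
        have hker : Nat.card ((QuotientGroup.mk' M).subgroupMap H).ker ≠ 1 := by
          intro h
          have hb := Subgroup.card_eq_one.1 h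
          obtain ⟨⟨m, hm⟩, hm1⟩ := (Subgroup.ne_bot_iff_exists_ne_one).1 hM1
          have h2 : (⟨m, hMH hm⟩ : H) ∈ ((QuotientGroup.mk' M).subgroupMap H).ker := by
            rw [MonoidHom.mem_ker]
            apply Subtype.ext
            exact (QuotientGroup.eq_one_iff m).2 hm
          rw [hb, Subgroup.mem_bot] at h2
          have h3 : m = 1 := congrArg Subtype.val h2
          exact hm1 (Subtype.ext h3)
        have hpos1 := Nat.card_pos (α := ((QuotientGroup.mk' M).subgroupMap H).ker)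
        have hpos2 := Nat.card_pos (α := (H.map (QuotientGroup.mk' M)))
        rw [e2] at e1
        have h2 : 2 ≤ Nat.card ((QuotientGroup.mk' M).subgroupMap H).ker := by omega
        calc Nat.card (H.map (QuotientGroup.mk' M))
            < Nat.card (H.map (QuotientGroup.mk' M)) * 2 := by omega
          _ ≤ Nat.card (H.map (QuotientGroup.mk' M)) *
              Nat.card ((QuotientGroup.mk' M).subgroupMap H).ker := Nat.mul_le_mul_left _ h2
          _ = Nat.card H := e1.symm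
      have h1 := ih (G ⧸ M) hCN' (H.map (QuotientGroup.mk' M)) hH's (by omega)
      exact h8_cn_of_mulEquiv (QuotientGroup.quotientQuotientEquivQuotient M H hMH) h1

theorem h8_s1473 {G : Type u} [Group G] [Finite G] (hCN : Cfsg.IsCNGroup G) (H : Subgroup G)
    [H.Normal] (hH : Group.IsSolvable H) : Cfsg.IsCNGroup (G ⧸ H) :=
  h8_cn_quot_solv_aux (Nat.card H) G hCN H hH le_rfl

end Cfsg.Agent.Lib.Helper8
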