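import Mathlib
import Cfsg.Agent.Lib.Helper8.CNSolvA
import Cfsg.Agent.Lib.Helper7.Coprime
import Cfsg.Agent.Lib.Helper7.PCore
import Cfsg.Agent.S0044

set_option autoImplicit false
set_option linter.style.haveILetI false
universe u

namespace Cfsg.Agent.Lib.Helper8

section CN2

variable {G : Type u} [Group G] [Finite G]

/-- in a CN-group with a nontrivial `p`-subgroup `H` containing its centraliser, nontrivial
`p'`-elements act fixed-point-freely on `H` -/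
theorem h8_cn2_fpf (hCN : Cfsg.IsCNGroup G) (p : ℕ) [Fact p.Prime] (H : Subgroup G)
    (hHp : IsPGroup p H) (hH1 : H ≠ ⊥) (hCH : Subgroup.centralizer (H : Set G) ≤ H)
    (e : G) (he1 : e ≠ 1) (hep : (orderOf e).Coprime p) :
    H ⊓ Subgroup.centralizer ({e} : Set G) = ⊥ := by
  by_contra hne
  obtain ⟨⟨x, hx⟩, hx1⟩ := (Subgroup.ne_bot_iff_exists_ne_one).1 hne
  have hx1' : x ≠ 1 := fun h => hx1 (Subtype.ext h)
  have hxe : e * x = x * e := (h8_mem_centralizer_singleton e x).1 hx.2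
  obtain ⟨⟨z, hz⟩, hz1⟩ :=
    (Subgroup.ne_bot_iff_exists_ne_one).1 (h8_center_sub_ne_bot H hHp hH1)
  have hz1' : z ≠ 1 := fun h => hz1 (Subtype.ext h)
  have hzH : z ∈ H := hz.1
  have hzc : ∀ h ∈ H, h * z = z * h := fun h hh => Subgroup.mem_centralizer_iff.1 hz.2 h hh
  have hpk : ∀ h ∈ H, ∃ k : ℕ, h ^ (p ^ k) = 1 := by
    intro h hh
    obtain ⟨k, hk⟩ := hHp ⟨h, hh⟩
    exact ⟨k, by simpa using congrArg Subtype.val hk⟩
  have hez : e * z = z * e := by
    have hC := hCN x hx1'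
    have heC : e ∈ Subgroup.centralizer ({x} : Set G) :=
      (h8_mem_centralizer_singleton _ _).2 hxe.symm
    have hzC : z ∈ Subgroup.centralizer ({x} : Set G) :=
      (h8_mem_centralizer_singleton _ _).2 (hzc x hx.1)
    obtain ⟨k, hk⟩ := hpk z hzH
    have h2 := h8_nilp_commute_coprime' hC p ⟨e, heC⟩ ⟨z, hzC⟩
      (by rw [Subgroup.orderOf_mk]; exact hep) k (Subtype.ext (by simpa using hk))
    exact congrArg Subtype.val h2
  have hC₂ := hCN z hz1'
  have heH : e ∈ Subgroup.centralizer (H : Set G) := by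
    rw [Subgroup.mem_centralizer_iff]
    intro h hh
    have hhC : h ∈ Subgroup.centralizer ({z} : Set G) :=
      (h8_mem_centralizer_singleton _ _).2 (hzc h hh).symm
    have heC : e ∈ Subgroup.centralizer ({z} : Set G) :=
      (h8_mem_centralizer_singleton _ _).2 hez.symm
    obtain ⟨k, hk⟩ := hpk h hh
    have h2 := h8_nilp_commute_coprime' hC₂ p ⟨e, heC⟩ ⟨h, hhC⟩
      (by rw [Subgroup.orderOf_mk]; exact hep) k (Subtype.ext (by simpa using hk))
    exact (congrArg Subtype.val h2).symm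
  obtain ⟨k, hk⟩ := hpk e (hCH heH)
  have h3 : orderOf e ∣ p ^ k := orderOf_dvd_of_pow_eq_one hk
  have h4 : orderOf e = 1 := Nat.Coprime.eq_one_of_dvd (Nat.Coprime.pow_right k hep) h3
  exact he1 (orderOf_eq_one_iff.1 h4)

/-- nontrivial `p`-elements do not commute with nontrivial `p'`-elements -/
theorem h8_cn2_pp (hCN : Cfsg.IsCNGroup G) (p : ℕ) [Fact p.Prime] (H : Subgroup G) [H.Normal]
    (hHp : IsPGroup p H) (hH1 : H ≠ ⊥) (hCH : Subgroup.centralizer (H : Set G) ≤ H)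
    (x e : G) (hx1 : x ≠ 1) (k : ℕ) (hxk : x ^ (p ^ k) = 1) (he1 : e ≠ 1)
    (hep : (orderOf e).Coprime p) : x * e ≠ e * x := by
  intro hxe
  have hp := (Fact.out : p.Prime)
  have hxp : IsPGroup p (Subgroup.zpowers x) := by
    obtain ⟨j, -, hj⟩ := (Nat.dvd_prime_pow hp).1 (orderOf_dvd_of_pow_eq_one hxk)
    exact IsPGroup.of_card (n := j) (by rw [Nat.card_zpowers, hj])
  obtain ⟨S, hS⟩ := hxp.exists_le_sylow
  have hHS : H ≤ S := by
    have h1 : IsPGroup p (H ⊔ (S : Subgroup G) : Subgroup G) :=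
      IsPGroup.to_sup_of_normal_left hHp S.isPGroup'
    have h2 := S.is_maximal' h1 le_sup_right
    exact le_sup_left.trans h2.le
  haveI : (H.subgroupOf (S : Subgroup G)).Normal := inferInstance
  have hNne : H.subgroupOf (S : Subgroup G) ≠ ⊥ := by
    intro hbot
    obtain ⟨⟨w₀, hw₀⟩, hw₀1⟩ := (Subgroup.ne_bot_iff_exists_ne_one).1 hH1
    have h1 : (⟨w₀, hHS hw₀⟩ : (S : Subgroup G)) ∈ H.subgroupOf (S : Subgroup G) :=
      Subgroup.mem_subgroupOf.2 hw₀
    rw [hbot, Subgroup.mem_bot] at h1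
    have h2 : w₀ = 1 := congrArg Subtype.val h1
    exact hw₀1 (Subtype.ext h2)
  have hcen := h8_normal_inf_center_ne_bot S.isPGroup' (H.subgroupOf (S : Subgroup G)) hNne
  obtain ⟨⟨⟨w, hwS⟩, hw⟩, hw1⟩ := (Subgroup.ne_bot_iff_exists_ne_one).1 hcen
  have hwH : w ∈ H := Subgroup.mem_subgroupOf.1 hw.1
  have hw1' : w ≠ 1 := fun h => hw1 (Subtype.ext (Subtype.ext h))
  have hwx : x * w = w * x := by
    have := Subgroup.mem_center_iff.1 hw.2 ⟨x, hS (Subgroup.mem_zpowers x)⟩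
    exact congrArg Subtype.val this
  have hC := hCN x hx1
  have heC : e ∈ Subgroup.centralizer ({x} : Set G) :=
    (h8_mem_centralizer_singleton _ _).2 hxe
  have hwC : w ∈ Subgroup.centralizer ({x} : Set G) :=
    (h8_mem_centralizer_singleton _ _).2 hwx
  obtain ⟨j, hj⟩ := hHp ⟨w, hwH⟩
  have hj' : w ^ (p ^ j) = 1 := by simpa using congrArg Subtype.val hj
  have h2 := h8_nilp_commute_coprime' hC p ⟨e, heC⟩ ⟨w, hwC⟩
    (by rw [Subgroup.orderOf_mk]; exact hep) j (Subtype.ext (by simpa using hj'))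
  have hew : e * w = w * e := congrArg Subtype.val h2
  have h3 : w ∈ H ⊓ Subgroup.centralizer ({e} : Set G) :=
    Subgroup.mem_inf.2 ⟨hwH, (h8_mem_centralizer_singleton _ _).2 hew⟩
  rw [h8_cn2_fpf hCN p H hHp hH1 hCH e he1 hep, Subgroup.mem_bot] at h3
  exact hw1' h3

/-- `p'`-subgroups of `G/H` are nilpotent with the Frobenius complement property -/
theorem h8_cn2_quot_sub (hCN : Cfsg.IsCNGroup G) (p : ℕ) [Fact p.Prime] (H : Subgroup G)
    [H.Normal] (hHp : IsPGroup p H) (hH1 : H ≠ ⊥)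
    (hCH : Subgroup.centralizer (H : Set G) ≤ H)
    (D : Subgroup (G ⧸ H)) (hD : (Nat.card D).Coprime p) :
    Group.IsNilpotent D ∧ ∀ s : ℕ, s.Prime → ∀ x y : D, orderOf x = s → orderOf y = s →
      x * y = y * x → y ∈ Subgroup.zpowers x := by
  obtain ⟨D₀, hdis, hmap⟩ := h8_lift_pprime H p hHp D hD
  have hcard : Nat.card D₀ = Nat.card D := by
    rw [← hmap]; exact (h8_lift_card H D₀ hdis).symm
  have hfpf : ∀ d ∈ D₀, d ≠ 1 → H ⊓ Subgroup.centralizer ({d} : Set G) = ⊥ := by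
    intro d hd hd1
    apply h8_cn2_fpf hCN p H hHp hH1 hCH d hd1
    have h1 : orderOf d ∣ Nat.card D₀ := by
      have := orderOf_dvd_natCard (⟨d, hd⟩ : D₀)
      rwa [Subgroup.orderOf_mk] at this
    rw [hcard] at h1
    exact Nat.Coprime.coprime_dvd_left h1 hD
  have hD₀nil : Group.IsNilpotent D₀ := by
    by_cases hb : D₀ = ⊥
    · exact h8_nilp_of_le hHp.isNilpotent (by rw [hb]; exact bot_le)
    · have hcen := h8_s0069 H D₀ hH1 hb hfpf
      obtain ⟨⟨z, hz⟩, hz1⟩ := (Subgroup.ne_bot_iff_exists_ne_one).1 hcen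
      have hz1' : (z : G) ≠ 1 := fun h => hz1 (Subtype.ext (Subtype.ext h))
      apply h8_nilp_of_le (hCN (z : G) hz1')
      intro e he
      rw [h8_mem_centralizer_singleton]
      have := Subgroup.mem_center_iff.1 hz ⟨e, he⟩
      exact (congrArg Subtype.val this).symm
  subst hmap
  refine ⟨?_, ?_⟩
  · haveI := hD₀nil
    exact Group.nilpotent_of_surjective _ ((QuotientGroup.mk' H).subgroupMap_surjective D₀)
  · intro s hs x y hx hy hxy
    obtain ⟨u, huD, hu⟩ := x.2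
    obtain ⟨v, hvD, hv⟩ := y.2
    have hinj : Function.Injective ((QuotientGroup.mk' H).comp D₀.subtype) := by
      intro a b hab
      exact Subtype.ext (h8_lift_inj H D₀ hdis a b a.2 b.2 hab)
    have hord : ∀ (w : G) (hw : w ∈ D₀), orderOf ((QuotientGroup.mk' H) w) = orderOf w := by
      intro w hw
      have h1 := orderOf_injective ((QuotientGroup.mk' H).comp D₀.subtype) hinj ⟨w, hw⟩
      rw [Subgroup.orderOf_mk] at h1
      exact h1
    have hou : orderOf u = s := by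
      rw [← hord u huD, hu, Subgroup.orderOf_coe]; exact hx
    have hov : orderOf v = s := by
      rw [← hord v hvD, hv, Subgroup.orderOf_coe]; exact hy
    have huv : u * v = v * u := by
      apply h8_lift_inj H D₀ hdis _ _ (D₀.mul_mem huD hvD) (D₀.mul_mem hvD huD)
      rw [map_mul, map_mul, hu, hv]
      exact congrArg Subtype.val hxy
    have h1 := h8_frob_no_elab H D₀ hH1 hfpf s hs u v huD hvD hou hov huv
    obtain ⟨i, hi⟩ := Subgroup.mem_zpowers_iff.1 h1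
    rw [Subgroup.mem_zpowers_iff]
    refine ⟨i, Subtype.ext ?_⟩
    rw [Subgroup.coe_zpow, ← hu, ← hv, ← map_zpow, hi]

/-- in `G/H`, nontrivial `p`-elements do not commute with nontrivial `p'`-elements -/
theorem h8_cn2_quot_pp [Group.IsSolvable G] (hCN : Cfsg.IsCNGroup G) (p : ℕ) [Fact p.Prime]
    (H : Subgroup G) [H.Normal] (hHp : IsPGroup p H) (hH1 : H ≠ ⊥)
    (hCH : Subgroup.centralizer (H : Set G) ≤ H)
    (x y : G ⧸ H) (hx1 : x ≠ 1) (k : ℕ) (hxk : x ^ (p ^ k) = 1) (hy1 : y ≠ 1)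
    (hyp : (orderOf y).Coprime p) : x * y ≠ y * x := by
  intro hxy
  have hp := (Fact.out : p.Prime)
  have hD : (Nat.card (Subgroup.zpowers y)).Coprime p := by
    rw [Nat.card_zpowers]; exact hyp
  obtain ⟨D₀, hdis, hmap⟩ := h8_lift_pprime H p hHp (Subgroup.zpowers y) hD
  have hcard : Nat.card D₀ = Nat.card (Subgroup.zpowers y) := by
    rw [← hmap]; exact (h8_lift_card H D₀ hdis).symm
  obtain ⟨y₀, hy₀D, hy₀⟩ : ∃ y₀ ∈ D₀, QuotientGroup.mk' H y₀ = y := by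
    have h1 : y ∈ D₀.map (QuotientGroup.mk' H) := by rw [hmap]; exact Subgroup.mem_zpowers y
    exact h1
  obtain ⟨x₀, rfl⟩ := QuotientGroup.mk_surjective x
  have hAN : D₀ ≤ Subgroup.normalizer (H : Set G) := by
    rw [Subgroup.normalizer_eq_top]; exact le_top
  have hcop : (Nat.card D₀).Coprime (Nat.card H) := by
    obtain ⟨j, hj⟩ := IsPGroup.iff_card.1 hHp
    rw [hj, hcard]; exact Nat.Coprime.pow_right j hD
  have hcomm : Commute (QuotientGroup.mk x₀ : G ⧸ H) y := hxy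
  have hk : ∀ a ∈ D₀, a * x₀ * a⁻¹ * x₀⁻¹ ∈ H := by
    intro a ha
    rw [← QuotientGroup.eq_one_iff]
    have ha' : (QuotientGroup.mk' H) a ∈ Subgroup.zpowers y := by
      rw [← hmap]; exact ⟨a, ha, rfl⟩
    obtain ⟨i, hi⟩ := Subgroup.mem_zpowers_iff.1 ha'
    have h1 : Commute ((QuotientGroup.mk a : G ⧸ H)) (QuotientGroup.mk x₀ : G ⧸ H) := by
      have h2 : (QuotientGroup.mk a : G ⧸ H) = y ^ i := hi.symm
      rw [h2]; exact (hcomm.zpow_right i).symm
    rw [QuotientGroup.mk_mul, QuotientGroup.mk_mul, QuotientGroup.mk_mul, QuotientGroup.mk_inv,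
      QuotientGroup.mk_inv, h1.eq]
    group
  obtain ⟨n, hnH, hn⟩ := Cfsg.Agent.Lib.Helper7.exists_mul_mem_normalizer D₀ H hAN hcop
    (Or.inr inferInstance) x₀ hk
  obtain ⟨x', hx'⟩ : ∃ x' : G, x' = n * x₀ := ⟨_, rfl⟩
  have hx'N : x' ∈ Subgroup.normalizer (D₀ : Set G) := by rw [hx']; exact hn
  have hx'mk : (QuotientGroup.mk x' : G ⧸ H) = QuotientGroup.mk x₀ := by
    rw [hx', QuotientGroup.mk_mul, (QuotientGroup.eq_one_iff n).2 hnH, one_mul]
  have hy₀' : (QuotientGroup.mk y₀ : G ⧸ H) = y := hy₀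
  have hcomm' : x' * y₀ = y₀ * x' := by
    have h1 : x' * y₀ * x'⁻¹ ∈ D₀ := (Subgroup.mem_normalizer_iff.1 hx'N y₀).1 hy₀D
    have h2 : (QuotientGroup.mk' H) (x' * y₀ * x'⁻¹) = (QuotientGroup.mk' H) y₀ := by
      show ((x' * y₀ * x'⁻¹ : G) : G ⧸ H) = ((y₀ : G) : G ⧸ H)
      rw [QuotientGroup.mk_mul, QuotientGroup.mk_mul, QuotientGroup.mk_inv, hx'mk, hy₀', hxy]
      group
    have h3 := h8_lift_inj H D₀ hdis _ _ h1 hy₀D h2
    calc x' * y₀ = (x' * y₀ * x'⁻¹) * x' := by group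
      _ = y₀ * x' := by rw [h3]
  obtain ⟨k', m, hpm, hkm⟩ := Nat.exists_eq_pow_mul_and_not_dvd (orderOf_pos x').ne' p hp.ne_one
  have hx''1 : x' ^ m ≠ 1 := by
    intro h
    have h1 : (QuotientGroup.mk x₀ : G ⧸ H) ^ m = 1 := by
      rw [← hx'mk, ← QuotientGroup.mk_pow, h]; rfl
    have h2 : orderOf (QuotientGroup.mk x₀ : G ⧸ H) ∣ m := orderOf_dvd_of_pow_eq_one h1
    have h3 : orderOf (QuotientGroup.mk x₀ : G ⧸ H) ∣ p ^ k := orderOf_dvd_of_pow_eq_one hxk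
    have h4 : Nat.Coprime m (p ^ k) :=
      Nat.Coprime.pow_right k ((Nat.Prime.coprime_iff_not_dvd hp).2 hpm).symm
    have h5 : orderOf (QuotientGroup.mk x₀ : G ⧸ H) = 1 :=
      Nat.Coprime.eq_one_of_dvd (Nat.Coprime.coprime_dvd_left h2 h4) h3
    exact hx1 (orderOf_eq_one_iff.1 h5)
  have hx''k : (x' ^ m) ^ (p ^ k') = 1 := by
    rw [← pow_mul, mul_comm, ← hkm, pow_orderOf_eq_one]
  have hy₀1 : y₀ ≠ 1 := by
    rintro rfl
    exact hy1 (by rw [← hy₀, map_one])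
  have hy₀p : (orderOf y₀).Coprime p := by
    have h1 : orderOf y₀ ∣ Nat.card D₀ := by
      have := orderOf_dvd_natCard (⟨y₀, hy₀D⟩ : D₀)
      rwa [Subgroup.orderOf_mk] at this
    rw [hcard] at h1
    exact Nat.Coprime.coprime_dvd_left h1 hD
  refine h8_cn2_pp hCN p H hHp hH1 hCH (x' ^ m) y₀ hx''1 k' hx''k hy₀1 hy₀p ?_
  have hc : Commute x' y₀ := hcomm'
  exact (hc.pow_left m).eq

theorem h8_pcore_quot_bot (p : ℕ) [Fact p.Prime] (H : Subgroup G) [H.Normal]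
    (hHp : IsPGroup p H) (hHmax : ∀ N : Subgroup G, N.Normal → IsPGroup p N → N ≤ H) :
    Cfsg.pCore p (G ⧸ H) = ⊥ := by
  have hn := Cfsg.Agent.Lib.Helper7.pCore_normal p (G ⧸ H)
  have hpg := Cfsg.Agent.Lib.Helper7.pCore_isPGroup p (G ⧸ H)
  obtain ⟨X, hX⟩ : ∃ X : Subgroup G, X = (Cfsg.pCore p (G ⧸ H)).comap (QuotientGroup.mk' H) :=
    ⟨_, rfl⟩
  have hXmem : ∀ g : G, g ∈ X ↔ (QuotientGroup.mk' H) g ∈ Cfsg.pCore p (G ⧸ H) := by
    intro g; rw [hX]; exact Subgroup.mem_comap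
  have hXn : X.Normal := by rw [hX]; exact hn.comap _
  have hXp : IsPGroup p X := by
    intro ⟨g, hg⟩
    have hg' := (hXmem g).1 hg
    obtain ⟨k, hk⟩ := hpg ⟨_, hg'⟩
    have hk' : (QuotientGroup.mk' H) g ^ (p ^ k) = 1 := by
      simpa using congrArg Subtype.val hk
    have h1 : g ^ (p ^ k) ∈ H := by
      rw [← QuotientGroup.eq_one_iff, ← hk']; rfl
    obtain ⟨j, hj⟩ := hHp ⟨_, h1⟩
    have hj' : (g ^ (p ^ k)) ^ (p ^ j) = 1 := by simpa using congrArg Subtype.val hj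
    refine ⟨k + j, Subtype.ext ?_⟩
    show g ^ (p ^ (k + j)) = 1
    rw [pow_add, pow_mul]; exact hj'
  have hXH := hHmax X hXn hXp
  rw [Subgroup.eq_bot_iff_forall]
  intro y hy
  obtain ⟨g, rfl⟩ := QuotientGroup.mk_surjective y
  exact (QuotientGroup.eq_one_iff g).2 (hXH ((hXmem g).2 hy))

end CN2

/-- the structure of `G/O_p(G)` in a three-step group, abstractly -/
theorem h8_threestep_quot {Γ : Type u} [Group Γ] [Finite Γ] [Group.IsSolvable Γ] (p : ℕ)
    [Fact p.Prime] (hO : Cfsg.pCore p Γ = ⊥)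
    (hsub : ∀ D : Subgroup Γ, (Nat.card D).Coprime p → Group.IsNilpotent D ∧
      ∀ s : ℕ, s.Prime → ∀ x y : D, orderOf x = s → orderOf y = s → x * y = y * x →
        y ∈ Subgroup.zpowers x)
    (hpp : ∀ x y : Γ, x ≠ 1 → ∀ k : ℕ, x ^ (p ^ k) = 1 → y ≠ 1 → (orderOf y).Coprime p →
      x * y ≠ y * x)
    (hpΓ : p ∣ Nat.card Γ) :
    ∃ A : Subgroup Γ, A.Normal ∧ IsCyclic A ∧ Odd (Nat.card A) ∧ (Nat.card A).Coprime p ∧
      A ≠ ⊥ ∧ A ≠ ⊤ ∧ (∃ n : ℕ, A.index = p ^ n) ∧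
      ∀ x : Γ, x ∉ A → ∀ a ∈ A, a ≠ 1 → x * a ≠ a * x := by
  have hp := (Fact.out : p.Prime)
  obtain ⟨F, hF⟩ : ∃ F : Subgroup Γ, F = Cfsg.fittingSubgroup Γ := ⟨_, rfl⟩
  haveI hFn : F.Normal := by rw [hF]; exact Cfsg.Agent.Lib.Helper7.fitting_normal Γ
  have hFnil : Group.IsNilpotent F := by
    rw [hF]; exact Cfsg.Agent.Lib.Helper7.fitting_isNilpotent Γ
  have hCF : Subgroup.centralizer (F : Set Γ) ≤ F := by
    rw [hF]; exact Cfsg.Agent.S0044.result
  haveI := hFnil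
  have hFp : (Nat.card F).Coprime p := by
    rw [Nat.coprime_comm, Nat.Prime.coprime_iff_not_dvd hp]
    intro hdvd
    obtain ⟨P⟩ := (inferInstance : Nonempty (Sylow p F))
    have hPne : (P : Subgroup F) ≠ ⊥ := P.ne_bot_of_dvd_card hdvd
    haveI hPc : (P : Subgroup F).Characteristic := Sylow.characteristic_of_normal P inferInstance
    have hPn : ((P : Subgroup F).map F.subtype).Normal :=
      ConjAct.normal_of_characteristic_of_normal
    have hle := Cfsg.Agent.Lib.Helper7.le_pCore hPn (P.isPGroup'.map F.subtype)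
    rw [hO] at hle
    apply hPne
    rw [Subgroup.eq_bot_iff_forall]
    intro w hw
    have h1 : (w : Γ) ∈ (P : Subgroup F).map F.subtype := ⟨w, hw, rfl⟩
    have h2 := hle h1
    rw [Subgroup.mem_bot] at h2
    exact Subtype.ext h2
  obtain ⟨-, hFha⟩ := hsub F hFp
  have hFbot : F ≠ ⊥ := by
    intro hb
    have htop : ∀ g : Γ, g = 1 := by
      intro g
      have hg : g ∈ Subgroup.centralizer (F : Set Γ) := by
        rw [Subgroup.mem_centralizer_iff]
        intro f hf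
        have hf' : f ∈ F := hf
        rw [hb, Subgroup.mem_bot] at hf'
        rw [hf', one_mul, mul_one]
      have h1 := hCF hg
      rw [hb, Subgroup.mem_bot] at h1
      exact h1
    have h2 : Nat.card Γ = 1 :=
      Nat.card_eq_one_iff_unique.2 ⟨⟨fun a b => by rw [htop a, htop b]⟩, ⟨1⟩⟩
    rw [h2] at hpΓ
    exact hp.one_lt.ne' (Nat.dvd_one.1 hpΓ)
  obtain ⟨x₀, hx₀⟩ := exists_prime_orderOf_dvd_card' p hpΓ
  have hx₀1 : x₀ ≠ 1 := by
    rintro rfl
    rw [orderOf_one] at hx₀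
    exact hp.one_lt.ne hx₀
  have hx₀p : x₀ ^ (p ^ 1) = 1 := by
    rw [pow_one, ← hx₀]; exact pow_orderOf_eq_one x₀
  have hFodd : ¬ 2 ∣ Nat.card F := by
    intro h2
    haveI : Fact (Nat.Prime 2) := ⟨Nat.prime_two⟩
    obtain ⟨Q₂⟩ := (inferInstance : Nonempty (Sylow 2 F))
    obtain ⟨z, hzQ, hz1, hzc⟩ := h8_sylow_center_elt 2 Q₂ h2
    have hzcen := h8_nilp_sylow_center hFnil 2 Q₂ z hzQ hzc
    have hoz : 2 ∣ orderOf z := by
      obtain ⟨k, hk⟩ := Q₂.isPGroup' ⟨z, hzQ⟩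
      have hk' : z ^ (2 ^ k) = 1 := by simpa using congrArg Subtype.val hk
      obtain ⟨j, -, hj⟩ := (Nat.dvd_prime_pow Nat.prime_two).1 (orderOf_dvd_of_pow_eq_one hk')
      rw [hj]
      have hj0 : j ≠ 0 := by
        rintro rfl
        rw [pow_zero, orderOf_eq_one_iff] at hj
        exact hz1 hj
      exact dvd_pow_self 2 hj0
    obtain ⟨c, hc⟩ : ∃ c : F, c = z ^ (orderOf z / 2) := ⟨_, rfl⟩
    have hoc : orderOf c = 2 := by
      rw [hc]; exact orderOf_pow_orderOf_div (orderOf_pos z).ne' hoz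
    have hccen : ∀ k : F, k * c = c * k := by
      intro k
      have h1 : Commute k z := hzcen k
      rw [hc]; exact (h1.pow_right _).eq
    have hdF : x₀ * (c : Γ) * x₀⁻¹ ∈ F := hFn.conj_mem _ c.2 _
    have hoc' : orderOf (c : Γ) = 2 := by rw [Subgroup.orderOf_coe]; exact hoc
    have hod : orderOf (⟨x₀ * (c : Γ) * x₀⁻¹, hdF⟩ : F) = 2 := by
      rw [Subgroup.orderOf_mk, h8_orderOf_conj]; exact hoc'
    have h1 := hFha 2 Nat.prime_two c ⟨_, hdF⟩ hoc hod (hccen _).symm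
    obtain ⟨i, hi⟩ := Subgroup.mem_zpowers_iff.1 h1
    have hi' : (c : Γ) ^ i = x₀ * (c : Γ) * x₀⁻¹ := by
      have := congrArg Subtype.val hi
      simpa using this
    have h3 : (c : Γ) ^ i = (c : Γ) ^ (i % 2) := by
      have := zpow_mod_orderOf (c : Γ) i
      rw [hoc'] at this
      simpa using this.symm
    have hdc : x₀ * (c : Γ) * x₀⁻¹ = (c : Γ) := by
      rcases Int.emod_two_eq_zero_or_one i with h4 | h4
      · exfalso
        rw [h3, h4, zpow_zero] at hi'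
        have h5 : orderOf (x₀ * (c : Γ) * x₀⁻¹) = 2 := by rw [h8_orderOf_conj]; exact hoc'
        rw [← hi', orderOf_one] at h5
        omega
      · rw [h3, h4, zpow_one] at hi'
        exact hi'.symm
    have hcomm : x₀ * (c : Γ) = (c : Γ) * x₀ := by
      calc x₀ * (c : Γ) = (x₀ * (c : Γ) * x₀⁻¹) * x₀ := by group
        _ = (c : Γ) * x₀ := by rw [hdc]
    have hp2 : p ≠ 2 := by
      rintro rfl
      exact (Nat.Prime.coprime_iff_not_dvd Nat.prime_two).1 hFp.symm h2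
    have hc1 : (c : Γ) ≠ 1 := by
      intro h
      rw [h, orderOf_one] at hoc'
      omega
    exact hpp x₀ (c : Γ) hx₀1 1 hx₀p hc1
      (by rw [hoc']; exact (Nat.coprime_primes Nat.prime_two hp).2 (Ne.symm hp2)) hcomm
  have hFcyc : IsCyclic F := h8_cyclic_of_nilp_ha_odd hFnil hFha hFodd
  have hcomm0 : ∀ x y : Γ, x⁻¹ * y⁻¹ * x * y ∈ F := by
    intro x y
    apply hCF
    obtain ⟨g₀, hg₀⟩ := hFcyc.exists_generator
    have hcx : ∀ w : Γ, ∃ i : ℤ, w * (g₀ : Γ) * w⁻¹ = (g₀ : Γ) ^ i := by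
      intro w
      have h1 : w * (g₀ : Γ) * w⁻¹ ∈ F := hFn.conj_mem _ g₀.2 _
      obtain ⟨i, hi⟩ := Subgroup.mem_zpowers_iff.1 (hg₀ ⟨_, h1⟩)
      refine ⟨i, ?_⟩
      have := congrArg Subtype.val hi
      simpa using this.symm
    obtain ⟨i, hi⟩ := hcx x
    obtain ⟨j, hj⟩ := hcx y
    have h1 : (x * y) * (g₀ : Γ) * (x * y)⁻¹ = (g₀ : Γ) ^ (i * j) := by
      calc (x * y) * (g₀ : Γ) * (x * y)⁻¹ = x * (y * (g₀ : Γ) * y⁻¹) * x⁻¹ := by group
        _ = x * (g₀ : Γ) ^ j * x⁻¹ := by rw [hj]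
        _ = (x * (g₀ : Γ) * x⁻¹) ^ j := by rw [conj_zpow]
        _ = ((g₀ : Γ) ^ i) ^ j := by rw [hi]
        _ = (g₀ : Γ) ^ (i * j) := by rw [zpow_mul]
    have h2 : (y * x) * (g₀ : Γ) * (y * x)⁻¹ = (g₀ : Γ) ^ (i * j) := by
      calc (y * x) * (g₀ : Γ) * (y * x)⁻¹ = y * (x * (g₀ : Γ) * x⁻¹) * y⁻¹ := by group
        _ = y * (g₀ : Γ) ^ i * y⁻¹ := by rw [hi]
        _ = (y * (g₀ : Γ) * y⁻¹) ^ i := by rw [conj_zpow]
        _ = ((g₀ : Γ) ^ j) ^ i := by rw [hj]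
        _ = (g₀ : Γ) ^ (i * j) := by rw [← zpow_mul, mul_comm]
    have h3 : (x⁻¹ * y⁻¹ * x * y) * (g₀ : Γ) = (g₀ : Γ) * (x⁻¹ * y⁻¹ * x * y) := by
      have h4 : (x * y) * (g₀ : Γ) * (x * y)⁻¹ = (y * x) * (g₀ : Γ) * (y * x)⁻¹ := by
        rw [h1, h2]
      calc (x⁻¹ * y⁻¹ * x * y) * (g₀ : Γ)
          = (y * x)⁻¹ * ((x * y) * (g₀ : Γ) * (x * y)⁻¹) * (x * y) := by group
        _ = (y * x)⁻¹ * ((y * x) * (g₀ : Γ) * (y * x)⁻¹) * (x * y) := by rw [h4]
        _ = (g₀ : Γ) * (x⁻¹ * y⁻¹ * x * y) := by group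
    rw [Subgroup.mem_centralizer_iff]
    intro f hf
    obtain ⟨n, hn⟩ := Subgroup.mem_zpowers_iff.1 (hg₀ ⟨f, hf⟩)
    have hn' : (g₀ : Γ) ^ n = f := by
      have := congrArg Subtype.val hn
      simpa using this
    rw [← hn']
    have hc : Commute (g₀ : Γ) (x⁻¹ * y⁻¹ * x * y) := h3.symm
    exact (hc.zpow_left n).eq
  have hcomm : ∀ x y : Γ, x * y * x⁻¹ * y⁻¹ ∈ F := by
    intro x y
    have := hcomm0 x⁻¹ y⁻¹
    simpa using this
  have hpF : ∀ y : Γ, (orderOf y).Coprime p → y ∈ F := by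
    intro y hy
    obtain ⟨D, hD⟩ : ∃ D : Subgroup Γ, D = F ⊔ Subgroup.zpowers y := ⟨_, rfl⟩
    have hDn : D.Normal := by
      constructor
      intro d hd x
      have h1 : x * d * x⁻¹ = (x * d * x⁻¹ * d⁻¹) * d := by group
      rw [h1]
      exact D.mul_mem (by rw [hD]; exact Subgroup.mem_sup_left (hcomm x d)) hd
    have hDp : (Nat.card D).Coprime p := by
      have h1 := Cfsg.Agent.Lib.Helper7.card_sup_dvd_of_normal F (Subgroup.zpowers y)
      rw [hD]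
      apply Nat.Coprime.coprime_dvd_left h1
      apply Nat.Coprime.mul_left hFp
      rw [Nat.card_zpowers]; exact hy
    have hDnil := (hsub D hDp).1
    have hDF : D ≤ F := by rw [hF]; exact Cfsg.Agent.Lib.Helper7.le_fitting hDn hDnil
    apply hDF
    rw [hD]; exact Subgroup.mem_sup_right (Subgroup.mem_zpowers y)
  have hQp : IsPGroup p (Γ ⧸ F) := by
    intro w
    obtain ⟨g, rfl⟩ := QuotientGroup.mk_surjective w
    obtain ⟨k, m, hpm, hkm⟩ := Nat.exists_eq_pow_mul_and_not_dvd (orderOf_pos g).ne' p hp.ne_one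
    refine ⟨k, ?_⟩
    rw [← QuotientGroup.mk_pow, QuotientGroup.eq_one_iff]
    apply hpF
    have hd : orderOf (g ^ (p ^ k)) ∣ m := by
      apply orderOf_dvd_of_pow_eq_one
      rw [← pow_mul, ← hkm, pow_orderOf_eq_one]
    exact Nat.Coprime.coprime_dvd_left hd ((Nat.Prime.coprime_iff_not_dvd hp).2 hpm).symm
  refine ⟨F, hFn, hFcyc, Nat.odd_iff.2 (by omega), hFp, hFbot, ?_, ?_, ?_⟩
  · intro htop
    have h1 : Nat.card F = Nat.card Γ := by rw [htop]; exact Subgroup.card_top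
    rw [h1] at hFp
    exact (Nat.Prime.coprime_iff_not_dvd hp).1 hFp.symm hpΓ
  · obtain ⟨n, hn⟩ := IsPGroup.iff_card.1 hQp
    exact ⟨n, by rw [Subgroup.index_eq_card]; exact hn⟩
  · intro x hx a ha ha1 hxa
    obtain ⟨k, m, hpm, hkm⟩ := Nat.exists_eq_pow_mul_and_not_dvd (orderOf_pos x).ne' p hp.ne_one
    have hx1 : x ^ m ≠ 1 := by
      intro h
      apply hx
      apply hpF
      exact Nat.Coprime.coprime_dvd_left (orderOf_dvd_of_pow_eq_one h)
        ((Nat.Prime.coprime_iff_not_dvd hp).2 hpm).symm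
    have hxk : (x ^ m) ^ (p ^ k) = 1 := by
      rw [← pow_mul, mul_comm, ← hkm, pow_orderOf_eq_one]
    have hap : (orderOf a).Coprime p := by
      have h1 : orderOf a ∣ Nat.card F := by
        have := orderOf_dvd_natCard (⟨a, ha⟩ : F)
        rwa [Subgroup.orderOf_mk] at this
      exact Nat.Coprime.coprime_dvd_left h1 hFp
    have hc : Commute x a := hxa
    exact hpp (x ^ m) a hx1 k hxk ha1 hap (hc.pow_left m).eq

end Cfsg.Agent.Lib.Helper8
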