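import Mathlib
import Cfsg.Agent.Lib.Helper8.CNSolv

set_option autoImplicit false
set_option linter.style.haveILetI false
universe u

namespace Cfsg.Agent.Lib.Helper8

section CN3

variable {G : Type u} [Group G] [Finite G]

/-- in a CN-group, a normal nilpotent subgroup of order divisible by two primes forces a
nontrivial normal Sylow subgroup -/
theorem h8_cn_normal_sylow_of_two (hCN : Cfsg.IsCNGroup G) (F : Subgroup G) [hFn : F.Normal]
    (hFnil : Group.IsNilpotent F) (p q : ℕ) [Fact p.Prime] [Fact q.Prime] (hpq : p ≠ q)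
    (hpF : p ∣ Nat.card F) (hqF : q ∣ Nat.card F) :
    ∃ S : Sylow p G, (S : Subgroup G) ≠ ⊥ ∧ (S : Subgroup G).Normal := by
  have hp := (Fact.out : p.Prime)
  have hq := (Fact.out : q.Prime)
  haveI := hFnil
  obtain ⟨P₀⟩ := (inferInstance : Nonempty (Sylow p F))
  obtain ⟨Q₀⟩ := (inferInstance : Nonempty (Sylow q F))
  have hP₀ne : (P₀ : Subgroup F) ≠ ⊥ := P₀.ne_bot_of_dvd_card hpF
  have hQ₀ne : (Q₀ : Subgroup F) ≠ ⊥ := Q₀.ne_bot_of_dvd_card hqF
  haveI hP₀c : (P₀ : Subgroup F).Characteristic := Sylow.characteristic_of_normal P₀ inferInstance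
  haveI hQ₀c : (Q₀ : Subgroup F).Characteristic := Sylow.characteristic_of_normal Q₀ inferInstance
  obtain ⟨P', hP'⟩ : ∃ P' : Subgroup G, P' = (P₀ : Subgroup F).map F.subtype := ⟨_, rfl⟩
  obtain ⟨Q', hQ'⟩ : ∃ Q' : Subgroup G, Q' = (Q₀ : Subgroup F).map F.subtype := ⟨_, rfl⟩
  haveI hP'n : P'.Normal := by rw [hP']; exact ConjAct.normal_of_characteristic_of_normal
  haveI hQ'n : Q'.Normal := by rw [hQ']; exact ConjAct.normal_of_characteristic_of_normal
  have hP'p : IsPGroup p P' := by rw [hP']; exact P₀.isPGroup'.map _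
  obtain ⟨S, hS⟩ := hP'p.exists_le_sylow
  haveI : (P'.subgroupOf (S : Subgroup G)).Normal := inferInstance
  have hNne : P'.subgroupOf (S : Subgroup G) ≠ ⊥ := by
    intro hbot
    obtain ⟨⟨w₀, hw₀⟩, hw₀1⟩ := (Subgroup.ne_bot_iff_exists_ne_one).1 hP₀ne
    have hw₀P : (w₀ : G) ∈ P' := by rw [hP']; exact ⟨w₀, hw₀, rfl⟩
    have h1 : (⟨(w₀ : G), hS hw₀P⟩ : (S : Subgroup G)) ∈ P'.subgroupOf (S : Subgroup G) :=
      Subgroup.mem_subgroupOf.2 hw₀P
    rw [hbot, Subgroup.mem_bot] at h1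
    have h2 : (w₀ : G) = 1 := congrArg Subtype.val h1
    exact hw₀1 (Subtype.ext (Subtype.ext h2))
  have hcen := h8_normal_inf_center_ne_bot S.isPGroup' (P'.subgroupOf (S : Subgroup G)) hNne
  obtain ⟨⟨⟨w, hwS⟩, hw⟩, hw1⟩ := (Subgroup.ne_bot_iff_exists_ne_one).1 hcen
  have hwP' : w ∈ P' := Subgroup.mem_subgroupOf.1 hw.1
  have hw1' : w ≠ 1 := fun h => hw1 (Subtype.ext (Subtype.ext h))
  have hwS' : ∀ s ∈ (S : Subgroup G), s * w = w * s := by
    intro s hs
    have := Subgroup.mem_center_iff.1 hw.2 ⟨s, hs⟩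
    exact congrArg Subtype.val this
  obtain ⟨w₀, hw₀, hw₀w⟩ : ∃ w₀ ∈ (P₀ : Subgroup F), F.subtype w₀ = w := by
    rw [hP'] at hwP'; exact hwP'
  have hCw := hCN w hw1'
  have hQw : ∀ v ∈ Q', v * w = w * v := by
    intro v hv
    rw [hQ'] at hv
    obtain ⟨v₀, hv₀, rfl⟩ := hv
    rw [← hw₀w]
    exact congrArg Subtype.val
      (h8_nilp_sylow_commute hFnil p q (Ne.symm hpq) P₀ Q₀ v₀ w₀ hv₀ hw₀)
  have hQq : ∀ v ∈ Q', (orderOf v).Coprime p := by
    intro v hv
    rw [hQ'] at hv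
    obtain ⟨v₀, hv₀, rfl⟩ := hv
    obtain ⟨k, hk⟩ := Q₀.isPGroup' ⟨v₀, hv₀⟩
    have hk' : (F.subtype v₀) ^ (q ^ k) = 1 := by
      have := congrArg (fun w : (Q₀ : Subgroup F) => ((w : F) : G)) hk
      simpa using this
    obtain ⟨j, -, hj⟩ := (Nat.dvd_prime_pow hq).1 (orderOf_dvd_of_pow_eq_one hk')
    rw [hj]
    exact Nat.Coprime.pow_left j ((Nat.coprime_primes hq hp).2 (Ne.symm hpq))
  have hSQ : ∀ s ∈ (S : Subgroup G), ∀ v ∈ Q', v * s = s * v := by
    intro s hs v hv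
    have hvC : v ∈ Subgroup.centralizer ({w} : Set G) :=
      (h8_mem_centralizer_singleton _ _).2 (hQw v hv).symm
    have hsC : s ∈ Subgroup.centralizer ({w} : Set G) :=
      (h8_mem_centralizer_singleton _ _).2 (hwS' s hs).symm
    obtain ⟨k, hk⟩ := S.isPGroup' ⟨s, hs⟩
    have hk' : s ^ (p ^ k) = 1 := by simpa using congrArg Subtype.val hk
    have h2 := h8_nilp_commute_coprime' hCw p ⟨v, hvC⟩ ⟨s, hsC⟩
      (by rw [Subgroup.orderOf_mk]; exact hQq v hv) k (Subtype.ext (by simpa using hk'))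
    exact congrArg Subtype.val h2
  obtain ⟨T, hT⟩ : ∃ T : Subgroup G, T = Subgroup.centralizer (Q' : Set G) := ⟨_, rfl⟩
  haveI hTn : T.Normal := by rw [hT]; infer_instance
  have hST : (S : Subgroup G) ≤ T := by
    intro s hs
    rw [hT, Subgroup.mem_centralizer_iff]
    intro v hv
    exact hSQ s hs v hv
  obtain ⟨⟨u₀, hu₀⟩, hu₀1⟩ := (Subgroup.ne_bot_iff_exists_ne_one).1 hQ₀ne
  have hu1 : (u₀ : G) ≠ 1 := fun h => hu₀1 (Subtype.ext (Subtype.ext h))
  have huQ' : (u₀ : G) ∈ Q' := by rw [hQ']; exact ⟨u₀, hu₀, rfl⟩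
  have hTnil : Group.IsNilpotent T := by
    apply h8_nilp_of_le (hCN (u₀ : G) hu1)
    intro t ht
    rw [hT] at ht
    rw [h8_mem_centralizer_singleton]
    exact Subgroup.mem_centralizer_iff.1 ht _ huQ'
  haveI := hTnil
  obtain ⟨R₀, hR₀⟩ :=
    (S.isPGroup'.comap_of_injective T.subtype T.subtype_injective).exists_le_sylow
  haveI hR₀c : (R₀ : Subgroup T).Characteristic := Sylow.characteristic_of_normal R₀ inferInstance
  have hRn : ((R₀ : Subgroup T).map T.subtype).Normal :=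
    ConjAct.normal_of_characteristic_of_normal
  have hRS : (R₀ : Subgroup T).map T.subtype = (S : Subgroup G) := by
    apply S.is_maximal' (R₀.isPGroup'.map T.subtype)
    intro s hs
    exact ⟨⟨s, hST hs⟩, hR₀ (Subgroup.mem_subgroupOf.2 hs), rfl⟩
  refine ⟨S, ?_, by rw [← hRS]; exact hRn⟩
  intro hb
  have h1 : w ∈ (S : Subgroup G) := hwS
  rw [hb, Subgroup.mem_bot] at h1
  exact hw1' h1

theorem h8_cn_threestep [Group.IsSolvable G] (hCN : Cfsg.IsCNGroup G) (p : ℕ) [Fact p.Prime]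
    (H : Subgroup G) [hHn : H.Normal] (hHp : IsPGroup p H) (hH1 : H ≠ ⊥)
    (hCH : Subgroup.centralizer (H : Set G) ≤ H)
    (hHmax : ∀ N : Subgroup G, N.Normal → IsPGroup p N → N ≤ H) (hpI : p ∣ H.index) :
    ∃ A : Subgroup G, A ≠ ⊥ ∧ IsCyclic A ∧ Odd (Nat.card A) ∧ (Nat.card A).Coprime p ∧
      (H ⊔ A).Normal ∧ H ⊔ A ≠ ⊤ ∧ (∃ n : ℕ, (H ⊔ A).index = p ^ n) ∧
      (∀ a ∈ A, a ≠ 1 → H ⊓ Subgroup.centralizer ({a} : Set G) = ⊥) ∧
      ∀ x : G, x ∉ H ⊔ A → ∀ a ∈ A, a ≠ 1 → x * a * x⁻¹ * a⁻¹ ∉ H := by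
  have hpΓ : p ∣ Nat.card (G ⧸ H) := by rw [← Subgroup.index_eq_card]; exact hpI
  obtain ⟨Ā, hĀn, hĀcyc, hĀodd, hĀp, hĀbot, hĀtop, ⟨n, hn⟩, hĀfrob⟩ :=
    h8_threestep_quot (Γ := G ⧸ H) p (h8_pcore_quot_bot p H hHp hHmax)
      (fun D hD => h8_cn2_quot_sub hCN p H hHp hH1 hCH D hD)
      (fun x y hx1 k hxk hy1 hyp => h8_cn2_quot_pp hCN p H hHp hH1 hCH x y hx1 k hxk hy1 hyp)
      hpΓ
  obtain ⟨A, hdis, hmap⟩ := h8_lift_pprime H p hHp Ā hĀp
  have hcard : Nat.card A = Nat.card Ā := by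
    rw [← hmap]; exact (h8_lift_card H A hdis).symm
  have hmemĀ : ∀ a ∈ A, (QuotientGroup.mk' H) a ∈ Ā := by
    intro a ha; rw [← hmap]; exact ⟨a, ha, rfl⟩
  have hK : H ⊔ A = Ā.comap (QuotientGroup.mk' H) := by
    apply le_antisymm
    · apply sup_le
      · intro h hh
        rw [Subgroup.mem_comap]
        have h1 : QuotientGroup.mk' H h = 1 := (QuotientGroup.eq_one_iff h).2 hh
        rw [h1]; exact Ā.one_mem
      · intro a ha
        exact Subgroup.mem_comap.2 (hmemĀ a ha)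
    · intro g hg
      rw [Subgroup.mem_comap, ← hmap] at hg
      obtain ⟨a, ha, hag⟩ := hg
      have hag' : (QuotientGroup.mk a : G ⧸ H) = QuotientGroup.mk g := hag
      have h1 : a⁻¹ * g ∈ H := by
        rw [← QuotientGroup.eq_one_iff, QuotientGroup.mk_mul, QuotientGroup.mk_inv, hag',
          inv_mul_cancel]
      have h2 : g = a * (a⁻¹ * g) := by group
      rw [h2]
      exact Subgroup.mul_mem _ (Subgroup.mem_sup_right ha) (Subgroup.mem_sup_left h1)
  have hAp : ∀ a ∈ A, (orderOf a).Coprime p := by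
    intro a ha
    have h1 : orderOf a ∣ Nat.card A := by
      have := orderOf_dvd_natCard (⟨a, ha⟩ : A)
      rwa [Subgroup.orderOf_mk] at this
    rw [hcard] at h1
    exact Nat.Coprime.coprime_dvd_left h1 hĀp
  refine ⟨A, ?_, ?_, ?_, ?_, ?_, ?_, ?_, ?_, ?_⟩
  · intro hb
    apply hĀbot
    rw [← hmap, hb, Subgroup.map_bot]
  · have hcyc' : IsCyclic (A.map (QuotientGroup.mk' H)) := by rw [hmap]; exact hĀcyc
    refine isCyclic_of_injective ((QuotientGroup.mk' H).subgroupMap A) ?_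
    intro a b hab
    have h1 : (QuotientGroup.mk' H) (a : G) = (QuotientGroup.mk' H) (b : G) :=
      congrArg Subtype.val hab
    exact Subtype.ext (h8_lift_inj H A hdis a b a.2 b.2 h1)
  · rw [hcard]; exact hĀodd
  · rw [hcard]; exact hĀp
  · rw [hK]; exact hĀn.comap _
  · rw [hK]
    intro h
    apply hĀtop
    rw [eq_top_iff]
    intro y _
    obtain ⟨g, rfl⟩ := QuotientGroup.mk_surjective y
    have h1 : g ∈ Ā.comap (QuotientGroup.mk' H) := by rw [h]; exact Subgroup.mem_top g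
    exact h1
  · refine ⟨n, ?_⟩
    rw [hK, Subgroup.index_comap_of_surjective _ (QuotientGroup.mk'_surjective H)]
    exact hn
  · intro a ha ha1
    exact h8_cn2_fpf hCN p H hHp hH1 hCH a ha1 (hAp a ha)
  · intro x hx a ha ha1 hmem
    have hx' : (QuotientGroup.mk' H) x ∉ Ā := by
      intro h
      apply hx
      rw [hK]; exact Subgroup.mem_comap.2 h
    have ha' : (QuotientGroup.mk' H) a ≠ 1 := by
      intro h
      have h1 : a ∈ H := (QuotientGroup.eq_one_iff a).1 h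
      have h2 : a ∈ A ⊓ H := Subgroup.mem_inf.2 ⟨ha, h1⟩
      rw [hdis, Subgroup.mem_bot] at h2
      exact ha1 h2
    apply hĀfrob _ hx' _ (hmemĀ a ha) ha'
    have h3 : (QuotientGroup.mk' H) (x * a * x⁻¹ * a⁻¹) = 1 :=
      (QuotientGroup.eq_one_iff _).2 hmem
    rw [map_mul, map_mul, map_mul, map_inv, map_inv] at h3
    calc (QuotientGroup.mk' H) x * (QuotientGroup.mk' H) a
        = ((QuotientGroup.mk' H) x * (QuotientGroup.mk' H) a * ((QuotientGroup.mk' H) x)⁻¹ *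
            ((QuotientGroup.mk' H) a)⁻¹) * ((QuotientGroup.mk' H) a * (QuotientGroup.mk' H) x) := by
          group
      _ = (QuotientGroup.mk' H) a * (QuotientGroup.mk' H) x := by rw [h3, one_mul]

theorem h8_s1476 [Group.IsSolvable G] (hCN : Cfsg.IsCNGroup G) :
    Group.IsNilpotent G ∨
      (∃ K E : Subgroup G, K.Normal ∧ Subgroup.IsComplement' K E ∧
        Cfsg.IsFrobeniusComplement E ∧
        (IsCyclic E ∨ ∃ C Q : Subgroup G, C ⊔ Q = E ∧ (∀ a ∈ C, ∀ b ∈ Q, a * b = b * a) ∧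
          IsCyclic C ∧ Odd (Nat.card C) ∧
          ∃ n : ℕ, Nonempty (↥Q ≃* QuaternionGroup (2 ^ n)))) ∨
      ∃ p : ℕ, p.Prime ∧ Cfsg.IsThreeStepGroup p G := by
  by_cases hnil : Group.IsNilpotent G
  · exact Or.inl hnil
  right
  by_cases hS : ∃ (p : ℕ) (_ : Fact p.Prime) (P : Sylow p G),
      (P : Subgroup G) ≠ ⊥ ∧ (P : Subgroup G).Normal
  · left
    obtain ⟨p, hp, P, hP1, hPn⟩ := hS
    obtain ⟨hKbot, hKtop, ⟨E, hc, hEfrob, hfpf⟩, -⟩ := h8_s1474 hCN hnil p P hP1 hPn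
    have hEbot : E ≠ ⊥ := hEfrob.1
    have hEnil : Group.IsNilpotent E := by
      have hcen := h8_s0069 (Cfsg.fittingHall G) E hKbot hEbot hfpf
      obtain ⟨⟨z, hz⟩, hz1⟩ := (Subgroup.ne_bot_iff_exists_ne_one).1 hcen
      have hz1' : (z : G) ≠ 1 := fun h => hz1 (Subtype.ext (Subtype.ext h))
      apply h8_nilp_of_le (hCN (z : G) hz1')
      intro e he
      rw [h8_mem_centralizer_singleton]
      have := Subgroup.mem_center_iff.1 hz ⟨e, he⟩
      exact (congrArg Subtype.val this).symm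
    have hha := h8_frob_ha (Cfsg.fittingHall G) E hKbot hfpf
    refine ⟨Cfsg.fittingHall G, E, inferInstance, hc, hEfrob, ?_⟩
    rcases h8_nilp_ha_structure hEnil hha with hcyc | ⟨C, Q, hCQ, hcomm, hCcyc, hCodd, n, ⟨e⟩⟩
    · exact Or.inl hcyc
    · right
      refine ⟨C.map E.subtype, Q.map E.subtype, ?_, ?_, ?_, ?_, n, ⟨?_⟩⟩
      · rw [← Subgroup.map_sup, hCQ, ← MonoidHom.range_eq_map, Subgroup.range_subtype]
      · rintro _ ⟨a, ha, rfl⟩ _ ⟨b, hb, rfl⟩
        exact congrArg Subtype.val (hcomm a ha b hb)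
      · haveI := hCcyc
        exact isCyclic_of_surjective
          (C.equivMapOfInjective E.subtype E.subtype_injective).toMonoidHom
          (MulEquiv.surjective _)
      · rw [Subgroup.card_map_of_injective E.subtype_injective]; exact hCodd
      · exact (Q.equivMapOfInjective E.subtype E.subtype_injective).symm.trans e
  · right
    obtain ⟨F, hF⟩ : ∃ F : Subgroup G, F = Cfsg.fittingSubgroup G := ⟨_, rfl⟩
    haveI hFn : F.Normal := by rw [hF]; exact Cfsg.Agent.Lib.Helper7.fitting_normal G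
    have hFnil : Group.IsNilpotent F := by
      rw [hF]; exact Cfsg.Agent.Lib.Helper7.fitting_isNilpotent G
    have hCF : Subgroup.centralizer (F : Set G) ≤ F := by
      rw [hF]; exact Cfsg.Agent.S0044.result
    have hFbot : F ≠ ⊥ := by
      intro hb
      apply hnil
      have htop : ∀ g : G, g = 1 := by
        intro g
        have hg : g ∈ Subgroup.centralizer (F : Set G) := by
          rw [Subgroup.mem_centralizer_iff]
          intro f hf
          have hf' : f ∈ F := hf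
          rw [hb, Subgroup.mem_bot] at hf'
          rw [hf', one_mul, mul_one]
        have h1 := hCF hg
        rw [hb, Subgroup.mem_bot] at h1
        exact h1
      haveI : Subsingleton G := ⟨fun a b => by rw [htop a, htop b]⟩
      infer_instance
    have hF1 : Nat.card F ≠ 1 := fun h => hFbot (Subgroup.card_eq_one.1 h)
    obtain ⟨p, hp, hpF⟩ := Nat.exists_prime_and_dvd hF1
    haveI : Fact p.Prime := ⟨hp⟩
    have hFp : IsPGroup p F := by
      by_contra hnp
      obtain ⟨q, hq, hqF, hqp⟩ : ∃ q, q.Prime ∧ q ∣ Nat.card F ∧ q ≠ p := by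
        by_contra hcon
        push Not at hcon
        apply hnp
        have h1 := Nat.eq_prime_pow_of_unique_prime_dvd (p := p) Nat.card_pos.ne'
          (fun {d} hd hdF => hcon d hd hdF)
        exact IsPGroup.of_card h1
      haveI : Fact q.Prime := ⟨hq⟩
      obtain ⟨S, hS1, hS2⟩ := h8_cn_normal_sylow_of_two hCN F hFnil p q (Ne.symm hqp) hpF hqF
      exact hS ⟨p, inferInstance, S, hS1, hS2⟩
    obtain ⟨H, hH⟩ : ∃ H : Subgroup G, H = Cfsg.pCore p G := ⟨_, rfl⟩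
    haveI hHn : H.Normal := by rw [hH]; exact Cfsg.Agent.Lib.Helper7.pCore_normal p G
    have hHp : IsPGroup p H := by rw [hH]; exact Cfsg.Agent.Lib.Helper7.pCore_isPGroup p G
    have hHmax : ∀ N : Subgroup G, N.Normal → IsPGroup p N → N ≤ H := by
      intro N h1 h2; rw [hH]; exact Cfsg.Agent.Lib.Helper7.le_pCore h1 h2
    have hFH : F ≤ H := hHmax F hFn hFp
    have hH1 : H ≠ ⊥ := by
      intro hb
      rw [hb] at hFH
      exact hFbot (le_bot_iff.1 hFH)
    have hCH : Subgroup.centralizer (H : Set G) ≤ H :=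
      (Subgroup.centralizer_le hFH).trans (hCF.trans hFH)
    have hpI : p ∣ H.index := by
      by_contra hnd
      apply hS
      refine ⟨p, inferInstance, hHp.toSylow hnd, ?_, ?_⟩
      · rw [IsPGroup.toSylow_coe]; exact hH1
      · rw [IsPGroup.toSylow_coe]; exact hHn
    obtain ⟨A, h1, h2, h3, h4, h5, h6, h7, h8, h9⟩ :=
      h8_cn_threestep hCN p H hHp hH1 hCH hHmax hpI
    subst hH
    exact ⟨p, hp, hH1, A, h1, h2, h3, h4, h5, h6, h7, h8, h9⟩

end CN3

end Cfsg.Agent.Lib.Helper8
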