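import Mathlib.GroupTheory.PGroup
import Mathlib.GroupTheory.Commutator.Basic
import Mathlib.Tactic
import Cfsg.Agent.Lib.Helper8.Subnormal
import Cfsg.Agent.Lib.Helper8.PGroupNormal

/-! Commutator subgroups `⁅A, B⁆`: normalized by `A` and `B`; order-`p` subgroups of `p`-groups are
centralized by their normalizer. -/

set_option autoImplicit false

namespace Cfsg.Agent.Lib.Helper8

open scoped commutatorElement

variable {G : Type*} [Group G]

theorem h8_le_normalizer_commutator_left (A B : Subgroup G) :
    A ≤ Subgroup.normalizer ((⁅A, B⁆ : Subgroup G) : Set G) := by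
  apply h8_le_normalizer_of_map_conj_le
  intro a' ha'
  rw [Subgroup.map_commutator, Subgroup.commutator_le]
  intro x hx y hy
  rw [h8_mem_map_conj] at hx hy
  have e : ⁅x, y⁆ = ⁅a' * (a'⁻¹ * x * a'), a'⁻¹ * y * a'⁆ * ⁅a', a'⁻¹ * y * a'⁆⁻¹ := by
    rw [commutatorElement_def, commutatorElement_def, commutatorElement_def]; group
  rw [e]
  exact Subgroup.mul_mem _ (Subgroup.commutator_mem_commutator (A.mul_mem ha' hx) hy)
    (Subgroup.inv_mem _ (Subgroup.commutator_mem_commutator ha' hy))

theorem h8_le_normalizer_commutator_right (A B : Subgroup G) :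
    B ≤ Subgroup.normalizer ((⁅A, B⁆ : Subgroup G) : Set G) := by
  rw [Subgroup.commutator_comm]
  exact h8_le_normalizer_commutator_left B A

/-- in a finite `p`-group, a subgroup of order `p` is centralized by its normalizer -/
theorem h8_normalizer_le_centralizer_of_card_prime [Finite G] {p : ℕ} [Fact p.Prime]
    (hG : IsPGroup p G) (Z : Subgroup G) (hZ : Nat.card Z = p) :
    Subgroup.normalizer (Z : Set G) ≤ Subgroup.centralizer (Z : Set G) := by
  set N := Subgroup.normalizer (Z : Set G) with hN
  have hZN : Z ≤ N := Subgroup.le_normalizer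
  have hn : (Z.subgroupOf N).Normal := Subgroup.normal_in_normalizer
  have hcard : Nat.card (Z.subgroupOf N) = p := by
    rw [Nat.card_congr (Subgroup.subgroupOfEquivOfLe hZN).toEquiv]; exact hZ
  have hc := h8_normal_card_prime_le_center (hG.to_subgroup N) (Z.subgroupOf N) hcard
  intro x hx
  rw [Subgroup.mem_centralizer_iff]
  intro z hz
  have h1 : (⟨z, hZN hz⟩ : ↥N) ∈ Z.subgroupOf N := by
    rw [Subgroup.mem_subgroupOf]; exact hz
  have h2 := Subgroup.mem_center_iff.1 (hc h1) ⟨x, hx⟩
  exact (congrArg Subtype.val h2).symm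

end Cfsg.Agent.Lib.Helper8
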