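import Mathlib
import Cfsg.Prelude.Def_Transfer
import Cfsg.Agent.Lib.Helper2.Frobenius
import Cfsg.Agent.Lib.Helper7.Compl
import Cfsg.Agent.Lib.Helper7.PCore
import Cfsg.Agent.Lib.Helper8.PElem
import Cfsg.Agent.Lib.Helper8.AbelianSylowNPC

set_option autoImplicit false

namespace Cfsg.Agent.Lib.Helper8

open scoped Pointwise
open Cfsg.Agent.Lib.Helper7

universe u

/-- if `y = [s, x]` is fixed by `s` and has order coprime to that of `s` then `s` centralizes
`x` -/
theorem h8_conj_eq_of_comm_fixed {G : Type u} [Group G] (s x : G) (N : ℕ)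
    (hfix : s * (s * x * s⁻¹ * x⁻¹) * s⁻¹ = s * x * s⁻¹ * x⁻¹)
    (hN : (s * x * s⁻¹ * x⁻¹) ^ N = 1) (hcop : (orderOf s).Coprime N) : s * x * s⁻¹ = x := by
  have hj : ∀ j : ℕ, s ^ j * x * (s ^ j)⁻¹ = (s * x * s⁻¹ * x⁻¹) ^ j * x := by
    intro j
    induction j with
    | zero => simp
    | succ j ihj =>
      have e0 : s ^ (j + 1) * x * (s ^ (j + 1))⁻¹ = s * (s ^ j * x * (s ^ j)⁻¹) * s⁻¹ := by
        rw [pow_succ']; group
      have e1 : s * ((s * x * s⁻¹ * x⁻¹) ^ j * x) * s⁻¹ =
          (s * (s * x * s⁻¹ * x⁻¹) * s⁻¹) ^ j * (s * x * s⁻¹) := by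
        rw [conj_pow]; group
      have e2 : s * x * s⁻¹ = (s * x * s⁻¹ * x⁻¹) * x := by group
      rw [e0, ihj, e1, hfix, pow_succ, mul_assoc ((s * x * s⁻¹ * x⁻¹) ^ j), ← e2]
  have h1 := hj (orderOf s)
  rw [pow_orderOf_eq_one] at h1
  simp only [one_mul, inv_one, mul_one] at h1
  have h2 : (s * x * s⁻¹ * x⁻¹) ^ orderOf s = 1 := by
    have : (s * x * s⁻¹ * x⁻¹) ^ orderOf s * x = 1 * x := by rw [one_mul]; exact h1.symm
    exact mul_right_cancel this
  have h3 : s * x * s⁻¹ * x⁻¹ = 1 := by
    have := pow_gcd_eq_one.2 ⟨h2, hN⟩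
    rw [hcop.gcd_eq_one, pow_one] at this
    exact this
  calc s * x * s⁻¹ = (s * x * s⁻¹ * x⁻¹) * x := by group
    _ = x := by rw [h3, one_mul]

theorem h8_index_two_of_card {G : Type u} [Group G] [Finite G] {D Q : Subgroup G} (hle : D ≤ Q)
    (hcard : Nat.card Q = 2 * Nat.card D) : (D.subgroupOf Q).index = 2 := by
  have h1 := (D.subgroupOf Q).card_mul_index
  rw [card_subgroupOf_of_le hle, hcard] at h1
  have : Nat.card D * (D.subgroupOf Q).index = Nat.card D * 2 := by rw [h1, mul_comm]
  exact Nat.eq_of_mul_eq_mul_left Nat.card_pos this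

theorem h8_sq_mem_of_card {G : Type u} [Group G] [Finite G] {D Q : Subgroup G} (hle : D ≤ Q)
    (hcard : Nat.card Q = 2 * Nat.card D) {x : G} (hx : x ∈ Q) : x ^ 2 ∈ D := by
  have := Subgroup.sq_mem_of_index_two (h8_index_two_of_card hle hcard) (⟨x, hx⟩ : Q)
  rw [Subgroup.mem_subgroupOf] at this
  simpa using this

theorem h8_mul_inv_mem_of_card {G : Type u} [Group G] [Finite G] {D Q : Subgroup G}
    (hle : D ≤ Q) (hcard : Nat.card Q = 2 * Nat.card D) {x y : G} (hx : x ∈ Q) (hy : y ∈ Q)
    (hxD : x ∉ D) (hyD : y ∉ D) : x * y⁻¹ ∈ D := by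
  have := (Subgroup.mul_mem_iff_of_index_two (h8_index_two_of_card hle hcard)
    (a := (⟨x, hx⟩ : Q)) (b := (⟨y, hy⟩ : Q)⁻¹)).2 (by
      rw [Subgroup.mem_subgroupOf, Subgroup.mem_subgroupOf]
      constructor
      · intro h; exact absurd h hxD
      · intro h
        exfalso
        apply hyD
        have h' : (y⁻¹ : G) ∈ D := h
        simpa using D.inv_mem h')
  rw [Subgroup.mem_subgroupOf] at this
  simpa using this

/-- among four subgroups of index `2` containing a common subgroup of index at most `4`, two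
coincide -/
theorem h8_four_subgroups {G : Type u} [Group G] [Finite G] (Q Z : Subgroup G)
    (E : ℕ → Subgroup G) (d : ℕ) (hQ : Nat.card Q = 2 * d) (hEQ : ∀ i, E i ≤ Q)
    (hEc : ∀ i, Nat.card (E i) = d) (hZE : ∀ i, Z ≤ E i) (hz : d ≤ 2 * Nat.card Z) :
    ∃ i j, i < j ∧ j < 4 ∧ E i = E j := by
  classical
  by_contra hall
  push Not at hall
  have hne : ∀ i j, i < 4 → j < 4 → i ≠ j → E i ≠ E j := by
    intro i j hi hj hij
    rcases Nat.lt_or_ge i j with h | h
    · exact hall i j h hj
    · exact fun heq => hall j i (lt_of_le_of_ne h (Ne.symm hij)) hi heq.symm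
  have hzpos : 0 < Nat.card Z := Nat.card_pos
  have hprop : ∀ i j, i < 4 → j < 4 → i ≠ j → E i ⊓ E j = Z ∧ 2 * Nat.card Z ≤ d := by
    intro i j hi hj hij
    have hlt : E i ⊓ E j ≠ E i := by
      intro heq
      have hle : E i ≤ E j := by rw [← heq]; exact inf_le_right
      exact hne i j hi hj hij (Subgroup.eq_of_le_of_card_ge hle (by rw [hEc, hEc]))
    obtain ⟨k, hk⟩ := Subgroup.card_dvd_of_le (inf_le_left : E i ⊓ E j ≤ E i)
    rw [hEc] at hk
    have hk2 : 2 ≤ k := by
      by_contra hcon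
      have hk01 : k = 0 ∨ k = 1 := by omega
      rcases hk01 with rfl | rfl
      · rw [mul_zero] at hk
        have := hEc i
        rw [hk] at this
        exact (Nat.card_pos (α := E i)).ne' this
      · rw [mul_one] at hk
        exact hlt (Subgroup.eq_of_le_of_card_ge inf_le_left (by rw [hEc, hk]))
    have h2 : 2 * Nat.card (E i ⊓ E j : Subgroup G) ≤ d := by
      rw [hk, mul_comm]
      exact Nat.mul_le_mul_left _ hk2
    have hcard : Nat.card (E i ⊓ E j : Subgroup G) ≤ Nat.card Z := by omega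
    have heq := (Subgroup.eq_of_le_of_card_ge (le_inf (hZE i) (hZE j)) hcard).symm
    exact ⟨heq, by rw [← heq]; exact h2⟩
  have : Fintype G := Fintype.ofFinite G
  let F : ℕ → Finset G := fun i => Finset.univ.filter (fun x : G => x ∈ E i ∧ x ∉ Z)
  have hcardfilter : ∀ H : Subgroup G,
      (Finset.univ.filter (fun x : G => x ∈ H)).card = Nat.card H := by
    intro H
    rw [Nat.card_eq_fintype_card, Fintype.card_subtype]
  have hFcard : ∀ H : Subgroup G, Z ≤ H →
      (Finset.univ.filter (fun x : G => x ∈ H ∧ x ∉ Z)).card = Nat.card H - Nat.card Z := by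
    intro H hZH
    have e : Finset.univ.filter (fun x : G => x ∈ H ∧ x ∉ Z) =
        Finset.univ.filter (fun x : G => x ∈ H) \ Finset.univ.filter (fun x : G => x ∈ Z) := by
      ext x; simp
    rw [e, Finset.card_sdiff_of_subset (by
      intro x hx
      simp only [Finset.mem_filter, Finset.mem_univ, true_and] at hx ⊢
      exact hZH hx), hcardfilter, hcardfilter]
  have hdisj : ((Finset.range 4 : Finset ℕ) : Set ℕ).PairwiseDisjoint F := by
    intro i hi j hj hij
    rw [Function.onFun, Finset.disjoint_left]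
    intro x hxi hxj
    simp only [F, Finset.mem_filter, Finset.mem_univ, true_and] at hxi hxj
    have hmem : x ∈ E i ⊓ E j := ⟨hxi.1, hxj.1⟩
    rw [(hprop i j (Finset.mem_range.1 hi) (Finset.mem_range.1 hj) hij).1] at hmem
    exact hxi.2 hmem
  have hunion := Finset.card_biUnion hdisj
  have hsub : (Finset.range 4).biUnion F ⊆ Finset.univ.filter (fun x : G => x ∈ Q ∧ x ∉ Z) := by
    intro x hx
    rw [Finset.mem_biUnion] at hx
    obtain ⟨i, _, hxi⟩ := hx
    simp only [F, Finset.mem_filter, Finset.mem_univ, true_and] at hxi ⊢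
    exact ⟨hEQ i hxi.1, hxi.2⟩
  have hle := Finset.card_le_card hsub
  rw [hunion, hFcard Q ((hZE 0).trans (hEQ 0)), hQ] at hle
  have hsum : ∑ i ∈ Finset.range 4, (F i).card = 4 * (d - Nat.card Z) := by
    rw [Finset.sum_congr rfl (fun i _ => (hFcard (E i) (hZE i)).trans (by rw [hEc]))]
    simp
  rw [hsum] at hle
  have h2 := (hprop 0 1 (by norm_num) (by norm_num) (by norm_num)).2
  omega

theorem h8_cyclic_involution_unique {G : Type u} [Group G] [Finite G] (c x y : G)
    (hx : x ∈ Subgroup.zpowers c) (hy : y ∈ Subgroup.zpowers c) (hx2 : x ^ 2 = 1)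
    (hy2 : y ^ 2 = 1) (hx1 : x ≠ 1) (hy1 : y ≠ 1) : x = y := by
  classical
  by_contra hne
  have : Fintype (Subgroup.zpowers c) := Fintype.ofFinite _
  have h := IsCyclic.card_pow_eq_one_le (α := Subgroup.zpowers c) (n := 2) (by norm_num)
  have hsub : ({1, ⟨x, hx⟩, ⟨y, hy⟩} : Finset (Subgroup.zpowers c)) ⊆
      Finset.univ.filter (fun a : Subgroup.zpowers c => a ^ 2 = 1) := by
    intro a ha
    simp only [Finset.mem_insert, Finset.mem_singleton] at ha
    simp only [Finset.mem_filter, Finset.mem_univ, true_and]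
    rcases ha with rfl | rfl | rfl
    · exact one_pow 2
    · exact Subtype.ext hx2
    · exact Subtype.ext hy2
  have hcard : ({1, ⟨x, hx⟩, ⟨y, hy⟩} : Finset (Subgroup.zpowers c)).card = 3 := by
    rw [Finset.card_insert_of_notMem, Finset.card_insert_of_notMem, Finset.card_singleton]
    · simp only [Finset.mem_singleton]
      intro h
      exact hne (congrArg Subtype.val h)
    · simp only [Finset.mem_insert, Finset.mem_singleton]
      rintro (h | h)
      · exact hx1 (congrArg Subtype.val h).symm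
      · exact hy1 (congrArg Subtype.val h).symm
  have := Finset.card_le_card hsub
  omega

/-- an element of order coprime to `6` normalizing a `2`-group with a cyclic subgroup of index
at most `2` centralizes it -/
theorem h8_centralizes_of_cyclic_index_two {G : Type u} [Group G] [Finite G] (Q : Subgroup G)
    (hQ : IsPGroup 2 Q) (c : G) (hc : c ∈ Q) (hcard : Nat.card Q ≤ 2 * orderOf c) (g : G)
    (hg : g ∈ Subgroup.normalizer (Q : Set G)) (hg6 : (orderOf g).Coprime 6) :
    g ∈ Subgroup.centralizer (Q : Set G) := by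
  classical
  have hg2 : (orderOf g).Coprime 2 := Nat.Coprime.coprime_dvd_right (by norm_num : 2 ∣ 6) hg6
  have hg3 : (orderOf g).Coprime 3 := Nat.Coprime.coprime_dvd_right (by norm_num : 3 ∣ 6) hg6
  have hDQ : Subgroup.zpowers c ≤ Q := by rw [Subgroup.zpowers_le]; exact hc
  have hDcard : Nat.card (Subgroup.zpowers c) = orderOf c := Nat.card_zpowers c
  have hgQ : ∀ (k : ℕ) (x : G), x ∈ Q → g ^ k * x * (g ^ k)⁻¹ ∈ Q := by
    intro k x hx
    have : g ^ k ∈ Subgroup.normalizer (Q : Set G) := Subgroup.pow_mem _ hg k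
    exact (Subgroup.mem_normalizer_iff.1 this x).1 hx
  have hQpow : ∀ y ∈ Q, ∃ k : ℕ, y ^ (2 ^ k) = 1 := by
    intro y hy
    obtain ⟨k, hk⟩ := hQ ⟨y, hy⟩
    exact ⟨k, by have := congrArg Subtype.val hk; simpa using this⟩
  have hcases : Nat.card Q = Nat.card (Subgroup.zpowers c) ∨
      Nat.card Q = 2 * Nat.card (Subgroup.zpowers c) := by
    obtain ⟨m, hm⟩ := Subgroup.card_dvd_of_le hDQ
    have hDpos : 0 < Nat.card (Subgroup.zpowers c) := Nat.card_pos
    have hm2 : m ≤ 2 := by
      by_contra hcon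
      have h3 : 3 ≤ m := by omega
      rw [hm, hDcard] at hcard
      nlinarith [orderOf_pos c]
    have hm0 : m ≠ 0 := by
      rintro rfl
      rw [mul_zero] at hm
      exact (Nat.card_pos (α := Q)).ne' hm
    have hm12 : m = 1 ∨ m = 2 := by omega
    rcases hm12 with rfl | rfl
    · left; rw [hm, mul_one]
    · right; rw [hm, mul_comm]
  have hfinish : (∀ x ∈ Subgroup.zpowers c, g * x * g⁻¹ ∈ Subgroup.zpowers c) →
      g ∈ Subgroup.centralizer (Q : Set G) := by
    intro hgD
    have hDab : ∀ x ∈ Subgroup.zpowers c, ∀ y ∈ Subgroup.zpowers c, x * y = y * x := by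
      intro x hx y hy
      obtain ⟨i, rfl⟩ := Subgroup.mem_zpowers_iff.1 hx
      obtain ⟨j, rfl⟩ := Subgroup.mem_zpowers_iff.1 hy
      exact (Commute.zpow_zpow_self c i j).eq
    have hDp : IsPGroup 2 (Subgroup.zpowers c) := hQ.to_le hDQ
    have hgcD : ∀ x ∈ Subgroup.zpowers c, g * x * g⁻¹ = x := by
      apply h8_centralizes_of_omega (Subgroup.zpowers c) hDp hDab g hgD hg2
      intro x hx hx2
      by_cases hx1 : x = 1
      · rw [hx1]; group
      · symm
        apply h8_cyclic_involution_unique c x (g * x * g⁻¹) hx (hgD x hx) hx2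
          (by rw [conj_pow, hx2]; group) hx1
        intro h
        exact hx1 (conj_eq_one_iff.1 h)
    rw [Subgroup.mem_centralizer_iff]
    intro y hy
    have hconj : g * y * g⁻¹ = y := by
      by_cases hyD : y ∈ Subgroup.zpowers c
      · exact hgcD y hyD
      · have hcard2 : Nat.card Q = 2 * Nat.card (Subgroup.zpowers c) := by
          rcases hcases with h | h
          · exfalso
            apply hyD
            have : Subgroup.zpowers c = Q := Subgroup.eq_of_le_of_card_ge hDQ (by rw [h])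
            rw [this]; exact hy
          · exact h
        have hgy : g * y * g⁻¹ ∈ Q := by simpa using hgQ 1 y hy
        have hgyD : g * y * g⁻¹ ∉ Subgroup.zpowers c := by
          intro h
          apply hyD
          have h2 : g * (g * y * g⁻¹) * g⁻¹ = g * y * g⁻¹ := hgcD _ h
          have h4 : g⁻¹ * (g * (g * y * g⁻¹) * g⁻¹) * g = g⁻¹ * (g * y * g⁻¹) * g := by rw [h2]
          have h3 : g * y * g⁻¹ = y := by simpa [mul_assoc] using h4
          rw [← h3]; exact h
        have hd : g * y * g⁻¹ * y⁻¹ ∈ Subgroup.zpowers c :=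
          h8_mul_inv_mem_of_card hDQ hcard2 hgy hy hgyD hyD
        obtain ⟨k, hk⟩ := hQpow _ (hDQ hd)
        exact h8_conj_eq_of_comm_fixed g y (2 ^ k) (hgcD _ hd) hk (Nat.Coprime.pow_right k hg2)
    calc y * g = (g * y * g⁻¹) * g := by rw [hconj]
      _ = g * y := by group
  apply hfinish
  rcases hcases with hm1 | hcard2
  · have hDeq : Subgroup.zpowers c = Q := Subgroup.eq_of_le_of_card_ge hDQ (by rw [hm1])
    intro x hx
    rw [hDeq] at hx ⊢
    simpa using hgQ 1 x hx
  · have hEQ : ∀ i : ℕ, MulAut.conj (g ^ i) • Subgroup.zpowers c ≤ Q := by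
      intro i x hx
      rw [mem_conj_smul_iff] at hx
      have h1 := hgQ i _ (hDQ hx)
      have h2 : g ^ i * ((g ^ i)⁻¹ * x * g ^ i) * (g ^ i)⁻¹ = x := by group
      rwa [h2] at h1
    have hEc : ∀ i : ℕ, Nat.card (MulAut.conj (g ^ i) • Subgroup.zpowers c : Subgroup G) =
        Nat.card (Subgroup.zpowers c) := fun i => card_conj_smul _ _
    have hZE : ∀ i : ℕ, Subgroup.zpowers (c ^ 2) ≤ MulAut.conj (g ^ i) • Subgroup.zpowers c := by
      intro i
      rw [Subgroup.zpowers_le]
      exact h8_sq_mem_of_card (hEQ i) (by rw [hEc i]; exact hcard2) hc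
    have hz : Nat.card (Subgroup.zpowers c) ≤ 2 * Nat.card (Subgroup.zpowers (c ^ 2)) := by
      rw [Nat.card_zpowers, Nat.card_zpowers, orderOf_pow]
      obtain ⟨γ, hγ⟩ : ∃ γ, γ = Nat.gcd (orderOf c) 2 := ⟨_, rfl⟩
      rw [← hγ]
      have hgd : γ ∣ 2 := hγ ▸ Nat.gcd_dvd_right _ _
      have hgd' : γ ∣ orderOf c := hγ ▸ Nat.gcd_dvd_left _ _
      have hle : γ ≤ 2 := Nat.le_of_dvd (by norm_num) hgd
      have hgpos : 0 < γ := Nat.pos_of_dvd_of_pos hgd (by norm_num)
      obtain ⟨w, hw⟩ := hgd'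
      have hdiv : orderOf c / γ = w := Nat.div_eq_of_eq_mul_right hgpos hw
      rw [hdiv, hw]
      exact Nat.mul_le_mul_right w hle
    obtain ⟨i, j, hij, hj4, hEij⟩ := h8_four_subgroups Q (Subgroup.zpowers (c ^ 2))
      (fun i => MulAut.conj (g ^ i) • Subgroup.zpowers c) (Nat.card (Subgroup.zpowers c))
      hcard2 hEQ hEc hZE hz
    have ht : MulAut.conj (g ^ (j - i)) • Subgroup.zpowers c = Subgroup.zpowers c := by
      have h1 : MulAut.conj (g ^ j) • Subgroup.zpowers c =
          MulAut.conj (g ^ i) • MulAut.conj (g ^ (j - i)) • Subgroup.zpowers c := by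
        rw [conj_smul_conj_smul, ← pow_add]
        have e : i + (j - i) = j := by omega
        rw [e]
      have h2 : MulAut.conj (g ^ i) • Subgroup.zpowers c =
          MulAut.conj (g ^ i) • MulAut.conj (g ^ (j - i)) • Subgroup.zpowers c :=
        hEij.trans h1
      exact (smul_left_cancel _ h2).symm
    have htc : Nat.Coprime (j - i) (orderOf g) := by
      have h123 : j - i = 1 ∨ j - i = 2 ∨ j - i = 3 := by omega
      rcases h123 with h | h | h <;> rw [h]
      · exact Nat.coprime_one_left _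
      · exact hg2.symm
      · exact hg3.symm
    obtain ⟨u, hu⟩ := exists_pow_eq_self_of_coprime htc
    have hpowD : ∀ (v : ℕ) (x : G), x ∈ Subgroup.zpowers c →
        (g ^ (j - i)) ^ v * x * ((g ^ (j - i)) ^ v)⁻¹ ∈ Subgroup.zpowers c := by
      intro v
      induction v with
      | zero => intro x hx; simpa using hx
      | succ v ih =>
        intro x hx
        have h1 := ih x hx
        have h2 : g ^ (j - i) * ((g ^ (j - i)) ^ v * x * ((g ^ (j - i)) ^ v)⁻¹) *
            (g ^ (j - i))⁻¹ ∈ MulAut.conj (g ^ (j - i)) • Subgroup.zpowers c :=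
          conj_mem_conj_smul _ h1
        rw [ht] at h2
        have h3 : (g ^ (j - i)) ^ (v + 1) * x * ((g ^ (j - i)) ^ (v + 1))⁻¹ =
            g ^ (j - i) * ((g ^ (j - i)) ^ v * x * ((g ^ (j - i)) ^ v)⁻¹) * (g ^ (j - i))⁻¹ := by
          rw [pow_succ']; group
        rw [h3]; exact h2
    intro x hx
    have := hpowD u x hx
    rwa [hu] at this

/-- a group of order `2 ^ a * n` (`n` odd, `3 ∤ n`) with an element of order `2 ^ (a - 1)` has a
normal subgroup of order `n` -/
theorem h8_normal_two_complement {G : Type u} [Group G] [Finite G] (a n : ℕ)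
    (hG : Nat.card G = 2 ^ a * n) (hn : Odd n) (h3 : ¬ 3 ∣ n)
    (hx : ∃ x : G, orderOf x = 2 ^ (a - 1)) : ∃ N : Subgroup G, N.Normal ∧ Nat.card N = n := by
  have : Fact (Nat.Prime 2) := ⟨Nat.prime_two⟩
  obtain ⟨x, hx⟩ := hx
  have h3G : ¬ 3 ∣ Nat.card G := by
    rw [hG]
    intro h
    rcases (Nat.Prime.dvd_mul Nat.prime_three).1 h with h | h
    · have := Nat.Prime.dvd_of_dvd_pow Nat.prime_three h
      omega
    · exact h3 h
  have hsyl : ∀ T : Sylow 2 G, Nat.card (T : Subgroup G) = 2 ^ a := by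
    intro T
    rw [Sylow.card_eq_multiplicity, hG, Nat.factorization_mul (by positivity) hn.pos.ne',
      Nat.factorization_pow, Nat.prime_two.factorization]
    simp [Nat.factorization_eq_zero_of_not_dvd hn.not_two_dvd_nat]
  obtain ⟨S, hS⟩ := (h8_isPGroup_zpowers hx).exists_le_sylow
  have hcond : Cfsg.Agent.Lib.Helper2.FrobCond 2 G := by
    apply Cfsg.Agent.Lib.Helper2.frobCond_of_sylow S
    intro Q hQS g hg hg2
    have hcyc : IsCyclic (Q ⊓ Subgroup.zpowers x : Subgroup G) :=
      Subgroup.isCyclic_of_le (inf_le_right : Q ⊓ Subgroup.zpowers x ≤ Subgroup.zpowers x)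
    obtain ⟨c', hc'⟩ := hcyc.exists_generator
    have hord : orderOf (c' : G) = Nat.card (Q ⊓ Subgroup.zpowers x : Subgroup G) := by
      rw [Subgroup.orderOf_coe]
      exact orderOf_eq_card_of_forall_mem_zpowers hc'
    apply h8_centralizes_of_cyclic_index_two Q (S.2.to_le hQS) (c' : G)
      ((Subgroup.mem_inf.1 c'.2).1) ?_ g hg ?_
    · rw [hord]
      have h1 := card_mul_relIndex_of_le (inf_le_left : Q ⊓ Subgroup.zpowers x ≤ Q)
      have h2 : (Q ⊓ Subgroup.zpowers x).relIndex Q = (Subgroup.zpowers x).relIndex Q := by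
        rw [inf_comm, Subgroup.inf_relIndex_right]
      have h3 := card_mul_relIndex_of_le hS
      rw [Nat.card_zpowers, hx, hsyl S] at h3
      have h4 : (Subgroup.zpowers x).relIndex (S : Subgroup G) ≤ 2 := by
        rcases Nat.eq_zero_or_pos a with rfl | ha
        · simp only [Nat.zero_sub, pow_zero, one_mul] at h3
          omega
        · have e : 2 ^ a = 2 ^ (a - 1) * 2 := by
            rw [← pow_succ]
            congr 1
            omega
          rw [e] at h3
          have := Nat.eq_of_mul_eq_mul_left (by positivity) h3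
          omega
      have h5 : (Subgroup.zpowers x).relIndex (S : Subgroup G) ≠ 0 := by
        intro h0
        rw [h0, mul_zero] at h3
        have : 0 < 2 ^ a := by positivity
        omega
      have h6 := Subgroup.relIndex_le_of_le_right hQS h5
      rw [← h1, h2]
      calc Nat.card (Q ⊓ Subgroup.zpowers x : Subgroup G) * (Subgroup.zpowers x).relIndex Q
          ≤ Nat.card (Q ⊓ Subgroup.zpowers x : Subgroup G) * 2 :=
            Nat.mul_le_mul_left _ (h6.trans h4)
        _ = 2 * Nat.card (Q ⊓ Subgroup.zpowers x : Subgroup G) := mul_comm _ _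
    · have h3' : (orderOf g).Coprime 3 :=
        ((Nat.Prime.coprime_iff_not_dvd Nat.prime_three).2
          (fun h => h3G (h.trans (orderOf_dvd_natCard g)))).symm
      exact Nat.Coprime.mul_right hg2 h3'
  obtain ⟨P', N, hN, hNP⟩ := Cfsg.Agent.Lib.Helper2.frobenius hcond
  refine ⟨N, hN, ?_⟩
  have h1 := hNP.card_mul_card
  rw [hsyl P', hG, mul_comm] at h1
  exact Nat.eq_of_mul_eq_mul_left (by positivity) h1

end Cfsg.Agent.Lib.Helper8
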