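import Mathlib
import Cfsg.Agent.Lib.Helper8.OrderCube
import Cfsg.Agent.Lib.Helper8.CoprimeOmega
import Cfsg.Agent.Lib.Helper7.Hall

/-! Odd `p`: `p`-groups with a cyclic subgroup of index `p`; normal elementary abelian
subgroups of order `p ^ 2`. -/

set_option autoImplicit false

namespace Cfsg.Agent.Lib.Helper8

universe u

theorem h8_lte_conj {p : ℕ} [Fact p.Prime] (hp2 : p ≠ 2) (k m : ℕ) (hm : 1 ≤ m)
    (h : k ^ p ≡ 1 [MOD p ^ m]) : 1 ≤ k ∧ p ∣ k - 1 ∧ p ^ (m - 1) ∣ k - 1 := by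
  have hp : p.Prime := Fact.out
  have hodd : Odd p := hp.odd_of_ne_two hp2
  have hmodp : k ^ p ≡ 1 [MOD p] := h.of_dvd (dvd_pow_self p (by omega))
  have hfermat : k ^ p ≡ k [MOD p] := by
    rw [← ZMod.natCast_eq_natCast_iff]
    push_cast
    exact ZMod.pow_card _
  have hk1 : k ≡ 1 [MOD p] := hfermat.symm.trans hmodp
  have hk0 : 1 ≤ k := by
    rcases Nat.eq_zero_or_pos k with h0 | h0
    · exfalso
      rw [h0] at hk1
      have h2 := (Nat.modEq_zero_iff_dvd.1 hk1.symm)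
      exact hp.one_lt.ne' (Nat.dvd_one.1 h2)
    · exact h0
  have hpk : p ∣ k - 1 := (Nat.modEq_iff_dvd' hk0).1 hk1.symm
  refine ⟨hk0, hpk, ?_⟩
  rcases Nat.eq_or_lt_of_le hk0 with h1k | h1k
  · rw [← h1k]; simp
  · have hkp : 1 < k ^ p := Nat.one_lt_pow hp.ne_zero h1k
    have hNdvd : p ^ m ∣ k ^ p - 1 := (Nat.modEq_iff_dvd' hkp.le).1 h.symm
    have hnk : ¬ p ∣ k := by
      intro hdk
      have h2 : p ∣ k - (k - 1) := Nat.dvd_sub hdk hpk
      have h3 : k - (k - 1) = 1 := by omega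
      rw [h3] at h2
      exact hp.one_lt.ne' (Nat.dvd_one.1 h2)
    have hlte := padicValNat.pow_sub_pow hodd h1k hpk hnk hp.ne_zero
    rw [one_pow, padicValNat_self] at hlte
    have hmle : m ≤ padicValNat p (k ^ p - 1) := by
      rw [← padicValNat_dvd_iff_le (by omega : k ^ p - 1 ≠ 0)]; exact hNdvd
    exact (pow_dvd_pow p (by omega)).trans pow_padicValNat_dvd

theorem h8_omega_cyclic_max {R : Type u} [Group R] [Finite R] {p : ℕ} [Fact p.Prime] (hp2 : p ≠ 2)
    (hR : IsPGroup p R) (hnc : ¬ IsCyclic R) (C : Subgroup R) (hC : IsCyclic C)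
    (hCi : C.index = p) :
    ∃ K : Subgroup R, (∀ x, x ∈ K ↔ x ^ p = 1) ∧ Nat.card K = p ^ 2 := by
  have hp : p.Prime := Fact.out
  have hCn : C.Normal := h8_normal_of_index_eq_prime hR C hCi
  obtain ⟨a₀, ha₀⟩ := isCyclic_iff_exists_zpowers_eq_top.1 hC
  obtain ⟨a, haa⟩ : ∃ a : R, a = (a₀ : R) := ⟨_, rfl⟩
  have hCz : C = Subgroup.zpowers a := by
    have := congrArg (Subgroup.map C.subtype) ha₀
    rw [MonoidHom.map_zpowers, ← MonoidHom.range_eq_map, Subgroup.range_subtype] at this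
    rw [haa]; exact this.symm
  have haC : a ∈ C := by rw [hCz]; exact Subgroup.mem_zpowers a
  obtain ⟨m, hm⟩ : ∃ m, orderOf a = p ^ m := by
    obtain ⟨n, hn⟩ := IsPGroup.iff_card.1 hR
    have h2 : orderOf a ∣ p ^ n := by rw [← hn]; exact orderOf_dvd_natCard a
    obtain ⟨m, -, hm⟩ := (Nat.dvd_prime_pow hp).1 h2
    exact ⟨m, hm⟩
  have hCcard : Nat.card C = p ^ m := by rw [hCz, Nat.card_zpowers, hm]
  have hRcard : Nat.card R = p ^ (m + 1) := by
    rw [← C.card_mul_index, hCcard, hCi, pow_succ]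
  have hm1 : 1 ≤ m := by
    by_contra h0
    have : m = 0 := by omega
    rw [this, zero_add, pow_one] at hRcard
    exact hnc (isCyclic_of_prime_card hRcard)
  obtain ⟨m', rfl⟩ : ∃ m', m = m' + 1 := ⟨m - 1, by omega⟩
  -- conjugation action on a
  have hconj : ∀ t : R, ∃ k : ℕ, t * a * t⁻¹ = a ^ k ∧ 1 ≤ k ∧ p ∣ k - 1 ∧ p ^ m' ∣ k - 1 := by
    intro t
    have htat : t * a * t⁻¹ ∈ Submonoid.powers a := by
      rw [mem_powers_iff_mem_zpowers, ← hCz]; exact hCn.conj_mem a haC t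
    obtain ⟨k, hk⟩ := (Submonoid.mem_powers_iff _ _).1 htat
    have hiter : ∀ i : ℕ, t ^ i * a * (t ^ i)⁻¹ = a ^ (k ^ i) := by
      intro i
      induction i with
      | zero => simp
      | succ i ih =>
        calc t ^ (i + 1) * a * (t ^ (i + 1))⁻¹ = t * (t ^ i * a * (t ^ i)⁻¹) * t⁻¹ := by
              rw [pow_succ']; group
          _ = t * a ^ (k ^ i) * t⁻¹ := by rw [ih]
          _ = (t * a * t⁻¹) ^ (k ^ i) := conj_pow.symm
          _ = a ^ (k ^ (i + 1)) := by rw [← hk, ← pow_mul, pow_succ']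
    have htp : t ^ p ∈ C := by
      have := Subgroup.pow_index_mem C t
      rwa [hCi] at this
    have hcomm : t ^ p * a * (t ^ p)⁻¹ = a := by
      rw [hCz] at htp
      obtain ⟨j, hj⟩ := Subgroup.mem_zpowers_iff.1 htp
      rw [← hj]; group
    have h1 : a ^ (k ^ p) = a ^ 1 := by rw [← hiter p, hcomm, pow_one]
    have hmod : k ^ p ≡ 1 [MOD p ^ (m' + 1)] := by
      have := pow_eq_pow_iff_modEq.1 h1
      rwa [hm] at this
    obtain ⟨h2, h3, h4⟩ := h8_lte_conj hp2 k (m' + 1) (by omega) hmod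
    exact ⟨k, hk.symm, h2, h3, by simpa using h4⟩
  obtain ⟨z, hzdef⟩ : ∃ z : R, z = a ^ (p ^ m') := ⟨_, rfl⟩
  have hzo : orderOf z = p := by
    rw [hzdef, orderOf_pow_of_dvd (pow_ne_zero _ hp.ne_zero) (by rw [hm]; exact pow_dvd_pow p (by omega)),
      hm, pow_succ]
    exact Nat.mul_div_cancel_left _ (pow_pos hp.pos _)
  have hzp : z ^ p = 1 := by rw [← hzo]; exact pow_orderOf_eq_one z
  have hzc : ∀ t : R, t * z = z * t := by
    intro t
    obtain ⟨k, hk, hk1, hpk, -⟩ := hconj t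
    obtain ⟨c, hc⟩ := hpk
    have hk' : k = 1 + p * c := by omega
    have h1 : t * z * t⁻¹ = z := by
      calc t * z * t⁻¹ = (t * a * t⁻¹) ^ (p ^ m') := by rw [hzdef]; exact conj_pow.symm
        _ = (a ^ (p ^ m')) ^ k := by rw [hk, ← pow_mul, ← pow_mul, mul_comm]
        _ = z ^ (1 + p * c) := by rw [← hzdef, hk']
        _ = z := by rw [pow_add, pow_mul, hzp, one_pow, mul_one, pow_one]
    calc t * z = (t * z * t⁻¹) * t := by group
      _ = z * t := by rw [h1]
  have hZn : (Subgroup.zpowers z).Normal := h8_zpowers_normal_of_central z hzc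
  have hZC : Subgroup.zpowers z ≤ C := by
    rw [Subgroup.zpowers_le, hzdef]; exact C.pow_mem haC _
  have hcz : ∀ t : R, t * a * t⁻¹ * a⁻¹ ∈ Subgroup.zpowers z := by
    intro t
    obtain ⟨k, hk, hk1, -, hpk⟩ := hconj t
    obtain ⟨c, hc⟩ := hpk
    have hk' : k = p ^ m' * c + 1 := by omega
    have h1 : t * a * t⁻¹ * a⁻¹ = z ^ c := by
      rw [hk, hk', pow_succ, pow_mul, ← hzdef]; group
    rw [h1]; exact Subgroup.pow_mem _ (Subgroup.mem_zpowers z) c
  -- R / Z is commutative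
  have hcyc : IsCyclic (R ⧸ C) := by
    have h1 : Nat.card (R ⧸ C) = p := by rw [← Subgroup.index_eq_card]; exact hCi
    exact isCyclic_of_prime_card h1
  have hcen : QuotientGroup.mk' (Subgroup.zpowers z) a ∈ Subgroup.center (R ⧸ Subgroup.zpowers z) := by
    rw [Subgroup.mem_center_iff]
    intro y
    obtain ⟨t, rfl⟩ := QuotientGroup.mk'_surjective (Subgroup.zpowers z) y
    have h1 : QuotientGroup.mk' (Subgroup.zpowers z) (t * a * t⁻¹ * a⁻¹) = 1 :=
      (QuotientGroup.eq_one_iff _).2 (hcz t)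
    rw [map_mul, map_mul, map_mul, map_inv, map_inv] at h1
    have h2 := mul_inv_eq_one.1 h1
    calc QuotientGroup.mk' (Subgroup.zpowers z) t * QuotientGroup.mk' (Subgroup.zpowers z) a
        = (QuotientGroup.mk' (Subgroup.zpowers z) t * QuotientGroup.mk' (Subgroup.zpowers z) a *
            (QuotientGroup.mk' (Subgroup.zpowers z) t)⁻¹) * QuotientGroup.mk' (Subgroup.zpowers z) t := by
          group
      _ = QuotientGroup.mk' (Subgroup.zpowers z) a * QuotientGroup.mk' (Subgroup.zpowers z) t := by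
          rw [h2]
  have hab : IsMulCommutative (R ⧸ Subgroup.zpowers z) := by
    apply MonoidHom.isMulCommutative_of_isCyclic_of_ker_le_center
      (QuotientGroup.map (Subgroup.zpowers z) C (MonoidHom.id R) hZC)
    intro y hy
    obtain ⟨x, rfl⟩ := QuotientGroup.mk'_surjective (Subgroup.zpowers z) y
    rw [MonoidHom.mem_ker] at hy
    have h1 : QuotientGroup.map (Subgroup.zpowers z) C (MonoidHom.id R) hZC
        (QuotientGroup.mk' (Subgroup.zpowers z) x) = QuotientGroup.mk' C x := rfl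
    rw [h1] at hy
    have hxC : x ∈ C := (QuotientGroup.eq_one_iff x).1 hy
    rw [hCz] at hxC
    obtain ⟨j, rfl⟩ := Subgroup.mem_zpowers_iff.1 hxC
    rw [map_zpow]
    exact Subgroup.zpow_mem _ hcen j
  have hcomm : ∀ x y : R, y * x * (x * y)⁻¹ ∈ Subgroup.zpowers z := by
    intro x y
    have h1 : QuotientGroup.mk' (Subgroup.zpowers z) (y * x * (x * y)⁻¹) = 1 := by
      rw [map_mul, map_inv, map_mul, map_mul, hab.is_comm.comm (QuotientGroup.mk' _ y)]
      exact mul_inv_cancel _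
    exact (QuotientGroup.eq_one_iff _).1 h1
  have hpow : ∀ x y : R, (x * y) ^ p = x ^ p * y ^ p := by
    intro x y
    obtain ⟨c, hc⟩ : ∃ c, c = y * x * (x * y)⁻¹ := ⟨_, rfl⟩
    have hcZ : c ∈ Subgroup.zpowers z := by rw [hc]; exact hcomm x y
    obtain ⟨j, hj⟩ := Subgroup.mem_zpowers_iff.1 hcZ
    have hcc : ∀ g : R, c * g = g * c := by
      intro g
      rw [← hj]
      exact ((show Commute z g from (hzc g).symm).zpow_left j).eq
    have hcp : c ^ p = 1 := by
      rw [← hj, ← zpow_natCast, ← zpow_mul, mul_comm, zpow_mul, zpow_natCast, hzp, one_zpow]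
    have hyx : y * x = c * x * y := by rw [hc]; group
    rw [h8_mul_pow_rel x y c (hcc x) (hcc y) hyx p]
    obtain ⟨d, hd⟩ : p ∣ p.choose 2 :=
      hp.dvd_choose_self (by norm_num) (by have := hp.two_le; omega)
    rw [hd, pow_mul, hcp, one_pow, one_mul]
  obtain ⟨π, hπ⟩ : ∃ π : R →* R, ∀ x, π x = x ^ p := ⟨MonoidHom.mk' (fun x => x ^ p) hpow, fun _ => rfl⟩
  refine ⟨π.ker, fun x => by rw [MonoidHom.mem_ker, hπ], ?_⟩
  have h1 : Nat.card π.ker * Nat.card π.range = Nat.card R := by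
    rw [← Subgroup.index_ker]; exact Subgroup.card_mul_index _
  have hrC : π.range ≤ C := by
    rintro _ ⟨x, rfl⟩
    rw [hπ]
    have := Subgroup.pow_index_mem C x
    rwa [hCi] at this
  have hane : a ∉ π.range := by
    rintro ⟨t, ht⟩
    rw [hπ] at ht
    apply hnc
    apply isCyclic_of_orderOf_eq_card t
    have h2 := orderOf_pow' t hp.ne_zero
    rw [ht, hm] at h2
    obtain ⟨e, he⟩ : ∃ e, orderOf t = p ^ e := by
      have h3 : orderOf t ∣ p ^ (m' + 1 + 1) := by rw [← hRcard]; exact orderOf_dvd_natCard t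
      obtain ⟨e, -, he⟩ := (Nat.dvd_prime_pow hp).1 h3
      exact ⟨e, he⟩
    rw [he] at h2 ⊢
    rcases Nat.eq_zero_or_pos e with h0 | h0
    · exfalso
      rw [h0, pow_zero, Nat.gcd_one_left, Nat.div_one] at h2
      have : 1 < p ^ (m' + 1) := Nat.one_lt_pow (by omega) hp.one_lt
      omega
    · obtain ⟨e', rfl⟩ : ∃ e', e = e' + 1 := ⟨e - 1, by omega⟩
      have h4 : (p ^ (e' + 1)).gcd p = p := Nat.gcd_eq_right (dvd_pow_self p (by omega))
      rw [h4, pow_succ p e', Nat.mul_div_cancel _ hp.pos] at h2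
      have h5 : m' + 1 = e' := Nat.pow_right_injective hp.two_le h2
      rw [hRcard, ← h5]
  obtain ⟨j, hjm, hj⟩ := (Nat.dvd_prime_pow hp).1
    (show Nat.card π.range ∣ p ^ (m' + 1) by rw [← hCcard]; exact Subgroup.card_dvd_of_le hrC)
  have hjne : j ≠ m' + 1 := by
    intro h
    have h2 := Subgroup.eq_of_le_of_card_ge hrC (by rw [hCcard, hj, h])
    exact hane (by rw [h2]; exact haC)
  have hle : Subgroup.zpowers (a ^ p) ≤ π.range := by
    rw [Subgroup.zpowers_le]; exact ⟨a, hπ a⟩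
  have hcz' : Nat.card (Subgroup.zpowers (a ^ p)) = p ^ m' := by
    rw [Nat.card_zpowers, orderOf_pow_of_dvd hp.ne_zero (by rw [hm]; exact dvd_pow_self p (by omega)),
      hm, pow_succ]
    exact Nat.mul_div_cancel _ hp.pos
  have hjm' : m' ≤ j := by
    have := Subgroup.card_le_of_le hle
    rw [hcz', hj] at this
    exact (Nat.pow_le_pow_iff_right hp.one_lt).1 this
  have hj' : j = m' := by omega
  rw [hj, hj', hRcard] at h1
  have h6 : p ^ (m' + 1 + 1) = p ^ 2 * p ^ m' := by ring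
  rw [h6] at h1
  exact Nat.eq_of_mul_eq_mul_right (pow_pos hp.pos _) h1

theorem h8_exists_central_mod_prime {G : Type u} [Group G] [Finite G] {p : ℕ} [Fact p.Prime]
    (hG : IsPGroup p G) (Z W : Subgroup G) [Z.Normal] [W.Normal] (hWZ : ¬ W ≤ Z) :
    ∃ e ∈ W, e ∉ Z ∧ e ^ p ∈ Z ∧ ∀ g : G, g * e * g⁻¹ * e⁻¹ ∈ Z := by
  have hQ : IsPGroup p (G ⧸ Z) := hG.to_quotient Z
  have hWn : (W.map (QuotientGroup.mk' Z)).Normal :=
    Subgroup.Normal.map inferInstance _ (QuotientGroup.mk'_surjective Z)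
  have hne : W.map (QuotientGroup.mk' Z) ≠ ⊥ := by
    intro h
    apply hWZ
    intro w hw
    have h1 : QuotientGroup.mk' Z w ∈ W.map (QuotientGroup.mk' Z) := Subgroup.mem_map_of_mem _ hw
    rw [h, Subgroup.mem_bot] at h1
    exact (QuotientGroup.eq_one_iff w).1 h1
  have h1 := h8_normal_inf_center_ne_bot hQ (W.map (QuotientGroup.mk' Z)) hne
  obtain ⟨x, ⟨hxW, hxc⟩, hxo⟩ := h8_exists_orderOf_eq_prime hQ _ h1
  obtain ⟨e, heW, rfl⟩ := Subgroup.mem_map.1 hxW
  have hx1 : QuotientGroup.mk' Z e ≠ 1 := by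
    intro h
    rw [h, orderOf_one] at hxo
    exact (Fact.out : p.Prime).one_lt.ne hxo
  refine ⟨e, heW, fun heZ => hx1 ((QuotientGroup.eq_one_iff e).2 heZ), ?_, fun g => ?_⟩
  · have h2 : QuotientGroup.mk' Z (e ^ p) = 1 := by
      rw [map_pow, ← hxo]; exact pow_orderOf_eq_one _
    exact (QuotientGroup.eq_one_iff _).1 h2
  · have h3 := Subgroup.mem_center_iff.1 hxc (QuotientGroup.mk' Z g)
    have h4 : QuotientGroup.mk' Z (g * e * g⁻¹ * e⁻¹) = 1 := by
      rw [map_mul, map_mul, map_mul, map_inv, map_inv, h3]; group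
    exact (QuotientGroup.eq_one_iff _).1 h4

theorem h8_exists_normal_elab {R : Type u} [Group R] [Finite R] {p : ℕ} [Fact p.Prime]
    (hp2 : p ≠ 2) (hR : IsPGroup p R) (S : Subgroup R) [S.Normal] (hS : ¬ IsCyclic S) :
    ∃ A : Subgroup R, A ≤ S ∧ A.Normal ∧ (∀ x ∈ A, ∀ y ∈ A, x * y = y * x) ∧
      (∀ x ∈ A, x ^ p = 1) ∧ Nat.card A = p ^ 2 := by
  have hp : p.Prime := Fact.out
  obtain ⟨A₀, -, hmax⟩ := Finite.exists_le_maximal
    (p := fun K : Subgroup R => K ≤ S ∧ K.Normal ∧ IsCyclic K) (a := ⊥)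
    ⟨bot_le, inferInstance, inferInstance⟩
  obtain ⟨hA₀S, hA₀n, hA₀c⟩ := hmax.prop
  have hSA : ¬ S ≤ A₀ := by
    intro h
    have : S = A₀ := le_antisymm h hA₀S
    rw [this] at hS
    exact hS hA₀c
  obtain ⟨e, heS, heA, hep, hec⟩ := h8_exists_central_mod_prime hR A₀ S hSA
  have heo : orderOf (QuotientGroup.mk' A₀ e) = p := by
    apply orderOf_eq_prime
    · rw [← map_pow]; exact (QuotientGroup.eq_one_iff _).2 hep
    · intro h; exact heA ((QuotientGroup.eq_one_iff e).1 h)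
  have hecen : ∀ y : R ⧸ A₀, y * QuotientGroup.mk' A₀ e = QuotientGroup.mk' A₀ e * y := by
    intro y
    obtain ⟨g, rfl⟩ := QuotientGroup.mk'_surjective A₀ y
    have h1 : QuotientGroup.mk' A₀ (g * e * g⁻¹ * e⁻¹) = 1 := (QuotientGroup.eq_one_iff _).2 (hec g)
    rw [map_mul, map_mul, map_mul, map_inv, map_inv] at h1
    have h2 := mul_inv_eq_one.1 h1
    calc QuotientGroup.mk' A₀ g * QuotientGroup.mk' A₀ e
        = (QuotientGroup.mk' A₀ g * QuotientGroup.mk' A₀ e * (QuotientGroup.mk' A₀ g)⁻¹) *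
            QuotientGroup.mk' A₀ g := by group
      _ = QuotientGroup.mk' A₀ e * QuotientGroup.mk' A₀ g := by rw [h2]
  have hZn : (Subgroup.zpowers (QuotientGroup.mk' A₀ e)).Normal :=
    h8_zpowers_normal_of_central _ hecen
  obtain ⟨B, hBdef⟩ : ∃ B : Subgroup R,
      B = (Subgroup.zpowers (QuotientGroup.mk' A₀ e)).comap (QuotientGroup.mk' A₀) := ⟨_, rfl⟩
  have hBn : B.Normal := by rw [hBdef]; exact hZn.comap _
  have hAB : A₀ ≤ B := by rw [hBdef]; exact Helper7.le_comap_mk' A₀ _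
  have hBcard : Nat.card B = Nat.card A₀ * p := by
    rw [hBdef, Helper7.card_comap_mk', Nat.card_zpowers, heo]
  have heB : e ∈ B := by
    rw [hBdef, Subgroup.mem_comap]; exact Subgroup.mem_zpowers _
  have hBS : B ≤ S := by
    intro x hx
    rw [hBdef, Subgroup.mem_comap] at hx
    obtain ⟨j, hj⟩ := Subgroup.mem_zpowers_iff.1 hx
    rw [← map_zpow] at hj
    have h1 : (e ^ j)⁻¹ * x ∈ A₀ := QuotientGroup.eq.1 hj
    have h2 : x = e ^ j * ((e ^ j)⁻¹ * x) := by group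
    rw [h2]
    exact S.mul_mem (S.zpow_mem heS j) (hA₀S h1)
  have hBnc : ¬ IsCyclic B := by
    intro hc
    exact heA (hmax.le_of_ge ⟨hBS, hBn, hc⟩ hAB heB)
  have hCc : IsCyclic (A₀.subgroupOf B) :=
    (Subgroup.subgroupOfEquivOfLe hAB).isCyclic.2 hA₀c
  have hCi : (A₀.subgroupOf B).index = p := by
    have h1 : Nat.card A₀ * A₀.relIndex B = Nat.card B := Helper7.card_mul_relIndex_of_le hAB
    rw [hBcard] at h1
    exact Nat.eq_of_mul_eq_mul_left Nat.card_pos h1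
  obtain ⟨K, hK, hKc⟩ := h8_omega_cyclic_max hp2 (hR.to_subgroup B) hBnc (A₀.subgroupOf B) hCc hCi
  have hAc : Nat.card (K.map B.subtype) = p ^ 2 := by
    rw [Subgroup.card_map_of_injective B.subtype_injective, hKc]
  refine ⟨K.map B.subtype, ?_, ?_, ?_, ?_, hAc⟩
  · exact (Subgroup.map_subtype_le K).trans hBS
  · refine ⟨fun x hx g => ?_⟩
    obtain ⟨y, hy, rfl⟩ := Subgroup.mem_map.1 hx
    have h1 : g * (y : R) * g⁻¹ ∈ B := hBn.conj_mem _ y.2 g
    refine Subgroup.mem_map.2 ⟨⟨g * (y : R) * g⁻¹, h1⟩, ?_, rfl⟩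
    rw [hK]
    apply Subtype.ext
    have h2 : (y : R) ^ p = 1 := by
      have := congrArg Subtype.val ((hK y).1 hy)
      simpa using this
    simp only [Subgroup.coe_pow, Subgroup.coe_one]
    rw [conj_pow, h2]; group
  · intro x hx y hy
    have := h8_comm_of_card_le_sq p 2 hAc le_rfl ⟨x, hx⟩ ⟨y, hy⟩
    exact congrArg Subtype.val this
  · intro x hx
    obtain ⟨y, hy, rfl⟩ := Subgroup.mem_map.1 hx
    have := congrArg Subtype.val ((hK y).1 hy)
    simpa using this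

end Cfsg.Agent.Lib.Helper8
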