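import Mathlib
import Cfsg.Agent.Lib.Helper8.QD2
import Cfsg.Agent.Lib.Helper8.Dih3920

set_option autoImplicit false
set_option linter.style.haveILetI false
set_option linter.unusedSectionVars false

universe u v

namespace Cfsg.Agent.Lib.Helper8

open DihedralGroup

theorem h8_zmod_two_mul_cases {m : ℕ} [NeZero m] (x : ZMod m) (h : 2 * x = 0) :
    x = 0 ∨ x = ((m / 2 : ℕ) : ZMod m) := by
  by_cases hx : x = 0
  · exact Or.inl hx
  · right
    have h2 := h8_zmod_two_mul h hx
    have h3 : x.val = m / 2 := by omega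
    rw [← h3, ZMod.natCast_zmod_val]

theorem h8_ncard_four_le {α : Type u} (a b c d : α) : ({a, b, c, d} : Set α).ncard ≤ 4 := by
  have h1 := Set.ncard_insert_le a ({b, c, d} : Set α)
  have h2 := Set.ncard_insert_le b ({c, d} : Set α)
  have h3 := Set.ncard_insert_le c ({d} : Set α)
  have h4 : ({d} : Set α).ncard = 1 := Set.ncard_singleton d
  omega

theorem h8_ncard_two_le {α : Type u} (a b : α) : ({a, b} : Set α).ncard ≤ 2 := by
  have h3 := Set.ncard_insert_le a ({b} : Set α)
  have h4 : ({b} : Set α).ncard = 1 := Set.ncard_singleton b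
  omega

/-- In a dihedral group, a subgroup of order 4 and exponent 2 is self-centralizing. -/
theorem h8_dih_four_selfcent {m : ℕ} [NeZero m] (V : Subgroup (DihedralGroup m))
    (hV4 : Nat.card V = 4) (hVexp : ∀ v ∈ V, v * v = 1)
    (hVcomm : ∀ v ∈ V, ∀ w ∈ V, v * w = w * v)
    (g : DihedralGroup m) (hg : ∀ v ∈ V, g * v = v * g) : g ∈ V := by
  set h : ZMod m := ((m / 2 : ℕ) : ZMod m) with hh
  have hVn : (V : Set (DihedralGroup m)).ncard = 4 := by
    rw [← hV4]; rfl
  have hrefl : ∃ j, sr j ∈ V := by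
    by_contra hcon
    push Not at hcon
    have hsub : (V : Set (DihedralGroup m)) ⊆ {r 0, r h} := by
      intro v hv
      cases v with
      | r i =>
        have h1 := hVexp _ hv
        rw [r_mul_r, one_def] at h1
        have h2 : 2 * i = 0 := by
          have := r.inj h1
          rw [two_mul]; exact this
        rcases h8_zmod_two_mul_cases i h2 with h3 | h3
        · left; rw [h3]
        · right; rw [h3]; rfl
      | sr j => exact absurd hv (hcon j)
    have hc : (V : Set (DihedralGroup m)).ncard ≤ 2 :=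
      le_trans (Set.ncard_le_ncard hsub (Set.toFinite _)) (h8_ncard_two_le _ _)
    omega
  obtain ⟨j, hj⟩ := hrefl
  have hcent : ∀ x : DihedralGroup m, x * sr j = sr j * x →
      x ∈ ({r 0, r h, sr j, sr (j + h)} : Set (DihedralGroup m)) := by
    intro x hx
    cases x with
    | r i =>
      rw [r_mul_sr, sr_mul_r] at hx
      have h1 : j - i = j + i := sr.inj hx
      have h2 : 2 * i = 0 := by
        linear_combination (-1 : ZMod m) * h1
      rcases h8_zmod_two_mul_cases i h2 with h3 | h3
      · left; rw [h3]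
      · right; left; rw [h3]
    | sr k =>
      rw [sr_mul_sr, sr_mul_sr] at hx
      have h1 : j - k = k - j := r.inj hx
      have h2 : 2 * (k - j) = 0 := by
        linear_combination (-1 : ZMod m) * h1
      rcases h8_zmod_two_mul_cases (k - j) h2 with h3 | h3
      · right; right; left
        have h4 : k = j := sub_eq_zero.mp h3
        rw [h4]
      · right; right; right
        have h4 : k = j + h := by rw [hh, ← h3]; ring
        rw [h4]; rfl
  have hsub : (V : Set (DihedralGroup m)) ⊆ {r 0, r h, sr j, sr (j + h)} := by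
    intro v hv
    exact hcent v (hVcomm v hv _ hj)
  have hc4 := h8_ncard_four_le (r (0 : ZMod m)) (r h) (sr j) (sr (j + h))
  have heq : (V : Set (DihedralGroup m)) = {r 0, r h, sr j, sr (j + h)} :=
    Set.eq_of_subset_of_ncard_le hsub (by omega) (Set.toFinite _)
  have h5 : g ∈ (V : Set (DihedralGroup m)) := by
    rw [heq]
    exact hcent g (hg _ hj)
  exact h5

theorem h8_card_map_of_ker {R : Type u} {Q : Type v} [Group R] [Group Q] [Finite R] (f : R →* Q)
    (t : R) (ht : orderOf t = 2) (hker : f.ker = Subgroup.zpowers t)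
    (A : Subgroup R) (hA8 : Nat.card A = 8) (htA : t ∈ A) : Nat.card (A.map f) = 4 := by
  have hle : f.ker ≤ A := by rw [hker]; exact (Subgroup.zpowers_le).mpr htA
  have h1 := Subgroup.card_mul_index ((f.comp A.subtype).ker)
  rw [Subgroup.index_ker, MonoidHom.range_comp, Subgroup.range_subtype] at h1
  have hk : Nat.card (f.comp A.subtype).ker = 2 := by
    rw [← MonoidHom.comap_ker]
    have e := Subgroup.subgroupOfEquivOfLe hle
    rw [show (f.ker.comap A.subtype) = f.ker.subgroupOf A from rfl, Nat.card_congr e.toEquiv,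
      hker, Nat.card_zpowers, ht]
  rw [hk, hA8] at h1
  omega

theorem h8_cent_of_map {R : Type u} {Q : Type v} [Group R] [Group Q] (f : R →* Q)
    (A : Subgroup R) (hker : f.ker ≤ A) (hcomm : ∀ a ∈ A, ∀ b ∈ A, a * b = b * a)
    (hc : ∀ g : Q, (∀ v ∈ A.map f, g * v = v * g) → g ∈ A.map f) :
    Subgroup.centralizer (A : Set R) = A := by
  apply le_antisymm
  · intro x hx
    rw [Subgroup.mem_centralizer_iff] at hx
    have h1 : f x ∈ A.map f := by
      apply hc
      rintro v ⟨a, ha, rfl⟩
      rw [← map_mul, ← map_mul, hx a ha]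
    obtain ⟨a, ha, hax⟩ := h1
    have h2 : a⁻¹ * x ∈ f.ker := by
      rw [MonoidHom.mem_ker, map_mul, map_inv, hax, inv_mul_cancel]
    have h3 := hker h2
    have h4 : x = a * (a⁻¹ * x) := by group
    rw [h4]; exact A.mul_mem ha h3
  · intro x hx
    rw [Subgroup.mem_centralizer_iff]
    intro a ha
    exact hcomm a ha x hx

theorem h8_s1236 {R : Type u} [Group R] [Finite R] (t : R) (ht : orderOf t = 2)
    (htz : t ∈ Subgroup.center R) [(Subgroup.zpowers t).Normal]
    (hq : (∃ m : ℕ, 2 ≤ m ∧ Nonempty (R ⧸ Subgroup.zpowers t ≃* DihedralGroup m)) ∨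
      Cfsg.IsQuasiDihedral (R ⧸ Subgroup.zpowers t))
    (A : Subgroup R) (hA : Cfsg.IsElementaryAbelian 2 A) (hA8 : Nat.card A = 8) (htA : t ∈ A) :
    Subgroup.centralizer (A : Set R) = A := by
  obtain ⟨hAc, hA2⟩ := hA
  have hcomm : ∀ a ∈ A, ∀ b ∈ A, a * b = b * a := fun a ha b hb =>
    congrArg Subtype.val (hAc.is_comm.comm ⟨a, ha⟩ ⟨b, hb⟩)
  have hkerπ : (QuotientGroup.mk' (Subgroup.zpowers t)).ker = Subgroup.zpowers t :=
    QuotientGroup.ker_mk' _
  have htle : Subgroup.zpowers t ≤ A := (Subgroup.zpowers_le).mpr htA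
  rcases hq with ⟨m, hm, ⟨e⟩⟩ | hQD
  · haveI : NeZero m := ⟨by omega⟩
    set f : R →* DihedralGroup m := e.toMonoidHom.comp (QuotientGroup.mk' (Subgroup.zpowers t))
      with hf
    have hker : f.ker = Subgroup.zpowers t := by
      rw [← hkerπ]
      ext x
      simp only [MonoidHom.mem_ker, hf, MonoidHom.comp_apply, MulEquiv.coe_toMonoidHom]
      exact EmbeddingLike.map_eq_one_iff
    have h4 := h8_card_map_of_ker f t ht hker A hA8 htA
    refine h8_cent_of_map f A (by rw [hker]; exact htle) hcomm ?_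
    intro g hg
    refine h8_dih_four_selfcent (A.map f) h4 ?_ ?_ g hg
    · rintro v ⟨a, ha, rfl⟩
      rw [← map_mul, ← pow_two, hA2 a ha, map_one]
    · rintro v ⟨a, ha, rfl⟩ w ⟨b, hb, rfl⟩
      rw [← map_mul, ← map_mul, hcomm a ha b hb]
  · set f : R →* R ⧸ Subgroup.zpowers t := QuotientGroup.mk' (Subgroup.zpowers t) with hf
    have h4 := h8_card_map_of_ker f t ht hkerπ A hA8 htA
    refine h8_cent_of_map f A (by rw [hkerπ]; exact htle) hcomm ?_
    have hK : IsKleinFour ↥(A.map f) := by
      refine ⟨h4, ?_⟩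
      have hd : Monoid.exponent ↥(A.map f) ∣ 2 := by
        apply Monoid.exponent_dvd_of_forall_pow_eq_one
        rintro ⟨v, a, ha, rfl⟩
        apply Subtype.ext
        change (f a) ^ 2 = 1
        rw [← map_pow, hA2 a ha, map_one]
      have hne : Monoid.exponent ↥(A.map f) ≠ 1 := by
        intro h1
        have hsub : Subsingleton ↥(A.map f) := Monoid.exp_eq_one_iff.mp h1
        have : Nat.card ↥(A.map f) ≤ 1 := Finite.card_le_one_iff_subsingleton.mpr hsub
        omega
      rcases (Nat.dvd_prime Nat.prime_two).mp hd with h1 | h2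
      · exact absurd h1 hne
      · exact h2
    have hcen := ((h8_s1190 hQD).2 (A.map f) hK).1
    intro g hg
    rw [← hcen, Subgroup.mem_centralizer_iff]
    intro v hv
    exact (hg v hv).symm

end Cfsg.Agent.Lib.Helper8
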