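import Mathlib
import Cfsg.Prelude.Def_KGroupFacts

set_option autoImplicit false

namespace Cfsg.Agent.Lib.Helper8

open scoped commutatorElement

/-- reduction of residues mod `2n` to residues mod `n` -/
noncomputable def h8_red (n : ℕ) : ZMod (2 * n) →+* ZMod n :=
  ZMod.castHom (dvd_mul_left n 2) (ZMod n)

theorem h8_red_n (n : ℕ) : h8_red n (n : ZMod (2 * n)) = 0 := by
  rw [map_natCast]
  exact ZMod.natCast_self n

/-- the natural map from the dicyclic group of order `4n` onto the dihedral group of order `2n` -/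
noncomputable def h8_dicToDih (n : ℕ) : QuaternionGroup n →* DihedralGroup n where
  toFun x := match x with
    | QuaternionGroup.a i => DihedralGroup.r (h8_red n i)
    | QuaternionGroup.xa i => DihedralGroup.sr (h8_red n i)
  map_one' := by
    rw [QuaternionGroup.one_def, DihedralGroup.one_def]
    simp
  map_mul' := by
    rintro (i | i) (j | j)
    · simp [map_add]
    · simp [map_sub]
    · simp [map_add]
    · simp [map_add, map_sub]

theorem h8_dicToDih_a (n : ℕ) (i : ZMod (2 * n)) :
    h8_dicToDih n (QuaternionGroup.a i) = DihedralGroup.r (h8_red n i) := rfl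

theorem h8_dicToDih_xa (n : ℕ) (i : ZMod (2 * n)) :
    h8_dicToDih n (QuaternionGroup.xa i) = DihedralGroup.sr (h8_red n i) := rfl

theorem h8_dicToDih_surjective (n : ℕ) : Function.Surjective (h8_dicToDih n) := by
  have hs : Function.Surjective (h8_red n) := ZMod.ringHom_surjective _
  rintro (i | i)
  · obtain ⟨j, rfl⟩ := hs i
    exact ⟨QuaternionGroup.a j, rfl⟩
  · obtain ⟨j, rfl⟩ := hs i
    exact ⟨QuaternionGroup.xa j, rfl⟩

theorem h8_dicToDih_card_ker (n : ℕ) [NeZero n] : Nat.card (h8_dicToDih n).ker = 2 := by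
  have h1 := (h8_dicToDih n).ker.card_mul_index
  have hq : Nat.card (QuaternionGroup n) = 4 * n := by
    rw [Nat.card_eq_fintype_card, QuaternionGroup.card]
  rw [Subgroup.index_ker, MonoidHom.range_eq_top.2 (h8_dicToDih_surjective n), Subgroup.card_top,
    DihedralGroup.nat_card, hq] at h1
  have hn : 0 < n := Nat.pos_of_ne_zero (NeZero.ne n)
  have h2 : Nat.card (h8_dicToDih n).ker * (2 * n) = 2 * (2 * n) := by rw [h1]; ring
  exact Nat.eq_of_mul_eq_mul_right (by omega) h2

/-- elements of the kernel are `a (j + j)`-type when `n` is even; in general `a i` with `2i = 0` -/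
theorem h8_dicToDih_mem_ker (n : ℕ) [NeZero n] {x : QuaternionGroup n}
    (hx : x ∈ (h8_dicToDih n).ker) : ∃ k : ℕ, x = QuaternionGroup.a ((n * k : ℕ) : ZMod (2 * n)) := by
  rw [MonoidHom.mem_ker, DihedralGroup.one_def] at hx
  rcases x with i | i
  · rw [h8_dicToDih_a] at hx
    have h1 : h8_red n i = 0 := by
      injection hx
    have hn : NeZero (2 * n) := ⟨by have := NeZero.ne n; omega⟩
    have h2 : ((i.val : ℕ) : ZMod n) = 0 := by
      have h3 : h8_red n ((i.val : ℕ) : ZMod (2 * n)) = 0 := by
        rw [ZMod.natCast_zmod_val]; exact h1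
      rwa [map_natCast] at h3
    rw [ZMod.natCast_eq_zero_iff] at h2
    obtain ⟨k, hk⟩ := h2
    refine ⟨k, ?_⟩
    rw [← hk, ZMod.natCast_zmod_val]
  · rw [h8_dicToDih_xa] at hx
    cases hx

theorem h8_dicToDih_isStem (n : ℕ) [NeZero n] (hn : Even n) :
    Cfsg.IsStemExtension (h8_dicToDih n) := by
  refine ⟨h8_dicToDih_surjective n, ?_, ?_⟩
  · intro x hx
    obtain ⟨k, rfl⟩ := h8_dicToDih_mem_ker n hx
    rw [Subgroup.mem_center_iff]
    have h2 : (((n * k : ℕ) : ZMod (2 * n))) + ((n * k : ℕ) : ZMod (2 * n)) = 0 := by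
      rw [← Nat.cast_add, ZMod.natCast_eq_zero_iff]
      exact ⟨k, by ring⟩
    rintro (j | j)
    · simp [add_comm]
    · simp only [QuaternionGroup.xa_mul_a, QuaternionGroup.a_mul_xa]
      congr 1
      linear_combination h2
  · intro x hx
    obtain ⟨k, rfl⟩ := h8_dicToDih_mem_ker n hx
    obtain ⟨m, hm⟩ := hn
    set j : ZMod (2 * n) := ((m * k : ℕ) : ZMod (2 * n)) with hj
    have h1 : ((n * k : ℕ) : ZMod (2 * n)) = j + j := by
      rw [hj, ← Nat.cast_add]
      congr 1
      rw [hm]; ring
    rw [h1]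
    have h2 : (QuaternionGroup.a (j + j) : QuaternionGroup n) * QuaternionGroup.xa 0 *
        QuaternionGroup.a j = QuaternionGroup.a j * QuaternionGroup.xa 0 := by
      simp only [QuaternionGroup.xa_mul_a, QuaternionGroup.a_mul_xa]
      congr 1
      ring
    have h3 : (QuaternionGroup.a (j + j) : QuaternionGroup n) =
        ⁅(QuaternionGroup.a j : QuaternionGroup n), QuaternionGroup.xa 0⁆ := by
      rw [commutatorElement_def, ← h2]
      group
    rw [h3, commutator_def]
    exact Subgroup.commutator_mem_commutator (Subgroup.mem_top _) (Subgroup.mem_top _)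

end Cfsg.Agent.Lib.Helper8
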