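import Mathlib
import Cfsg.Prelude.Def_Transfer
import Cfsg.Agent.Lib.Helper8.Basic
import Cfsg.Agent.Lib.Helper8.CyclicAut
import Cfsg.Agent.Lib.Helper8.OddNormalizing
import Cfsg.Agent.Lib.Helper8.OrderCube
import Cfsg.Agent.Lib.Helper2.Frobenius
import Cfsg.Agent.Lib.Helper2.NPC
import Cfsg.Agent.Lib.Helper7.PCore

/-! Normal 2-complements in groups with dihedral Sylow 2-subgroups. -/

set_option autoImplicit false

namespace Cfsg.Agent.Lib.Helper8

universe u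

theorem h8_odd_centralizes_zpowers {X : Type u} [Group X] (g y : X) (n k : ℕ) (hn : Odd n)
    (hgn : g ^ n = 1) (hy : orderOf y = 2 ^ k) (hconj : g * y * g⁻¹ ∈ Subgroup.zpowers y) :
    g * y = y * g := by
  rcases Nat.eq_zero_or_pos k with rfl | hk
  · rw [pow_zero, orderOf_eq_one_iff] at hy; rw [hy, mul_one, one_mul]
  obtain ⟨x, hx⟩ : ∃ x, x = y ^ (2 ^ (k - 1)) := ⟨_, rfl⟩
  have hxy : x ∈ Subgroup.zpowers y := by
    rw [hx]; exact Subgroup.pow_mem _ (Subgroup.mem_zpowers y) _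
  have hx2 : x ^ 2 = 1 := by
    rw [hx, ← pow_mul, ← pow_succ, Nat.sub_add_cancel hk, ← hy]; exact pow_orderOf_eq_one y
  have hx1 : x ≠ 1 := by
    intro h
    rw [hx] at h
    have h1 := orderOf_dvd_of_pow_eq_one h
    rw [hy] at h1
    have h2 := Nat.le_of_dvd (by positivity) h1
    have h3 : 2 ^ (k - 1) < 2 ^ k := Nat.pow_lt_pow_right (by norm_num) (by omega)
    omega
  have hgx : g * x = x * g := by
    obtain ⟨j, hj⟩ := Subgroup.mem_zpowers_iff.1 hconj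
    have h1 : g * x * g⁻¹ = x ^ j := by
      rw [hx, ← conj_pow, ← hj, ← zpow_natCast, ← zpow_natCast, ← zpow_mul, ← zpow_mul, mul_comm]
    have h2 : x ^ j = 1 ∨ x ^ j = x := by
      rcases Int.even_or_odd' j with ⟨c, hc | hc⟩
      · left; rw [hc, zpow_mul, zpow_ofNat, hx2, one_zpow]
      · right; rw [hc, zpow_add, zpow_mul, zpow_ofNat, hx2, one_zpow, one_mul, zpow_one]
    rcases h2 with h2 | h2
    · exfalso; rw [h2] at h1
      apply hx1
      calc x = g⁻¹ * (g * x * g⁻¹) * g := by group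
        _ = 1 := by rw [h1]; group
    · rw [h2] at h1
      calc g * x = (g * x * g⁻¹) * g := by group
        _ = x * g := by rw [h1]
  have hcop : n.Coprime 2 :=
    (Nat.Coprime.symm ((Nat.Prime.coprime_iff_not_dvd Nat.prime_two).2 hn.not_two_dvd_nat))
  exact h8_cyclic_coprime_aut Nat.prime_two hcop g hgn k y x hy hconj hxy hx1 hgx

theorem h8_odd_stab {X : Type u} [Group X] (g x c : X) (n a : ℕ) (hn : Odd n) (hgn : g ^ n = 1)
    (hgc : g * c = c * g) (hc : c ^ (2 ^ a) = 1) (hx : g * x * g⁻¹ = x * c) : g * x = x * g := by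
  have hiter : ∀ i : ℕ, g ^ i * x * (g ^ i)⁻¹ = x * c ^ i := by
    intro i
    induction i with
    | zero => simp
    | succ i ih =>
      calc g ^ (i + 1) * x * (g ^ (i + 1))⁻¹ = g * (g ^ i * x * (g ^ i)⁻¹) * g⁻¹ := by
            rw [pow_succ']; group
        _ = g * (x * c ^ i) * g⁻¹ := by rw [ih]
        _ = (g * x * g⁻¹) * (g * c ^ i) * g⁻¹ := by group
        _ = (x * c) * (c ^ i * g) * g⁻¹ := by
            rw [hx, ((show Commute g c from hgc).pow_right i).eq]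
        _ = x * c ^ (i + 1) := by rw [pow_succ']; group
  have h1 := hiter n
  rw [hgn] at h1
  have h2 : c ^ n = 1 := by
    have h0 : x * 1 = x * c ^ n := by rw [mul_one]; simpa using h1
    exact (mul_left_cancel h0).symm
  have h3 : c = 1 := by
    have h4 : orderOf c ∣ Nat.gcd n (2 ^ a) :=
      Nat.dvd_gcd (orderOf_dvd_of_pow_eq_one h2) (orderOf_dvd_of_pow_eq_one hc)
    have hcop : n.Coprime 2 :=
      (Nat.Coprime.symm ((Nat.Prime.coprime_iff_not_dvd Nat.prime_two).2 hn.not_two_dvd_nat))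
    have h5 : Nat.gcd n (2 ^ a) = 1 := Nat.Coprime.pow_right a hcop
    rw [h5, Nat.dvd_one] at h4
    exact orderOf_eq_one_iff.1 h4
  rw [h3, mul_one] at hx
  calc g * x = (g * x * g⁻¹) * g := by group
    _ = x * g := by rw [hx]

theorem h8_dihedral_struct {X : Type u} [Group X] (S : Subgroup X) (m : ℕ) [NeZero m]
    (eS : ↥S ≃* DihedralGroup m) :
    ∃ ρ ∈ S, (∀ x ∈ S, x ∉ Subgroup.zpowers ρ → x ^ 2 = 1) ∧
      (∀ x ∈ S, ∀ y ∈ S, x ∉ Subgroup.zpowers ρ → y ∉ Subgroup.zpowers ρ →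
        x⁻¹ * y ∈ Subgroup.zpowers ρ) := by
  obtain ⟨ρ₀, hρ₀⟩ : ∃ ρ₀ : ↥S, ρ₀ = eS.symm (DihedralGroup.r 1) := ⟨_, rfl⟩
  have hrot : ∀ i : ZMod m, ((eS.symm (DihedralGroup.r i) : ↥S) : X) ∈
      Subgroup.zpowers (ρ₀ : X) := by
    intro i
    have h1 : DihedralGroup.r i = (DihedralGroup.r 1 : DihedralGroup m) ^ i.val := by
      rw [DihedralGroup.r_one_pow, ZMod.natCast_zmod_val]
    rw [h1, map_pow, ← hρ₀, Subgroup.coe_pow]
    exact Subgroup.pow_mem _ (Subgroup.mem_zpowers _) _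
  have hrefl : ∀ x (hx : x ∈ S), x ∉ Subgroup.zpowers (ρ₀ : X) →
      ∃ i : ZMod m, eS ⟨x, hx⟩ = DihedralGroup.sr i := by
    intro x hx hxR
    rcases hd : eS ⟨x, hx⟩ with i | i
    · exfalso
      apply hxR
      have h1 : (⟨x, hx⟩ : ↥S) = eS.symm (DihedralGroup.r i) := by
        rw [← hd, eS.symm_apply_apply]
      have h2 := hrot i
      rw [← h1] at h2
      exact h2
    · exact ⟨i, rfl⟩
  refine ⟨(ρ₀ : X), ρ₀.2, ?_, ?_⟩
  · intro x hx hxR
    obtain ⟨i, hi⟩ := hrefl x hx hxR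
    have h1 : eS (⟨x, hx⟩ * ⟨x, hx⟩) = 1 := by
      rw [map_mul, hi, DihedralGroup.sr_mul_self]
    have h2 : (⟨x, hx⟩ : ↥S) * ⟨x, hx⟩ = 1 := by
      apply eS.injective; rw [h1, map_one]
    have h3 : x * x = 1 := congrArg Subtype.val h2
    rw [pow_two]; exact h3
  · intro x hx y hy hxR hyR
    obtain ⟨i, hi⟩ := hrefl x hx hxR
    obtain ⟨j, hj⟩ := hrefl y hy hyR
    have h1 : eS ((⟨x, hx⟩ : ↥S)⁻¹ * ⟨y, hy⟩) = DihedralGroup.r (j - i) := by
      rw [map_mul, map_inv, hi, hj, DihedralGroup.inv_sr, DihedralGroup.sr_mul_sr]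
    have h2 : (⟨x, hx⟩ : ↥S)⁻¹ * ⟨y, hy⟩ = eS.symm (DihedralGroup.r (j - i)) := by
      rw [← h1, eS.symm_apply_apply]
    have h3 := hrot (j - i)
    rw [← h2] at h3
    exact h3

theorem h8_dihedral_frob {X : Type u} [Group X] [Finite X] (S : Subgroup X) (hS : IsPGroup 2 S)
    (ρ : X) (hD1 : ∀ x ∈ S, x ∉ Subgroup.zpowers ρ → x ^ 2 = 1)
    (hD2 : ∀ x ∈ S, ∀ y ∈ S, x ∉ Subgroup.zpowers ρ → y ∉ Subgroup.zpowers ρ →
        x⁻¹ * y ∈ Subgroup.zpowers ρ)
    (Q : Subgroup X) (hQS : Q ≤ S) (g : X) (hgQ : g ∈ Subgroup.normalizer (Q : Set X))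
    (hg : Odd (orderOf g)) :
    g ∈ Subgroup.centralizer (Q : Set X) ∨ IsKleinFour ↥Q := by
  have hgn : g ^ orderOf g = 1 := pow_orderOf_eq_one g
  have hconj : ∀ x ∈ Q, g * x * g⁻¹ ∈ Q :=
    fun x hx => (Subgroup.mem_normalizer_iff.1 hgQ x).1 hx
  have h2pow : ∀ x ∈ S, ∃ a : ℕ, x ^ (2 ^ a) = 1 := by
    intro x hx
    obtain ⟨a, ha⟩ := hS ⟨x, hx⟩
    exact ⟨a, by simpa using congrArg Subtype.val ha⟩
  obtain ⟨Q₀, hQ₀⟩ : ∃ Q₀ : Subgroup X, Q₀ = Q ⊓ Subgroup.zpowers ρ := ⟨_, rfl⟩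
  have hQ₀mem : ∀ x, x ∈ Q₀ ↔ x ∈ Q ∧ x ∈ Subgroup.zpowers ρ := by
    intro x; rw [hQ₀, Subgroup.mem_inf]
  have hQ₀cyc : IsCyclic ↥Q₀ := by
    rw [hQ₀]
    exact h8_isCyclic_of_le (inf_le_right : Q ⊓ Subgroup.zpowers ρ ≤ Subgroup.zpowers ρ)
  obtain ⟨y₀, hy₀⟩ := isCyclic_iff_exists_zpowers_eq_top.1 hQ₀cyc
  obtain ⟨y, hyy⟩ : ∃ y : X, y = (y₀ : X) := ⟨_, rfl⟩
  have hQ₀z : Q₀ = Subgroup.zpowers y := by
    have h1 := congrArg (Subgroup.map Q₀.subtype) hy₀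
    rw [MonoidHom.map_zpowers, ← MonoidHom.range_eq_map, Subgroup.range_subtype] at h1
    rw [hyy]; exact h1.symm
  have hyQ₀ : y ∈ Q₀ := by rw [hQ₀z]; exact Subgroup.mem_zpowers y
  have hyQ : y ∈ Q := ((hQ₀mem y).1 hyQ₀).1
  obtain ⟨k, hk⟩ : ∃ k, orderOf y = 2 ^ k := by
    obtain ⟨a, ha⟩ := h2pow y (hQS hyQ)
    obtain ⟨k, -, hk⟩ := (Nat.dvd_prime_pow Nat.prime_two).1 (orderOf_dvd_of_pow_eq_one ha)
    exact ⟨k, hk⟩
  by_cases hgy : g * y * g⁻¹ ∈ Subgroup.zpowers y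
  · left
    have hgy' : g * y = y * g := h8_odd_centralizes_zpowers g y (orderOf g) k hg hgn hk hgy
    have hQ₀c : ∀ x ∈ Q₀, g * x = x * g := by
      intro x hx
      rw [hQ₀z] at hx
      obtain ⟨j, rfl⟩ := Subgroup.mem_zpowers_iff.1 hx
      exact ((show Commute g y from hgy').zpow_right j).eq
    rw [Subgroup.mem_centralizer_iff]
    intro x hx
    symm
    by_cases hxR : x ∈ Subgroup.zpowers ρ
    · exact hQ₀c x ((hQ₀mem x).2 ⟨hx, hxR⟩)
    · have hgxQ := hconj x hx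
      by_cases hgxR : g * x * g⁻¹ ∈ Subgroup.zpowers ρ
      · have h1 := hQ₀c _ ((hQ₀mem _).2 ⟨hgxQ, hgxR⟩)
        calc g * x = g⁻¹ * (g * (g * x * g⁻¹)) * g := by group
          _ = g⁻¹ * ((g * x * g⁻¹) * g) * g := by rw [h1]
          _ = x * g := by group
      · have hc : x⁻¹ * (g * x * g⁻¹) ∈ Q₀ :=
          (hQ₀mem _).2 ⟨Q.mul_mem (Q.inv_mem hx) hgxQ,
            hD2 x (hQS hx) _ (hQS hgxQ) hxR hgxR⟩
        obtain ⟨a, ha⟩ := h2pow _ (hQS ((hQ₀mem _).1 hc).1)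
        exact h8_odd_stab g x (x⁻¹ * (g * x * g⁻¹)) (orderOf g) a hg hgn (hQ₀c _ hc) ha
          (by group)
  · right
    have hy2 : y ^ 2 = 1 := by
      by_contra hy2
      apply hgy
      rw [← hQ₀z, hQ₀mem]
      refine ⟨hconj y hyQ, ?_⟩
      by_contra hR
      have h1 := hD1 _ (hQS (hconj y hyQ)) hR
      rw [conj_pow] at h1
      apply hy2
      calc y ^ 2 = g⁻¹ * (g * y ^ 2 * g⁻¹) * g := by group
        _ = 1 := by rw [h1]; group
    have hy1 : y ≠ 1 := by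
      intro hy1
      apply hgy
      rw [hy1]
      have h0 : g * 1 * g⁻¹ = (1 : X) := by group
      rw [h0]; exact Subgroup.one_mem _
    obtain ⟨x₀, hx₀Q, hx₀R⟩ : ∃ x₀ ∈ Q, x₀ ∉ Subgroup.zpowers ρ := by
      by_contra hcon
      push Not at hcon
      apply hgy
      rw [← hQ₀z, hQ₀mem]
      exact ⟨hconj y hyQ, hcon _ (hconj y hyQ)⟩
    have hsq : ∀ x ∈ Q, x ^ 2 = 1 := by
      intro x hx
      by_cases hxR : x ∈ Subgroup.zpowers ρ
      · have h1 : x ∈ Q₀ := (hQ₀mem x).2 ⟨hx, hxR⟩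
        rw [hQ₀z] at h1
        obtain ⟨j, rfl⟩ := Subgroup.mem_zpowers_iff.1 h1
        rw [← zpow_natCast, ← zpow_mul, mul_comm, zpow_mul, zpow_natCast, hy2, one_zpow]
      · exact hD1 x (hQS hx) hxR
    have hcardQ₀ : Nat.card Q₀ = 2 := by
      rw [hQ₀z, Nat.card_zpowers]
      exact orderOf_eq_prime hy2 hy1
    have hrel : Q₀.relIndex Q = 2 := by
      rw [Subgroup.relIndex_eq_two_iff]
      refine ⟨x₀, hx₀Q, fun b hb => ?_⟩
      by_cases hbR : b ∈ Subgroup.zpowers ρ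
      · have hb0 : b ∈ Q₀ := (hQ₀mem b).2 ⟨hb, hbR⟩
        refine Or.inr ⟨hb0, fun h => ?_⟩
        apply hx₀R
        have h1 : x₀ = b⁻¹ * (b * x₀) := by group
        rw [h1]
        exact Subgroup.mul_mem _ (Subgroup.inv_mem _ hbR) ((hQ₀mem _).1 h).2
      · have hb0 : b ∉ Q₀ := fun h => hbR ((hQ₀mem b).1 h).2
        refine Or.inl ⟨?_, hb0⟩
        rw [hQ₀mem]
        refine ⟨Q.mul_mem hb hx₀Q, ?_⟩
        have h1 : b⁻¹ = b := by
          have h2 := hsq b hb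
          rw [pow_two] at h2
          exact inv_eq_of_mul_eq_one_right h2
        have h3 := hD2 b (hQS hb) x₀ (hQS hx₀Q) hbR hx₀R
        rw [h1] at h3
        exact h3
    have hcardQ : Nat.card Q = 4 := by
      have h1 := Cfsg.Agent.Lib.Helper7.card_mul_relIndex_of_le
        (show Q₀ ≤ Q from fun x hx => ((hQ₀mem x).1 hx).1)
      rw [hcardQ₀, hrel] at h1
      omega
    refine ⟨hcardQ, ?_⟩
    have hdvd : Monoid.exponent ↥Q ∣ 2 := by
      apply Monoid.exponent_dvd_of_forall_pow_eq_one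
      intro x
      apply Subtype.ext
      rw [Subgroup.coe_pow]
      exact hsq x.1 x.2
    rcases (Nat.dvd_prime Nat.prime_two).1 hdvd with h1 | h1
    · exfalso
      have hsub : Subsingleton ↥Q := Monoid.exp_eq_one_iff.1 h1
      have h4 : Nat.card ↥Q = 1 := Nat.card_of_subsingleton (1 : ↥Q)
      omega
    · exact h1

theorem h8_s1254_mpr {X : Type u} [Group X] [Finite X] (S : Sylow 2 X) (m : ℕ) (hm : 2 ≤ m)
    (eS : (S : Subgroup X) ≃* DihedralGroup m)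
    (h : ∀ U : Subgroup X, U ≤ S → IsKleinFour U → Subgroup.normalizer (U : Set X) =
      Subgroup.centralizer (U : Set X) ⊔
        ((S : Subgroup X) ⊓ Subgroup.normalizer (U : Set X))) :
    Cfsg.HasNormalPComplement 2 X := by
  have hm0 : NeZero m := ⟨by omega⟩
  obtain ⟨ρ, -, hD1, hD2⟩ := h8_dihedral_struct (S : Subgroup X) m eS
  apply Cfsg.Agent.Lib.Helper2.frobenius
  apply Cfsg.Agent.Lib.Helper2.frobCond_of_sylow S
  intro Q hQS g hgQ hgcop
  have hodd : Odd (orderOf g) := by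
    by_contra hne
    rw [Nat.not_odd_iff_even] at hne
    exact absurd (Nat.Coprime.eq_one_of_dvd hgcop.symm hne.two_dvd) (by norm_num)
  rcases h8_dihedral_frob (S : Subgroup X) S.isPGroup' ρ hD1 hD2 Q hQS g hgQ hodd with hc | hK
  · exact hc
  · have hN := h Q hQS hK
    have hgN : g ∈ Subgroup.centralizer (Q : Set X) ⊔
        ((S : Subgroup X) ⊓ Subgroup.normalizer (Q : Set X)) := by
      rw [← hN]; exact hgQ
    have hle : (S : Subgroup X) ⊓ Subgroup.normalizer (Q : Set X) ≤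
        Subgroup.normalizer ((Subgroup.centralizer (Q : Set X) : Subgroup X) : Set X) := by
      rw [Subgroup.le_normalizer_iff]
      intro t ht c hc
      rw [Subgroup.mem_centralizer_iff] at hc ⊢
      intro x hx
      have h1 : t⁻¹ * x * t ∈ Q := by
        have h0 := (Subgroup.mem_normalizer_iff.1 (Subgroup.inv_mem _ ht.2) x).1 hx
        rwa [inv_inv] at h0
      have h2 := hc _ h1
      calc x * (t * c * t⁻¹) = t * ((t⁻¹ * x * t) * c) * t⁻¹ := by group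
        _ = t * (c * (t⁻¹ * x * t)) * t⁻¹ := by rw [h2]
        _ = t * c * t⁻¹ * x := by group
    obtain ⟨c, hc, t, ht, hct⟩ := h8_mem_sup_of_le_normalizer hle hgN
    have hconj : ∀ x ∈ Q, g * x * g⁻¹ = t * x * t⁻¹ := by
      intro x hx
      have h1 : t * x * t⁻¹ ∈ Q := (Subgroup.mem_normalizer_iff.1 ht.2 x).1 hx
      have h2 := Subgroup.mem_centralizer_iff.1 hc _ h1
      rw [← hct]
      calc c * t * x * (c * t)⁻¹ = c * (t * x * t⁻¹) * c⁻¹ := by group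
        _ = (t * x * t⁻¹) * c * c⁻¹ := by rw [h2]
        _ = t * x * t⁻¹ := by group
    have hiter : ∀ i : ℕ, ∀ x ∈ Q, g ^ i * x * (g ^ i)⁻¹ = t ^ i * x * (t ^ i)⁻¹ := by
      intro i
      induction i with
      | zero => intro x _; simp
      | succ i ih =>
        intro x hx
        have h1 : t ^ i * x * (t ^ i)⁻¹ ∈ Q :=
          (Subgroup.mem_normalizer_iff.1 (Subgroup.pow_mem _ ht.2 i) x).1 hx
        calc g ^ (i + 1) * x * (g ^ (i + 1))⁻¹ = g * (g ^ i * x * (g ^ i)⁻¹) * g⁻¹ := by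
              rw [pow_succ']; group
          _ = g * (t ^ i * x * (t ^ i)⁻¹) * g⁻¹ := by rw [ih x hx]
          _ = t * (t ^ i * x * (t ^ i)⁻¹) * t⁻¹ := hconj _ h1
          _ = t ^ (i + 1) * x * (t ^ (i + 1))⁻¹ := by rw [pow_succ']; group
    obtain ⟨a, ha⟩ := S.isPGroup' ⟨t, ht.1⟩
    have ha' : t ^ (2 ^ a) = 1 := by simpa using congrArg Subtype.val ha
    have hpow : g ^ (2 ^ a) ∈ Subgroup.centralizer (Q : Set X) := by
      rw [Subgroup.mem_centralizer_iff]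
      intro x hx
      have h1 := hiter (2 ^ a) x hx
      rw [ha'] at h1
      have h2 : g ^ (2 ^ a) * x * (g ^ (2 ^ a))⁻¹ = x := by rw [h1]; group
      calc x * g ^ (2 ^ a) = (g ^ (2 ^ a) * x * (g ^ (2 ^ a))⁻¹) * g ^ (2 ^ a) := by rw [h2]
        _ = g ^ (2 ^ a) * x := by group
    obtain ⟨j, hj⟩ := exists_pow_eq_self_of_coprime (x := g) (n := 2 ^ a)
      (Nat.Coprime.pow_left a hgcop.symm)
    rw [← hj]
    exact Subgroup.pow_mem _ hpow j

theorem h8_s1254_mp {X : Type u} [Group X] [Finite X] (S : Sylow 2 X)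
    (hnpc : Cfsg.HasNormalPComplement 2 X) (U : Subgroup X) (hUS : U ≤ S) :
    Subgroup.normalizer (U : Set X) =
      Subgroup.centralizer (U : Set X) ⊔
        ((S : Subgroup X) ⊓ Subgroup.normalizer (U : Set X)) := by
  obtain ⟨K, hKn, hKc, a, ha⟩ := Cfsg.Agent.Lib.Helper2.hasNormalPComplement_iff.1 hnpc
  have hcompl := Cfsg.Agent.Lib.Helper2.isComplement'_of_coprime_card_of_index_pow K hKc ha S
  apply le_antisymm
  · intro g hg
    have hgtop : g ∈ K ⊔ (S : Subgroup X) := by rw [hcompl.sup_eq_top]; trivial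
    obtain ⟨k, hk, s, hs, hks⟩ := h8_mem_sup_of_le_normalizer (A := K) (B := (S : Subgroup X))
      (by rw [Subgroup.normalizer_eq_top]; exact le_top) hgtop
    have hKS : ∀ z, z ∈ K → z ∈ (S : Subgroup X) → z = 1 := by
      intro z hzK hzS
      exact (Subgroup.disjoint_def.1 hcompl.disjoint) hzK hzS
    have hconj : ∀ u ∈ U, g * u * g⁻¹ = s * u * s⁻¹ := by
      intro u hu
      have h1 : g * u * g⁻¹ ∈ U := (Subgroup.mem_normalizer_iff.1 hg u).1 hu
      have h2 : (s * u * s⁻¹)⁻¹ * (g * u * g⁻¹) = 1 := by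
        apply hKS
        · rw [← hks]
          have h3 : (s * u * s⁻¹)⁻¹ * (k * s * u * (k * s)⁻¹) =
              ((s * u * s⁻¹)⁻¹ * k * (s * u * s⁻¹)⁻¹⁻¹) * k⁻¹ := by group
          rw [h3]
          exact K.mul_mem (hKn.conj_mem k hk _) (K.inv_mem hk)
        · exact Subgroup.mul_mem _ (Subgroup.inv_mem _ (Subgroup.mul_mem _
            (Subgroup.mul_mem _ hs (hUS hu)) (Subgroup.inv_mem _ hs))) (hUS h1)
      calc g * u * g⁻¹ = (s * u * s⁻¹) * ((s * u * s⁻¹)⁻¹ * (g * u * g⁻¹)) := by group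
        _ = s * u * s⁻¹ := by rw [h2, mul_one]
    have hsN : s ∈ Subgroup.normalizer (U : Set X) := by
      rw [Subgroup.mem_normalizer_iff]
      intro x
      have hM : ∀ x ∈ U, s * x * s⁻¹ ∈ U := by
        intro x hx
        rw [← hconj x hx]; exact (Subgroup.mem_normalizer_iff.1 hg x).1 hx
      exact (h8_conj_mem_iff s U hM x).symm
    have hcC : g * s⁻¹ ∈ Subgroup.centralizer (U : Set X) := by
      rw [Subgroup.mem_centralizer_iff]
      intro u hu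
      have h1 : s⁻¹ * u * s ∈ U := by
        have h0 := (Subgroup.mem_normalizer_iff.1 (Subgroup.inv_mem _ hsN) u).1 hu
        rwa [inv_inv] at h0
      have h2 := hconj _ h1
      have h3 : g * (s⁻¹ * u * s) * g⁻¹ = u := by rw [h2]; group
      calc u * (g * s⁻¹) = (g * (s⁻¹ * u * s) * g⁻¹) * (g * s⁻¹) := by rw [h3]
        _ = g * s⁻¹ * u := by group
    have hg' : g = (g * s⁻¹) * s := by group
    rw [hg']
    exact Subgroup.mul_mem _ (Subgroup.mem_sup_left hcC) (Subgroup.mem_sup_right ⟨hs, hsN⟩)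
  · exact sup_le (Subgroup.centralizer_le_normalizer _) inf_le_right

theorem h8_s1254 {X : Type u} [Group X] [Finite X] (S : Sylow 2 X) (m : ℕ) (hm : 2 ≤ m)
    (eS : (S : Subgroup X) ≃* DihedralGroup m) :
    Cfsg.HasNormalPComplement 2 X ↔ ∀ U : Subgroup X, U ≤ S → IsKleinFour U →
      Subgroup.normalizer (U : Set X) = Subgroup.centralizer (U : Set X) ⊔
        ((S : Subgroup X) ⊓ Subgroup.normalizer (U : Set X)) :=
  ⟨fun h U hUS _ => h8_s1254_mp S h U hUS, h8_s1254_mpr S m hm eS⟩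

end Cfsg.Agent.Lib.Helper8
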