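import Mathlib
import Cfsg.Prelude.Def_KGroupFacts
import Cfsg.Agent.Lib.Helper8.Schur
import Cfsg.Agent.Lib.Helper8.Dicyclic

set_option autoImplicit false

namespace Cfsg.Agent.Lib.Helper8

open DihedralGroup

/-- first isomorphism theorem count for a subgroup containing the kernel -/
theorem h8_card_map_mul_card_ker {Γ D : Type*} [Group Γ] [Group D] [Finite Γ] (σ : Γ →* D)
    (I : Subgroup Γ) (h : σ.ker ≤ I) : Nat.card (I.map σ) * Nat.card σ.ker = Nat.card I := by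
  have hf : Function.Surjective (σ.subgroupMap I) := σ.subgroupMap_surjective I
  have hk : (σ.subgroupMap I).ker = (σ.ker).subgroupOf I := by
    ext x
    rw [MonoidHom.mem_ker, Subgroup.mem_subgroupOf, MonoidHom.mem_ker]
    constructor
    · intro hx
      exact congrArg Subtype.val hx
    · intro hx
      exact Subtype.ext hx
  have h1 := (σ.subgroupMap I).ker.card_mul_index
  rw [Subgroup.index_ker, MonoidHom.range_eq_top.2 hf, Subgroup.card_top, hk,
    Nat.card_congr (Subgroup.subgroupOfEquivOfLe h).toEquiv] at h1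
  rw [mul_comm]; exact h1

/-- the rotation subgroup of the dihedral group -/
def h8_rot (n : ℕ) : Subgroup (DihedralGroup n) where
  carrier := Set.range DihedralGroup.r
  mul_mem' := by
    rintro _ _ ⟨i, rfl⟩ ⟨j, rfl⟩
    exact ⟨i + j, (r_mul_r i j).symm⟩
  one_mem' := ⟨0, r_zero⟩
  inv_mem' := by
    rintro _ ⟨i, rfl⟩
    exact ⟨-i, (inv_r i).symm⟩

theorem h8_mem_rot {n : ℕ} {x : DihedralGroup n} : x ∈ h8_rot n ↔ ∃ i, r i = x := Iff.rfl

instance h8_rot_normal (n : ℕ) : (h8_rot n).Normal := by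
  constructor
  rintro _ ⟨i, rfl⟩ g
  rcases g with j | j
  · rw [inv_r, r_mul_r, r_mul_r]; exact ⟨_, rfl⟩
  · rw [inv_sr, sr_mul_r, sr_mul_sr]; exact ⟨_, rfl⟩

theorem h8_card_rot (n : ℕ) [NeZero n] : Nat.card (h8_rot n) = n := by
  have hinj : Function.Injective (DihedralGroup.r : ZMod n → DihedralGroup n) := by
    intro a b hab
    injection hab
  have h1 : Nat.card (Set.range (DihedralGroup.r : ZMod n → DihedralGroup n)) = Nat.card (ZMod n) :=
    (Nat.card_congr (Equiv.ofInjective _ hinj)).symm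
  rw [Nat.card_zmod] at h1
  exact h1

/-- In a finite stem extension of the dihedral group `D_n` the kernel has order at most `2`, and is
trivial for odd `n`. -/
theorem h8_dihedral_stem_ker (n : ℕ) [NeZero n] {Γ : Type*} [Group Γ] [Finite Γ]
    (σ : Γ →* DihedralGroup n) (hσ : Cfsg.IsStemExtension σ) :
    Nat.card σ.ker ∣ 2 ∧ (Odd n → σ.ker = ⊥) := by
  obtain ⟨hsurj, hcen, hder⟩ := hσ
  set C := (h8_rot n).comap σ with hC
  have hCn : C.Normal := inferInstance
  have hmemC : ∀ g : Γ, g ∈ C ↔ ∃ i, r i = σ g := fun g => Iff.rfl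
  obtain ⟨s, hs⟩ := hsurj (sr 0)
  obtain ⟨ρ, hρ⟩ := hsurj (r 1)
  have hZC : σ.ker ≤ C := by
    intro z hz
    rw [hmemC, MonoidHom.mem_ker.1 hz]
    exact ⟨0, r_zero⟩
  -- C is abelian
  have hCab : ∀ a ∈ C, ∀ b ∈ C, a * b = b * a := by
    intro a ha b hb
    obtain ⟨i, hi⟩ := ha
    obtain ⟨j, hj⟩ := hb
    have h1 : a * (ρ ^ i.val)⁻¹ ∈ σ.ker := by
      rw [MonoidHom.mem_ker, map_mul, map_inv, map_pow, hρ, r_one_pow, ZMod.natCast_zmod_val, ← hi,
        mul_inv_cancel]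
    have h2 : b * (ρ ^ j.val)⁻¹ ∈ σ.ker := by
      rw [MonoidHom.mem_ker, map_mul, map_inv, map_pow, hρ, r_one_pow, ZMod.natCast_zmod_val, ← hj,
        mul_inv_cancel]
    have c1 : ∀ g : Γ, Commute (a * (ρ ^ i.val)⁻¹) g := fun g =>
      (Subgroup.mem_center_iff.1 (hcen h1) g).symm
    have c2 : ∀ g : Γ, Commute (b * (ρ ^ j.val)⁻¹) g := fun g =>
      (Subgroup.mem_center_iff.1 (hcen h2) g).symm
    have ea : a = (a * (ρ ^ i.val)⁻¹) * ρ ^ i.val := by group
    have eb : b = (b * (ρ ^ j.val)⁻¹) * ρ ^ j.val := by group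
    have hcomm : Commute ((a * (ρ ^ i.val)⁻¹) * ρ ^ i.val) ((b * (ρ ^ j.val)⁻¹) * ρ ^ j.val) := by
      apply Commute.mul_left (c1 _)
      apply Commute.mul_right (c2 _).symm
      exact Commute.pow_pow_self ρ _ _
    rw [ea, eb]
    exact hcomm.eq
  have hsC : ∀ c ∈ C, s * c * s⁻¹ ∈ C := fun c hc => hCn.conj_mem c hc s
  have hδC : ∀ c ∈ C, s * c * s⁻¹ * c⁻¹ ∈ C := fun c hc => C.mul_mem (hsC c hc) (C.inv_mem hc)
  -- the commutator map
  let δ : ↥C →* Γ :=
    { toFun := fun c => s * (c : Γ) * s⁻¹ * (c : Γ)⁻¹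
      map_one' := by simp
      map_mul' := by
        intro a b
        have h1 := hCab _ (hδC b b.2) _ (C.inv_mem a.2)
        have e1 : s * ((a : Γ) * (b : Γ)) * s⁻¹ * ((a : Γ) * (b : Γ))⁻¹ =
            (s * (a : Γ) * s⁻¹) * ((s * (b : Γ) * s⁻¹ * (b : Γ)⁻¹) * (a : Γ)⁻¹) := by group
        have e2 : s * (a : Γ) * s⁻¹ * (a : Γ)⁻¹ * (s * (b : Γ) * s⁻¹ * (b : Γ)⁻¹) =
            (s * (a : Γ) * s⁻¹) * ((a : Γ)⁻¹ * (s * (b : Γ) * s⁻¹ * (b : Γ)⁻¹)) := by group
        show s * ((a : Γ) * (b : Γ)) * s⁻¹ * ((a : Γ) * (b : Γ))⁻¹ =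
          s * (a : Γ) * s⁻¹ * (a : Γ)⁻¹ * (s * (b : Γ) * s⁻¹ * (b : Γ)⁻¹)
        rw [e1, e2, h1] }
  have hδ : ∀ c : ↥C, δ c = s * (c : Γ) * s⁻¹ * (c : Γ)⁻¹ := fun c => rfl
  -- every element is c or c * s
  have hΓ : ∀ g : Γ, g ∈ C ∨ g * s⁻¹ ∈ C := by
    intro g
    rcases h : σ g with i | i
    · exact Or.inl ⟨i, h.symm⟩
    · right
      rw [hmemC, map_mul, map_inv, hs, h, inv_sr, sr_mul_sr]
      exact ⟨_, rfl⟩
  -- the commutator subgroup lies in the range of δ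
  have hA : commutator Γ ≤ δ.range := by
    rw [commutator_def, Subgroup.commutator_le]
    intro a _ b _
    rw [commutatorElement_def]
    rcases hΓ a with ha | ha <;> rcases hΓ b with hb | hb
    · rw [hCab a ha b hb]
      have : b * a * a⁻¹ * b⁻¹ = 1 := by group
      rw [this]; exact Subgroup.one_mem _
    · -- a ∈ C, b = c₂ s
      set c₂ := b * s⁻¹ with hc₂
      have hW : s * a⁻¹ * s⁻¹ ∈ C := hsC _ (C.inv_mem ha)
      have e1 : a * b * a⁻¹ * b⁻¹ = a * (c₂ * (s * a⁻¹ * s⁻¹)) * c₂⁻¹ := by rw [hc₂]; group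
      have e2 : c₂ * (s * a⁻¹ * s⁻¹) = (s * a⁻¹ * s⁻¹) * c₂ := hCab _ hb _ hW
      have e3 : a * (s * a⁻¹ * s⁻¹) = (s * a⁻¹ * s⁻¹) * a := hCab _ ha _ hW
      refine ⟨⟨a⁻¹, C.inv_mem ha⟩, ?_⟩
      rw [hδ]
      show s * a⁻¹ * s⁻¹ * (a⁻¹)⁻¹ = a * b * a⁻¹ * b⁻¹
      rw [e1, e2, inv_inv, ← e3]; group
    · -- a = c₁ s, b ∈ C
      set c₁ := a * s⁻¹ with hc₁
      have hY : s * b * s⁻¹ ∈ C := hsC _ hb
      have e1 : a * b * a⁻¹ * b⁻¹ = c₁ * (s * b * s⁻¹) * c₁⁻¹ * b⁻¹ := by rw [hc₁]; group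
      have e2 : c₁ * (s * b * s⁻¹) = (s * b * s⁻¹) * c₁ := hCab _ ha _ hY
      refine ⟨⟨b, hb⟩, ?_⟩
      rw [hδ]
      show s * b * s⁻¹ * b⁻¹ = a * b * a⁻¹ * b⁻¹
      rw [e1, e2]; group
    · -- a = c₁ s, b = c₂ s
      set c₁ := a * s⁻¹ with hc₁
      set c₂ := b * s⁻¹ with hc₂
      have hX : s * (c₂ * c₁⁻¹) * s⁻¹ ∈ C := hsC _ (C.mul_mem hb (C.inv_mem ha))
      have e1 : a * b * a⁻¹ * b⁻¹ = c₁ * (s * (c₂ * c₁⁻¹) * s⁻¹) * c₂⁻¹ := by
        rw [hc₁, hc₂]; group
      have e2 : c₁ * (s * (c₂ * c₁⁻¹) * s⁻¹) = (s * (c₂ * c₁⁻¹) * s⁻¹) * c₁ := hCab _ ha _ hX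
      refine ⟨⟨c₂ * c₁⁻¹, C.mul_mem hb (C.inv_mem ha)⟩, ?_⟩
      rw [hδ]
      show s * (c₂ * c₁⁻¹) * s⁻¹ * (c₂ * c₁⁻¹)⁻¹ = a * b * a⁻¹ * b⁻¹
      rw [e1, e2]; group
  have hZI : σ.ker ≤ δ.range := hder.trans hA
  -- doubles of rotations lie in T = σ(I)
  have hT : ∀ j : ZMod n, r (j + j) ∈ δ.range.map σ := by
    intro j
    obtain ⟨c, hc⟩ := hsurj (r (-j))
    have hcC : c ∈ C := ⟨-j, hc.symm⟩
    refine ⟨δ ⟨c, hcC⟩, ⟨⟨c, hcC⟩, rfl⟩, ?_⟩
    rw [hδ]
    show σ (s * c * s⁻¹ * c⁻¹) = r (j + j)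
    rw [map_mul, map_mul, map_mul, map_inv, map_inv, hs, hc, inv_sr, inv_r, sr_mul_r, sr_mul_sr,
      r_mul_r]
    congr 1
    ring
  -- cardinalities
  have hcardI : Nat.card δ.range * Nat.card δ.ker = Nat.card C := by
    have := δ.ker.card_mul_index
    rw [Subgroup.index_ker] at this
    rw [mul_comm]; exact this
  have hcardT : Nat.card (δ.range.map σ) * Nat.card σ.ker = Nat.card δ.range :=
    h8_card_map_mul_card_ker σ _ hZI
  have hcardC : n * Nat.card σ.ker = Nat.card C := by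
    have := h8_card_map_mul_card_ker σ C hZC
    rw [hC, Subgroup.map_comap_eq_self_of_surjective hsurj, h8_card_rot] at this
    exact this
  have hZker : Nat.card σ.ker ∣ Nat.card δ.ker := by
    have h1 : (σ.ker).subgroupOf C ≤ δ.ker := by
      intro z hz
      rw [Subgroup.mem_subgroupOf] at hz
      rw [MonoidHom.mem_ker, hδ]
      have := Subgroup.mem_center_iff.1 (hcen hz) s
      rw [this]; group
    have h2 := Subgroup.card_dvd_of_le h1
    rwa [Nat.card_congr (Subgroup.subgroupOfEquivOfLe hZC).toEquiv] at h2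
  have hZpos : 0 < Nat.card σ.ker := Nat.card_pos
  have hTpos : 0 < Nat.card (δ.range.map σ) := Nat.card_pos
  have hkpos : 0 < Nat.card δ.ker := Nat.card_pos
  have hmain : Nat.card (δ.range.map σ) * Nat.card δ.ker = n := by
    have h1 : (Nat.card (δ.range.map σ) * Nat.card δ.ker) * Nat.card σ.ker =
        n * Nat.card σ.ker := by
      rw [hcardC, ← hcardI, ← hcardT]; ring
    exact Nat.eq_of_mul_eq_mul_right hZpos h1
  -- 2 |T| ≥ n
  have h2T : n ≤ 2 * Nat.card (δ.range.map σ) := by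
    have hsub : ((h8_rot n : Subgroup (DihedralGroup n)) : Set (DihedralGroup n)) ⊆
        ((δ.range.map σ : Subgroup (DihedralGroup n)) : Set (DihedralGroup n)) ∪
        (fun x => r 1 * x) '' ((δ.range.map σ : Subgroup (DihedralGroup n)) :
          Set (DihedralGroup n)) := by
      rintro _ ⟨i, rfl⟩
      obtain ⟨k, hk | hk⟩ := Nat.even_or_odd' i.val
      · left
        have : i = (k : ZMod n) + (k : ZMod n) := by
          rw [← ZMod.natCast_zmod_val i, hk]; push_cast; ring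
        rw [this]
        exact hT _
      · right
        refine ⟨r ((k : ZMod n) + (k : ZMod n)), hT _, ?_⟩
        have : i = 1 + ((k : ZMod n) + (k : ZMod n)) := by
          rw [← ZMod.natCast_zmod_val i, hk]; push_cast; ring
        show r 1 * r ((k : ZMod n) + (k : ZMod n)) = r i
        rw [r_mul_r, ← this]
    calc n = Nat.card (h8_rot n) := (h8_card_rot n).symm
      _ = ((h8_rot n : Subgroup (DihedralGroup n)) : Set (DihedralGroup n)).ncard :=
          (Nat.card_coe_set_eq _).symm ▸ rfl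
      _ ≤ _ := Set.ncard_le_ncard hsub (Set.toFinite _)
      _ ≤ ((δ.range.map σ : Subgroup (DihedralGroup n)) : Set (DihedralGroup n)).ncard +
          ((fun x => r 1 * x) '' ((δ.range.map σ : Subgroup (DihedralGroup n)) :
            Set (DihedralGroup n))).ncard := Set.ncard_union_le _ _
      _ ≤ ((δ.range.map σ : Subgroup (DihedralGroup n)) : Set (DihedralGroup n)).ncard +
          ((δ.range.map σ : Subgroup (DihedralGroup n)) : Set (DihedralGroup n)).ncard :=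
          Nat.add_le_add_left (Set.ncard_image_le (Set.toFinite _)) _
      _ = 2 * Nat.card (δ.range.map σ) := by
          rw [← Nat.card_coe_set_eq]
          show Nat.card (δ.range.map σ) + Nat.card (δ.range.map σ) = _
          ring
  have hk2 : Nat.card δ.ker ≤ 2 := by
    by_contra hcon
    rw [not_le] at hcon
    have : 3 * Nat.card (δ.range.map σ) ≤ Nat.card (δ.range.map σ) * Nat.card δ.ker := by
      rw [mul_comm]; exact Nat.mul_le_mul_left _ hcon
    omega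
  constructor
  · have hk12 : Nat.card δ.ker ∣ 2 := by
      have : Nat.card δ.ker = 1 ∨ Nat.card δ.ker = 2 := by omega
      rcases this with h | h <;> rw [h]
      exact one_dvd 2
    exact hZker.trans hk12
  · intro hodd
    have hRT : h8_rot n ≤ δ.range.map σ := by
      rintro _ ⟨i, rfl⟩
      obtain ⟨m, hm⟩ := hodd
      have h1 : (((n + 1) / 2 : ℕ) : ZMod n) + (((n + 1) / 2 : ℕ) : ZMod n) = 1 := by
        rw [← Nat.cast_add]
        have : (n + 1) / 2 + (n + 1) / 2 = n + 1 := by omega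
        rw [this, Nat.cast_add, ZMod.natCast_self, zero_add, Nat.cast_one]
      have h2 : i = i * (((n + 1) / 2 : ℕ) : ZMod n) + i * (((n + 1) / 2 : ℕ) : ZMod n) := by
        rw [← mul_add, h1, mul_one]
      rw [h2]
      exact hT _
    have h3 : n ≤ Nat.card (δ.range.map σ) :=
      calc n = Nat.card (h8_rot n) := (h8_card_rot n).symm
        _ ≤ _ := Subgroup.card_le_of_le hRT
    have hk1 : Nat.card δ.ker = 1 := by
      by_contra hne
      have : 2 ≤ Nat.card δ.ker := by omega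
      have : 2 * Nat.card (δ.range.map σ) ≤ Nat.card (δ.range.map σ) * Nat.card δ.ker := by
        rw [mul_comm]; exact Nat.mul_le_mul_left _ this
      omega
    rw [hk1, Nat.dvd_one] at hZker
    exact (Subgroup.card_eq_one).1 hZker

end Cfsg.Agent.Lib.Helper8
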