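import Mathlib
import Cfsg.Agent.Lib.Helper8.ThreePrimesSolv

set_option autoImplicit false

universe u

namespace Cfsg.Agent.Lib.Helper8

theorem h8_not_isPrimePow_mul {a b : ℕ} (ha : a.Prime) (hb : b.Prime) (hab : a ≠ b) :
    ¬ IsPrimePow (a * b) := by
  intro h
  obtain ⟨p, k, hp, -, hk⟩ := (isPrimePow_nat_iff _).1 h
  have h1 : a ∣ p ^ k := by rw [hk]; exact Dvd.intro _ rfl
  have h2 : b ∣ p ^ k := by rw [hk]; exact Dvd.intro_left _ rfl
  have h3 := (Nat.prime_dvd_prime_iff_eq ha hp).1 (ha.dvd_of_dvd_pow h1)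
  have h4 := (Nat.prime_dvd_prime_iff_eq hb hp).1 (hb.dvd_of_dvd_pow h2)
  exact hab (h3.trans h4.symm)

theorem h8_s1475 {G : Type u} [Group G] [Finite G] [Group.IsSolvable G]
    (h : ∀ g : G, IsPrimePow (orderOf g) ∨ g = 1) :
    (Nat.card G).primeFactors.card ≤ 2 := by
  by_contra hcon
  have h3 : 2 < (Nat.card G).primeFactors.card := by omega
  obtain ⟨a, ha, b, hb, c, hc, hab, hac, hbc⟩ := Finset.two_lt_card.1 h3
  obtain ⟨hap, haG, -⟩ := Nat.mem_primeFactors.1 ha
  obtain ⟨hbp, hbG, -⟩ := Nat.mem_primeFactors.1 hb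
  obtain ⟨hcp, hcG, -⟩ := Nat.mem_primeFactors.1 hc
  have hT : Group.IsSolvable (⊤ : Subgroup G) := inferInstance
  have hcard : Nat.card (⊤ : Subgroup G) = Nat.card G := Subgroup.card_top
  have key : ∀ (r s : ℕ), r.Prime → s.Prime → r ≠ s → ¬ ∃ x : G, orderOf x = r * s := by
    intro r s hr hs hrs ⟨x, hx⟩
    rcases h x with h1 | h1
    · rw [hx] at h1
      exact h8_not_isPrimePow_mul hr hs hrs h1
    · rw [h1, orderOf_one] at hx
      have := hr.one_lt
      have := hs.one_lt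
      nlinarith
  rcases h8_three_solv _ rfl (⊤ : Subgroup G) hT a b c hap hbp hcp hab hac hbc
    (by rw [hcard]; exact haG) (by rw [hcard]; exact hbG) hcG with h1 | h1 | h1
  · exact key a b hap hbp hab h1
  · exact key a c hap hcp hac h1
  · exact key b c hbp hcp hbc h1

end Cfsg.Agent.Lib.Helper8
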