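import Mathlib
import Cfsg.Prelude.Def_Local
import Cfsg.Agent.Lib.Helper8.Basic
import Cfsg.Agent.Lib.Helper8.CNMax
import Cfsg.Agent.Lib.Helper8.CNSolvA
import Cfsg.Agent.Lib.Helper8.CNSolv
import Cfsg.Agent.Lib.Helper8.PSolvOfSolv
import Cfsg.Agent.Lib.Helper7.PCore
import Cfsg.Agent.Lib.Helper7.Coprime
import Cfsg.Agent.Lib.Helper1.UpperP
import Cfsg.Agent.Lib.Lead.CharBurnside

set_option autoImplicit false
set_option linter.style.haveILetI false
universe u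

namespace Cfsg.Agent.Lib.Helper8

open scoped Pointwise commutatorElement

theorem h8_quad_core {Γ : Type u} [Group Γ] (W : Subgroup Γ)
    (hWc : ∀ u ∈ W, ∀ v ∈ W, u * v = v * u) (w v y A B : Γ) (hv : v ∈ W) (hy : y ∈ W)
    (hB : B ∈ W) (e1 : w * v * y = 1) (e2 : w * A * B = 1) : A * v⁻¹ = (B * y⁻¹)⁻¹ := by
  have h3 : v * y = A * B := by
    have := e1.trans e2.symm
    rw [mul_assoc, mul_assoc] at this
    exact mul_left_cancel this
  have hvc : v * (y * B⁻¹) = (y * B⁻¹) * v := hWc v hv _ (W.mul_mem hy (W.inv_mem hB))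
  calc A * v⁻¹ = (A * B) * B⁻¹ * v⁻¹ := by group
    _ = (v * y) * B⁻¹ * v⁻¹ := by rw [h3]
    _ = (v * (y * B⁻¹)) * v⁻¹ := by group
    _ = ((y * B⁻¹) * v) * v⁻¹ := by rw [hvc]
    _ = (B * y⁻¹)⁻¹ := by group

theorem h8_quad_step {Γ : Type u} [Group Γ] (W : Subgroup Γ) [hWn : W.Normal]
    (hWc : ∀ u ∈ W, ∀ v ∈ W, u * v = v * u) (s t x : Γ)
    (h1 : ∀ w ∈ W, w * (x * w * x⁻¹) * (x * x * w * (x * x)⁻¹) = 1)
    (h2 : ∀ w ∈ W, w * (s * (x * w * x⁻¹) * s⁻¹) * (t * (x * x * w * (x * x)⁻¹) * t⁻¹) = 1)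
    (v : Γ) (hv : v ∈ W) :
    s * v * s⁻¹ * v⁻¹ = (t * (x * v * x⁻¹) * t⁻¹ * (x * v * x⁻¹)⁻¹)⁻¹ := by
  have hw : x⁻¹ * v * x ∈ W := by
    have := hWn.conj_mem v hv x⁻¹
    rwa [inv_inv] at this
  have e1 := h1 _ hw
  have e2 := h2 _ hw
  have c1 : x * (x⁻¹ * v * x) * x⁻¹ = v := by group
  have c2 : x * x * (x⁻¹ * v * x) * (x * x)⁻¹ = x * v * x⁻¹ := by group
  rw [c1, c2] at e1 e2
  have hyW : x * v * x⁻¹ ∈ W := hWn.conj_mem v hv x
  exact h8_quad_core W hWc (x⁻¹ * v * x) v (x * v * x⁻¹) (s * v * s⁻¹)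
    (t * (x * v * x⁻¹) * t⁻¹) hv hyW (hWn.conj_mem _ hyW t) e1 e2

/-- `A₄ = ⟨a, b⟩ ⋊ ⟨x⟩` acting on an abelian normal subgroup `W` without 2-torsion such that
all elements `w g` (`g` of order 3 in `A₄`) have order 3: then `a` centralises `W` -/
theorem h8_a4_quad {Γ : Type u} [Group Γ] (W : Subgroup Γ) [hWn : W.Normal]
    (hWc : ∀ u ∈ W, ∀ v ∈ W, u * v = v * u) (hW2 : ∀ w ∈ W, w * w = 1 → w = 1)
    (a b x : Γ) (ha2 : a * a = 1) (hb2 : b * b = 1) (hab : a * b = b * a)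
    (hx3 : x * x * x = 1) (hxa : x * a = b * x) (hxb : x * b = a * b * x)
    (hR : ∀ g : Γ, (g = x ∨ g = a * x ∨ g = b * x ∨ g = a * b * x) → ∀ w ∈ W,
      w * (g * w * g⁻¹) * (g * g * w * (g * g)⁻¹) = 1) :
    ∀ w ∈ W, a * w * a⁻¹ = w := by
  have h1 := hR x (Or.inl rfl)
  have sq_a : (a * x) * (a * x) = a * b * (x * x) := by
    calc (a * x) * (a * x) = a * (x * a) * x := by group
      _ = a * (b * x) * x := by rw [hxa]
      _ = a * b * (x * x) := by group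
  have sq_b : (b * x) * (b * x) = a * (x * x) := by
    calc (b * x) * (b * x) = b * (x * b) * x := by group
      _ = b * (a * b * x) * x := by rw [hxb]
      _ = (b * a) * b * (x * x) := by group
      _ = (a * b) * b * (x * x) := by rw [hab]
      _ = a * (b * b) * (x * x) := by group
      _ = a * (x * x) := by rw [hb2, mul_one]
  have sq_c : (a * b * x) * (a * b * x) = b * (x * x) := by
    calc (a * b * x) * (a * b * x) = a * b * (x * a) * b * x := by group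
      _ = a * b * (b * x) * b * x := by rw [hxa]
      _ = a * (b * b) * (x * b) * x := by group
      _ = a * (x * b) * x := by rw [hb2, mul_one]
      _ = a * (a * b * x) * x := by rw [hxb]
      _ = (a * a) * b * (x * x) := by group
      _ = b * (x * x) := by rw [ha2, one_mul]
  have Ea : ∀ v ∈ W, a * v * a⁻¹ * v⁻¹ =
      (a * b * (x * v * x⁻¹) * (a * b)⁻¹ * (x * v * x⁻¹)⁻¹)⁻¹ := by
    apply h8_quad_step W hWc a (a * b) x h1
    intro w hw
    have := hR (a * x) (Or.inr (Or.inl rfl)) w hw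
    rw [sq_a] at this
    have c1 : a * x * w * (a * x)⁻¹ = a * (x * w * x⁻¹) * a⁻¹ := by group
    have c2 : a * b * (x * x) * w * (a * b * (x * x))⁻¹ =
        a * b * (x * x * w * (x * x)⁻¹) * (a * b)⁻¹ := by group
    rw [c1, c2] at this
    exact this
  have Eb : ∀ v ∈ W, b * v * b⁻¹ * v⁻¹ =
      (a * (x * v * x⁻¹) * a⁻¹ * (x * v * x⁻¹)⁻¹)⁻¹ := by
    apply h8_quad_step W hWc b a x h1
    intro w hw
    have := hR (b * x) (Or.inr (Or.inr (Or.inl rfl))) w hw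
    rw [sq_b] at this
    have c1 : b * x * w * (b * x)⁻¹ = b * (x * w * x⁻¹) * b⁻¹ := by group
    have c2 : a * (x * x) * w * (a * (x * x))⁻¹ = a * (x * x * w * (x * x)⁻¹) * a⁻¹ := by group
    rw [c1, c2] at this
    exact this
  have Ec : ∀ v ∈ W, a * b * v * (a * b)⁻¹ * v⁻¹ =
      (b * (x * v * x⁻¹) * b⁻¹ * (x * v * x⁻¹)⁻¹)⁻¹ := by
    apply h8_quad_step W hWc (a * b) b x h1
    intro w hw
    have := hR (a * b * x) (Or.inr (Or.inr (Or.inr rfl))) w hw
    rw [sq_c] at this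
    have c1 : a * b * x * w * (a * b * x)⁻¹ = a * b * (x * w * x⁻¹) * (a * b)⁻¹ := by group
    have c2 : b * (x * x) * w * (b * (x * x))⁻¹ = b * (x * x * w * (x * x)⁻¹) * b⁻¹ := by group
    rw [c1, c2] at this
    exact this
  intro v hv
  have hv1 : x * v * x⁻¹ ∈ W := hWn.conj_mem v hv x
  have hv2 : x * (x * v * x⁻¹) * x⁻¹ ∈ W := hWn.conj_mem _ hv1 x
  have hv3 : x * (x * (x * v * x⁻¹) * x⁻¹) * x⁻¹ = v := by
    calc x * (x * (x * v * x⁻¹) * x⁻¹) * x⁻¹ = (x * x * x) * v * (x * x * x)⁻¹ := by group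
      _ = v := by rw [hx3]; group
  have e1 := Ea v hv
  have e2 := Ec _ hv1
  have e3 := Eb _ hv2
  rw [hv3] at e3
  rw [e2, e3, inv_inv] at e1
  -- e1 : δ = δ⁻¹
  have hδW : a * v * a⁻¹ * v⁻¹ ∈ W := W.mul_mem (hWn.conj_mem v hv a) (W.inv_mem hv)
  have hδ : a * v * a⁻¹ * v⁻¹ = 1 := by
    apply hW2 _ hδW
    nth_rewrite 2 [e1]
    exact mul_inv_cancel _
  calc a * v * a⁻¹ = (a * v * a⁻¹ * v⁻¹) * v := by group
    _ = v := by rw [hδ, one_mul]

open Cfsg.Agent.Lib.Helper7 in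
/-- exponent 6, solvable, `O_{3'} = 1`: `O_3` is a Sylow 3-subgroup -/
theorem h8_exp6_three {G : Type u} [Group G] [Finite G] [hsolv : Group.IsSolvable G]
    (h6 : ∀ g : G, g ^ 6 = 1) (hO : Cfsg.pPrimeCore 3 G = ⊥) :
    (Nat.card (G ⧸ Cfsg.pCore 3 G)).Coprime 3 := by
  haveI : Fact (Nat.Prime 3) := ⟨Nat.prime_three⟩
  haveI : Fact (Nat.Prime 2) := ⟨Nat.prime_two⟩
  obtain ⟨P, hP⟩ : ∃ P : Subgroup G, P = Cfsg.pCore 3 G := ⟨_, rfl⟩
  haveI hPn : P.Normal := by rw [hP]; exact pCore_normal 3 G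
  have hPp : IsPGroup 3 P := by rw [hP]; exact pCore_isPGroup 3 G
  have hCP : Subgroup.centralizer (P : Set G) ≤ P := by
    rw [hP]
    exact Cfsg.Agent.Lib.Helper1.centralizer_pCore_le_of_isPSolvable 3 G
      (h8_isPSolvable_of_isSolvable 3 hsolv) hO
  rw [← hP]
  by_contra hcon
  have h3 : 3 ∣ Nat.card (G ⧸ P) := by
    by_contra h
    exact hcon ((Nat.Prime.coprime_iff_not_dvd Nat.prime_three).2 h).symm
  obtain ⟨xb, hxb⟩ := exists_prime_orderOf_dvd_card' 3 h3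
  obtain ⟨x₀, rfl⟩ := QuotientGroup.mk_surjective xb
  have hT : ∀ g : G, g ^ 3 ∈ P → g ^ 3 = 1 := by
    intro g hg
    obtain ⟨k, hk⟩ := hPp ⟨g ^ 3, hg⟩
    have hk' : (g ^ 3) ^ (3 ^ k) = 1 := by simpa using congrArg Subtype.val hk
    have h2 : (g ^ 3) ^ 2 = 1 := by rw [← pow_mul]; exact h6 g
    have h3 : orderOf (g ^ 3) ∣ 3 ^ k := orderOf_dvd_of_pow_eq_one hk'
    have h4 : orderOf (g ^ 3) ∣ 2 := orderOf_dvd_of_pow_eq_one h2
    have h5 : orderOf (g ^ 3) = 1 :=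
      Nat.Coprime.eq_one_of_dvd
        (Nat.Coprime.coprime_dvd_left h4 (Nat.Coprime.pow_right k (by norm_num))) h3
    exact orderOf_eq_one_iff.1 h5
  have hcube : ∀ g : G, g ^ 3 = g * g * g := fun g => by rw [pow_succ, pow_two]
  have hRel : ∀ g : G, g * g * g = 1 → ∀ u ∈ P,
      u * (g * u * g⁻¹) * (g * g * u * (g * g)⁻¹) = 1 := by
    intro g hg3 u hu
    have e : (u * g) ^ 3 = u * (g * u * g⁻¹) * (g * g * u * (g * g)⁻¹) * (g * g * g) := by
      rw [hcube]; group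
    have hug : (u * g) ^ 3 ∈ P := by
      rw [e, hg3, mul_one]
      exact P.mul_mem (P.mul_mem hu (hPn.conj_mem u hu g)) (hPn.conj_mem u hu (g * g))
    have h1 := hT (u * g) hug
    rw [e, hg3, mul_one] at h1
    exact h1
  have hP3 : ∀ u ∈ P, u * u * u = 1 := by
    intro u hu
    rw [← hcube]
    exact hT u (P.pow_mem hu 3)
  -- the quotient
  have hQ6 : ∀ q : G ⧸ P, q ^ 6 = 1 := by
    intro q
    obtain ⟨g, rfl⟩ := QuotientGroup.mk_surjective q
    rw [← QuotientGroup.mk_pow, h6 g]; rfl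
  have hQ3 : Cfsg.pCore 3 (G ⧸ P) = ⊥ :=
    h8_pcore_quot_bot 3 P hPp (fun N hN hNp => by rw [hP]; exact le_pCore hN hNp)
  have hQO : Cfsg.pPrimeCore 2 (G ⧸ P) = ⊥ := by
    rw [eq_bot_iff, ← hQ3]
    apply le_pCore (pPrimeCore_normal 2 (G ⧸ P))
    have hcop := pPrimeCore_coprime 2 (G ⧸ P)
    intro ⟨n, hn⟩
    refine ⟨1, Subtype.ext ?_⟩
    show n ^ (3 ^ 1) = 1
    have h1 : orderOf n ∣ 6 := orderOf_dvd_of_pow_eq_one (hQ6 n)
    have h2 : orderOf n ∣ Nat.card (Cfsg.pPrimeCore 2 (G ⧸ P)) := by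
      have := orderOf_dvd_natCard (⟨n, hn⟩ : Cfsg.pPrimeCore 2 (G ⧸ P))
      rwa [Subgroup.orderOf_mk] at this
    have h3 : (orderOf n).Coprime 2 := Nat.Coprime.coprime_dvd_left h2 hcop
    have h4 : orderOf n ∣ 3 := by
      have : orderOf n ∣ 2 * 3 := h1
      exact h3.dvd_of_dvd_mul_left this
    rw [pow_one]
    exact orderOf_dvd_iff_pow_eq_one.1 h4
  have hCQ : Subgroup.centralizer (Cfsg.pCore 2 (G ⧸ P) : Set (G ⧸ P)) ≤ Cfsg.pCore 2 (G ⧸ P) :=
    Cfsg.Agent.Lib.Helper1.centralizer_pCore_le_of_isPSolvable 2 (G ⧸ P)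
      (h8_isPSolvable_of_isSolvable 2 inferInstance) hQO
  obtain ⟨Q₂, hQ₂⟩ : ∃ Q₂ : Subgroup (G ⧸ P), Q₂ = Cfsg.pCore 2 (G ⧸ P) := ⟨_, rfl⟩
  rw [← hQ₂] at hCQ
  haveI hQ₂n : Q₂.Normal := by rw [hQ₂]; exact pCore_normal 2 _
  have hQ₂p : IsPGroup 2 Q₂ := by rw [hQ₂]; exact pCore_isPGroup 2 _
  have hQ₂sq : ∀ q ∈ Q₂, q * q = 1 := by
    intro q hq
    obtain ⟨k, hk⟩ := hQ₂p ⟨q, hq⟩
    have hk' : q ^ (2 ^ k) = 1 := by simpa using congrArg Subtype.val hk
    have h1 : orderOf q ∣ 6 := orderOf_dvd_of_pow_eq_one (hQ6 q)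
    have h2 : orderOf q ∣ 2 ^ k := orderOf_dvd_of_pow_eq_one hk'
    have h3 : (orderOf q).Coprime 3 :=
      Nat.Coprime.coprime_dvd_left h2 (Nat.Coprime.pow_left k (by norm_num))
    have h4 : orderOf q ∣ 2 := by
      have : orderOf q ∣ 3 * 2 := h1
      exact h3.dvd_of_dvd_mul_left this
    rw [← pow_two]
    exact orderOf_dvd_iff_pow_eq_one.1 h4
  have hQ₂inv : ∀ q ∈ Q₂, q⁻¹ = q := fun q hq => inv_eq_of_mul_eq_one_left (hQ₂sq q hq)
  have hQ₂c : ∀ u ∈ Q₂, ∀ v ∈ Q₂, u * v = v * u := by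
    intro u hu v hv
    have h1 := hQ₂inv _ (Q₂.mul_mem hu hv)
    rw [mul_inv_rev, hQ₂inv u hu, hQ₂inv v hv] at h1
    exact h1.symm
  obtain ⟨xq, hxq⟩ : ∃ xq : G ⧸ P, xq = (x₀ : G ⧸ P) := ⟨_, rfl⟩
  rw [← hxq] at hxb
  have hxq3 : xq * xq * xq = 1 := by
    have := pow_orderOf_eq_one xq
    rw [hxb, pow_succ, pow_two] at this
    exact this
  have hxq1 : xq ≠ 1 := by
    intro h
    rw [h, orderOf_one] at hxb
    norm_num at hxb
  have hxqQ : xq ∉ Q₂ := by
    intro h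
    apply hxq1
    have h1 := hQ₂sq xq h
    calc xq = (xq * xq * xq) * (xq * xq)⁻¹ := by group
      _ = 1 := by rw [hxq3, h1]; group
  have hex : ∃ a₀ ∈ Q₂, a₀ * xq ≠ xq * a₀ := by
    by_contra hcon2
    push Not at hcon2
    apply hxqQ
    apply hCQ
    rw [Subgroup.mem_centralizer_iff]
    intro q hq
    exact hcon2 q hq
  obtain ⟨a₀, ha₀, ha₀x⟩ := hex
  obtain ⟨b₀, hb₀⟩ : ∃ b₀ : G ⧸ P, b₀ = xq * a₀ * xq⁻¹ := ⟨_, rfl⟩
  obtain ⟨c₀, hc₀⟩ : ∃ c₀ : G ⧸ P, c₀ = xq * b₀ * xq⁻¹ := ⟨_, rfl⟩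
  have hb₀Q : b₀ ∈ Q₂ := by rw [hb₀]; exact hQ₂n.conj_mem a₀ ha₀ xq
  have hc₀Q : c₀ ∈ Q₂ := by rw [hc₀]; exact hQ₂n.conj_mem b₀ hb₀Q xq
  have hxc₀ : xq * c₀ * xq⁻¹ = a₀ := by
    rw [hc₀, hb₀]
    calc xq * (xq * (xq * a₀ * xq⁻¹) * xq⁻¹) * xq⁻¹ = (xq * xq * xq) * a₀ * (xq * xq * xq)⁻¹ := by
          group
      _ = a₀ := by rw [hxq3]; group
  obtain ⟨aq, haq⟩ : ∃ aq : G ⧸ P, aq = a₀ * b₀ := ⟨_, rfl⟩
  obtain ⟨bq, hbq⟩ : ∃ bq : G ⧸ P, bq = b₀ * c₀ := ⟨_, rfl⟩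
  have haqQ : aq ∈ Q₂ := by rw [haq]; exact Q₂.mul_mem ha₀ hb₀Q
  have hbqQ : bq ∈ Q₂ := by rw [hbq]; exact Q₂.mul_mem hb₀Q hc₀Q
  have haq1 : aq ≠ 1 := by
    intro h
    apply ha₀x
    have h1 : b₀ = a₀ := by
      have h2 : a₀ * b₀ = 1 := by rw [← haq]; exact h
      calc b₀ = a₀⁻¹ * (a₀ * b₀) := by group
        _ = a₀ := by rw [h2, mul_one, hQ₂inv a₀ ha₀]
    rw [hb₀] at h1
    calc a₀ * xq = (xq * a₀ * xq⁻¹) * xq := by rw [h1]
      _ = xq * a₀ := by group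
  have hxaq : xq * aq * xq⁻¹ = bq := by
    rw [haq, hbq, hc₀, hb₀]; group
  have hxbq : xq * bq * xq⁻¹ = aq * bq := by
    have h1 : xq * bq * xq⁻¹ = c₀ * a₀ := by
      rw [hbq]
      calc xq * (b₀ * c₀) * xq⁻¹ = (xq * b₀ * xq⁻¹) * (xq * c₀ * xq⁻¹) := by group
        _ = c₀ * a₀ := by rw [← hc₀, hxc₀]
    rw [h1, haq, hbq]
    calc c₀ * a₀ = a₀ * c₀ := hQ₂c c₀ hc₀Q a₀ ha₀
      _ = a₀ * (b₀ * b₀) * c₀ := by rw [hQ₂sq b₀ hb₀Q, mul_one]
      _ = a₀ * b₀ * (b₀ * c₀) := by group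
  -- the four-group in the quotient and its lift
  obtain ⟨Vq, hVq⟩ : ∃ Vq : Subgroup (G ⧸ P), Vq = Subgroup.closure {aq, bq} := ⟨_, rfl⟩
  have haqV : aq ∈ Vq := by rw [hVq]; exact Subgroup.subset_closure (by simp)
  have hbqV : bq ∈ Vq := by rw [hVq]; exact Subgroup.subset_closure (by simp)
  have hVqQ : Vq ≤ Q₂ := by
    rw [hVq, Subgroup.closure_le]
    intro s hs
    rcases hs with hs | hs
    · rw [hs]; exact haqQ
    · have hs' : s = bq := hs
      rw [hs']; exact hbqQ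
  have hVqx : ∀ v ∈ Vq, xq * v * xq⁻¹ ∈ Vq := by
    have hle : Vq ≤ Vq.comap (MulAut.conj xq).toMonoidHom := by
      rw [hVq, Subgroup.closure_le]
      intro s hs
      rw [SetLike.mem_coe, Subgroup.mem_comap]
      show xq * s * xq⁻¹ ∈ _
      rw [← hVq]
      rcases hs with hs | hs
      · rw [hs, hxaq]; exact hbqV
      · have hs' : s = bq := hs
        rw [hs', hxbq]; exact Vq.mul_mem haqV hbqV
    intro v hv
    exact hle hv
  have hVqcop : (Nat.card Vq).Coprime 3 := by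
    obtain ⟨k, hk⟩ := IsPGroup.iff_card.1 (hQ₂p.to_le hVqQ)
    rw [hk]
    exact Nat.Coprime.pow_left k (by norm_num)
  obtain ⟨V, hVP, hVmap⟩ := h8_lift_pprime P 3 hPp Vq hVqcop
  have hVinj : ∀ v ∈ V, (QuotientGroup.mk' P) v = 1 → v = 1 := by
    intro v hv h
    have h1 : v ∈ V ⊓ P := ⟨hv, (QuotientGroup.eq_one_iff v).1 h⟩
    rw [hVP, Subgroup.mem_bot] at h1
    exact h1
  have hVinj2 : ∀ v ∈ V, ∀ v' ∈ V, (QuotientGroup.mk' P) v = (QuotientGroup.mk' P) v' →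
      v = v' := by
    intro v hv v' hv' h
    have h1 := hVinj (v * v'⁻¹) (V.mul_mem hv (V.inv_mem hv')) (by
      rw [map_mul, map_inv, h, mul_inv_cancel])
    exact mul_inv_eq_one.1 h1
  have hVmk : ∀ v ∈ V, (QuotientGroup.mk' P) v ∈ Vq := by
    intro v hv
    rw [← hVmap]; exact ⟨v, hv, rfl⟩
  obtain ⟨a, haV, haq'⟩ : ∃ a ∈ V, (QuotientGroup.mk' P) a = aq := by
    have := haqV
    rw [← hVmap] at this
    exact this
  obtain ⟨b, hbV, hbq'⟩ : ∃ b ∈ V, (QuotientGroup.mk' P) b = bq := by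
    have := hbqV
    rw [← hVmap] at this
    exact this
  have ha2 : a * a = 1 := by
    apply hVinj _ (V.mul_mem haV haV)
    rw [map_mul, haq']; exact hQ₂sq aq haqQ
  have hb2 : b * b = 1 := by
    apply hVinj _ (V.mul_mem hbV hbV)
    rw [map_mul, hbq']; exact hQ₂sq bq hbqQ
  have hab : a * b = b * a := by
    apply hVinj2 _ (V.mul_mem haV hbV) _ (V.mul_mem hbV haV)
    rw [map_mul, map_mul, haq', hbq']; exact hQ₂c aq haqQ bq hbqQ
  have ha1 : a ≠ 1 := by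
    intro h
    apply haq1
    rw [← haq', h, map_one]
  -- an element normalising V with image xq
  have hVsq : ∀ v ∈ V, v * v = 1 := by
    intro v hv
    apply hVinj _ (V.mul_mem hv hv)
    rw [map_mul]; exact hQ₂sq _ (hVqQ (hVmk v hv))
  have hVp : IsPGroup 2 V := by
    intro ⟨v, hv⟩
    refine ⟨1, Subtype.ext ?_⟩
    show v ^ (2 ^ 1) = 1
    rw [pow_one, pow_two]; exact hVsq v hv
  have hcopVP : (Nat.card V).Coprime (Nat.card P) := by
    obtain ⟨k, hk⟩ := IsPGroup.iff_card.1 hVp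
    obtain ⟨m, hm⟩ := IsPGroup.iff_card.1 hPp
    rw [hk, hm]
    exact Nat.Coprime.pow _ _ (by norm_num)
  have hB : MulAut.conj x₀ • V ≤ P ⊔ V := by
    intro y hy
    rw [mem_conj_smul_iff] at hy
    have h1 : (QuotientGroup.mk' P) y ∈ Vq := by
      have h2 := hVqx _ (hVmk _ hy)
      have h3 : xq * (QuotientGroup.mk' P) (x₀⁻¹ * y * x₀) * xq⁻¹ = (QuotientGroup.mk' P) y := by
        rw [hxq]
        show (QuotientGroup.mk' P) x₀ * (QuotientGroup.mk' P) (x₀⁻¹ * y * x₀) *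
          ((QuotientGroup.mk' P) x₀)⁻¹ = _
        rw [← map_inv, ← map_mul, ← map_mul]
        congr 1
        group
      rw [h3] at h2
      exact h2
    rw [← hVmap] at h1
    obtain ⟨v', hv', hv'y⟩ := h1
    have h4 : y * v'⁻¹ ∈ P := by
      rw [← QuotientGroup.eq_one_iff]
      show (QuotientGroup.mk' P) (y * v'⁻¹) = 1
      rw [map_mul, map_inv, hv'y, mul_inv_cancel]
    have h5 : y = (y * v'⁻¹) * v' := by group
    rw [h5]
    exact Subgroup.mul_mem_sup h4 hv'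
  obtain ⟨n, hnP, hn⟩ := sz_conj_sub V P
    (le_top.trans_eq (Subgroup.normalizer_eq_top (H := P)).symm) hcopVP (Or.inr inferInstance)
    (MulAut.conj x₀ • V) hB (card_conj_smul x₀ V)
  obtain ⟨x, hx⟩ : ∃ x : G, x = n⁻¹ * x₀ := ⟨_, rfl⟩
  have hxV : ∀ v ∈ V, x * v * x⁻¹ ∈ V := by
    intro v hv
    have h1 : x₀ * v * x₀⁻¹ ∈ MulAut.conj x₀ • V := by
      rw [mem_conj_smul_iff]
      have : x₀⁻¹ * (x₀ * v * x₀⁻¹) * x₀ = v := by group
      rw [this]; exact hv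
    rw [← hn, mem_conj_smul_iff] at h1
    have h2 : x * v * x⁻¹ = n⁻¹ * (x₀ * v * x₀⁻¹) * n := by rw [hx]; group
    rw [h2]; exact h1
  have hxmk : (QuotientGroup.mk' P) x = xq := by
    have hn1 : (QuotientGroup.mk' P) n = 1 := (QuotientGroup.eq_one_iff n).2 hnP
    rw [hx, map_mul, map_inv, hn1, inv_one, one_mul, hxq]
    rfl
  have hx3 : x * x * x = 1 := by
    rw [← hcube]
    apply hT
    rw [← QuotientGroup.eq_one_iff]
    show (QuotientGroup.mk' P) (x ^ 3) = 1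
    rw [map_pow, hxmk, pow_succ, pow_two]; exact hxq3
  have hxa : x * a = b * x := by
    have h1 : x * a * x⁻¹ = b := by
      apply hVinj2 _ (hxV a haV) _ hbV
      rw [map_mul, map_mul, map_inv, hxmk, haq', hbq']; exact hxaq
    calc x * a = (x * a * x⁻¹) * x := by group
      _ = b * x := by rw [h1]
  have hxb : x * b = a * b * x := by
    have h1 : x * b * x⁻¹ = a * b := by
      apply hVinj2 _ (hxV b hbV) _ (V.mul_mem haV hbV)
      rw [map_mul, map_mul, map_inv, hxmk, map_mul, haq', hbq']; exact hxbq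
    calc x * b = (x * b * x⁻¹) * x := by group
      _ = a * b * x := by rw [h1]
  have hab2 : a * b * (a * b) = 1 := by
    calc a * b * (a * b) = a * (b * a) * b := by group
      _ = a * (a * b) * b := by rw [hab]
      _ = (a * a) * (b * b) := by group
      _ = 1 := by rw [ha2, hb2, one_mul]
  have cube_a : (a * x) * (a * x) * (a * x) = 1 := by
    calc (a * x) * (a * x) * (a * x) = a * (x * a) * (x * a) * x := by group
      _ = a * (b * x) * (b * x) * x := by rw [hxa]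
      _ = a * b * (x * b) * x * x := by group
      _ = a * b * (a * b * x) * x * x := by rw [hxb]
      _ = (a * b * (a * b)) * (x * x * x) := by group
      _ = 1 := by rw [hab2, hx3, one_mul]
  have cube_b : (b * x) * (b * x) * (b * x) = 1 := by
    calc (b * x) * (b * x) * (b * x) = b * (x * b) * (x * b) * x := by group
      _ = b * (a * b * x) * (a * b * x) * x := by rw [hxb]
      _ = b * a * b * (x * a) * b * x * x := by group
      _ = b * a * b * (b * x) * b * x * x := by rw [hxa]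
      _ = b * a * (b * b) * (x * b) * x * x := by group
      _ = b * a * (a * b * x) * x * x := by rw [hb2, mul_one, hxb]
      _ = b * (a * a) * b * (x * x * x) := by group
      _ = 1 := by rw [ha2, mul_one, hb2, hx3, one_mul]
  have cube_c : (a * b * x) * (a * b * x) * (a * b * x) = 1 := by
    calc (a * b * x) * (a * b * x) * (a * b * x)
        = a * b * (x * a) * b * (x * a) * b * x := by group
      _ = a * b * (b * x) * b * (b * x) * b * x := by rw [hxa]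
      _ = a * (b * b) * (x * b) * b * (x * b) * x := by group
      _ = a * (a * b * x) * b * (a * b * x) * x := by rw [hb2, mul_one, hxb]
      _ = (a * a) * b * (x * b) * a * b * x * x := by group
      _ = b * (a * b * x) * a * b * x * x := by rw [ha2, one_mul, hxb]
      _ = (b * a) * b * (x * a) * b * x * x := by group
      _ = (a * b) * b * (b * x) * b * x * x := by rw [← hab, hxa]
      _ = a * (b * b) * b * (x * b) * x * x := by group
      _ = a * b * (a * b * x) * x * x := by rw [hb2, mul_one, hxb]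
      _ = (a * b * (a * b)) * (x * x * x) := by group
      _ = 1 := by rw [hab2, hx3, one_mul]
  -- a does not centralise P; minimal normal subgroup on which a acts nontrivially
  have haP : a ∉ P := by
    intro h
    apply ha1
    have h1 : a ∈ V ⊓ P := ⟨haV, h⟩
    rw [hVP, Subgroup.mem_bot] at h1
    exact h1
  have hnotc : ¬ ∀ u ∈ P, a * u = u * a := by
    intro h
    apply haP
    apply hCP
    rw [Subgroup.mem_centralizer_iff]
    intro u hu
    exact (h u hu).symm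
  obtain ⟨N, hNle, hNmin⟩ := Finite.exists_le_minimal
    (p := fun N : Subgroup G => N.Normal ∧ N ≤ P ∧ ¬ ∀ u ∈ N, a * u = u * a) (a := P)
    ⟨hPn, le_rfl, hnotc⟩
  obtain ⟨hNn, hNP, hNnc⟩ := hNmin.prop
  haveI := hNn
  obtain ⟨K, hK⟩ : ∃ K : Subgroup G, K = ⁅N, N⁆ := ⟨_, rfl⟩
  haveI hKn : K.Normal := by rw [hK]; infer_instance
  have hKN : K ≤ N := by rw [hK]; exact Subgroup.commutator_le_left N N
  have hKne : K ≠ N := by
    intro h
    have hNnt : Nontrivial N := by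
      by_contra hnt
      rw [not_nontrivial_iff_subsingleton] at hnt
      apply hNnc
      intro u hu
      have h1 : (⟨u, hu⟩ : N) = 1 := Subsingleton.elim _ _
      have h2 : u = 1 := congrArg Subtype.val h1
      rw [h2, mul_one, one_mul]
    haveI := hNnt
    have h1 := Group.IsSolvable.commutator_lt_top_of_nontrivial (G := N)
    have h2 : (_root_.commutator N).map N.subtype = ⁅N, N⁆ := Subgroup.map_subtype_commutator N
    rw [← hK, h] at h2
    have h3 : (_root_.commutator N) = ⊤ := by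
      apply Subgroup.map_injective N.subtype_injective
      rw [h2, ← MonoidHom.range_eq_map, Subgroup.range_subtype]
    exact h1.ne h3
  have hKc : ∀ k ∈ K, a * k = k * a := by
    by_contra hcon2
    apply hKne
    exact le_antisymm hKN (hNmin.le_of_le ⟨hKn, hKN.trans hNP, hcon2⟩ hKN)
  obtain ⟨W, hW⟩ : ∃ W : Subgroup (G ⧸ K), W = N.map (QuotientGroup.mk' K) := ⟨_, rfl⟩
  haveI hWn : W.Normal := by
    rw [hW]; exact Subgroup.Normal.map hNn _ (QuotientGroup.mk'_surjective K)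
  have hWc : ∀ u ∈ W, ∀ v ∈ W, u * v = v * u := by
    intro u hu v hv
    rw [hW] at hu hv
    obtain ⟨u', hu', rfl⟩ := hu
    obtain ⟨v', hv', rfl⟩ := hv
    have h1 : ⁅u', v'⁆ ∈ K := by rw [hK]; exact Subgroup.commutator_mem_commutator hu' hv'
    rw [commutatorElement_def] at h1
    have h2 : (QuotientGroup.mk' K) (u' * v' * u'⁻¹ * v'⁻¹) = 1 :=
      (QuotientGroup.eq_one_iff _).2 h1
    rw [map_mul, map_mul, map_mul, map_inv, map_inv] at h2
    calc (QuotientGroup.mk' K) u' * (QuotientGroup.mk' K) v'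
        = ((QuotientGroup.mk' K) u' * (QuotientGroup.mk' K) v' * ((QuotientGroup.mk' K) u')⁻¹ *
            ((QuotientGroup.mk' K) v')⁻¹) * ((QuotientGroup.mk' K) v' * (QuotientGroup.mk' K) u') := by
          group
      _ = (QuotientGroup.mk' K) v' * (QuotientGroup.mk' K) u' := by rw [h2, one_mul]
  have hW2 : ∀ w ∈ W, w * w = 1 → w = 1 := by
    intro w hw hww
    rw [hW] at hw
    obtain ⟨u, hu, rfl⟩ := hw
    have h1 := hP3 u (hNP hu)
    have h2 : (QuotientGroup.mk' K) u * (QuotientGroup.mk' K) u * (QuotientGroup.mk' K) u = 1 := by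
      rw [← map_mul, ← map_mul, h1, map_one]
    calc (QuotientGroup.mk' K) u
        = ((QuotientGroup.mk' K) u * (QuotientGroup.mk' K) u * (QuotientGroup.mk' K) u) *
            ((QuotientGroup.mk' K) u * (QuotientGroup.mk' K) u)⁻¹ := by group
      _ = 1 := by rw [h2, hww]; group
  have hRW : ∀ g : G, g * g * g = 1 → ∀ w ∈ W,
      w * ((QuotientGroup.mk' K) g * w * ((QuotientGroup.mk' K) g)⁻¹) *
        ((QuotientGroup.mk' K) g * (QuotientGroup.mk' K) g * w *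
          ((QuotientGroup.mk' K) g * (QuotientGroup.mk' K) g)⁻¹) = 1 := by
    intro g hg w hw
    rw [hW] at hw
    obtain ⟨u, hu, rfl⟩ := hw
    have h1 := hRel g hg u (hNP hu)
    have h2 := congrArg (QuotientGroup.mk' K) h1
    rw [map_one] at h2
    rw [← h2]
    simp only [map_mul, map_inv]
  have hcent := h8_a4_quad W hWc hW2 ((QuotientGroup.mk' K) a) ((QuotientGroup.mk' K) b)
    ((QuotientGroup.mk' K) x) (by rw [← map_mul, ha2, map_one]) (by rw [← map_mul, hb2, map_one])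
    (by rw [← map_mul, ← map_mul, hab]) (by rw [← map_mul, ← map_mul, hx3, map_one])
    (by rw [← map_mul, ← map_mul, hxa]) (by rw [← map_mul, ← map_mul, ← map_mul, hxb])
    (by
      intro g hg w hw
      rcases hg with rfl | rfl | rfl | rfl
      · exact hRW x hx3 w hw
      · have := hRW (a * x) cube_a w hw
        rw [map_mul] at this
        exact this
      · have := hRW (b * x) cube_b w hw
        rw [map_mul] at this
        exact this
      · have := hRW (a * b * x) cube_c w hw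
        rw [map_mul, map_mul] at this
        exact this)
  apply hNnc
  intro u hu
  have h1 := hcent ((QuotientGroup.mk' K) u) (by rw [hW]; exact ⟨u, hu, rfl⟩)
  have hk : a * u * a⁻¹ * u⁻¹ ∈ K := by
    rw [← QuotientGroup.eq_one_iff]
    show (QuotientGroup.mk' K) (a * u * a⁻¹ * u⁻¹) = 1
    rw [map_mul, map_mul, map_mul, map_inv, map_inv, h1, mul_inv_cancel]
  obtain ⟨k, hkdef⟩ : ∃ k : G, k = a * u * a⁻¹ * u⁻¹ := ⟨_, rfl⟩
  rw [← hkdef] at hk
  have hak := hKc k hk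
  have hau : a * u * a⁻¹ = k * u := by rw [hkdef]; group
  have hkk : k * k = 1 := by
    have h2 : a * (a * u * a⁻¹) * a⁻¹ = u := by
      calc a * (a * u * a⁻¹) * a⁻¹ = (a * a) * u * (a * a)⁻¹ := by group
        _ = u := by rw [ha2]; group
    rw [hau] at h2
    have h3 : a * (k * u) * a⁻¹ = k * (k * u) := by
      calc a * (k * u) * a⁻¹ = (a * k) * (a⁻¹ * (a * u * a⁻¹) * a) * a⁻¹ := by group
        _ = (k * a) * (a⁻¹ * (k * u) * a) * a⁻¹ := by rw [hak, hau]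
        _ = k * (k * u) := by group
    rw [h3] at h2
    calc k * k = (k * (k * u)) * u⁻¹ := by group
      _ = 1 := by rw [h2, mul_inv_cancel]
  have hk1 : k = 1 := by
    have h3 := hP3 k (hNP (hKN hk))
    calc k = (k * k * k) * (k * k)⁻¹ := by group
      _ = 1 := by rw [h3, hkk]; group
  rw [hk1, one_mul] at hau
  calc a * u = (a * u * a⁻¹) * a := by group
    _ = u * a := by rw [hau]

open Cfsg.Agent.Lib.Helper7 in
/-- exponent 6, solvable, `O_{2'} = 1`: `O_2` is a Sylow 2-subgroup -/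
theorem h8_exp6_two {G : Type u} [Group G] [Finite G] [hsolv : Group.IsSolvable G]
    (h6 : ∀ g : G, g ^ 6 = 1) (hO : Cfsg.pPrimeCore 2 G = ⊥) :
    (Nat.card (G ⧸ Cfsg.pCore 2 G)).Coprime 2 := by
  haveI : Fact (Nat.Prime 2) := ⟨Nat.prime_two⟩
  obtain ⟨P, hP⟩ : ∃ P : Subgroup G, P = Cfsg.pCore 2 G := ⟨_, rfl⟩
  haveI hPn : P.Normal := by rw [hP]; exact pCore_normal 2 G
  have hPp : IsPGroup 2 P := by rw [hP]; exact pCore_isPGroup 2 G
  have hCP : Subgroup.centralizer (P : Set G) ≤ P := by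
    rw [hP]
    exact Cfsg.Agent.Lib.Helper1.centralizer_pCore_le_of_isPSolvable 2 G
      (h8_isPSolvable_of_isSolvable 2 hsolv) hO
  rw [← hP]
  obtain ⟨S⟩ : Nonempty (Sylow 2 G) := inferInstance
  have hSsq : ∀ s ∈ (S : Subgroup G), s * s = 1 := by
    intro s hs
    obtain ⟨k, hk⟩ := S.isPGroup' ⟨s, hs⟩
    have hk' : s ^ (2 ^ k) = 1 := by simpa using congrArg Subtype.val hk
    have h1 : orderOf s ∣ 6 := orderOf_dvd_of_pow_eq_one (h6 s)
    have h2 : orderOf s ∣ 2 ^ k := orderOf_dvd_of_pow_eq_one hk'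
    have h3 : (orderOf s).Coprime 3 :=
      Nat.Coprime.coprime_dvd_left h2 (Nat.Coprime.pow_left k (by norm_num))
    have h4 : orderOf s ∣ 2 := by
      have : orderOf s ∣ 3 * 2 := h1
      exact h3.dvd_of_dvd_mul_left this
    rw [← pow_two]
    exact orderOf_dvd_iff_pow_eq_one.1 h4
  have hSinv : ∀ q ∈ (S : Subgroup G), q⁻¹ = q :=
    fun q hq => inv_eq_of_mul_eq_one_left (hSsq q hq)
  have hSc : ∀ u ∈ (S : Subgroup G), ∀ v ∈ (S : Subgroup G), u * v = v * u := by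
    intro u hu v hv
    have h1 := hSinv _ ((S : Subgroup G).mul_mem hu hv)
    rw [mul_inv_rev, hSinv u hu, hSinv v hv] at h1
    exact h1.symm
  have hPS : P ≤ (S : Subgroup G) := by
    have h1 : IsPGroup 2 ((S : Subgroup G) ⊔ P : Subgroup G) :=
      IsPGroup.to_sup_of_normal_right S.isPGroup' hPp
    have h2 : (S : Subgroup G) ⊔ P = S := S.is_maximal' h1 le_sup_left
    rw [← h2]; exact le_sup_right
  have hSP : (S : Subgroup G) ≤ P := by
    intro s hs
    apply hCP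
    rw [Subgroup.mem_centralizer_iff]
    intro u hu
    exact hSc u (hPS hu) s hs
  have hidx : P.index ∣ (S : Subgroup G).index := Subgroup.index_dvd_of_le hSP
  have h2 : ¬ 2 ∣ (S : Subgroup G).index := S.not_dvd_index
  rw [← Subgroup.index_eq_card]
  exact ((Nat.Prime.coprime_iff_not_dvd Nat.prime_two).2 (fun h => h2 (h.trans hidx))).symm

theorem h8_exp6_solvable {G : Type u} [Group G] [Finite G] (h6 : ∀ g : G, g ^ 6 = 1) :
    Group.IsSolvable G := by
  have hprime : ∀ p : ℕ, p.Prime → p ∣ Nat.card G → p = 2 ∨ p = 3 := by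
    intro p hp hdvd
    haveI : Fact p.Prime := ⟨hp⟩
    obtain ⟨g, hg⟩ := exists_prime_orderOf_dvd_card' p hdvd
    have h1 : orderOf g ∣ 6 := orderOf_dvd_of_pow_eq_one (h6 g)
    rw [hg] at h1
    have h2 : p ≤ 6 := Nat.le_of_dvd (by norm_num) h1
    have h3 := hp.two_le
    interval_cases p
    · left; rfl
    · right; rfl
    · norm_num at h1
    · norm_num at h1
    · norm_num at hp
  have hpos : Nat.card G ≠ 0 := Nat.card_pos.ne'
  obtain ⟨a, m, hm2, hma⟩ := Nat.exists_eq_pow_mul_and_not_dvd hpos 2 (by norm_num)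
  have hm0 : m ≠ 0 := by
    rintro rfl
    exact hm2 (dvd_zero 2)
  obtain ⟨b, k, hk3, hkb⟩ := Nat.exists_eq_pow_mul_and_not_dvd hm0 3 (by norm_num)
  have hk1 : k = 1 := by
    by_contra hk
    obtain ⟨p, hp, hpk⟩ := Nat.exists_prime_and_dvd hk
    have hpG : p ∣ Nat.card G := by
      rw [hma, hkb]; exact Dvd.dvd.mul_left (Dvd.dvd.mul_left hpk _) _
    rcases hprime p hp hpG with rfl | rfl
    · apply hm2; rw [hkb]; exact Dvd.dvd.mul_left hpk _
    · exact hk3 hpk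
  rw [hkb, hk1, mul_one] at hma
  exact Cfsg.Agent.Lib.Lead.burnside_paqb 2 3 a b Nat.prime_two Nat.prime_three hma

theorem h8_plen_of_quot {G : Type u} [Group G] [Finite G] (p : ℕ) [Fact p.Prime]
    (hkey : (Nat.card ((G ⧸ (Cfsg.upperPSeries p G 1).1) ⧸
      Cfsg.pCore p (G ⧸ (Cfsg.upperPSeries p G 1).1))).Coprime p) :
    Cfsg.PLengthLE p 1 G := by
  have hU₂eq : (Cfsg.upperPSeries p G 2).1 =
      (Cfsg.pCore p (G ⧸ (Cfsg.upperPSeries p G 1).1)).comap (QuotientGroup.mk' _) :=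
    Cfsg.Agent.Lib.Helper1.upperPSeries_succ_odd p G 1 (by decide)
  have hU₃eq : (Cfsg.upperPSeries p G 3).1 =
      (Cfsg.pPrimeCore p (G ⧸ (Cfsg.upperPSeries p G 2).1)).comap (QuotientGroup.mk' _) :=
    Cfsg.Agent.Lib.Helper1.upperPSeries_succ_even p G 2 ⟨1, rfl⟩
  have hidx : (Cfsg.upperPSeries p G 2).1.index =
      (Cfsg.pCore p (G ⧸ (Cfsg.upperPSeries p G 1).1)).index := by
    rw [hU₂eq]
    exact Subgroup.index_comap_of_surjective _ (QuotientGroup.mk'_surjective _)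
  have hcop : (Nat.card (G ⧸ (Cfsg.upperPSeries p G 2).1)).Coprime p := by
    rw [← Subgroup.index_eq_card, hidx, Subgroup.index_eq_card]; exact hkey
  have h1 : Cfsg.pPrimeCore p (G ⧸ (Cfsg.upperPSeries p G 2).1) = ⊤ := by
    rw [eq_top_iff]
    apply Cfsg.Agent.Lib.Helper7.le_pPrimeCore inferInstance
    rw [Subgroup.card_top]; exact hcop
  show (Cfsg.upperPSeries p G 3).1 = ⊤
  rw [hU₃eq, h1, Subgroup.comap_top]

theorem h8_s4227 {G : Type u} [Group G] [Finite G] (h : ∀ x : G, x ^ 6 = 1) :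
    Cfsg.PLengthLE 2 1 G ∧ Cfsg.PLengthLE 3 1 G := by
  haveI : Fact (Nat.Prime 3) := ⟨Nat.prime_three⟩
  haveI : Fact (Nat.Prime 2) := ⟨Nat.prime_two⟩
  haveI hsolv : Group.IsSolvable G := h8_exp6_solvable h
  have hq6 : ∀ (N : Subgroup G) [N.Normal] (q : G ⧸ N), q ^ 6 = 1 := by
    intro N _ q
    obtain ⟨g, rfl⟩ := QuotientGroup.mk_surjective q
    rw [← QuotientGroup.mk_pow, h g]; rfl
  constructor
  · apply h8_plen_of_quot 2
    have hU₁eq : (Cfsg.upperPSeries 2 G 1).1 =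
        (Cfsg.pPrimeCore 2 (G ⧸ (⊥ : Subgroup G))).comap (QuotientGroup.mk' ⊥) :=
      Cfsg.Agent.Lib.Helper1.upperPSeries_succ_even 2 G 0 ⟨0, rfl⟩
    have hO : Cfsg.pPrimeCore 2 (G ⧸ (Cfsg.upperPSeries 2 G 1).1) = ⊥ :=
      Cfsg.Agent.Lib.Helper1.pPrimeCore_quotient_eq_bot_of_eq_comap 2 ⊥ _ hU₁eq
    exact h8_exp6_two (hq6 _) hO
  · apply h8_plen_of_quot 3
    have hU₁eq : (Cfsg.upperPSeries 3 G 1).1 =
        (Cfsg.pPrimeCore 3 (G ⧸ (⊥ : Subgroup G))).comap (QuotientGroup.mk' ⊥) :=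
      Cfsg.Agent.Lib.Helper1.upperPSeries_succ_even 3 G 0 ⟨0, rfl⟩
    have hO : Cfsg.pPrimeCore 3 (G ⧸ (Cfsg.upperPSeries 3 G 1).1) = ⊥ :=
      Cfsg.Agent.Lib.Helper1.pPrimeCore_quotient_eq_bot_of_eq_comap 3 ⊥ _ hU₁eq
    exact h8_exp6_three (hq6 _) hO

end Cfsg.Agent.Lib.Helper8
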