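import Mathlib
import Cfsg.Prelude.Def_Solvable
import Cfsg.Agent.Lib.Helper8.CoprimeOmega
import Cfsg.Agent.Lib.Helper7.PCore
import Cfsg.Agent.Lib.Helper1.GenFit

set_option autoImplicit false
universe u
namespace Cfsg.Agent.Lib.Helper8
open Cfsg

section
variable {G : Type u} [Group G] [Finite G]

/-- membership in a subgroup can be checked on the powers of prime power order -/
theorem h8_mem_of_pp_parts (H : Subgroup G) (g : G)
    (h : ∀ (r k i : ℕ), r.Prime → (g ^ i) ^ (r ^ k) = 1 → g ^ i ∈ H) : g ∈ H := by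
  have hgen : ∀ (m i : ℕ), orderOf (g ^ i) = m → g ^ i ∈ H := by
    intro m
    induction m using Nat.strong_induction_on with
    | _ m ih =>
    intro i hm
    by_cases hm1 : m = 1
    · rw [hm1, orderOf_eq_one_iff] at hm
      rw [hm]; exact H.one_mem
    · have hmpos : 0 < m := by rw [← hm]; exact orderOf_pos _
      have hq : (Nat.minFac m).Prime := Nat.minFac_prime hm1
      obtain ⟨e, m', hqm', hmeq⟩ := Nat.exists_eq_pow_mul_and_not_dvd
        (Nat.pos_iff_ne_zero.1 hmpos) (Nat.minFac m) hq.ne_one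
      have he : e ≠ 0 := by
        rintro rfl
        rw [pow_zero, one_mul] at hmeq
        exact hqm' (hmeq ▸ Nat.minFac_dvd m)
      have hm'pos : 0 < m' := by
        rcases Nat.eq_zero_or_pos m' with h0 | h0
        · rw [h0, mul_zero] at hmeq; omega
        · exact h0
      have h1 : (g ^ (i * m')) ^ ((Nat.minFac m) ^ e) = 1 := by
        rw [pow_mul, ← pow_mul (g ^ i), mul_comm, ← hmeq, ← hm, pow_orderOf_eq_one]
      have h2 : (g ^ (i * (Nat.minFac m) ^ e)) ^ m' = 1 := by
        rw [pow_mul, ← pow_mul (g ^ i), ← hmeq, ← hm, pow_orderOf_eq_one]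
      have hc1 := h (Nat.minFac m) e (i * m') hq h1
      have hlt : orderOf (g ^ (i * (Nat.minFac m) ^ e)) < m := by
        have h3 := Nat.le_of_dvd hm'pos (orderOf_dvd_of_pow_eq_one h2)
        have h4 : m' < m := by
          have h5 : 2 ≤ (Nat.minFac m) ^ e := by
            calc 2 ≤ Nat.minFac m := hq.two_le
              _ = (Nat.minFac m) ^ 1 := (pow_one _).symm
              _ ≤ (Nat.minFac m) ^ e :=
                Nat.pow_le_pow_right hq.pos (Nat.one_le_iff_ne_zero.2 he)
          rw [hmeq]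
          nlinarith
        omega
      have hc2 := ih _ hlt (i * (Nat.minFac m) ^ e) rfl
      have hcop : Nat.gcd m' ((Nat.minFac m) ^ e) = 1 :=
        Nat.Coprime.pow_right e ((Nat.Prime.coprime_iff_not_dvd hq).2 hqm').symm
      have hb := Nat.gcd_eq_gcd_ab m' ((Nat.minFac m) ^ e)
      rw [hcop] at hb
      have ha_eq : g ^ i = (g ^ (i * m')) ^ (Nat.gcdA m' ((Nat.minFac m) ^ e)) *
          (g ^ (i * (Nat.minFac m) ^ e)) ^ (Nat.gcdB m' ((Nat.minFac m) ^ e)) := by
        rw [pow_mul, pow_mul, ← zpow_natCast (g ^ i) m',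
          ← zpow_natCast (g ^ i) ((Nat.minFac m) ^ e), ← zpow_mul, ← zpow_mul, ← zpow_add, ← hb]
        simp
      rw [ha_eq]
      exact H.mul_mem (H.zpow_mem hc1 _) (H.zpow_mem hc2 _)
  have := hgen _ 1 rfl
  rwa [pow_one] at this

/-- an `r'`-element of `R ⊔ W` (`R` an `r`-group, `W` normal) lies in `W` -/
theorem h8_mem_of_coprime_sup (r : ℕ) [hr : Fact r.Prime] (R W : Subgroup G) [W.Normal]
    (hR : IsPGroup r R) (y : G) (hy : y ∈ R ⊔ W) (hcop : (orderOf y).Coprime r) : y ∈ W := by
  have hdvd : W.relIndex (R ⊔ W) ∣ Nat.card R := by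
    have h1 := Cfsg.Agent.Lib.Helper7.card_sup_dvd_of_normal W R
    rw [sup_comm] at h1
    rw [← Cfsg.Agent.Lib.Helper7.card_mul_relIndex_of_le (le_sup_right : W ≤ R ⊔ W)] at h1
    exact Nat.dvd_of_mul_dvd_mul_left Nat.card_pos h1
  obtain ⟨k, hk⟩ := hR.exists_card_eq
  rw [hk] at hdvd
  obtain ⟨j, -, hj⟩ := (Nat.dvd_prime_pow hr.out).1 hdvd
  have hWn : (W.subgroupOf (R ⊔ W)).Normal := inferInstance
  have h2 := Subgroup.pow_index_mem (W.subgroupOf (R ⊔ W)) (⟨y, hy⟩ : ↥(R ⊔ W))
  have h3 : y ^ (r ^ j) ∈ W := by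
    rw [← hj]
    have := Subgroup.mem_subgroupOf.1 h2
    rwa [Subgroup.coe_pow] at this
  obtain ⟨m, hm⟩ := exists_pow_eq_self_of_coprime (Nat.Coprime.pow_left j hcop.symm)
  rw [← hm]; exact W.pow_mem h3 m

theorem h8_fitting_omega (hG : Group.IsSolvable G)
    (hodd : Odd (Nat.card (Cfsg.fittingSubgroup G))) (g : G)
    (hg : ∀ x ∈ Cfsg.fittingSubgroup G, (orderOf x).Prime → g * x = x * g) :
    g ∈ Cfsg.fittingSubgroup G := by
  classical
  have hFn' : (Cfsg.fittingSubgroup G).Normal := Cfsg.Agent.Lib.Helper7.fitting_normal G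
  have hcentF : Subgroup.centralizer ((Cfsg.fittingSubgroup G : Subgroup G) : Set G) ≤
      Cfsg.fittingSubgroup G := by
    have hCFn : (Subgroup.centralizer ((Cfsg.fittingSubgroup G : Subgroup G) : Set G)).Normal :=
      Subgroup.normal_centralizer
    have hN := Cfsg.Agent.Lib.Helper1.le_center_fitting_of_solvable (G := G)
      (Subgroup.centralizer ((Cfsg.fittingSubgroup G : Subgroup G) : Set G)) le_rfl
      (by rw [Subgroup.normalizer_eq_top]; exact le_top) inferInstance
    exact hN.trans (Subgroup.map_subtype_le _)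
  obtain ⟨F, hFdef⟩ : ∃ F : Subgroup G, F = Cfsg.fittingSubgroup G := ⟨_, rfl⟩
  rw [← hFdef] at hodd hg hcentF ⊢
  have hFn : F.Normal := by rw [hFdef]; exact hFn'
  have hpF : ∀ p : ℕ, p.Prime → Cfsg.pCore p G ≤ F := by
    intro p hp
    have : Fact p.Prime := ⟨hp⟩
    rw [hFdef]; exact Cfsg.Agent.Lib.Helper7.pCore_le_fitting p G
  obtain ⟨C, hCdef⟩ : ∃ C : Subgroup G,
      C = Subgroup.centralizer {x : G | x ∈ F ∧ (orderOf x).Prime} := ⟨_, rfl⟩
  have hCmem : ∀ y : G, y ∈ C ↔ ∀ x ∈ F, (orderOf x).Prime → y * x = x * y := by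
    intro y
    rw [hCdef, Subgroup.mem_centralizer_iff]
    constructor
    · intro h x hx hxp
      exact (h x ⟨hx, hxp⟩).symm
    · rintro h x ⟨hx, hxp⟩
      exact (h x hx hxp).symm
  have hCn : C.Normal := by
    constructor
    intro y hy t
    rw [hCmem] at hy ⊢
    intro x hx hxp
    have h1 : t⁻¹ * x * t ∈ F := by
      have := hFn.conj_mem x hx t⁻¹
      simpa using this
    have h2 : (orderOf (t⁻¹ * x * t)).Prime := by
      have h0 : orderOf (t⁻¹ * x * t) = orderOf x := by
        have := MulEquiv.orderOf_eq (MulAut.conj t⁻¹) x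
        simpa [MulAut.conj_apply] using this
      rwa [h0]
    have h3 := hy _ h1 h2
    calc t * y * t⁻¹ * x = t * (y * (t⁻¹ * x * t)) * t⁻¹ := by group
      _ = t * ((t⁻¹ * x * t) * y) * t⁻¹ := by rw [h3]
      _ = x * (t * y * t⁻¹) := by group
  have fact1 : ∀ p : ℕ, p.Prime → ∀ y ∈ C, (orderOf y).Coprime p →
      ∀ x ∈ Cfsg.pCore p G, y * x = x * y := by
    intro p hp y hy hcop
    have : Fact p.Prime := ⟨hp⟩
    have hpn := Cfsg.Agent.Lib.Helper7.pCore_normal p G
    have hpp := Cfsg.Agent.Lib.Helper7.pCore_isPGroup p G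
    by_cases hp2 : p = 2
    · intro x hx
      have hx1 : x = 1 := by
        obtain ⟨k, hk⟩ := hpp ⟨x, hx⟩
        have hk' : x ^ (p ^ k) = 1 := by
          have h0 := congrArg Subtype.val hk
          rw [Subgroup.coe_pow, Subgroup.coe_one] at h0
          exact h0
        have h1 : x ^ Nat.card F = 1 := by
          have h0 := congrArg Subtype.val (pow_card_eq_one' (G := F) (x := ⟨x, hpF p hp hx⟩))
          rw [Subgroup.coe_pow, Subgroup.coe_one] at h0
          exact h0
        have hc : Nat.gcd (p ^ k) (Nat.card F) = 1 := by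
          rw [hp2]; exact Nat.Coprime.pow_left k (Nat.coprime_two_left.2 hodd)
        have h3 := pow_gcd_eq_one.2 ⟨hk', h1⟩
        rwa [hc, pow_one] at h3
      rw [hx1]; simp
    · have h2p : 2 < p := lt_of_le_of_ne hp.two_le (Ne.symm hp2)
      apply h8_coprime_aut_omega p p (dvd_refl p) (hp.dvd_choose_self (by norm_num) h2p) y
        (orderOf y) hcop (pow_orderOf_eq_one y) (Nat.card (Cfsg.pCore p G)) (Cfsg.pCore p G) rfl
        hpp (fun x hx => hpn.conj_mem x hx y)
      intro x hx hxp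
      by_cases hx1 : x = 1
      · rw [hx1]; simp
      · exact (hCmem y).1 hy x (hpF p hp hx) (by rw [orderOf_eq_prime hxp hx1]; exact hp)
  have main : ∀ r : ℕ, r.Prime → ∀ y ∈ C, ∀ k : ℕ, y ^ (r ^ k) = 1 → y ∈ F := by
    intro r hr y hyC k hyk
    have : Fact r.Prime := ⟨hr⟩
    obtain ⟨W, hWdef⟩ : ∃ W : Subgroup G,
        W = sSup {N : Subgroup G | ∃ p : ℕ, p.Prime ∧ p ≠ r ∧ N = Cfsg.pCore p G} := ⟨_, rfl⟩
    have hWn : W.Normal := by
      rw [hWdef]
      apply Subgroup.sSup_normal
      rintro N ⟨p, hp, -, rfl⟩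
      exact Cfsg.Agent.Lib.Helper7.pCore_normal p G
    have hpW : ∀ p : ℕ, p.Prime → p ≠ r → Cfsg.pCore p G ≤ W := by
      intro p hp hpr
      rw [hWdef]; exact le_sSup ⟨p, hp, hpr, rfl⟩
    have hFle : F ≤ Cfsg.pCore r G ⊔ W := by
      rw [hFdef, Cfsg.Agent.Lib.Helper7.fitting_eq_pCoreJoin]
      apply iSup_le
      intro p
      by_cases hpr : (p : ℕ) = r
      · rw [hpr]; exact le_sup_left
      · exact (hpW p p.2 hpr).trans le_sup_right
    have hcentW : ∀ w ∈ C, (∃ k : ℕ, w ^ (r ^ k) = 1) → W ≤ Subgroup.centralizer {w} := by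
      rintro w hw ⟨k, hk⟩
      rw [hWdef]
      apply sSup_le
      rintro N ⟨p, hp, hpr, rfl⟩
      intro x hx
      rw [Subgroup.mem_centralizer_singleton_iff]
      have hcop : (orderOf w).Coprime p := by
        have h1 : orderOf w ∣ r ^ k := orderOf_dvd_of_pow_eq_one hk
        exact Nat.Coprime.coprime_dvd_left h1
          (Nat.Coprime.pow_left k ((Nat.coprime_primes hr hp).2 (Ne.symm hpr)))
      exact (fact1 p hp w hw hcop x hx).symm
    obtain ⟨D, hDdef⟩ : ∃ D : Subgroup G, D = C ⊓ Subgroup.centralizer (W : Set G) := ⟨_, rfl⟩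
    have hDn : D.Normal := by rw [hDdef]; infer_instance
    have hyD : y ∈ D := by
      rw [hDdef]
      refine Subgroup.mem_inf.2 ⟨hyC, ?_⟩
      rw [Subgroup.mem_centralizer_iff]
      intro x hx
      have := hcentW y hyC ⟨k, hyk⟩ hx
      rw [Subgroup.mem_centralizer_singleton_iff] at this
      exact this
    have hZ : ∀ w ∈ D, (orderOf w).Coprime r → ∀ d ∈ D, w * d = d * w := by
      intro w hw hcop d hd
      rw [hDdef] at hw hd
      have hwC := (Subgroup.mem_inf.1 hw).1
      have hwW := (Subgroup.mem_inf.1 hw).2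
      have hle : Cfsg.pCore r G ⊔ W ≤ Subgroup.centralizer {w} := by
        apply sup_le
        · intro x hx
          rw [Subgroup.mem_centralizer_singleton_iff]
          exact (fact1 r hr w hwC hcop x hx).symm
        · intro x hx
          rw [Subgroup.mem_centralizer_singleton_iff]
          exact (Subgroup.mem_centralizer_iff.1 hwW) x hx
      have hwF : w ∈ Subgroup.centralizer (F : Set G) := by
        rw [Subgroup.mem_centralizer_iff]
        intro x hx
        have := hle (hFle hx)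
        rw [Subgroup.mem_centralizer_singleton_iff] at this
        exact this
      have hwinF : w ∈ F := hcentF hwF
      have hwinW : w ∈ W := h8_mem_of_coprime_sup r (Cfsg.pCore r G) W
        (Cfsg.Agent.Lib.Helper7.pCore_isPGroup r G) w (hFle hwinF) hcop
      have hdW := (Subgroup.mem_inf.1 hd).2
      exact (Subgroup.mem_centralizer_iff.1 hdW) w hwinW
    have hDnil : Group.IsNilpotent ↥D := by
      apply Group.of_quotient_center_nilpotent
      have hpq : IsPGroup r (↥D ⧸ Subgroup.center ↥D) := by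
        intro q
        obtain ⟨x, rfl⟩ := QuotientGroup.mk_surjective q
        have hpos : orderOf (x : G) ≠ 0 := (orderOf_pos (x : G)).ne'
        obtain ⟨e, m', hrm', hmeq⟩ := Nat.exists_eq_pow_mul_and_not_dvd hpos r hr.ne_one
        refine ⟨e, ?_⟩
        rw [← QuotientGroup.mk_pow, QuotientGroup.eq_one_iff, Subgroup.mem_center_iff]
        intro d
        apply Subtype.ext
        rw [Subgroup.coe_mul, Subgroup.coe_mul, Subgroup.coe_pow]
        have hcop : (orderOf ((x : G) ^ (r ^ e))).Coprime r := by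
          have h1 : ((x : G) ^ (r ^ e)) ^ m' = 1 := by
            rw [← pow_mul, ← hmeq, pow_orderOf_eq_one]
          exact Nat.Coprime.coprime_dvd_left (orderOf_dvd_of_pow_eq_one h1)
            ((Nat.Prime.coprime_iff_not_dvd hr).2 hrm').symm
        exact (hZ _ (D.pow_mem x.2 _) hcop d d.2).symm
      exact hpq.isNilpotent
    have hDF : D ≤ F := by rw [hFdef]; exact Cfsg.Agent.Lib.Helper7.le_fitting hDn hDnil
    exact hDF hyD
  apply h8_mem_of_pp_parts F g
  intro r k i hr hi
  exact main r hr (g ^ i) (C.pow_mem ((hCmem g).2 hg) i) k hi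

end

end Cfsg.Agent.Lib.Helper8
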