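import Mathlib
import Cfsg.Agent.Lib.Helper2.PResidual
import Cfsg.Agent.Lib.Helper2.FocalCoprime

set_option autoImplicit false
universe u
namespace Cfsg.Agent.Lib.Helper8

open Cfsg.Agent.Lib.Helper2
open scoped commutatorElement

/-- a `p`-element of `O^p(G) G'` lies in `G'` -/
theorem h8_pelt_mem_commutator {G : Type u} [Group G] [Finite G] {p : ℕ} [Fact p.Prime] (y : G)
    (k : ℕ) (hy : y ^ p ^ k = 1) (hyN : y ∈ Cfsg.pResidual p G ⊔ commutator G) :
    y ∈ commutator G := by
  have hp : p.Prime := Fact.out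
  obtain ⟨e, m, hm, hcard⟩ :=
    Nat.exists_eq_pow_mul_and_not_dvd (Nat.card_pos (α := G)).ne' p hp.ne_one
  let θ : G →* Abelianization G := (powMonoidHom m).comp Abelianization.of
  have h1 : Cfsg.pResidual p G ≤ θ.ker := by
    unfold Cfsg.pResidual
    rw [Subgroup.closure_le]
    intro g hg
    have hg' : Nat.Coprime (orderOf g) p := hg
    have h2 : orderOf g ∣ p ^ e * m := hcard ▸ orderOf_dvd_natCard g
    have h3 : orderOf g ∣ m := (Nat.Coprime.pow_right e hg').dvd_of_dvd_mul_left h2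
    show (Abelianization.of g) ^ m = 1
    rw [← map_pow, orderOf_dvd_iff_pow_eq_one.1 h3, map_one]
  have h2 : commutator G ≤ θ.ker := by
    intro g hg
    show (Abelianization.of g) ^ m = 1
    have : Abelianization.of g = 1 := by
      rw [← MonoidHom.mem_ker, Abelianization.ker_of]; exact hg
    rw [this, one_pow]
  have h3 : y ∈ θ.ker := (sup_le h1 h2) hyN
  have h4 : (Abelianization.of y) ^ m = 1 := h3
  have h5 : (Abelianization.of y) ^ p ^ k = 1 := by rw [← map_pow, hy, map_one]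
  have h6 : Abelianization.of y = 1 := by
    have hc : Nat.Coprime m (p ^ k) :=
      Nat.Coprime.pow_right k ((Nat.Prime.coprime_iff_not_dvd hp).2 hm).symm
    have d1 := orderOf_dvd_of_pow_eq_one h4
    have d2 := orderOf_dvd_of_pow_eq_one h5
    exact orderOf_eq_one_iff.1 (Nat.eq_one_of_dvd_coprimes hc d1 d2)
  rw [← Abelianization.ker_of]
  exact h6

theorem h8_s1242 {G : Type u} [Group G] [Finite G] {p : ℕ} [Fact p.Prime] (H : Subgroup G)
    (hidx : Nat.Coprime p H.index)
    (hfus : ∀ g ∈ H, (∃ k : ℕ, orderOf g = p ^ k) → ∀ a : G, a * g * a⁻¹ ∈ H →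
      ∃ h ∈ H, h * g * h⁻¹ = a * g * a⁻¹) :
    (Cfsg.pResidual p G ⊔ commutator G) ⊓ H =
      (Cfsg.pResidual p ↥H ⊔ commutator ↥H).map H.subtype := by
  have hp : p.Prime := Fact.out
  have hresH : (Cfsg.pResidual p ↥H).map H.subtype ≤ Cfsg.pResidual p G := by
    rw [Subgroup.map_le_iff_le_comap]
    unfold Cfsg.pResidual
    rw [Subgroup.closure_le]
    intro x hx
    apply Subgroup.subset_closure
    show Nat.Coprime (orderOf (x : G)) p
    rw [Subgroup.orderOf_coe]; exact hx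
  have hcomH : (commutator ↥H).map H.subtype ≤ commutator G := by
    rw [commutator_def, commutator_def, Subgroup.map_commutator]
    exact Subgroup.commutator_mono le_top le_top
  apply le_antisymm
  · rintro x ⟨hxN, hxH⟩
    obtain ⟨P⟩ : Nonempty (Sylow p H) := inferInstance
    have hn : (Cfsg.pResidual p ↥H).Normal := pResidual_normal p ↥H
    have hQ : IsPGroup p (↥H ⧸ Cfsg.pResidual p ↥H) := isPGroup_quotient_pResidual p ↥H
    have hsurj : Function.Surjective (QuotientGroup.mk' (Cfsg.pResidual p ↥H)) :=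
      QuotientGroup.mk'_surjective _
    have htop : ((P.mapSurjective hsurj : Sylow p (↥H ⧸ Cfsg.pResidual p ↥H)) :
        Subgroup (↥H ⧸ Cfsg.pResidual p ↥H)) = ⊤ :=
      ((P.mapSurjective hsurj).3 (hQ.to_subgroup ⊤) le_top).symm
    have hx' : (QuotientGroup.mk' (Cfsg.pResidual p ↥H) ⟨x, hxH⟩) ∈
        ((P.mapSurjective hsurj : Sylow p (↥H ⧸ Cfsg.pResidual p ↥H)) :
        Subgroup (↥H ⧸ Cfsg.pResidual p ↥H)) := htop ▸ Subgroup.mem_top _
    obtain ⟨y, hyP, hyx⟩ := hx'
    have hz : y⁻¹ * ⟨x, hxH⟩ ∈ Cfsg.pResidual p ↥H := by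
      rw [← QuotientGroup.eq]
      exact hyx
    obtain ⟨k, hk⟩ := P.2 ⟨y, hyP⟩
    have hyk : (y : G) ^ p ^ k = 1 := by
      have := congrArg (fun t : (P : Subgroup H) => ((t : H) : G)) hk
      simpa using this
    have hyN : (y : G) ∈ Cfsg.pResidual p G ⊔ commutator G := by
      have e : (y : G) = x * ((y⁻¹ * ⟨x, hxH⟩ : H) : G)⁻¹ := by
        simp
      rw [e]
      exact mul_mem hxN (inv_mem ((le_sup_left : Cfsg.pResidual p G ≤ _)
        (hresH (Subgroup.mem_map_of_mem _ hz))))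
    have hyc : (y : G) ∈ commutator G := h8_pelt_mem_commutator (y : G) k hyk hyN
    obtain ⟨P', hP'⟩ : ∃ P' : Subgroup G, P' = (P : Subgroup H).map H.subtype := ⟨_, rfl⟩
    have hyP' : (y : G) ∈ P' := by rw [hP']; exact Subgroup.mem_map_of_mem _ hyP
    have hP'H : P' ≤ H := by rw [hP']; exact Subgroup.map_subtype_le _
    have hP'p : IsPGroup p P' := by rw [hP']; exact P.2.map H.subtype
    have hP'idx : Nat.Coprime p P'.index := by
      have e1 : P'.index = (P : Subgroup H).index * H.index := by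
        rw [hP', Subgroup.index_map_subtype]
      rw [e1]
      exact Nat.Coprime.mul_right ((Nat.Prime.coprime_iff_not_dvd hp).2 P.not_dvd_index) hidx
    have hcop : (Nat.card (P' ⧸ P'.focalSubgroupOf)).Coprime P'.index := by
      have hq : IsPGroup p (P' ⧸ P'.focalSubgroupOf) := hP'p.to_quotient _
      obtain ⟨j, hj⟩ := hq.exists_card_eq
      rw [hj]
      exact Nat.Coprime.pow_left j hP'idx
    have hfoc := commutator_inf_eq_focalSubgroup_of_coprime P' hcop
    have hyfoc : (y : G) ∈ P'.focalSubgroup := by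
      rw [← hfoc]; exact ⟨hyc, hyP'⟩
    have hfocle : P'.focalSubgroup ≤ (commutator ↥H).map H.subtype := by
      rw [Subgroup.focalSubgroup_def, Subgroup.closure_le]
      rintro g ⟨hgP', a, haP', u, rfl⟩
      have haH : a ∈ H := hP'H haP'
      have h1 : u * a⁻¹ * u⁻¹ ∈ H := by
        have e : u * a⁻¹ * u⁻¹ = a⁻¹ * ⁅a, u⁆ := by rw [commutatorElement_def]; group
        rw [e]; exact H.mul_mem (H.inv_mem haH) (hP'H hgP')
      have hord : ∃ k : ℕ, orderOf a⁻¹ = p ^ k := by
        obtain ⟨k, hk⟩ := (IsPGroup.iff_orderOf.1 hP'p) ⟨a, haP'⟩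
        exact ⟨k, by rw [orderOf_inv, ← hk, Subgroup.orderOf_mk]⟩
      obtain ⟨h, hhH, hh⟩ := hfus a⁻¹ (H.inv_mem haH) hord u h1
      have e2 : ⁅a, u⁆ = ⁅a, h⁆ := by
        rw [commutatorElement_def, commutatorElement_def]
        have : a * u * a⁻¹ * u⁻¹ = a * (u * a⁻¹ * u⁻¹) := by group
        rw [this, ← hh]; group
      show ⁅a, u⁆ ∈ (commutator ↥H).map H.subtype
      rw [e2]
      refine ⟨⁅(⟨a, haH⟩ : H), ⟨h, hhH⟩⁆, ?_, rfl⟩
      rw [SetLike.mem_coe, commutator_def]
      exact Subgroup.commutator_mem_commutator (Subgroup.mem_top _) (Subgroup.mem_top _)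
    have hyc' : y ∈ commutator ↥H := by
      obtain ⟨w, hw, hwy⟩ := hfocle hyfoc
      have : w = y := Subtype.ext hwy
      rwa [this] at hw
    refine ⟨⟨x, hxH⟩, ?_, rfl⟩
    have e : (⟨x, hxH⟩ : H) = y * (y⁻¹ * ⟨x, hxH⟩) := by group
    rw [SetLike.mem_coe, e]
    exact mul_mem ((le_sup_right : commutator ↥H ≤ Cfsg.pResidual p ↥H ⊔ commutator ↥H) hyc')
      ((le_sup_left : Cfsg.pResidual p ↥H ≤ Cfsg.pResidual p ↥H ⊔ commutator ↥H) hz)
  · rw [Subgroup.map_sup]
    refine le_inf (sup_le (hresH.trans le_sup_left) (hcomH.trans le_sup_right)) ?_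
    rw [← Subgroup.map_sup]
    exact Subgroup.map_subtype_le _

end Cfsg.Agent.Lib.Helper8
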