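import Mathlib
import Cfsg.Prelude.Def_Solvable
import Cfsg.Agent.Lib.Helper9.ConjLemmas

set_option autoImplicit false
universe u
namespace Cfsg.Agent.Lib.Helper8

open scoped Pointwise
open Cfsg.Agent.Lib.Helper9 (mem_conj_smul_iff)

section
variable {G : Type u} [Group G]

/-- if a nonidentity element of a Frobenius complement is conjugated into it, the conjugating
element lies in the complement -/
theorem h8_frob_mem_of_conj_mem (R : Subgroup G) (hR : Cfsg.IsFrobeniusComplement R) (x g : G)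
    (hx : x ∈ R) (hx1 : x ≠ 1) (hgx : g⁻¹ * x * g ∈ R) : g ∈ R := by
  by_contra hg
  have h := hR.2.2 g hg
  have : x ∈ R ⊓ MulAut.conj g • R := ⟨hx, mem_conj_smul_iff.2 hgx⟩
  rw [h, Subgroup.mem_bot] at this
  exact hx1 this

theorem h8_frob_mem_of_comm (R : Subgroup G) (hR : Cfsg.IsFrobeniusComplement R) (x g : G)
    (hx : x ∈ R) (hx1 : x ≠ 1) (hgx : g * x = x * g) : g ∈ R := by
  apply h8_frob_mem_of_conj_mem R hR x g hx hx1
  have : g⁻¹ * x * g = x := by rw [mul_assoc, ← hgx, inv_mul_cancel_left]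
  rw [this]; exact hx

/-- a `p`-subgroup meeting a Frobenius complement nontrivially lies in it -/
theorem h8_frob_pgroup_le [Finite G] (R : Subgroup G) (hR : Cfsg.IsFrobeniusComplement R)
    (p : ℕ) [Fact p.Prime] (Q : Subgroup G) (hQ : IsPGroup p Q) (x : G) (hxQ : x ∈ Q)
    (hxR : x ∈ R) (hx1 : x ≠ 1) : Q ≤ R := by
  have hnt : Nontrivial Q := ⟨⟨⟨x, hxQ⟩, 1, fun h => hx1 (congrArg Subtype.val h)⟩⟩
  have hc := hQ.bot_lt_center
  obtain ⟨z, hz1⟩ := (Subgroup.ne_bot_iff_exists_ne_one).1 (ne_of_gt hc)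
  -- z is central in Q
  have hzx : (z.1 : G) * x = x * z.1 := by
    have h1 := Subgroup.mem_center_iff.1 z.2 ⟨x, hxQ⟩
    exact (congrArg Subtype.val h1).symm
  have hzR : (z.1 : G) ∈ R := h8_frob_mem_of_comm R hR x z.1 hxR hx1 hzx
  have hz1' : (z.1 : G) ≠ 1 := fun h => hz1 (Subtype.ext (Subtype.ext h))
  intro q hq
  apply h8_frob_mem_of_comm R hR z.1 q hzR hz1'
  have h1 := Subgroup.mem_center_iff.1 z.2 ⟨q, hq⟩
  exact congrArg Subtype.val h1

/-- nonidentity elements of the Frobenius kernel have order prime to the complement -/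
theorem h8_frob_kernel_coprime [Finite G] (R : Subgroup G) (hR : Cfsg.IsFrobeniusComplement R)
    (k : G) (hk : k ∈ Cfsg.frobeniusKernel R) (hk1 : k ≠ 1) :
    (orderOf k).Coprime (Nat.card R) := by
  by_contra hcop
  obtain ⟨p, hp, hpk, hpR⟩ := Nat.Prime.not_coprime_iff_dvd.1 hcop
  have : Fact p.Prime := ⟨hp⟩
  obtain ⟨x, hx⟩ := exists_prime_orderOf_dvd_card' (G := R) p hpR
  have hx1 : (x : G) ≠ 1 := by
    intro h
    have : x = 1 := Subtype.ext h
    rw [this, orderOf_one] at hx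
    exact hp.one_lt.ne hx
  -- Sylow containing x
  have hzp : IsPGroup p (Subgroup.zpowers (x : G)) := by
    apply IsPGroup.of_card (n := 1)
    rw [Nat.card_zpowers, Subgroup.orderOf_coe, hx, pow_one]
  obtain ⟨S₀, hS₀⟩ := hzp.exists_le_sylow
  have hS₀R : (S₀ : Subgroup G) ≤ R :=
    h8_frob_pgroup_le R hR p S₀ S₀.2 x (hS₀ (Subgroup.mem_zpowers _)) x.2 hx1
  -- y of order p, a power of k
  obtain ⟨y, hy⟩ : ∃ y, y = k ^ (orderOf k / p) := ⟨_, rfl⟩
  have hyo : orderOf y = p := by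
    rw [hy]; exact orderOf_pow_orderOf_div (orderOf_pos k).ne' hpk
  have hy1 : y ≠ 1 := by
    intro h
    rw [h, orderOf_one] at hyo
    exact hp.one_lt.ne hyo
  have hyp : IsPGroup p (Subgroup.zpowers y) := by
    apply IsPGroup.of_card (n := 1)
    rw [Nat.card_zpowers, hyo, pow_one]
  obtain ⟨S, hS⟩ := hyp.exists_le_sylow
  obtain ⟨g, hg⟩ := MulAction.exists_smul_eq G S₀ S
  have hyS : y ∈ ((g • S₀ : Sylow p G) : Subgroup G) := hg ▸ hS (Subgroup.mem_zpowers _)
  rw [Sylow.smul_def, Sylow.pointwise_smul_def, mem_conj_smul_iff] at hyS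
  have hyR : g⁻¹ * y * g ∈ R := hS₀R hyS
  have hy1' : g⁻¹ * y * g ≠ 1 := by
    intro h
    apply hy1
    have : y = g * (g⁻¹ * y * g) * g⁻¹ := by group
    rw [this, h]; group
  -- k commutes with y
  have hky : k * y = y * k := by
    rw [hy, ← pow_succ', ← pow_succ]
  have hkR : g⁻¹ * k * g ∈ R := by
    apply h8_frob_mem_of_comm R hR (g⁻¹ * y * g) (g⁻¹ * k * g) hyR hy1'
    have e1 : g⁻¹ * k * g * (g⁻¹ * y * g) = g⁻¹ * (k * y) * g := by group
    have e2 : g⁻¹ * y * g * (g⁻¹ * k * g) = g⁻¹ * (y * k) * g := by group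
    rw [e1, e2, hky]
  rcases hk with hk | hk
  · exact hk1 hk
  · exact hk g (mem_conj_smul_iff.2 hkR)

/-- if `G = R N` then the Frobenius kernel lies in `N` -/
theorem h8_frob_kernel_le_of_sup [Finite G] (R : Subgroup G) (hR : Cfsg.IsFrobeniusComplement R)
    (N : Subgroup G) [N.Normal] (hsup : R ⊔ N = ⊤) : Cfsg.frobeniusKernel R ⊆ N := by
  intro k hk
  by_cases hk1 : k = 1
  · rw [hk1]; exact N.one_mem
  have hcop := h8_frob_kernel_coprime R hR k hk hk1
  let φ : R →* G ⧸ N := (QuotientGroup.mk' N).comp R.subtype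
  have hφ : Function.Surjective φ := by
    intro y
    obtain ⟨g, rfl⟩ := QuotientGroup.mk'_surjective N y
    have hg : g ∈ ((R ⊔ N : Subgroup G) : Set G) := by rw [hsup]; exact Set.mem_univ _
    rw [Subgroup.mul_normal] at hg
    obtain ⟨r, hr, n, hn, rfl⟩ := hg
    refine ⟨⟨r, hr⟩, ?_⟩
    show QuotientGroup.mk' N r = QuotientGroup.mk' N (r * n)
    have hmk : QuotientGroup.mk' N n = 1 := (QuotientGroup.eq_one_iff n).2 hn
    rw [map_mul, hmk, mul_one]
  have h1 : Nat.card (G ⧸ N) ∣ Nat.card R := Subgroup.card_dvd_of_surjective φ hφ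
  have h2 : orderOf (QuotientGroup.mk' N k) ∣ Nat.card R := (orderOf_dvd_natCard _).trans h1
  have h3 : orderOf (QuotientGroup.mk' N k) ∣ orderOf k := orderOf_map_dvd _ k
  have h4 : orderOf (QuotientGroup.mk' N k) = 1 := Nat.eq_one_of_dvd_coprimes hcop h3 h2
  exact (QuotientGroup.eq_one_iff k).1 (orderOf_eq_one_iff.1 h4)

/-- a normal subgroup meeting a Frobenius complement nontrivially supplements it -/
theorem h8_frob_sup_of_inf [Finite G] (R : Subgroup G) (hR : Cfsg.IsFrobeniusComplement R)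
    (N : Subgroup G) [N.Normal] (hinf : N ⊓ R ≠ ⊥) : R ⊔ N = ⊤ := by
  obtain ⟨x, hx1⟩ := (Subgroup.ne_bot_iff_exists_ne_one).1 hinf
  have hx1' : (x : G) ≠ 1 := fun h => hx1 (Subtype.ext h)
  have hord : orderOf (x : G) ≠ 1 := fun h => hx1' (orderOf_eq_one_iff.1 h)
  obtain ⟨p, hp, hpx⟩ := Nat.exists_prime_and_dvd hord
  have : Fact p.Prime := ⟨hp⟩
  obtain ⟨y, hy⟩ : ∃ y : G, y = (x : G) ^ (orderOf (x : G) / p) := ⟨_, rfl⟩
  have hyo : orderOf y = p := by
    rw [hy]; exact orderOf_pow_orderOf_div (orderOf_pos _).ne' hpx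
  have hy1 : y ≠ 1 := by
    intro h
    rw [h, orderOf_one] at hyo
    exact hp.one_lt.ne hyo
  have hyN : y ∈ N := by rw [hy]; exact N.pow_mem x.2.1 _
  have hyR : y ∈ R := by rw [hy]; exact R.pow_mem x.2.2 _
  have hyp : IsPGroup p (Subgroup.zpowers (⟨y, hyN⟩ : N)) := by
    apply IsPGroup.of_card (n := 1)
    rw [Nat.card_zpowers, Subgroup.orderOf_mk, hyo, pow_one]
  obtain ⟨Q, hQ⟩ := hyp.exists_le_sylow
  have hyQ : y ∈ (Q : Subgroup N).map N.subtype :=
    ⟨⟨y, hyN⟩, hQ (Subgroup.mem_zpowers _), rfl⟩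
  have hQR : (Q : Subgroup N).map N.subtype ≤ R :=
    h8_frob_pgroup_le R hR p _ (Q.2.map N.subtype) y hyQ hyR hy1
  have hnorm : Subgroup.normalizer (((Q : Subgroup N).map N.subtype : Subgroup G) : Set G) ≤ R := by
    intro g hg
    rw [Subgroup.mem_normalizer_iff] at hg
    have h1 : g * y * g⁻¹ ∈ R := hQR ((hg y).1 hyQ)
    have h2 : g⁻¹ ∈ R := by
      apply h8_frob_mem_of_conj_mem R hR (g * y * g⁻¹) g⁻¹ h1
      · intro h
        apply hy1
        have : y = g⁻¹ * (g * y * g⁻¹) * g := by group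
        rw [this, h]; group
      · have : g⁻¹⁻¹ * (g * y * g⁻¹) * g⁻¹ = g * (g * y * g⁻¹) * g⁻¹ := by group
        rw [this]
        have h3 := hQR ((hg (g * y * g⁻¹)).1 ((hg y).1 hyQ))
        exact h3
    simpa using R.inv_mem h2
  have hfr := Sylow.normalizer_sup_eq_top Q
  rw [eq_top_iff, ← hfr]
  exact sup_le_sup_right hnorm N

/-- in a Frobenius group with `N ∩ R = 1`, every element of the coset `rN` is `N`-conjugate to `r` -/
theorem h8_frob_coset_conj [Finite G] (R : Subgroup G) (hR : Cfsg.IsFrobeniusComplement R)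
    (N : Subgroup G) [N.Normal] (hinf : N ⊓ R = ⊥) (r : G) (hr : r ∈ R) (hr1 : r ≠ 1)
    (y : G) (hy : r⁻¹ * y ∈ N) : ∃ n ∈ N, y = n * r * n⁻¹ := by
  let f : N → N := fun n => ⟨r⁻¹ * (n.1 * r * n.1⁻¹), by
    have h1 : r⁻¹ * n.1 * r ∈ N := by
      have := Subgroup.Normal.conj_mem (inferInstance : N.Normal) n.1 n.2 r⁻¹
      simpa using this
    have e : r⁻¹ * (n.1 * r * n.1⁻¹) = (r⁻¹ * n.1 * r) * n.1⁻¹ := by group
    rw [e]; exact N.mul_mem h1 (N.inv_mem n.2)⟩
  have hf : Function.Injective f := by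
    intro a b hab
    have h1 : r⁻¹ * (a.1 * r * a.1⁻¹) = r⁻¹ * (b.1 * r * b.1⁻¹) := congrArg Subtype.val hab
    have h2 : a.1 * r * a.1⁻¹ = b.1 * r * b.1⁻¹ := mul_left_cancel h1
    have h3 : (a.1⁻¹ * b.1)⁻¹ * r * (a.1⁻¹ * b.1) = r := by
      have e : (a.1⁻¹ * b.1)⁻¹ * r * (a.1⁻¹ * b.1) = b.1⁻¹ * (a.1 * r * a.1⁻¹) * b.1 := by group
      rw [e, h2]; group
    have h4 : a.1⁻¹ * b.1 ∈ R :=
      h8_frob_mem_of_conj_mem R hR r _ hr hr1 (by rw [h3]; exact hr)
    have h5 : a.1⁻¹ * b.1 ∈ N ⊓ R := ⟨N.mul_mem (N.inv_mem a.2) b.2, h4⟩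
    rw [hinf, Subgroup.mem_bot] at h5
    apply Subtype.ext
    have : b.1 = a.1 * (a.1⁻¹ * b.1) := by group
    rw [this, h5, mul_one]
  have hsurj := Finite.surjective_of_injective hf
  obtain ⟨n, hn⟩ := hsurj ⟨r⁻¹ * y, hy⟩
  refine ⟨n.1, n.2, ?_⟩
  have h1 : r⁻¹ * (n.1 * r * n.1⁻¹) = r⁻¹ * y := congrArg Subtype.val hn
  exact (mul_left_cancel h1).symm

theorem h8_frob_quot [Finite G] (R : Subgroup G) (hR : Cfsg.IsFrobeniusComplement R)
    (N : Subgroup G) [N.Normal] (hKN : ¬ Cfsg.frobeniusKernel R ⊆ N) :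
    Cfsg.IsFrobeniusComplement (R.map (QuotientGroup.mk' N)) ∧
      Cfsg.frobeniusKernel (R.map (QuotientGroup.mk' N)) =
        QuotientGroup.mk' N '' Cfsg.frobeniusKernel R := by
  have hsup : R ⊔ N ≠ ⊤ := fun h => hKN (h8_frob_kernel_le_of_sup R hR N h)
  have hinf : N ⊓ R = ⊥ := by
    by_contra h
    exact hsup (h8_frob_sup_of_inf R hR N h)
  have hmemconj : ∀ (g x : G), (QuotientGroup.mk' N x) ∈
      MulAut.conj (QuotientGroup.mk' N g) • (R.map (QuotientGroup.mk' N)) →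
      x ∈ N ∨ ∃ g' : G, QuotientGroup.mk' N g' = QuotientGroup.mk' N g ∧
        x ∈ MulAut.conj g' • R := by
    intro g x hx
    rw [mem_conj_smul_iff] at hx
    obtain ⟨r, hr, hrx⟩ := hx
    have hrx' : QuotientGroup.mk' N r = QuotientGroup.mk' N (g⁻¹ * x * g) := by
      rw [hrx, map_mul, map_mul, map_inv]
    have hmem : r⁻¹ * (g⁻¹ * x * g) ∈ N := by
      rw [← QuotientGroup.eq]; exact hrx'
    by_cases hr1 : r = 1
    · left
      rw [hr1, inv_one, one_mul] at hmem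
      have := Subgroup.Normal.conj_mem (inferInstance : N.Normal) _ hmem g
      have e : g * (g⁻¹ * x * g) * g⁻¹ = x := by group
      rwa [e] at this
    · right
      obtain ⟨n, hn, hy⟩ := h8_frob_coset_conj R hR N hinf r hr hr1 (g⁻¹ * x * g) hmem
      refine ⟨g * n, ?_, ?_⟩
      · have hmk : QuotientGroup.mk' N n = 1 := (QuotientGroup.eq_one_iff n).2 hn
        rw [map_mul, hmk, mul_one]
      · rw [mem_conj_smul_iff]
        have e : (g * n)⁻¹ * x * (g * n) = n⁻¹ * (g⁻¹ * x * g) * n := by group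
        rw [e, hy]
        have e2 : n⁻¹ * (n * r * n⁻¹) * n = r := by group
        rw [e2]; exact hr
  refine ⟨⟨?_, ?_, ?_⟩, ?_⟩
  · intro h
    obtain ⟨r, hr1⟩ := (Subgroup.ne_bot_iff_exists_ne_one).1 hR.1
    have h1 : QuotientGroup.mk' N r.1 ∈ R.map (QuotientGroup.mk' N) :=
      Subgroup.mem_map_of_mem _ r.2
    rw [h, Subgroup.mem_bot] at h1
    have h2 : r.1 ∈ N ⊓ R := ⟨(QuotientGroup.eq_one_iff r.1).1 h1, r.2⟩
    rw [hinf, Subgroup.mem_bot] at h2
    exact hr1 (Subtype.ext h2)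
  · intro h
    apply hsup
    have h1 := congrArg (Subgroup.comap (QuotientGroup.mk' N)) h
    rw [Subgroup.comap_map_eq, QuotientGroup.ker_mk', Subgroup.comap_top] at h1
    exact h1
  · intro gbar hg
    obtain ⟨g, rfl⟩ := QuotientGroup.mk'_surjective N gbar
    rw [eq_bot_iff]
    rintro xbar ⟨hx1, hx2⟩
    obtain ⟨r, hr, rfl⟩ := hx1
    rw [Subgroup.mem_bot]
    rcases hmemconj g r hx2 with h | ⟨g', hg', hx⟩
    · exact (QuotientGroup.eq_one_iff r).2 h
    · by_cases hr1 : r = 1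
      · rw [hr1, map_one]
      · exfalso
        have hg'R : g' ∈ R :=
          h8_frob_mem_of_conj_mem R hR r g' hr hr1 (mem_conj_smul_iff.1 hx)
        apply hg
        rw [← hg']
        exact Subgroup.mem_map_of_mem _ hg'R
  · ext xbar
    obtain ⟨x, rfl⟩ := QuotientGroup.mk'_surjective N xbar
    constructor
    · intro hx
      rcases hx with hx | hx
      · exact ⟨1, Or.inl rfl, by rw [map_one]; exact hx.symm⟩
      · refine ⟨x, ?_, rfl⟩
        by_cases hx1 : x = 1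
        · exact Or.inl hx1
        · right
          intro g hxg
          apply hx (QuotientGroup.mk' N g)
          rw [mem_conj_smul_iff] at hxg ⊢
          exact ⟨g⁻¹ * x * g, hxg, by rw [map_mul, map_mul, map_inv]⟩
    · rintro ⟨k, hk, hkx⟩
      rw [← hkx]
      by_cases hk1 : QuotientGroup.mk' N k = 1
      · exact Or.inl hk1
      · right
        intro gbar hmem
        obtain ⟨g, rfl⟩ := QuotientGroup.mk'_surjective N gbar
        rcases hmemconj g k hmem with h | ⟨g', -, hx⟩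
        · exact hk1 ((QuotientGroup.eq_one_iff k).2 h)
        · rcases hk with hk | hk
          · rw [hk, map_one] at hk1; exact hk1 rfl
          · exact hk g' hx

end

end Cfsg.Agent.Lib.Helper8
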