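import Mathlib
import Cfsg.Agent.Lib.Helper8.FrobeniusCount
import Cfsg.Agent.S0043

set_option autoImplicit false
universe u
namespace Cfsg.Agent.Lib.Helper8

/-- a nontrivial finite solvable group has a nontrivial normal subgroup of prime exponent -/
theorem h8_exists_normal_exp_p (G : Type u) [Group G] [Finite G] [Group.IsSolvable G]
    [Nontrivial G] :
    ∃ (K : Subgroup G) (p : ℕ), K.Normal ∧ K ≠ ⊥ ∧ p.Prime ∧ ∀ x ∈ K, x ^ p = 1 := by
  classical
  obtain ⟨N, -, hNmin⟩ := Finite.exists_le_minimal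
    (p := fun K : Subgroup G => K.Normal ∧ K ≠ ⊥) (a := ⊤) ⟨inferInstance, top_ne_bot⟩
  obtain ⟨hNn, hNne⟩ := hNmin.prop
  have hmin : ∀ M : Subgroup G, M.Normal → M ≤ N → M = ⊥ ∨ M = N := by
    intro M hMn hMN
    by_cases hM : M = ⊥
    · exact Or.inl hM
    · exact Or.inr (le_antisymm hMN (hNmin.le_of_le ⟨hMn, hM⟩ hMN))
  obtain ⟨-, p, hp, hexp⟩ := Cfsg.Agent.S0043.result N hNne hmin
  exact ⟨N, p, hNn, hNne, hp, hexp⟩

/-- Frobenius' conjecture for solvable groups -/
theorem h8_frob_solv_aux : ∀ (N : ℕ) (G : Type u) [Group G] [Finite G], Nat.card G = N →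
    Group.IsSolvable G → ∀ n, n ∣ Nat.card G → Nat.card {x : G // x ^ n = 1} = n →
    ∃ H : Subgroup G, H.Normal ∧ (H : Set G) = {x : G | x ^ n = 1} := by
  intro N
  induction N using Nat.strong_induction_on with
  | _ N IH =>
  intro G _ _ hN hsolv n hn hcount
  by_cases hnt : Nontrivial G
  swap
  · rw [not_nontrivial_iff_subsingleton] at hnt
    refine ⟨⊤, inferInstance, ?_⟩
    ext x
    simp [Subsingleton.elim x 1]
  obtain ⟨K, p, hKn, hKne, hp, hexp⟩ := h8_exists_normal_exp_p G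
  have := hKn
  have : Fact p.Prime := ⟨hp⟩
  have hKp : IsPGroup p K := by
    intro x
    refine ⟨1, ?_⟩
    have := hexp x.1 x.2
    apply Subtype.ext
    rw [pow_one, Subgroup.coe_pow, this]; rfl
  obtain ⟨i, hi⟩ := hKp.exists_card_eq
  have hi0 : i ≠ 0 := by
    rintro rfl
    rw [pow_zero] at hi
    exact hKne ((Subgroup.card_eq_one).1 hi)
  have hcardG : Nat.card G = Nat.card (G ⧸ K) * p ^ i := by
    rw [← hi]; exact Subgroup.card_eq_card_quotient_mul_card_subgroup K
  have hQlt : Nat.card (G ⧸ K) < N := by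
    rw [← hN, hcardG]
    have h1 : 0 < Nat.card (G ⧸ K) := Nat.card_pos
    have h2 : 2 ≤ p ^ i := by
      calc 2 ≤ p := hp.two_le
        _ = p ^ 1 := (pow_one p).symm
        _ ≤ p ^ i := Nat.pow_le_pow_right hp.pos (Nat.one_le_iff_ne_zero.2 hi0)
    nlinarith
  have hn0 : n ≠ 0 := by
    rintro rfl
    rw [zero_dvd_iff] at hn
    exact (Nat.card_pos (α := G)).ne' hn
  have hpre : ∀ m, Nat.card (QuotientGroup.mk (s := K) ⁻¹' {y : G ⧸ K | y ^ m = 1}) =
      p ^ i * Nat.card {y : G ⧸ K // y ^ m = 1} := by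
    intro m
    rw [QuotientGroup.card_preimage_mk, hi]; rfl
  have hL1 : ∀ m, (∀ x : G, (QuotientGroup.mk x : G ⧸ K) ^ m = 1 → x ^ n = 1) →
      p ^ i * Nat.card {y : G ⧸ K // y ^ m = 1} ≤ n := by
    intro m hm
    rw [← hpre m, ← hcount]
    exact Nat.card_mono (Set.toFinite {x : G | x ^ n = 1}) (fun x hx => hm x hx)
  have hfrobQ : ∀ m, m ∣ Nat.card (G ⧸ K) → m ≤ Nat.card {y : G ⧸ K // y ^ m = 1} := by
    intro m hm
    have h1 := h8_frobenius_dvd (G := G ⧸ K) m hm
    have h2 : 0 < Nat.card {y : G ⧸ K // y ^ m = 1} := by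
      have : Nonempty {y : G ⧸ K // y ^ m = 1} := ⟨⟨1, one_pow m⟩⟩
      exact Nat.card_pos
    exact Nat.le_of_dvd h2 h1
  have hmemK : ∀ x : G, ∀ m, (QuotientGroup.mk x : G ⧸ K) ^ m = 1 → (x ^ m) ^ p = 1 := by
    intro x m hx
    apply hexp
    rw [← QuotientGroup.mk_pow] at hx
    exact (QuotientGroup.eq_one_iff _).1 hx
  have hIHQ : ∀ m, m ∣ Nat.card (G ⧸ K) → Nat.card {y : G ⧸ K // y ^ m = 1} = m →
      ∃ H : Subgroup (G ⧸ K), H.Normal ∧ (H : Set (G ⧸ K)) = {y | y ^ m = 1} :=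
    fun m hm hc => IH _ hQlt (G ⧸ K) rfl inferInstance m hm hc
  have hcomapcard : ∀ (m : ℕ) (Hbar : Subgroup (G ⧸ K)),
      (Hbar : Set (G ⧸ K)) = {y | y ^ m = 1} →
      Nat.card (Hbar.comap (QuotientGroup.mk' K)) = p ^ i * Nat.card {y : G ⧸ K // y ^ m = 1} := by
    intro m Hbar hset
    rw [← hpre m, ← hset]
    rfl
  by_cases hpn : p ∣ n
  · obtain ⟨j, n', hn', hnj⟩ := Nat.exists_eq_pow_mul_and_not_dvd hn0 p hp.ne_one
    have hj0 : j ≠ 0 := by
      rintro rfl
      rw [pow_zero, one_mul] at hnj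
      exact hn' (hnj ▸ hpn)
    have hn'Q : n' ∣ Nat.card (G ⧸ K) := by
      have h1 : n' ∣ Nat.card (G ⧸ K) * p ^ i := by
        rw [← hcardG]; exact Dvd.dvd.trans ⟨p ^ j, by rw [hnj]; ring⟩ hn
      exact Nat.Coprime.dvd_of_dvd_mul_right
        (Nat.Coprime.pow_right i ((Nat.Prime.coprime_iff_not_dvd hp).2 hn').symm) h1
    by_cases hij : i ≤ j
    · -- Case A
      obtain ⟨n₁, hn₁⟩ : ∃ n₁, n₁ = p ^ (j - i) * n' := ⟨_, rfl⟩
      have hnn₁ : n = p ^ i * n₁ := by
        rw [hnj, hn₁, ← mul_assoc, ← pow_add]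
        congr 2; omega
      have hn₁Q : n₁ ∣ Nat.card (G ⧸ K) := by
        have h1 : p ^ i * n₁ ∣ p ^ i * Nat.card (G ⧸ K) := by
          rw [← hnn₁, mul_comm (p ^ i), ← hcardG]; exact hn
        exact (Nat.mul_dvd_mul_iff_left (pow_pos hp.pos i)).1 h1
      have himp : ∀ x : G, (QuotientGroup.mk x : G ⧸ K) ^ n₁ = 1 → x ^ n = 1 := by
        intro x hx
        have h1 := hmemK x n₁ hx
        obtain ⟨i', rfl⟩ := Nat.exists_eq_succ_of_ne_zero hi0
        have e : n = n₁ * p * p ^ i' := by rw [hnn₁, pow_succ]; ring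
        rw [e, pow_mul, pow_mul, h1, one_pow]
      have h1 := hL1 n₁ himp
      have h2 := hfrobQ n₁ hn₁Q
      have h3 : Nat.card {y : G ⧸ K // y ^ n₁ = 1} = n₁ := by
        rw [hnn₁] at h1
        exact le_antisymm (Nat.le_of_mul_le_mul_left h1 (pow_pos hp.pos i)) h2
      obtain ⟨Hbar, hHn, hHset⟩ := hIHQ n₁ hn₁Q h3
      refine ⟨Hbar.comap (QuotientGroup.mk' K), hHn.comap _, ?_⟩
      apply Set.eq_of_subset_of_ncard_le
      · intro x hx
        have h4 : (QuotientGroup.mk x : G ⧸ K) ∈ (Hbar : Set (G ⧸ K)) := hx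
        rw [hHset] at h4
        exact himp x h4
      · rw [← Nat.card_coe_set_eq, ← Nat.card_coe_set_eq]
        have e1 : Nat.card ↥{x : G | x ^ n = 1} = n := hcount
        have e2 : Nat.card ↥((Hbar.comap (QuotientGroup.mk' K) : Subgroup G) : Set G) = n := by
          have := hcomapcard n₁ Hbar hHset
          rw [h3, ← hnn₁] at this
          exact this
        rw [e1, e2]
      · exact Set.toFinite _
    · -- Case B2
      exfalso
      have himp : ∀ x : G, (QuotientGroup.mk x : G ⧸ K) ^ n' = 1 → x ^ n = 1 := by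
        intro x hx
        have h1 := hmemK x n' hx
        obtain ⟨j', rfl⟩ := Nat.exists_eq_succ_of_ne_zero hj0
        have e : n = n' * p * p ^ j' := by rw [hnj, pow_succ]; ring
        rw [e, pow_mul, pow_mul, h1, one_pow]
      have h1 := hL1 n' himp
      have h2 := hfrobQ n' hn'Q
      have h3 : p ^ i * n' ≤ p ^ j * n' := by
        calc p ^ i * n' ≤ p ^ i * Nat.card {y : G ⧸ K // y ^ n' = 1} := Nat.mul_le_mul_left _ h2
          _ ≤ n := h1
          _ = p ^ j * n' := hnj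
      have hn'pos : 0 < n' := by
        rcases Nat.eq_zero_or_pos n' with h | h
        · rw [h, mul_zero] at hnj; exact absurd hnj hn0
        · exact h
      have h4 := Nat.le_of_mul_le_mul_right h3 hn'pos
      have := (Nat.pow_le_pow_iff_right hp.one_lt).1 h4
      omega
  · -- Case B1
    have hcop : Nat.Coprime n p := ((Nat.Prime.coprime_iff_not_dvd hp).2 hpn).symm
    have hnQ : n ∣ Nat.card (G ⧸ K) := by
      have h1 : n ∣ Nat.card (G ⧸ K) * p ^ i := hcardG ▸ hn
      exact Nat.Coprime.dvd_of_dvd_mul_right (Nat.Coprime.pow_right i hcop) h1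
    have hL2 : ∀ y : G ⧸ K, y ^ n = 1 → ∃ x : G, (QuotientGroup.mk x : G ⧸ K) = y ∧ x ^ n = 1 := by
      intro y hy
      obtain ⟨x₀, rfl⟩ := QuotientGroup.mk_surjective y
      have hord : (orderOf (QuotientGroup.mk x₀ : G ⧸ K)) ∣ n := orderOf_dvd_of_pow_eq_one hy
      have hc : Nat.Coprime p (orderOf (QuotientGroup.mk x₀ : G ⧸ K)) :=
        (Nat.Coprime.coprime_dvd_left hord hcop).symm
      obtain ⟨m, hm⟩ := exists_pow_eq_self_of_coprime hc
      refine ⟨(x₀ ^ p) ^ m, ?_, ?_⟩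
      · rw [QuotientGroup.mk_pow, QuotientGroup.mk_pow]; exact hm
      · have h1 := hmemK x₀ n hy
        calc ((x₀ ^ p) ^ m) ^ n = ((x₀ ^ n) ^ p) ^ m := by
              rw [← pow_mul, ← pow_mul, ← pow_mul, ← pow_mul]; congr 1; ring
          _ = 1 := by rw [h1, one_pow]
    let φ : {x : G // x ^ n = 1} → {y : G ⧸ K // y ^ n = 1} := fun x =>
      ⟨QuotientGroup.mk x.1, by rw [← QuotientGroup.mk_pow, x.2]; rfl⟩
    have hφs : Function.Surjective φ := by
      rintro ⟨y, hy⟩
      obtain ⟨x, hx, hxn⟩ := hL2 y hy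
      exact ⟨⟨x, hxn⟩, Subtype.ext hx⟩
    have h1 : Nat.card {y : G ⧸ K // y ^ n = 1} ≤ n := by
      have h0 := Nat.card_le_card_of_surjective φ hφs
      rwa [hcount] at h0
    have h2 := hfrobQ n hnQ
    have h3 := le_antisymm h1 h2
    obtain ⟨Hbar, hHn, hHset⟩ := hIHQ n hnQ h3
    obtain ⟨H, hH⟩ : ∃ H, H = Hbar.comap (QuotientGroup.mk' K) := ⟨_, rfl⟩
    have hHcard : Nat.card H = p ^ i * n := by
      have := hcomapcard n Hbar hHset
      rw [h3] at this
      rw [hH]; exact this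
    have hKH : K ≤ H := by
      intro x hx
      rw [hH]
      show (QuotientGroup.mk x : G ⧸ K) ∈ Hbar
      rw [(QuotientGroup.eq_one_iff x).2 hx]
      exact Hbar.one_mem
    have hKHcard : Nat.card (K.subgroupOf H) = p ^ i := by
      rw [Nat.card_congr (Subgroup.subgroupOfEquivOfLe hKH).toEquiv, hi]
    have hidx : (K.subgroupOf H).index = n := by
      have := Subgroup.card_mul_index (K.subgroupOf H)
      rw [hKHcard, hHcard] at this
      exact Nat.eq_of_mul_eq_mul_left (pow_pos hp.pos i) this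
    obtain ⟨C, hC⟩ := Subgroup.exists_right_complement'_of_coprime (N := K.subgroupOf H)
      (by rw [hKHcard, hidx]; exact Nat.Coprime.pow_left i hcop.symm)
    have hCcard : Nat.card C = n := by
      have := hC.card_mul_card
      rw [hKHcard, hHcard] at this
      exact Nat.eq_of_mul_eq_mul_left (pow_pos hp.pos i) this
    have hset : ((C.map H.subtype : Subgroup G) : Set G) = {x : G | x ^ n = 1} := by
      apply Set.eq_of_subset_of_ncard_le
      · rintro x ⟨c, hc, rfl⟩
        have h4 : (⟨c, hc⟩ : C) ^ Nat.card C = 1 := pow_card_eq_one'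
        rw [hCcard] at h4
        have h5 := congrArg (fun z : C => ((z : H) : G)) h4
        simpa using h5
      · rw [← Nat.card_coe_set_eq, ← Nat.card_coe_set_eq]
        have e1 : Nat.card ↥{x : G | x ^ n = 1} = n := hcount
        have e2 : Nat.card ↥((C.map H.subtype : Subgroup G) : Set G) = n := by
          have := Subgroup.card_map_of_injective (K := C) H.subtype_injective
          rw [hCcard] at this
          exact this
        rw [e1, e2]
      · exact Set.toFinite _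
    refine ⟨C.map H.subtype, ⟨?_⟩, hset⟩
    intro x hx g
    have h4 : x ∈ ((C.map H.subtype : Subgroup G) : Set G) := hx
    rw [hset] at h4
    have h5 : g * x * g⁻¹ ∈ ((C.map H.subtype : Subgroup G) : Set G) := by
      rw [hset]
      show (g * x * g⁻¹) ^ n = 1
      rw [conj_pow, (h4 : x ^ n = 1)]; group
    exact h5

theorem h8_frob_solv {G : Type u} [Group G] [Finite G] [Group.IsSolvable G] (n : ℕ)
    (hn : n ∣ Nat.card G) (hcount : Nat.card {x : G // x ^ n = 1} = n) :
    ∃ H : Subgroup G, H.Normal ∧ (H : Set G) = {x : G | x ^ n = 1} :=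
  h8_frob_solv_aux (Nat.card G) G rfl inferInstance n hn hcount

end Cfsg.Agent.Lib.Helper8
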