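import Mathlib
import Cfsg.Agent.Lib.Helper8.FrobeniusCount

set_option autoImplicit false

namespace Cfsg.Agent.Lib.Helper8

universe u

/-- the `n'`-part `N / gcd(N, n ^ N)` of `N` is coprime to `n` -/
theorem h8_coprime_part (N n : ℕ) (hN : 0 < N) :
    Nat.Coprime (N / Nat.gcd N (n ^ N)) n := by
  have hab : Nat.gcd N (n ^ N) * (N / Nat.gcd N (n ^ N)) = N :=
    Nat.mul_div_cancel' (Nat.gcd_dvd_left _ _)
  apply Nat.coprime_of_dvd
  intro q hq hqb hqn
  have hv : q ^ (N.factorization q) ∣ Nat.gcd N (n ^ N) :=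
    Nat.dvd_gcd (Nat.ordProj_dvd N q)
      ((pow_dvd_pow q (Nat.factorization_lt q hN.ne').le).trans (pow_dvd_pow_of_dvd hqn N))
  have : q ^ (N.factorization q + 1) ∣ N := by
    rw [pow_succ]
    have := Nat.mul_dvd_mul hv hqb
    rwa [hab] at this
  exact Nat.pow_succ_factorization_not_dvd hN.ne' hq this

/-- the number of elements whose order is divisible by `n` is divisible by the `n'`-part of
`|G|` -/
theorem h8_card_order_dvd {G : Type u} [Group G] [Finite G] (n : ℕ) :
    (Nat.card G / Nat.gcd (Nat.card G) (n ^ Nat.card G)) ∣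
      Nat.card {g : G // n ∣ orderOf g} := by
  classical
  have hN0 : 0 < Nat.card G := Nat.card_pos
  have hbn : Nat.Coprime (Nat.card G / Nat.gcd (Nat.card G) (n ^ Nat.card G)) n :=
    h8_coprime_part (Nat.card G) n hN0
  have hab : Nat.gcd (Nat.card G) (n ^ Nat.card G) *
      (Nat.card G / Nat.gcd (Nat.card G) (n ^ Nat.card G)) = Nat.card G :=
    Nat.mul_div_cancel' (Nat.gcd_dvd_left _ _)
  have hcop : Nat.Coprime (Nat.gcd (Nat.card G) (n ^ Nat.card G))
      (Nat.card G / Nat.gcd (Nat.card G) (n ^ Nat.card G)) := by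
    have h1 : Nat.Coprime (Nat.card G / Nat.gcd (Nat.card G) (n ^ Nat.card G))
        (n ^ Nat.card G) := hbn.pow_right _
    exact (Nat.Coprime.coprime_dvd_right (Nat.gcd_dvd_right _ _) h1).symm
  generalize Nat.gcd (Nat.card G) (n ^ Nat.card G) = a at hab hcop hbn ⊢
  generalize Nat.card G / a = b at hab hcop hbn ⊢
  obtain ⟨s, t, hst⟩ : ∃ s t : ℤ, t * (b : ℤ) + s * (a : ℤ) = 1 := by
    have h := Nat.gcd_eq_gcd_ab a b
    rw [hcop.gcd_eq_one] at h
    refine ⟨Nat.gcdA a b, Nat.gcdB a b, ?_⟩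
    rw [mul_comm, mul_comm (Nat.gcdA a b), add_comm]
    exact_mod_cast h.symm
  have ht : t * (b : ℤ) = 1 - s * (a : ℤ) := by linarith
  have hs : s * (a : ℤ) = 1 - t * (b : ℤ) := by linarith
  have hpowN : ∀ x : G, x ^ (a * b) = 1 := fun x => by rw [hab]; exact pow_card_eq_one'
  let P : G → G → Prop := fun y z => z ^ b = 1 ∧ z * y = y * z ∧ y ^ a = 1 ∧ n ∣ orderOf y
  have hordmul : ∀ y z : G, Commute y z → y ^ a = 1 → z ^ b = 1 →
      (n ∣ orderOf (y * z) ↔ n ∣ orderOf y) := by
    intro y z hc hy hz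
    have h1 : (orderOf y).Coprime (orderOf z) :=
      Nat.Coprime.coprime_dvd_left (orderOf_dvd_of_pow_eq_one hy)
        (Nat.Coprime.coprime_dvd_right (orderOf_dvd_of_pow_eq_one hz) hcop)
    rw [hc.orderOf_mul_eq_mul_orderOf_of_coprime h1]
    have h2 : Nat.Coprime n (orderOf z) :=
      (Nat.Coprime.coprime_dvd_left (orderOf_dvd_of_pow_eq_one hz) hbn).symm
    exact h2.dvd_mul_right
  have eXW : {x : G // n ∣ orderOf x} ≃ {w : G × G // P w.1 w.2} :=
    { toFun := fun x => ⟨(x.1 ^ (t * (b : ℤ)), x.1 ^ (s * (a : ℤ))), by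
        have hx1 : x.1 ^ (((a * b : ℕ) : ℤ)) = 1 := by rw [zpow_natCast]; exact hpowN x.1
        have hz : (x.1 ^ (s * (a : ℤ))) ^ b = 1 := by
          rw [← zpow_natCast, ← zpow_mul,
            show s * (a : ℤ) * (b : ℤ) = ((a * b : ℕ) : ℤ) * s by push_cast; ring,
            zpow_mul, hx1, one_zpow]
        have hy : (x.1 ^ (t * (b : ℤ))) ^ a = 1 := by
          rw [← zpow_natCast, ← zpow_mul,
            show t * (b : ℤ) * (a : ℤ) = ((a * b : ℕ) : ℤ) * t by push_cast; ring,
            zpow_mul, hx1, one_zpow]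
        have hcomm : Commute (x.1 ^ (t * (b : ℤ))) (x.1 ^ (s * (a : ℤ))) :=
          Commute.zpow_zpow_self _ _ _
        refine ⟨hz, hcomm.eq.symm, hy, ?_⟩
        have hx : x.1 ^ (t * (b : ℤ)) * x.1 ^ (s * (a : ℤ)) = x.1 := by
          rw [← zpow_add, hst, zpow_one]
        have h2 : n ∣ orderOf (x.1 ^ (t * (b : ℤ)) * x.1 ^ (s * (a : ℤ))) := by
          rw [hx]; exact x.2
        exact (hordmul _ _ hcomm hy hz).1 h2⟩
      invFun := fun w => ⟨w.1.1 * w.1.2, by
        obtain ⟨⟨y, z⟩, hz, hc, hy, hny⟩ := w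
        exact (hordmul y z hc.symm hy hz).2 hny⟩
      left_inv := by
        rintro ⟨x, hx⟩
        apply Subtype.ext
        show x ^ (t * (b : ℤ)) * x ^ (s * (a : ℤ)) = x
        rw [← zpow_add, hst, zpow_one]
      right_inv := by
        rintro ⟨⟨y, z⟩, hz, hc, hy, hny⟩
        have hcomm : Commute y z := hc.symm
        have hzm : z ^ (b : ℤ) = 1 := by rw [zpow_natCast]; exact hz
        have hyq' : y ^ (a : ℤ) = 1 := by rw [zpow_natCast]; exact hy
        apply Subtype.ext
        apply Prod.ext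
        · show (y * z) ^ (t * (b : ℤ)) = y
          rw [hcomm.mul_zpow]
          have e1 : z ^ (t * (b : ℤ)) = 1 := by
            rw [mul_comm, zpow_mul, hzm, one_zpow]
          have e2 : y ^ (t * (b : ℤ)) = y := by
            rw [ht, zpow_sub, zpow_one, mul_comm s, zpow_mul, hyq', one_zpow, inv_one, mul_one]
          rw [e1, e2, mul_one]
        · show (y * z) ^ (s * (a : ℤ)) = z
          rw [hcomm.mul_zpow]
          have e1 : y ^ (s * (a : ℤ)) = 1 := by
            rw [mul_comm, zpow_mul, hyq', one_zpow]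
          have e2 : z ^ (s * (a : ℤ)) = z := by
            rw [hs, zpow_sub, zpow_one, mul_comm t, zpow_mul, hzm, one_zpow, inv_one, mul_one]
          rw [e1, e2, one_mul] }
  have : Fintype G := Fintype.ofFinite G
  rw [Nat.card_congr eXW, Nat.card_congr (Equiv.subtypeProdEquivSigmaSubtype P), Nat.card_sigma]
  apply h8_dvd_sum_of_conj_invariant
  · intro c y
    symm
    refine Nat.card_congr ((MulAut.conj c).toEquiv.subtypeEquiv (fun z => ?_))
    show (z ^ b = 1 ∧ z * y = y * z ∧ y ^ a = 1 ∧ n ∣ orderOf y) ↔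
      ((c * z * c⁻¹) ^ b = 1 ∧ (c * z * c⁻¹) * (c * y * c⁻¹) = (c * y * c⁻¹) * (c * z * c⁻¹) ∧
        (c * y * c⁻¹) ^ a = 1 ∧ n ∣ orderOf (c * y * c⁻¹))
    have h1 : orderOf (c * y * c⁻¹) = orderOf y := (MulAut.conj c).orderOf_eq y
    rw [conj_pow, conj_eq_one_iff, conj_mul, conj_mul, h1, mul_left_inj, mul_right_inj,
      conj_pow, conj_eq_one_iff]
  · intro y
    by_cases hy : y ^ a = 1 ∧ n ∣ orderOf y
    · have e2 : {z : G // P y z} ≃
          {z : Subgroup.centralizer ({y} : Set G) // z ^ b = 1} :=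
        { toFun := fun z => ⟨⟨z.1, Subgroup.mem_centralizer_singleton_iff.2 z.2.2.1⟩,
            Subtype.ext z.2.1⟩
          invFun := fun z => ⟨z.1.1, congrArg Subtype.val z.2,
            Subgroup.mem_centralizer_singleton_iff.1 z.1.2, hy.1, hy.2⟩
          left_inv := fun z => rfl
          right_inv := fun z => rfl }
      have e3 : {z : Subgroup.centralizer ({y} : Set G) // z ^ b = 1} ≃
          {z : Subgroup.centralizer ({y} : Set G) //
            z ^ (Nat.gcd b (Nat.card (Subgroup.centralizer ({y} : Set G)))) = 1} :=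
        Equiv.subtypeEquivRight (fun z => by
          constructor
          · intro hz
            exact pow_gcd_eq_one.2 ⟨hz, pow_card_eq_one'⟩
          · intro hz
            exact (pow_gcd_eq_one.1 hz).1)
      have h5 := h8_frobenius_dvd (G := Subgroup.centralizer ({y} : Set G))
        (Nat.gcd b (Nat.card (Subgroup.centralizer ({y} : Set G)))) (Nat.gcd_dvd_right _ _)
      rw [← Nat.card_congr e3, ← Nat.card_congr e2] at h5
      have h6 : b ∣ (Subgroup.centralizer ({y} : Set G)).index *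
          Nat.card (Subgroup.centralizer ({y} : Set G)) := by
        rw [Subgroup.index_mul_card, ← hab]
        exact Dvd.intro_left _ rfl
      have h9 : b ∣ (Subgroup.centralizer ({y} : Set G)).index *
          Nat.gcd b (Nat.card (Subgroup.centralizer ({y} : Set G))) := by
        rw [← Nat.gcd_mul_left]
        exact Nat.dvd_gcd (Dvd.intro_left _ rfl) h6
      exact h9.trans (Nat.mul_dvd_mul_left _ h5)
    · have hemp : IsEmpty {z : G // P y z} := ⟨fun z => hy ⟨z.2.2.2.1, z.2.2.2.2⟩⟩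
      rw [Nat.card_of_isEmpty, mul_zero]
      exact dvd_zero _

end Cfsg.Agent.Lib.Helper8
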