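import Mathlib
import Cfsg.Agent.Lib.Helper8.GL2Syl
import Cfsg.Agent.Lib.Helper8.SL2Conj2

set_option autoImplicit false
set_option linter.style.haveILetI false
set_option linter.unusedSectionVars false

universe u

namespace Cfsg.Agent.Lib.Helper8

open Matrix

section
variable {F : Type u} [Field F]

theorem h8_card_pairs_ne_zero [Fintype F] :
    Nat.card {p : F × F // p ≠ 0} = Fintype.card F ^ 2 - 1 := by
  classical
  rw [Nat.card_eq_fintype_card, Fintype.card_subtype_compl, Fintype.card_subtype_eq,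
    Fintype.card_prod, pow_two]

/-- centralizer of a diagonal matrix with distinct entries -/
theorem h8_gl2_cent_diag [Fintype F] (g : GL (Fin 2) F)
    (h01 : (g : Matrix (Fin 2) (Fin 2) F) 0 1 = 0) (h10 : (g : Matrix (Fin 2) (Fin 2) F) 1 0 = 0)
    (hne : (g : Matrix (Fin 2) (Fin 2) F) 0 0 ≠ (g : Matrix (Fin 2) (Fin 2) F) 1 1) :
    Nat.card (Subgroup.centralizer ({g} : Set (GL (Fin 2) F))) = (Fintype.card F - 1) ^ 2 := by
  classical
  obtain ⟨a, d, ha, hd⟩ : ∃ a d : F, (g : Matrix (Fin 2) (Fin 2) F) 0 0 = a ∧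
      (g : Matrix (Fin 2) (Fin 2) F) 1 1 = d := ⟨_, _, rfl, rfl⟩
  have hgm : (g : Matrix (Fin 2) (Fin 2) F) = !![a, 0; 0, d] := by
    rw [Matrix.eta_fin_two (g : Matrix (Fin 2) (Fin 2) F), h01, h10, ha, hd]
  rw [ha, hd] at hne
  have hmem : ∀ x : GL (Fin 2) F, x ∈ Subgroup.centralizer ({g} : Set (GL (Fin 2) F)) ↔
      g * x = x * g := fun x => Subgroup.mem_centralizer_singleton_iff.trans eq_comm
  have hcomm : ∀ p : Fˣ × Fˣ, g * h8D p = h8D p * g := by
    intro p
    apply Units.ext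
    rw [Units.val_mul, Units.val_mul, h8D_val, hgm]
    ext i j; fin_cases i <;> fin_cases j <;>
      simp [Matrix.mul_apply, Fin.sum_univ_two, Matrix.vecMul_diagonal, mul_comm]
  let ψ : Fˣ × Fˣ → ↥(Subgroup.centralizer ({g} : Set (GL (Fin 2) F))) := fun p =>
    ⟨h8D p, (hmem _).mpr (hcomm p)⟩
  have hinj : Function.Injective ψ := by
    intro p q hpq
    exact h8D_injective (congrArg Subtype.val hpq)
  have hsurj : Function.Surjective ψ := by
    rintro ⟨x, hx⟩
    have hxc := (hmem x).mp hx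
    obtain ⟨x00, x01, x10, x11, hxm⟩ : ∃ x00 x01 x10 x11 : F,
        (x : Matrix (Fin 2) (Fin 2) F) = !![x00, x01; x10, x11] :=
      ⟨_, _, _, _, Matrix.eta_fin_two _⟩
    have h0 := congrArg (fun u : GL (Fin 2) F => (u : Matrix (Fin 2) (Fin 2) F)) hxc
    simp only [Units.val_mul] at h0
    rw [hgm, hxm, Matrix.mul_fin_two, Matrix.mul_fin_two] at h0
    obtain ⟨_, e01, e10, _⟩ := h8_fin_two_inj h0
    have hx01 : x01 = 0 := by
      have h3 : (a - d) * x01 = 0 := by linear_combination e01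
      rcases mul_eq_zero.mp h3 with h4 | h4
      · exact absurd (sub_eq_zero.mp h4) hne
      · exact h4
    have hx10 : x10 = 0 := by
      have h3 : (a - d) * x10 = 0 := by linear_combination -e10
      rcases mul_eq_zero.mp h3 with h4 | h4
      · exact absurd (sub_eq_zero.mp h4) hne
      · exact h4
    have hdet := Matrix.GeneralLinearGroup.det_ne_zero x
    rw [hxm, Matrix.det_fin_two_of, hx01, hx10] at hdet
    have hx00 : x00 ≠ 0 := by
      intro h3; apply hdet; rw [h3]; ring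
    have hx11 : x11 ≠ 0 := by
      intro h3; apply hdet; rw [h3]; ring
    refine ⟨(Units.mk0 x00 hx00, Units.mk0 x11 hx11), ?_⟩
    apply Subtype.ext
    apply Units.ext
    show ((h8D (Units.mk0 x00 hx00, Units.mk0 x11 hx11) : GL (Fin 2) F) :
      Matrix (Fin 2) (Fin 2) F) = (x : Matrix (Fin 2) (Fin 2) F)
    rw [h8D_val, hxm, hx01, hx10]
    ext i j; fin_cases i <;> fin_cases j <;> simp
  rw [← Nat.card_congr (Equiv.ofBijective ψ ⟨hinj, hsurj⟩), Nat.card_prod, Nat.card_units,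
    Nat.card_eq_fintype_card, pow_two]

/-- centralizer of a matrix without eigenvectors -/
theorem h8_gl2_cent_elliptic [Fintype F] (g : GL (Fin 2) F)
    (hev : ∀ (c : F) (v : Fin 2 → F), v ≠ 0 →
      (g : Matrix (Fin 2) (Fin 2) F).mulVec v ≠ c • v) :
    Nat.card (Subgroup.centralizer ({g} : Set (GL (Fin 2) F))) = Fintype.card F ^ 2 - 1 := by
  classical
  obtain ⟨a, b, c, d, hgm⟩ : ∃ a b c d : F, (g : Matrix (Fin 2) (Fin 2) F) = !![a, b; c, d] :=
    ⟨_, _, _, _, Matrix.eta_fin_two _⟩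
  have hmem : ∀ x : GL (Fin 2) F, x ∈ Subgroup.centralizer ({g} : Set (GL (Fin 2) F)) ↔
      g * x = x * g := fun x => Subgroup.mem_centralizer_singleton_iff.trans eq_comm
  have hc : c ≠ 0 := by
    intro hc0
    apply hev a ![1, 0] (by
      intro h0
      have := congrFun h0 0
      simp at this)
    rw [hgm, hc0]
    ext i; fin_cases i <;> simp [Matrix.mulVec, dotProduct, Fin.sum_univ_two]
  have hdet : ∀ p : F × F, p ≠ 0 →
      Matrix.det (p.1 • (1 : Matrix (Fin 2) (Fin 2) F) + p.2 • (g : Matrix (Fin 2) (Fin 2) F))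
        ≠ 0 := by
    rintro ⟨x, y⟩ hp h0
    obtain ⟨v, hv0, hv⟩ := Matrix.exists_mulVec_eq_zero_iff.mpr h0
    rw [Matrix.add_mulVec, Matrix.smul_mulVec, Matrix.smul_mulVec, Matrix.one_mulVec] at hv
    by_cases hy : y = 0
    · rw [hy, zero_smul, add_zero] at hv
      rcases smul_eq_zero.mp hv with h1 | h1
      · exact hp (Prod.ext h1 hy)
      · exact hv0 h1
    · apply hev (-(x / y)) v hv0
      have h1 : y • (g : Matrix (Fin 2) (Fin 2) F).mulVec v = -(x • v) := by
        rw [eq_neg_iff_add_eq_zero, add_comm]; exact hv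
      calc (g : Matrix (Fin 2) (Fin 2) F).mulVec v
          = y⁻¹ • (y • (g : Matrix (Fin 2) (Fin 2) F).mulVec v) := by
            rw [smul_smul, inv_mul_cancel₀ hy, one_smul]
        _ = y⁻¹ • (-(x • v)) := by rw [h1]
        _ = (-(x / y)) • v := by
            rw [smul_neg, smul_smul, neg_smul, div_eq_inv_mul]
  let ψ : {p : F × F // p ≠ 0} → ↥(Subgroup.centralizer ({g} : Set (GL (Fin 2) F))) := fun p =>
    ⟨Matrix.GeneralLinearGroup.mkOfDetNeZero _ (hdet p.1 p.2), (hmem _).mpr (by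
      apply Units.ext
      rw [Units.val_mul, Units.val_mul]
      show (g : Matrix (Fin 2) (Fin 2) F) * (p.1.1 • 1 + p.1.2 • (g : Matrix (Fin 2) (Fin 2) F))
        = (p.1.1 • 1 + p.1.2 • (g : Matrix (Fin 2) (Fin 2) F)) * (g : Matrix (Fin 2) (Fin 2) F)
      rw [mul_add, add_mul, Matrix.mul_smul, Matrix.smul_mul, Matrix.mul_smul, Matrix.smul_mul,
        mul_one, one_mul])⟩
  have hψ : ∀ p : {p : F × F // p ≠ 0},
      ((ψ p).1 : Matrix (Fin 2) (Fin 2) F)
        = !![p.1.1 + p.1.2 * a, p.1.2 * b; p.1.2 * c, p.1.1 + p.1.2 * d] := by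
    intro p
    show p.1.1 • (1 : Matrix (Fin 2) (Fin 2) F) + p.1.2 • (g : Matrix (Fin 2) (Fin 2) F) = _
    rw [hgm, Matrix.one_fin_two]
    ext i j; fin_cases i <;> fin_cases j <;> simp
  have hinj : Function.Injective ψ := by
    intro p q hpq
    have h0 := congrArg (fun u : ↥(Subgroup.centralizer ({g} : Set (GL (Fin 2) F))) =>
      ((u.1 : GL (Fin 2) F) : Matrix (Fin 2) (Fin 2) F)) hpq
    simp only [hψ] at h0
    obtain ⟨e00, _, e10, _⟩ := h8_fin_two_inj h0
    have hy : p.1.2 = q.1.2 := mul_right_cancel₀ hc e10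
    have hx : p.1.1 = q.1.1 := by rw [hy] at e00; linear_combination e00
    exact Subtype.ext (Prod.ext hx hy)
  have hsurj : Function.Surjective ψ := by
    rintro ⟨M, hM⟩
    have hMc := (hmem M).mp hM
    obtain ⟨m00, m01, m10, m11, hMm⟩ : ∃ m00 m01 m10 m11 : F,
        (M : Matrix (Fin 2) (Fin 2) F) = !![m00, m01; m10, m11] :=
      ⟨_, _, _, _, Matrix.eta_fin_two _⟩
    have h0 := congrArg (fun u : GL (Fin 2) F => (u : Matrix (Fin 2) (Fin 2) F)) hMc
    simp only [Units.val_mul] at h0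
    rw [hgm, hMm, Matrix.mul_fin_two, Matrix.mul_fin_two] at h0
    obtain ⟨e00, _, e10, _⟩ := h8_fin_two_inj h0
    have hp : ((m00 - m10 / c * a, m10 / c) : F × F) ≠ 0 := by
      intro h1
      have h2 : m10 / c = 0 := congrArg Prod.snd h1
      have h3 : m00 - m10 / c * a = 0 := congrArg Prod.fst h1
      have hm10 : m10 = 0 := by
        rcases div_eq_zero_iff.mp h2 with h4 | h4
        · exact h4
        · exact absurd h4 hc
      have hm00 : m00 = 0 := by rw [h2] at h3; linear_combination h3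
      have hm01 : m01 = 0 := by
        have h5 : m01 * c = 0 := by rw [hm10] at e00; linear_combination -e00
        rcases mul_eq_zero.mp h5 with h4 | h4
        · exact h4
        · exact absurd h4 hc
      have hd := Matrix.GeneralLinearGroup.det_ne_zero M
      rw [hMm, Matrix.det_fin_two_of, hm00, hm01] at hd
      apply hd; ring
    refine ⟨⟨_, hp⟩, ?_⟩
    apply Subtype.ext
    apply Units.ext
    show ((ψ ⟨_, hp⟩).1 : Matrix (Fin 2) (Fin 2) F) = (M : Matrix (Fin 2) (Fin 2) F)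
    rw [hψ, hMm]
    have e1 : m00 - m10 / c * a + m10 / c * a = m00 := by ring
    have e2 : m10 / c * b = m01 := by
      field_simp
      linear_combination e00
    have e3 : m10 / c * c = m10 := by field_simp
    have e4 : m00 - m10 / c * a + m10 / c * d = m11 := by
      field_simp
      linear_combination e10
    rw [e1, e2, e3, e4]
  rw [← Nat.card_congr (Equiv.ofBijective ψ ⟨hinj, hsurj⟩), h8_card_pairs_ne_zero]

theorem h8_s2303 [Fintype F] (g : GL (Fin 2) F) :
    ((g : Matrix (Fin 2) (Fin 2) F) 0 1 = 0 → (g : Matrix (Fin 2) (Fin 2) F) 1 0 = 0 →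
      (g : Matrix (Fin 2) (Fin 2) F) 0 0 ≠ (g : Matrix (Fin 2) (Fin 2) F) 1 1 →
      Nat.card (Subgroup.centralizer ({g} : Set (GL (Fin 2) F))) = (Fintype.card F - 1) ^ 2) ∧
    ((∀ (c : F) (v : Fin 2 → F), v ≠ 0 → (g : Matrix (Fin 2) (Fin 2) F).mulVec v ≠ c • v) →
      Nat.card (Subgroup.centralizer ({g} : Set (GL (Fin 2) F))) = Fintype.card F ^ 2 - 1) :=
  ⟨h8_gl2_cent_diag g, h8_gl2_cent_elliptic g⟩

end

end Cfsg.Agent.Lib.Helper8
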