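import Mathlib
import Cfsg.Prelude.Def_ParabolicCharacters
import Cfsg.Agent.Lib.Helper8.PSL2ABA

set_option autoImplicit false
set_option linter.style.haveILetI false
set_option linter.unusedSectionVars false
set_option linter.unusedVariables false

universe u

namespace Cfsg.Agent.Lib.Helper8

open Matrix

section
variable {F : Type u} [Field F]

local notation "SLF" => Matrix.SpecialLinearGroup (Fin 2) F
local notation "MF" => Matrix (Fin 2) (Fin 2) F

theorem h8_mem_borel_iff (g : SLF) :
    g ∈ (Cfsg.upperTriangularGL 2 F).comap Matrix.SpecialLinearGroup.toGL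
      ↔ (g : MF) 1 0 = 0 := by
  rw [Subgroup.mem_comap]
  show ((Matrix.SpecialLinearGroup.toGL g : GL (Fin 2) F) : MF).BlockTriangular id ↔ _
  have h1 : ((Matrix.SpecialLinearGroup.toGL g : GL (Fin 2) F) : MF) = (g : MF) := rfl
  rw [h1]
  constructor
  · intro h
    exact h (show id (0 : Fin 2) < id 1 by decide)
  · intro h i j hij
    fin_cases i <;> fin_cases j
    · exact absurd hij (by decide)
    · exact absurd hij (by decide)
    · exact h
    · exact absurd hij (by decide)

theorem h8_borel_classes [Fintype F] (hodd : Odd (Fintype.card F)) (B : Subgroup SLF)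
    (hB : ∀ g : SLF, g ∈ B ↔ (g : MF) 1 0 = 0) :
    Nat.card (ConjClasses B) = Fintype.card F + 3 := by
  classical
  have hF : ringChar F ≠ 2 := by
    intro h0
    have := FiniteField.even_card_iff_char_two.mp h0
    have := Nat.odd_iff.mp hodd
    omega
  have h2 : (2 : F) ≠ 0 := Ring.two_ne_zero hF
  have hne1 : (1 : F) ≠ -1 := by
    intro h
    apply h2
    linear_combination h
  have h01 : (0 : Fin 3) ≠ 1 := by decide
  have h02 : (0 : Fin 3) ≠ 2 := by decide
  have h12 : (1 : Fin 3) ≠ 2 := by decide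
  -- shape of elements of B
  have hshape : ∀ z : SLF, z ∈ B → ∃ a b d : F, (z : MF) = !![a, b; 0, d] ∧ a * d = 1 := by
    intro z hz
    obtain ⟨a, b, c, d, hzm⟩ : ∃ a b c d : F, (z : MF) = !![a, b; c, d] :=
      ⟨_, _, _, _, Matrix.eta_fin_two _⟩
    have hc : c = 0 := by
      have h := (hB z).mp hz
      rw [hzm] at h
      exact h
    subst hc
    refine ⟨a, b, d, hzm, ?_⟩
    have h0 := z.det_coe
    rw [hzm, Matrix.det_fin_two_of] at h0
    linear_combination h0
  have hmk : ∀ a b d : F, a * d = 1 → ∃ z : SLF, z ∈ B ∧ (z : MF) = !![a, b; 0, d] := by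
    intro a b d had
    refine ⟨(⟨!![a, b; 0, d], by rw [Matrix.det_fin_two_of]; linear_combination had⟩ : SLF),
      ?_, rfl⟩
    exact (hB _).mpr rfl
  -- conjugation formula
  have hconj : ∀ (n z : SLF) (s t s' a b d : F), (n : MF) = !![s, t; 0, s'] → s * s' = 1 →
      (z : MF) = !![a, b; 0, d] →
      ((n * z * n⁻¹ : SLF) : MF) = !![a, s * s * b + s * t * (d - a); 0, d] := by
    intro n z s t s' a b d hn hss hz
    rw [Matrix.SpecialLinearGroup.coe_mul, Matrix.SpecialLinearGroup.coe_mul,
      h8_sl2_coe_inv n s t 0 s' hn, hn, hz, Matrix.mul_fin_two, Matrix.mul_fin_two]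
    refine h8_fin_two_congr ?_ ?_ ?_ ?_
    · linear_combination a * hss
    · ring
    · ring
    · linear_combination d * hss
  obtain ⟨ψ, hψ⟩ : ∃ ψ : F → F → F × Fin 3, ∀ a b : F, ψ a b
      = (a, if a * a = 1 then (if b = 0 then 0 else if IsSquare b then 1 else 2) else 0) :=
    ⟨_, fun _ _ => rfl⟩
  obtain ⟨Ψ₀, hΨ₀def⟩ : ∃ Ψ₀ : SLF → F × Fin 3,
      ∀ z : SLF, Ψ₀ z = ψ ((z : MF) 0 0) ((z : MF) 0 1) := ⟨_, fun _ => rfl⟩
  have hsqiff : ∀ s s' b : F, s * s' = 1 → (IsSquare (s * s * b) ↔ IsSquare b) := by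
    intro s s' b hss
    constructor
    · rintro ⟨r, hr⟩
      exact ⟨r * s', by linear_combination s' * s' * hr - (b * (s * s' + 1)) * hss⟩
    · rintro ⟨r, hr⟩
      exact ⟨s * r, by linear_combination s * s * hr⟩
  have hΨ₀ : ∀ n z : SLF, n ∈ B → z ∈ B → Ψ₀ (n * z * n⁻¹) = Ψ₀ z := by
    intro n z hn hz
    obtain ⟨s, t, s', hnm, hss⟩ := hshape n hn
    obtain ⟨a, b, d, hzm, had⟩ := hshape z hz
    rw [hΨ₀def, hΨ₀def, hconj n z s t s' a b d hnm hss hzm, hzm]
    simp only [h8_entry00, h8_entry01]
    rw [hψ, hψ]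
    by_cases haa : a * a = 1
    · have hda : d = a := by linear_combination (-d) * haa + a * had
      rw [if_pos haa, if_pos haa, hda, sub_self, mul_zero, add_zero]
      have hs0 : s ≠ 0 := by rintro rfl; rw [zero_mul] at hss; exact zero_ne_one hss
      have h0iff : s * s * b = 0 ↔ b = 0 := by
        constructor
        · intro h
          rcases mul_eq_zero.mp h with h | h
          · exact absurd (mul_self_eq_zero.mp h) hs0
          · exact h
        · rintro rfl; ring
      by_cases hb : b = 0
      · rw [if_pos hb, if_pos (h0iff.mpr hb)]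
      · rw [if_neg hb, if_neg (fun h => hb (h0iff.mp h))]
        by_cases hsq : IsSquare b
        · rw [if_pos hsq, if_pos ((hsqiff s s' b hss).mpr hsq)]
        · rw [if_neg hsq, if_neg (fun h => hsq ((hsqiff s s' b hss).mp h))]
    · rw [if_neg haa, if_neg haa]
  have hinjΨ : ∀ z z' : SLF, z ∈ B → z' ∈ B → Ψ₀ z = Ψ₀ z' → ∃ n ∈ B, n * z * n⁻¹ = z' := by
    intro z z' hz hz' hΨ
    obtain ⟨a, b, d, hzm, had⟩ := hshape z hz
    obtain ⟨a', b', d', hzm', had'⟩ := hshape z' hz'
    rw [hΨ₀def, hΨ₀def, hzm, hzm'] at hΨ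
    simp only [h8_entry00, h8_entry01] at hΨ
    rw [hψ, hψ] at hΨ
    have ha : a = a' := congrArg Prod.fst hΨ
    subst ha
    have hd : d' = d := by linear_combination (-d') * had + d * had'
    subst hd
    have h3 := congrArg Prod.snd hΨ
    dsimp only at h3
    have key : ∀ s t s' : F, s * s' = 1 → s * s * b + s * t * (d' - a) = b' →
        ∃ n ∈ B, n * z * n⁻¹ = z' := by
      intro s t s' hss hb
      obtain ⟨n, hnB, hnm⟩ := hmk s t s' hss
      refine ⟨n, hnB, ?_⟩
      apply Subtype.ext
      rw [hconj n z s t s' a b d' hnm hss hzm, hzm', hb]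
    by_cases haa : a * a = 1
    · rw [if_pos haa, if_pos haa] at h3
      by_cases hb : b = 0
      · rw [if_pos hb] at h3
        have hb' : b' = 0 := by
          by_contra hb'
          rw [if_neg hb'] at h3
          by_cases hsq : IsSquare b'
          · rw [if_pos hsq] at h3; exact h01 h3
          · rw [if_neg hsq] at h3; exact h02 h3
        exact key 1 0 1 (by ring) (by rw [hb, hb']; ring)
      · rw [if_neg hb] at h3
        have hb' : b' ≠ 0 := by
          intro hb'
          rw [if_pos hb'] at h3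
          by_cases hsq : IsSquare b
          · rw [if_pos hsq] at h3; exact h01 h3.symm
          · rw [if_neg hsq] at h3; exact h02 h3.symm
        rw [if_neg hb'] at h3
        obtain ⟨y, hy⟩ : ∃ y : F, y * y * b = b' := by
          by_cases hsq : IsSquare b
          · rw [if_pos hsq] at h3
            by_cases hsq' : IsSquare b'
            · obtain ⟨u, hu⟩ := hsq
              obtain ⟨v, hv⟩ := hsq'
              have hu0 : u ≠ 0 := by rintro rfl; apply hb; rw [hu]; ring
              obtain ⟨l, hl⟩ : ∃ l : F, l * u = 1 := ⟨u⁻¹, inv_mul_cancel₀ hu0⟩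
              refine ⟨v * l, ?_⟩
              rw [hu, hv]
              linear_combination v * v * (l * u + 1) * hl
            · rw [if_neg hsq'] at h3; exact absurd h3 h12
          · rw [if_neg hsq] at h3
            by_cases hsq' : IsSquare b'
            · rw [if_pos hsq'] at h3; exact absurd h3.symm h12
            · exact h8_nonsq_ratio b' b hsq' hsq
        have hy0 : y ≠ 0 := by rintro rfl; apply hb'; rw [← hy]; ring
        obtain ⟨l, hl⟩ : ∃ l : F, y * l = 1 := ⟨y⁻¹, mul_inv_cancel₀ hy0⟩
        exact key y 0 l hl (by rw [← hy]; ring)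
    · have hda : d' - a ≠ 0 := by
        intro h
        apply haa
        linear_combination had - a * h
      obtain ⟨l, hl⟩ : ∃ l : F, (d' - a) * l = 1 := ⟨(d' - a)⁻¹, mul_inv_cancel₀ hda⟩
      exact key 1 ((b' - b) * l) 1 (by ring) (by linear_combination (b' - b) * hl)
  let f : ConjClasses B → F × Fin 3 := Quotient.lift (fun z : B => Ψ₀ (z : SLF)) (by
    intro a b hab
    obtain ⟨n, rfl⟩ := isConj_iff.mp hab
    exact (hΨ₀ (n : SLF) (a : SLF) n.2 a.2).symm)
  have hinj : Function.Injective f := by
    intro x y hxy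
    induction x using Quotient.inductionOn with | _ z =>
    induction y using Quotient.inductionOn with | _ z' =>
    change Ψ₀ (z : SLF) = Ψ₀ (z' : SLF) at hxy
    apply Quotient.sound
    show IsConj z z'
    obtain ⟨n, hn, hnz⟩ := hinjΨ (z : SLF) (z' : SLF) z.2 z'.2 hxy
    exact isConj_iff.mpr ⟨⟨n, hn⟩, Subtype.ext hnz⟩
  obtain ⟨ν, hν⟩ : ∃ ν : F, ¬ IsSquare ν := FiniteField.exists_nonsquare hF
  have hν0 : ν ≠ 0 := by rintro rfl; exact hν ⟨0, by ring⟩
  have hrange : Set.range f = (fun a : F => (a, (0 : Fin 3))) '' {a : F | a ≠ 0}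
      ∪ {((1 : F), (1 : Fin 3)), (1, 2), (-1, 1), (-1, 2)} := by
    ext v
    constructor
    · rintro ⟨x, rfl⟩
      induction x using Quotient.inductionOn with | _ z =>
      show Ψ₀ (z : SLF) ∈ _
      obtain ⟨a, b, d, hzm, had⟩ := hshape (z : SLF) z.2
      have ha0 : a ≠ 0 := by rintro rfl; rw [zero_mul] at had; exact zero_ne_one had
      rw [hΨ₀def, hzm]
      simp only [h8_entry00, h8_entry01]
      rw [hψ]
      by_cases haa : a * a = 1
      · rw [if_pos haa]
        have hcases : a = 1 ∨ a = -1 := by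
          have h5 : (a - 1) * (a + 1) = 0 := by linear_combination haa
          rcases mul_eq_zero.mp h5 with h | h
          · left; linear_combination h
          · right; linear_combination h
        by_cases hb : b = 0
        · rw [if_pos hb]
          left
          exact ⟨a, ha0, rfl⟩
        · rw [if_neg hb]
          right
          by_cases hsq : IsSquare b
          · rw [if_pos hsq]
            rcases hcases with h | h
            · rw [h]; simp
            · rw [h]; simp
          · rw [if_neg hsq]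
            rcases hcases with h | h
            · rw [h]; simp
            · rw [h]; simp
      · rw [if_neg haa]
        left
        exact ⟨a, ha0, rfl⟩
    · rintro (⟨a, ha0, rfl⟩ | hv)
      · have ha0' : a ≠ 0 := ha0
        obtain ⟨l, hl⟩ : ∃ l : F, a * l = 1 := ⟨a⁻¹, mul_inv_cancel₀ ha0'⟩
        obtain ⟨z, hzB, hzm⟩ := hmk a 0 l hl
        refine ⟨ConjClasses.mk ⟨z, hzB⟩, ?_⟩
        show Ψ₀ z = _
        rw [hΨ₀def, hzm]
        simp only [h8_entry00, h8_entry01]
        rw [hψ]
        by_cases haa : a * a = 1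
        · rw [if_pos haa, if_pos rfl]
        · rw [if_neg haa]
      · have hmkv : ∀ (ε b : F) (i : Fin 3), ε * ε = 1 → b ≠ 0 →
            (if IsSquare b then (1 : Fin 3) else 2) = i → (ε, i) ∈ Set.range f := by
          intro ε b i hε hb hi
          obtain ⟨z, hzB, hzm⟩ := hmk ε b ε hε
          refine ⟨ConjClasses.mk ⟨z, hzB⟩, ?_⟩
          show Ψ₀ z = _
          rw [hΨ₀def, hzm]
          simp only [h8_entry00, h8_entry01]
          rw [hψ, if_pos hε, if_neg hb, hi]
        rcases hv with rfl | rfl | rfl | rfl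
        · exact hmkv 1 1 1 (by ring) one_ne_zero (if_pos ⟨1, by ring⟩)
        · exact hmkv 1 ν 2 (by ring) hν0 (if_neg hν)
        · exact hmkv (-1) 1 1 (by ring) one_ne_zero (if_pos ⟨1, by ring⟩)
        · exact hmkv (-1) ν 2 (by ring) hν0 (if_neg hν)
  have hdisj : Disjoint ((fun a : F => (a, (0 : Fin 3))) '' {a : F | a ≠ 0})
      ({((1 : F), (1 : Fin 3)), (1, 2), (-1, 1), (-1, 2)} : Set (F × Fin 3)) := by
    rw [Set.disjoint_left]
    rintro v ⟨a, _, rfl⟩ hv
    rcases hv with h | h | h | h
    all_goals first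
      | exact h01 (congrArg Prod.snd h)
      | exact h02 (congrArg Prod.snd h)
  have hA : ((fun a : F => (a, (0 : Fin 3))) '' {a : F | a ≠ 0}).ncard
      = Fintype.card F - 1 := by
    rw [Set.ncard_image_of_injective _ (fun a b h => congrArg Prod.fst h)]
    have h5 : {a : F | a ≠ 0} = Set.univ \ {0} := by
      ext a; simp
    rw [h5, Set.ncard_sdiff_singleton_of_mem (Set.mem_univ _), Set.ncard_univ,
      Nat.card_eq_fintype_card]
  have hBc : ({((1 : F), (1 : Fin 3)), (1, 2), (-1, 1), (-1, 2)} : Set (F × Fin 3)).ncard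
      = 4 := by
    have n1 : ((1 : F), (1 : Fin 3)) ∉ ({(1, 2), (-1, 1), (-1, 2)} : Set (F × Fin 3)) := by
      intro h
      rcases h with h | h | h
      · exact h12 (congrArg Prod.snd h)
      · exact hne1 (congrArg Prod.fst h)
      · exact hne1 (congrArg Prod.fst h)
    have n2 : ((1 : F), (2 : Fin 3)) ∉ ({(-1, 1), (-1, 2)} : Set (F × Fin 3)) := by
      intro h
      rcases h with h | h
      · exact hne1 (congrArg Prod.fst h)
      · exact hne1 (congrArg Prod.fst h)
    have n3 : ((-1 : F), (1 : Fin 3)) ≠ (-1, 2) := fun h => h12 (congrArg Prod.snd h)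
    rw [Set.ncard_insert_of_notMem n1, Set.ncard_insert_of_notMem n2, Set.ncard_pair n3]
  have e1 : Nat.card (ConjClasses B) = (Set.range f).ncard := by
    rw [← Nat.card_coe_set_eq]
    exact Nat.card_congr (Equiv.ofInjective f hinj)
  have hq : 1 ≤ Fintype.card F := Fintype.card_pos
  rw [e1, hrange, Set.ncard_union_eq hdisj (Set.toFinite _) (Set.toFinite _), hA, hBc]
  omega

theorem h8_s2437 [Fintype F] (hodd : Odd (Fintype.card F)) :
    Nat.card (ConjClasses
      ((Cfsg.upperTriangularGL 2 F).comap Matrix.SpecialLinearGroup.toGL))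
      = Fintype.card F + 3 :=
  h8_borel_classes hodd _ h8_mem_borel_iff

end

end Cfsg.Agent.Lib.Helper8
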