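import Mathlib
import Cfsg.Prelude.Def_Characters
import Cfsg.Prelude.Def_ParabolicCharacters
import Cfsg.Agent.Lib.Helper8.SL2Borel

set_option autoImplicit false
set_option linter.style.haveILetI false
set_option linter.unusedSectionVars false
set_option linter.unusedVariables false

universe u

namespace Cfsg.Agent.Lib.Helper8

open Matrix
open scoped ComplexConjugate

theorem h8_double_sum {G : Type u} [Group G] [Fintype G] (A C : G → ℂ) :
    ∑ g : G, (∑ x : G, A (x⁻¹ * g * x)) * (∑ y : G, C (y⁻¹ * g * y))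
      = (Nat.card G : ℂ) * ∑ w : G, ∑ h : G, A h * C (w⁻¹ * h * w) := by
  classical
  have h1 : ∀ g : G, (∑ x : G, A (x⁻¹ * g * x)) * (∑ y : G, C (y⁻¹ * g * y))
      = ∑ x : G, ∑ y : G, A (x⁻¹ * g * x) * C (y⁻¹ * g * y) := by
    intro g
    rw [Finset.sum_mul_sum]
  rw [Finset.sum_congr rfl (fun g _ => h1 g), Finset.sum_comm]
  have h3 : ∀ x : G, ∑ g : G, ∑ y : G, A (x⁻¹ * g * x) * C (y⁻¹ * g * y)
      = ∑ w : G, ∑ h : G, A h * C (w⁻¹ * h * w) := by
    intro x
    calc ∑ g : G, ∑ y : G, A (x⁻¹ * g * x) * C (y⁻¹ * g * y)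
        = ∑ h : G, ∑ y : G, A h * C (y⁻¹ * (x * h * x⁻¹) * y) := by
          refine Fintype.sum_equiv (MulAut.conj x⁻¹).toEquiv _ _ (fun g => ?_)
          refine Finset.sum_congr rfl (fun y _ => ?_)
          show A (x⁻¹ * g * x) * C (y⁻¹ * g * y)
            = A (x⁻¹ * g * x⁻¹⁻¹) * C (y⁻¹ * (x * (x⁻¹ * g * x⁻¹⁻¹) * x⁻¹) * y)
          rw [inv_inv]
          have e : y⁻¹ * (x * (x⁻¹ * g * x) * x⁻¹) * y = y⁻¹ * g * y := by group
          rw [e]
      _ = ∑ h : G, ∑ w : G, A h * C (w⁻¹ * h * w) := by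
          refine Finset.sum_congr rfl (fun h _ => ?_)
          refine (Fintype.sum_equiv (Equiv.mulLeft x) _ _ (fun w => ?_)).symm
          show A h * C (w⁻¹ * h * w) = A h * C ((x * w)⁻¹ * (x * h * x⁻¹) * (x * w))
          have e : (x * w)⁻¹ * (x * h * x⁻¹) * (x * w) = w⁻¹ * h * w := by group
          rw [e]
      _ = ∑ w : G, ∑ h : G, A h * C (w⁻¹ * h * w) := Finset.sum_comm
  rw [Finset.sum_congr rfl (fun x _ => h3 x), Finset.sum_const, Finset.card_univ, nsmul_eq_mul,
    Nat.card_eq_fintype_card]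

theorem h8_mackey_formal {G : Type u} [Group G] [Fintype G] (B : Subgroup G) (θ φ : B → ℂ) :
    Cfsg.classInner (Cfsg.indFun B θ) (Cfsg.indFun B φ)
      = ((Nat.card B : ℂ)⁻¹ * (Nat.card B : ℂ)⁻¹) * ∑ w : G, ∑ h : G,
          Cfsg.extendByZero B θ h * conj (Cfsg.extendByZero B φ (w⁻¹ * h * w)) := by
  classical
  have hkey := h8_double_sum (Cfsg.extendByZero B θ) (fun g => conj (Cfsg.extendByZero B φ g))
  have hkey' : ∑ g : G, (∑ x : G, Cfsg.extendByZero B θ (x⁻¹ * g * x))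
        * (∑ y : G, conj (Cfsg.extendByZero B φ (y⁻¹ * g * y)))
      = (Nat.card G : ℂ) * ∑ w : G, ∑ h : G,
          Cfsg.extendByZero B θ h * conj (Cfsg.extendByZero B φ (w⁻¹ * h * w)) := hkey
  show (Nat.card G : ℂ)⁻¹ * ∑ g : G,
      ((Nat.card B : ℂ)⁻¹ * ∑ x : G, Cfsg.extendByZero B θ (x⁻¹ * g * x))
        * conj ((Nat.card B : ℂ)⁻¹ * ∑ x : G, Cfsg.extendByZero B φ (x⁻¹ * g * x)) = _
  have h5 : ∀ g : G, ((Nat.card B : ℂ)⁻¹ * ∑ x : G, Cfsg.extendByZero B θ (x⁻¹ * g * x))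
        * conj ((Nat.card B : ℂ)⁻¹ * ∑ x : G, Cfsg.extendByZero B φ (x⁻¹ * g * x))
      = ((Nat.card B : ℂ)⁻¹ * (Nat.card B : ℂ)⁻¹)
        * ((∑ x : G, Cfsg.extendByZero B θ (x⁻¹ * g * x))
          * (∑ y : G, conj (Cfsg.extendByZero B φ (y⁻¹ * g * y)))) := by
    intro g
    rw [map_mul, map_inv₀, map_natCast, map_sum]
    ring
  rw [Finset.sum_congr rfl (fun g _ => h5 g), ← Finset.mul_sum, hkey']
  have hG : (Nat.card G : ℂ) ≠ 0 := by
    exact_mod_cast (Nat.card_pos (α := G)).ne'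
  rw [mul_left_comm, inv_mul_cancel_left₀ hG]

theorem h8_extendByZero_apply {G : Type u} [Group G] (B : Subgroup G) (f : G → ℂ) (h : G)
    [Decidable (h ∈ B)] :
    Cfsg.extendByZero B (fun b : B => f (b : G)) h = if h ∈ B then f h else 0 := by
  unfold Cfsg.extendByZero
  by_cases hh : h ∈ B
  · rw [if_pos hh]
    exact Subtype.val_injective.extend_apply (fun b : B => f (b : G)) 0 ⟨h, hh⟩
  · rw [if_neg hh]
    have h0 := Function.extend_apply' (f := (Subtype.val : B → G)) (fun b : B => f (b : G))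
      (0 : G → ℂ) h (by rintro ⟨b, rfl⟩; exact hh b.2)
    rw [h0]; rfl

theorem h8_sum_of_support_range {X Y : Type*} [Fintype X] [Fintype Y] (ι : X → Y)
    (hι : Function.Injective ι) (f : Y → ℂ) (hf : ∀ y, (∀ x, ι x ≠ y) → f y = 0) :
    ∑ y, f y = ∑ x, f (ι x) := by
  classical
  rw [← Finset.sum_image (s := Finset.univ) (g := ι) (f := f) (fun a _ b _ h => hι h)]
  symm
  apply Finset.sum_subset (Finset.subset_univ _)
  intro y _ hy
  apply hf
  intro x hx
  apply hy
  rw [Finset.mem_image]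
  exact ⟨x, Finset.mem_univ _, hx⟩

section
variable {F : Type u} [Field F]

local notation "SLF" => Matrix.SpecialLinearGroup (Fin 2) F
local notation "MF" => Matrix (Fin 2) (Fin 2) F

noncomputable def h8ext (B : Subgroup SLF) (γ : MulChar F ℂ) : SLF → ℂ :=
  Cfsg.extendByZero B (fun b : B => γ (((b : SLF) : MF) 0 0))

theorem h8_conj_entry10' (w h : SLF) (s t c e a b d : F) (hw : (w : MF) = !![s, t; c, e])
    (hh : (h : MF) = !![a, b; 0, d]) :
    ((w⁻¹ * h * w : SLF) : MF) 1 0 = c * (s * (d - a) - b * c) := by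
  rw [Matrix.SpecialLinearGroup.coe_mul, Matrix.SpecialLinearGroup.coe_mul,
    h8_sl2_coe_inv w s t c e hw, hw, hh, Matrix.mul_fin_two, Matrix.mul_fin_two, h8_entry10]
  ring

theorem h8_conj_entry00' (w h : SLF) (s t c e a b d : F) (hw : (w : MF) = !![s, t; c, e])
    (hh : (h : MF) = !![a, b; 0, d]) :
    ((w⁻¹ * h * w : SLF) : MF) 0 0 = e * a * s + (e * b - t * d) * c := by
  rw [Matrix.SpecialLinearGroup.coe_mul, Matrix.SpecialLinearGroup.coe_mul,
    h8_sl2_coe_inv w s t c e hw, hw, hh, Matrix.mul_fin_two, Matrix.mul_fin_two, h8_entry00]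
  ring

theorem h8_s2432_aux [Fintype F] [DecidableEq F] (α β : MulChar F ℂ) (B : Subgroup SLF)
    (hB : ∀ g : SLF, g ∈ B ↔ (g : MF) 1 0 = 0) [Decidable (α = β)] [Decidable (α = β⁻¹)] :
    Cfsg.classInner (Cfsg.indFun B (fun b : B => α (((b : SLF) : MF) 0 0)))
      (Cfsg.indFun B (fun b : B => β (((b : SLF) : MF) 0 0)))
      = (if α = β then 1 else 0) + (if α = β⁻¹ then 1 else 0) := by
  classical
  have hshape : ∀ z : SLF, z ∈ B → ∃ a b d : F, (z : MF) = !![a, b; 0, d] ∧ a * d = 1 := by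
    intro z hz
    obtain ⟨a, b, c, d, hzm⟩ : ∃ a b c d : F, (z : MF) = !![a, b; c, d] :=
      ⟨_, _, _, _, Matrix.eta_fin_two _⟩
    have hc : c = 0 := by
      have h := (hB z).mp hz
      rw [hzm] at h
      exact h
    subst hc
    refine ⟨a, b, d, hzm, ?_⟩
    have h0 := z.det_coe
    rw [hzm, Matrix.det_fin_two_of] at h0
    linear_combination h0
  obtain ⟨ι, hι⟩ : ∃ ι : Fˣ × F → SLF, ∀ p : Fˣ × F,
      ((ι p : SLF) : MF) = !![(p.1 : F), p.2; 0, ((p.1⁻¹ : Fˣ) : F)] :=
    ⟨fun p => ⟨!![(p.1 : F), p.2; 0, ((p.1⁻¹ : Fˣ) : F)], by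
      rw [Matrix.det_fin_two_of]; simp⟩, fun p => rfl⟩
  have hιB : ∀ p, ι p ∈ B := by
    intro p
    rw [hB, hι]
    rfl
  have hιinj : Function.Injective ι := by
    intro p p' h
    have h1 : ((ι p : SLF) : MF) = ((ι p' : SLF) : MF) := by rw [h]
    rw [hι, hι] at h1
    obtain ⟨e00, e01, -, -⟩ := h8_fin_two_inj h1
    exact Prod.ext (Units.ext e00) e01
  have hιsurj : ∀ h : SLF, h ∈ B → ∃ p, ι p = h := by
    intro h hh
    obtain ⟨a, b, d, hm, had⟩ := hshape h hh
    refine ⟨(⟨a, d, had, by rw [mul_comm]; exact had⟩, b), ?_⟩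
    apply Subtype.ext
    rw [hι, hm]
    rfl
  have hsumB : ∀ f : SLF → ℂ, (∀ h, h ∉ B → f h = 0) →
      ∑ h : SLF, f h = ∑ p : Fˣ × F, f (ι p) := by
    intro f hf
    apply h8_sum_of_support_range ι hιinj f
    intro y hy
    apply hf
    intro hyB
    obtain ⟨p, hp⟩ := hιsurj y hyB
    exact hy p hp
  obtain ⟨S, hS⟩ : ∃ S : MulChar F ℂ → ℂ, ∀ χ, S χ
      = if χ = 1 then ((Fintype.card F : ℂ) - 1) else 0 := ⟨_, fun _ => rfl⟩
  have hSunit : ∀ χ : MulChar F ℂ, ∑ u : Fˣ, χ (u : F) = S χ := by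
    intro χ
    have h1 : ∑ a : F, χ a = ∑ u : Fˣ, χ (u : F) := by
      apply h8_sum_of_support_range (fun u : Fˣ => (u : F)) Units.val_injective (fun a => χ a)
      intro y hy
      apply MulChar.map_nonunit
      rintro ⟨u, hu⟩
      exact hy u hu
    rw [← h1, hS]
    by_cases hχ : χ = 1
    · rw [if_pos hχ, hχ, MulChar.sum_one_eq_card_units, ← Nat.card_eq_fintype_card,
        Nat.card_units, Nat.card_eq_fintype_card, Nat.cast_sub Fintype.card_pos, Nat.cast_one]
    · rw [if_neg hχ]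
      exact MulChar.sum_eq_zero_of_ne_one hχ
  have hθ : ∀ (γ : MulChar F ℂ) (h : SLF), h8ext B γ h
      = if h ∈ B then γ ((h : MF) 0 0) else 0 :=
    fun γ h => h8_extendByZero_apply B (fun g : SLF => γ ((g : MF) 0 0)) h
  have hT : ∀ w : SLF, ∑ h : SLF, h8ext B α h * conj (h8ext B β (w⁻¹ * h * w))
      = if w ∈ B then (Fintype.card F : ℂ) * S (α * β⁻¹) else S (α * β) := by
    intro w
    have hs1 : ∑ h : SLF, h8ext B α h * conj (h8ext B β (w⁻¹ * h * w))
        = ∑ p : Fˣ × F, h8ext B α (ι p) * conj (h8ext B β (w⁻¹ * ι p * w)) :=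
      hsumB (fun h => h8ext B α h * conj (h8ext B β (w⁻¹ * h * w)))
        (fun h hh => by
          show h8ext B α h * _ = 0
          rw [hθ, if_neg hh, zero_mul])
    rw [hs1, Fintype.sum_prod_type]
    by_cases hw : w ∈ B
    · rw [if_pos hw]
      obtain ⟨s, t, s', hwm, hss⟩ := hshape w hw
      have h1 : ∀ (u : Fˣ) (b : F),
          h8ext B α (ι (u, b)) * conj (h8ext B β (w⁻¹ * ι (u, b) * w))
          = (α * β⁻¹) (u : F) := by
        intro u b
        have hmem : w⁻¹ * ι (u, b) * w ∈ B :=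
          B.mul_mem (B.mul_mem (B.inv_mem hw) (hιB _)) hw
        have h00 := h8_conj_entry00' w (ι (u, b)) s t 0 s' _ _ _ hwm (hι (u, b))
        have h00' : ((w⁻¹ * ι (u, b) * w : SLF) : MF) 0 0 = (u : F) := by
          rw [h00]
          show s' * (u : F) * s + (s' * b - t * ((u⁻¹ : Fˣ) : F)) * 0 = (u : F)
          linear_combination (u : F) * hss
        rw [hθ, hθ, if_pos (hιB _), if_pos hmem, hι, h00', h8_entry00, MulChar.mul_apply,
          ← MulChar.star_apply']
        rfl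
      simp only [h1]
      simp only [Finset.sum_const, Finset.card_univ, nsmul_eq_mul]
      rw [← Finset.mul_sum, hSunit]
    · rw [if_neg hw]
      obtain ⟨s, t, c, e, hwm⟩ : ∃ s t c e : F, (w : MF) = !![s, t; c, e] :=
        ⟨_, _, _, _, Matrix.eta_fin_two _⟩
      have hc : c ≠ 0 := by
        intro hc
        apply hw
        rw [hB, hwm]
        exact hc
      have hdet : s * e - t * c = 1 := by
        have h0 := w.det_coe
        rw [hwm, Matrix.det_fin_two_of] at h0
        exact h0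
      obtain ⟨l, hl⟩ : ∃ l : F, l * c = 1 := ⟨c⁻¹, inv_mul_cancel₀ hc⟩
      have h1 : ∀ (u : Fˣ) (b : F),
          h8ext B α (ι (u, b)) * conj (h8ext B β (w⁻¹ * ι (u, b) * w))
          = if b = s * (((u⁻¹ : Fˣ) : F) - (u : F)) * l then (α * β) (u : F) else 0 := by
        intro u b
        have h10 := h8_conj_entry10' w (ι (u, b)) s t c e _ _ _ hwm (hι (u, b))
        have h00 := h8_conj_entry00' w (ι (u, b)) s t c e _ _ _ hwm (hι (u, b))
        have h10' : ((w⁻¹ * ι (u, b) * w : SLF) : MF) 1 0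
            = c * (s * (((u⁻¹ : Fˣ) : F) - (u : F)) - b * c) := h10
        have h00' : ((w⁻¹ * ι (u, b) * w : SLF) : MF) 0 0
            = e * (u : F) * s + (e * b - t * ((u⁻¹ : Fˣ) : F)) * c := h00
        rw [hθ, hθ, if_pos (hιB _), hι, h8_entry00]
        by_cases hb : b = s * (((u⁻¹ : Fˣ) : F) - (u : F)) * l
        · have hmem : w⁻¹ * ι (u, b) * w ∈ B := by
            rw [hB, h10', hb]
            linear_combination (-(c * s * (((u⁻¹ : Fˣ) : F) - (u : F)))) * hl
          have hval : e * (u : F) * s + (e * b - t * ((u⁻¹ : Fˣ) : F)) * c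
              = ((u⁻¹ : Fˣ) : F) := by
            rw [hb]
            linear_combination (e * s * (((u⁻¹ : Fˣ) : F) - (u : F))) * hl
              + ((u⁻¹ : Fˣ) : F) * hdet
          have hconj : conj (β (((u⁻¹ : Fˣ) : F))) = β (u : F) := by
            have h5 := MulChar.star_apply' β (((u⁻¹ : Fˣ) : F))
            have h6 : β⁻¹ (((u⁻¹ : Fˣ) : F)) = β (u : F) := by
              rw [MulChar.inv_apply', Units.val_inv_eq_inv_val, inv_inv]
            rw [h6] at h5
            exact h5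
          rw [if_pos hmem, if_pos hb, h00', hval, MulChar.mul_apply, hconj]
        · have hmem : w⁻¹ * ι (u, b) * w ∉ B := by
            rw [hB, h10']
            intro h0
            apply hb
            have h6 : s * (((u⁻¹ : Fˣ) : F) - (u : F)) - b * c = 0 := by
              rcases mul_eq_zero.mp h0 with h | h
              · exact absurd h hc
              · exact h
            linear_combination (-b) * hl - l * h6
          rw [if_neg hmem, if_neg hb, map_zero, mul_zero]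
      simp only [h1]
      simp only [Finset.sum_ite_eq', Finset.mem_univ, if_true]
      exact hSunit (α * β)
  rw [h8_mackey_formal]
  show ((Nat.card B : ℂ)⁻¹ * (Nat.card B : ℂ)⁻¹) * ∑ w : SLF, ∑ h : SLF,
      h8ext B α h * conj (h8ext B β (w⁻¹ * h * w)) = _
  rw [Finset.sum_congr rfl (fun w _ => hT w)]
  have hcardB : Nat.card B = Nat.card (Fˣ × F) := by
    symm
    refine Nat.card_congr (Equiv.ofBijective (fun p => (⟨ι p, hιB p⟩ : B)) ⟨?_, ?_⟩)
    · intro p p' h
      exact hιinj (congrArg Subtype.val h)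
    · rintro ⟨h, hh⟩
      obtain ⟨p, hp⟩ := hιsurj h hh
      exact ⟨p, Subtype.ext hp⟩
  have hq2 : 1 < Fintype.card F := Fintype.one_lt_card
  have hcardB' : (Nat.card B : ℂ) = ((Fintype.card F : ℂ) - 1) * (Fintype.card F : ℂ) := by
    rw [hcardB, Nat.card_prod, Nat.card_units, Nat.card_eq_fintype_card, Nat.cast_mul,
      Nat.cast_sub Fintype.card_pos, Nat.cast_one]
  have hcardG : (Nat.card SLF : ℂ)
      = (Fintype.card F : ℂ) * ((Fintype.card F : ℂ) ^ 2 - 1) := by
    rw [h8_card_SL2, Nat.cast_mul, Nat.cast_sub (Nat.one_le_pow _ _ Fintype.card_pos),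
      Nat.cast_pow, Nat.cast_one]
  have hsplit : ∑ w : SLF, (if w ∈ B then (Fintype.card F : ℂ) * S (α * β⁻¹) else S (α * β))
      = (Nat.card SLF : ℂ) * S (α * β)
        + (Nat.card B : ℂ) * ((Fintype.card F : ℂ) * S (α * β⁻¹) - S (α * β)) := by
    have h1 : ∀ w : SLF, (if w ∈ B then (Fintype.card F : ℂ) * S (α * β⁻¹) else S (α * β))
        = S (α * β) + (if w ∈ B then ((Fintype.card F : ℂ) * S (α * β⁻¹) - S (α * β))
          else 0) := by
      intro w
      by_cases hw : w ∈ B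
      · rw [if_pos hw, if_pos hw]; ring
      · rw [if_neg hw, if_neg hw]; ring
    rw [Finset.sum_congr rfl (fun w _ => h1 w), Finset.sum_add_distrib, Finset.sum_const,
      Finset.card_univ, nsmul_eq_mul, ← Nat.card_eq_fintype_card]
    congr 1
    have hs2 : ∑ w : SLF, (if w ∈ B then ((Fintype.card F : ℂ) * S (α * β⁻¹) - S (α * β))
          else 0)
        = ∑ p : Fˣ × F, (if ι p ∈ B then ((Fintype.card F : ℂ) * S (α * β⁻¹) - S (α * β))
          else 0) :=
      hsumB (fun w => if w ∈ B then ((Fintype.card F : ℂ) * S (α * β⁻¹) - S (α * β)) else 0)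
        (fun h hh => if_neg hh)
    rw [hs2, Finset.sum_congr rfl (fun p _ => if_pos (hιB p)), Finset.sum_const,
      Finset.card_univ, nsmul_eq_mul, ← Nat.card_eq_fintype_card, ← hcardB]
  rw [hsplit, hcardB', hcardG, hS, hS]
  have hQ0 : (Fintype.card F : ℂ) ≠ 0 := by
    have : Fintype.card F ≠ 0 := by omega
    exact_mod_cast this
  have hQ1 : (Fintype.card F : ℂ) - 1 ≠ 0 := by
    intro h
    have h' : (Fintype.card F : ℂ) = ((1 : ℕ) : ℂ) := by
      rw [Nat.cast_one]; linear_combination h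
    have := Nat.cast_injective h'
    omega
  have e1 : (α * β⁻¹ = 1) ↔ α = β := mul_inv_eq_one
  have e2 : (α * β = 1) ↔ α = β⁻¹ := mul_eq_one_iff_eq_inv
  by_cases h1 : α = β
  · by_cases h3 : α = β⁻¹
    · rw [if_pos h1, if_pos h3, if_pos (e1.mpr h1), if_pos (e2.mpr h3)]
      field_simp
      ring
    · rw [if_pos h1, if_neg h3, if_pos (e1.mpr h1), if_neg (fun h => h3 (e2.mp h))]
      field_simp
      ring
  · by_cases h3 : α = β⁻¹
    · rw [if_neg h1, if_pos h3, if_neg (fun h => h1 (e1.mp h)), if_pos (e2.mpr h3)]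
      field_simp
      ring
    · rw [if_neg h1, if_neg h3, if_neg (fun h => h1 (e1.mp h)),
        if_neg (fun h => h3 (e2.mp h))]
      simp

theorem h8_s2432 [Fintype F] [DecidableEq F] (hodd : Odd (Fintype.card F))
    (α β : MulChar F ℂ) [Decidable (α = β)] [Decidable (α = β⁻¹)] :
    Cfsg.classInner
      (Cfsg.indFun ((Cfsg.upperTriangularGL 2 F).comap Matrix.SpecialLinearGroup.toGL)
        (fun b => α (((b : SLF) : MF) 0 0)))
      (Cfsg.indFun ((Cfsg.upperTriangularGL 2 F).comap Matrix.SpecialLinearGroup.toGL)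
        (fun b => β (((b : SLF) : MF) 0 0)))
      = (if α = β then 1 else 0) + (if α = β⁻¹ then 1 else 0) :=
  h8_s2432_aux α β _ h8_mem_borel_iff

end

end Cfsg.Agent.Lib.Helper8
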