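import Mathlib
import Cfsg.Prelude.Def_Characters
import Cfsg.Prelude.Def_ParabolicCharacters
import Cfsg.Agent.Lib.Helper8.SL2Mackey
import Cfsg.Agent.Lib.Helper8.GL2Syl

set_option autoImplicit false
set_option linter.style.haveILetI false
set_option linter.unusedSectionVars false
set_option linter.unusedVariables false

universe u

namespace Cfsg.Agent.Lib.Helper8

open Matrix
open scoped ComplexConjugate

section
variable {F : Type u} [Field F]

local notation "GLF" => Matrix.GeneralLinearGroup (Fin 2) F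
local notation "MF" => Matrix (Fin 2) (Fin 2) F

theorem h8_mem_borelGL_iff (g : GLF) :
    g ∈ Cfsg.upperTriangularGL 2 F ↔ (g : MF) 1 0 = 0 := by
  show ((g : GLF) : MF).BlockTriangular id ↔ _
  constructor
  · intro h
    exact h (show id (0 : Fin 2) < id 1 by decide)
  · intro h i j hij
    fin_cases i <;> fin_cases j
    · exact absurd hij (by decide)
    · exact absurd hij (by decide)
    · exact h
    · exact absurd hij (by decide)

theorem h8_gl2_det_ne_zero (w : GLF) (s t c e : F) (hw : (w : MF) = !![s, t; c, e]) :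
    s * e - t * c ≠ 0 := by
  have h1 : IsUnit (w : MF) := w.isUnit
  have h2 := (Matrix.isUnit_iff_isUnit_det _).mp h1
  rw [hw, Matrix.det_fin_two_of] at h2
  exact h2.ne_zero

theorem h8_gl2_coe_inv (w : GLF) (s t c e l : F) (hw : (w : MF) = !![s, t; c, e])
    (hl : l * (s * e - t * c) = 1) :
    ((w⁻¹ : GLF) : MF) = !![e * l, -t * l; -c * l, s * l] := by
  have h2 : (!![e * l, -t * l; -c * l, s * l] : MF) * (w : MF) = 1 := by
    rw [hw, Matrix.mul_fin_two, Matrix.one_fin_two]
    refine h8_fin_two_congr ?_ ?_ ?_ ?_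
    · linear_combination hl
    · ring
    · ring
    · linear_combination hl
  calc ((w⁻¹ : GLF) : MF) = 1 * ((w⁻¹ : GLF) : MF) := (one_mul _).symm
    _ = ((!![e * l, -t * l; -c * l, s * l] : MF) * (w : MF)) * ((w⁻¹ : GLF) : MF) := by
        rw [h2]
    _ = (!![e * l, -t * l; -c * l, s * l] : MF) * ((w : MF) * ((w⁻¹ : GLF) : MF)) :=
        mul_assoc _ _ _
    _ = !![e * l, -t * l; -c * l, s * l] := by
        rw [← Units.val_mul, mul_inv_cancel, Units.val_one, mul_one]

theorem h8_gl2_conj (w h : GLF) (s t c e l u b v : F) (hw : (w : MF) = !![s, t; c, e])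
    (hl : l * (s * e - t * c) = 1) (hh : (h : MF) = !![u, b; 0, v]) :
    ((w⁻¹ * h * w : GLF) : MF)
      = !![l * (e * u * s + e * b * c - t * v * c), l * (e * u * t + e * b * e - t * v * e);
           l * c * (s * (v - u) - b * c), l * (-(c * u * t) - c * b * e + s * v * e)] := by
  rw [Units.val_mul, Units.val_mul, h8_gl2_coe_inv w s t c e l hw hl, hw, hh,
    Matrix.mul_fin_two, Matrix.mul_fin_two]
  refine h8_fin_two_congr ?_ ?_ ?_ ?_ <;> ring

noncomputable def h8extG (B : Subgroup GLF) (α β : MulChar F ℂ) : GLF → ℂ :=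
  Cfsg.extendByZero B (fun b : B => α (((b : GLF) : MF) 0 0) * β (((b : GLF) : MF) 1 1))

theorem h8_gl2_mackey [Fintype F] [DecidableEq F] (α β α' β' : MulChar F ℂ) (B : Subgroup GLF)
    (hB : ∀ g : GLF, g ∈ B ↔ (g : MF) 1 0 = 0)
    [Decidable (α = α' ∧ β = β')] [Decidable (α = β' ∧ β = α')] :
    Cfsg.classInner
      (Cfsg.indFun B (fun b : B => α (((b : GLF) : MF) 0 0) * β (((b : GLF) : MF) 1 1)))
      (Cfsg.indFun B (fun b : B => α' (((b : GLF) : MF) 0 0) * β' (((b : GLF) : MF) 1 1)))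
      = (if α = α' ∧ β = β' then 1 else 0) + (if α = β' ∧ β = α' then 1 else 0) := by
  classical
  have hshape : ∀ z : GLF, z ∈ B →
      ∃ a b d : F, (z : MF) = !![a, b; 0, d] ∧ a ≠ 0 ∧ d ≠ 0 := by
    intro z hz
    obtain ⟨a, b, c, d, hzm⟩ : ∃ a b c d : F, (z : MF) = !![a, b; c, d] :=
      ⟨_, _, _, _, Matrix.eta_fin_two _⟩
    have hc : c = 0 := by
      have h := (hB z).mp hz
      rw [hzm] at h
      exact h
    subst hc
    have hdet := h8_gl2_det_ne_zero z a b 0 d hzm
    refine ⟨a, b, d, hzm, ?_, ?_⟩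
    · rintro rfl; apply hdet; ring
    · rintro rfl; apply hdet; ring
  obtain ⟨ι, hι⟩ : ∃ ι : (Fˣ × Fˣ) × F → GLF, ∀ p : (Fˣ × Fˣ) × F,
      ((ι p : GLF) : MF) = !![(p.1.1 : F), p.2; 0, (p.1.2 : F)] :=
    ⟨fun p => Matrix.GeneralLinearGroup.mkOfDetNeZero !![(p.1.1 : F), p.2; 0, (p.1.2 : F)] (by
      rw [Matrix.det_fin_two_of]; simp), fun p => rfl⟩
  have hιB : ∀ p, ι p ∈ B := by
    intro p
    rw [hB, hι]
    rfl
  have hιinj : Function.Injective ι := by
    intro p p' h
    have h1 : ((ι p : GLF) : MF) = ((ι p' : GLF) : MF) := by rw [h]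
    rw [hι, hι] at h1
    obtain ⟨e00, e01, -, e11⟩ := h8_fin_two_inj h1
    exact Prod.ext (Prod.ext (Units.ext e00) (Units.ext e11)) e01
  have hιsurj : ∀ h : GLF, h ∈ B → ∃ p, ι p = h := by
    intro h hh
    obtain ⟨a, b, d, hm, ha, hd⟩ := hshape h hh
    refine ⟨((Units.mk0 a ha, Units.mk0 d hd), b), ?_⟩
    apply Units.ext
    rw [hι, hm]
    rfl
  have hsumB : ∀ f : GLF → ℂ, (∀ h, h ∉ B → f h = 0) →
      ∑ h : GLF, f h = ∑ p : (Fˣ × Fˣ) × F, f (ι p) := by
    intro f hf
    apply h8_sum_of_support_range ι hιinj f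
    intro y hy
    apply hf
    intro hyB
    obtain ⟨p, hp⟩ := hιsurj y hyB
    exact hy p hp
  obtain ⟨S, hS⟩ : ∃ S : MulChar F ℂ → ℂ, ∀ χ, S χ
      = if χ = 1 then ((Fintype.card F : ℂ) - 1) else 0 := ⟨_, fun _ => rfl⟩
  have hSunit : ∀ χ : MulChar F ℂ, ∑ u : Fˣ, χ (u : F) = S χ := by
    intro χ
    have h1 : ∑ a : F, χ a = ∑ u : Fˣ, χ (u : F) := by
      apply h8_sum_of_support_range (fun u : Fˣ => (u : F)) Units.val_injective (fun a => χ a)
      intro y hy
      apply MulChar.map_nonunit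
      rintro ⟨u, hu⟩
      exact hy u hu
    rw [← h1, hS]
    by_cases hχ : χ = 1
    · rw [if_pos hχ, hχ, MulChar.sum_one_eq_card_units, ← Nat.card_eq_fintype_card,
        Nat.card_units, Nat.card_eq_fintype_card, Nat.cast_sub Fintype.card_pos, Nat.cast_one]
    · rw [if_neg hχ]
      exact MulChar.sum_eq_zero_of_ne_one hχ
  have hconj : ∀ (γ : MulChar F ℂ) (x : F), conj (γ x) = γ⁻¹ x :=
    fun γ x => MulChar.star_apply' γ x
  have hθ : ∀ (γ δ : MulChar F ℂ) (h : GLF), h8extG B γ δ h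
      = if h ∈ B then γ ((h : MF) 0 0) * δ ((h : MF) 1 1) else 0 :=
    fun γ δ h => h8_extendByZero_apply B (fun g : GLF => γ ((g : MF) 0 0) * δ ((g : MF) 1 1)) h
  have hsum3 : ∀ A B' : Fˣ → ℂ, ∑ u : Fˣ, ∑ v : Fˣ, ∑ b : F, A u * B' v
      = (Fintype.card F : ℂ) * ((∑ u : Fˣ, A u) * (∑ v : Fˣ, B' v)) := by
    intro A B'
    simp only [Finset.sum_const, Finset.card_univ, nsmul_eq_mul]
    rw [Finset.sum_mul_sum, Finset.mul_sum]
    refine Finset.sum_congr rfl (fun u _ => ?_)
    rw [Finset.mul_sum]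
  have hT : ∀ w : GLF, ∑ h : GLF, h8extG B α β h * conj (h8extG B α' β' (w⁻¹ * h * w))
      = if w ∈ B then (Fintype.card F : ℂ) * (S (α * α'⁻¹) * S (β * β'⁻¹))
        else S (α * β'⁻¹) * S (β * α'⁻¹) := by
    intro w
    have hs1 : ∑ h : GLF, h8extG B α β h * conj (h8extG B α' β' (w⁻¹ * h * w))
        = ∑ p : (Fˣ × Fˣ) × F,
          h8extG B α β (ι p) * conj (h8extG B α' β' (w⁻¹ * ι p * w)) :=
      hsumB (fun h => h8extG B α β h * conj (h8extG B α' β' (w⁻¹ * h * w)))
        (fun h hh => by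
          show h8extG B α β h * _ = 0
          rw [hθ, if_neg hh, zero_mul])
    rw [hs1, Fintype.sum_prod_type, Fintype.sum_prod_type]
    obtain ⟨s, t, c, e, hwm⟩ : ∃ s t c e : F, (w : MF) = !![s, t; c, e] :=
      ⟨_, _, _, _, Matrix.eta_fin_two _⟩
    have hΔ := h8_gl2_det_ne_zero w s t c e hwm
    obtain ⟨l, hl⟩ : ∃ l : F, l * (s * e - t * c) = 1 :=
      ⟨(s * e - t * c)⁻¹, inv_mul_cancel₀ hΔ⟩
    have hcj : ∀ (u v : Fˣ) (b : F), ((w⁻¹ * ι ((u, v), b) * w : GLF) : MF)
        = !![l * (e * u * s + e * b * c - t * v * c), l * (e * u * t + e * b * e - t * v * e);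
             l * c * (s * ((v : F) - u) - b * c), l * (-(c * u * t) - c * b * e + s * v * e)] :=
      fun u v b => h8_gl2_conj w (ι ((u, v), b)) s t c e l u b v hwm hl (hι ((u, v), b))
    by_cases hw : w ∈ B
    · rw [if_pos hw]
      have hc : c = 0 := by
        have h := (hB w).mp hw
        rw [hwm] at h
        exact h
      have h1 : ∀ (u v : Fˣ) (b : F),
          h8extG B α β (ι ((u, v), b)) * conj (h8extG B α' β' (w⁻¹ * ι ((u, v), b) * w))
          = (α * α'⁻¹) (u : F) * (β * β'⁻¹) (v : F) := by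
        intro u v b
        have hmem : w⁻¹ * ι ((u, v), b) * w ∈ B :=
          B.mul_mem (B.mul_mem (B.inv_mem hw) (hιB _)) hw
        have h00 : ((w⁻¹ * ι ((u, v), b) * w : GLF) : MF) 0 0 = (u : F) := by
          rw [hcj, h8_entry00]
          linear_combination (u : F) * hl + (l * e * b - l * t * v + u * l * t) * hc
        have h11 : ((w⁻¹ * ι ((u, v), b) * w : GLF) : MF) 1 1 = (v : F) := by
          rw [hcj, h8_entry11]
          linear_combination (v : F) * hl + (v * l * t - l * u * t - l * b * e) * hc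
        rw [hθ, hθ, if_pos (hιB _), if_pos hmem, hι, h00, h11, h8_entry00, h8_entry11, map_mul,
          hconj, hconj, MulChar.mul_apply, MulChar.mul_apply]
        dsimp only
        ring
      simp only [h1]
      rw [hsum3, hSunit, hSunit]
    · rw [if_neg hw]
      have hc : c ≠ 0 := by
        intro hc
        apply hw
        rw [hB, hwm]
        exact hc
      obtain ⟨k, hk⟩ : ∃ k : F, k * c = 1 := ⟨c⁻¹, inv_mul_cancel₀ hc⟩
      have hl0 : l ≠ 0 := by
        rintro rfl
        rw [zero_mul] at hl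
        exact zero_ne_one hl
      have h1 : ∀ (u v : Fˣ) (b : F),
          h8extG B α β (ι ((u, v), b)) * conj (h8extG B α' β' (w⁻¹ * ι ((u, v), b) * w))
          = if b = s * ((v : F) - (u : F)) * k
            then (α * β'⁻¹) (u : F) * (β * α'⁻¹) (v : F) else 0 := by
        intro u v b
        have h10 : ((w⁻¹ * ι ((u, v), b) * w : GLF) : MF) 1 0
            = l * c * (s * ((v : F) - u) - b * c) := by
          rw [hcj, h8_entry10]
        rw [hθ, hθ, if_pos (hιB _), hι]
        by_cases hb : b = s * ((v : F) - (u : F)) * k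
        · have hmem : w⁻¹ * ι ((u, v), b) * w ∈ B := by
            rw [hB, h10, hb]
            linear_combination (-(l * c * s * ((v : F) - (u : F)))) * hk
          have h00 : ((w⁻¹ * ι ((u, v), b) * w : GLF) : MF) 0 0 = (v : F) := by
            rw [hcj, h8_entry00, hb]
            linear_combination (l * e * s * ((v : F) - u)) * hk + (v : F) * hl
          have h11 : ((w⁻¹ * ι ((u, v), b) * w : GLF) : MF) 1 1 = (u : F) := by
            rw [hcj, h8_entry11, hb]
            linear_combination (-(l * e * s * ((v : F) - u))) * hk + (u : F) * hl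
          rw [if_pos hmem, if_pos hb, h00, h11, h8_entry00, h8_entry11, map_mul, hconj, hconj,
            MulChar.mul_apply, MulChar.mul_apply]
          dsimp only
          ring
        · have hmem : w⁻¹ * ι ((u, v), b) * w ∉ B := by
            rw [hB, h10]
            intro h0
            apply hb
            have h6 : s * ((v : F) - u) - b * c = 0 := by
              rcases mul_eq_zero.mp h0 with h | h
              · rcases mul_eq_zero.mp h with h | h
                · exact absurd h hl0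
                · exact absurd h hc
              · exact h
            linear_combination (-b) * hk - k * h6
          rw [if_neg hmem, if_neg hb, map_zero, mul_zero]
      simp only [h1]
      simp only [Finset.sum_ite_eq', Finset.mem_univ, if_true]
      rw [← Finset.sum_mul_sum, hSunit, hSunit]
  rw [h8_mackey_formal]
  show ((Nat.card B : ℂ)⁻¹ * (Nat.card B : ℂ)⁻¹) * ∑ w : GLF, ∑ h : GLF,
      h8extG B α β h * conj (h8extG B α' β' (w⁻¹ * h * w)) = _
  rw [Finset.sum_congr rfl (fun w _ => hT w)]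
  have hcardB : Nat.card B = Nat.card ((Fˣ × Fˣ) × F) := by
    symm
    refine Nat.card_congr (Equiv.ofBijective (fun p => (⟨ι p, hιB p⟩ : B)) ⟨?_, ?_⟩)
    · intro p p' h
      exact hιinj (congrArg Subtype.val h)
    · rintro ⟨h, hh⟩
      obtain ⟨p, hp⟩ := hιsurj h hh
      exact ⟨p, Subtype.ext hp⟩
  have hq2 : 1 < Fintype.card F := Fintype.one_lt_card
  have hcardB' : (Nat.card B : ℂ)
      = (((Fintype.card F : ℂ) - 1) * ((Fintype.card F : ℂ) - 1)) * (Fintype.card F : ℂ) := by
    rw [hcardB, Nat.card_prod, Nat.card_prod, Nat.card_units, Nat.card_eq_fintype_card,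
      Nat.cast_mul, Nat.cast_mul, Nat.cast_sub Fintype.card_pos, Nat.cast_one]
  have hcardG : (Nat.card GLF : ℂ)
      = ((Fintype.card F : ℂ) ^ 2 - 1) * ((Fintype.card F : ℂ) ^ 2 - (Fintype.card F : ℂ)) := by
    rw [h8_card_GL2, Nat.cast_mul, Nat.cast_sub (Nat.one_le_pow _ _ Fintype.card_pos),
      Nat.cast_sub (Nat.le_self_pow (by norm_num) _), Nat.cast_pow, Nat.cast_one]
  have hsplit : ∀ X Y : ℂ, ∑ w : GLF, (if w ∈ B then X else Y)
      = (Nat.card GLF : ℂ) * Y + (Nat.card B : ℂ) * (X - Y) := by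
    intro X Y
    have h1 : ∀ w : GLF, (if w ∈ B then X else Y) = Y + (if w ∈ B then (X - Y) else 0) := by
      intro w
      by_cases hw : w ∈ B
      · rw [if_pos hw, if_pos hw]; ring
      · rw [if_neg hw, if_neg hw]; ring
    rw [Finset.sum_congr rfl (fun w _ => h1 w), Finset.sum_add_distrib, Finset.sum_const,
      Finset.card_univ, nsmul_eq_mul, ← Nat.card_eq_fintype_card]
    congr 1
    have hs2 : ∑ w : GLF, (if w ∈ B then (X - Y) else 0)
        = ∑ p : (Fˣ × Fˣ) × F, (if ι p ∈ B then (X - Y) else 0) :=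
      hsumB (fun w => if w ∈ B then (X - Y) else 0) (fun h hh => if_neg hh)
    rw [hs2, Finset.sum_congr rfl (fun p _ => if_pos (hιB p)), Finset.sum_const,
      Finset.card_univ, nsmul_eq_mul, ← Nat.card_eq_fintype_card, ← hcardB]
  have hSS : ∀ χ₁ χ₂ : MulChar F ℂ, S χ₁ * S χ₂
      = if χ₁ = 1 ∧ χ₂ = 1 then ((Fintype.card F : ℂ) - 1) * ((Fintype.card F : ℂ) - 1)
        else 0 := by
    intro χ₁ χ₂
    rw [hS, hS]
    by_cases h1 : χ₁ = 1
    · by_cases h3 : χ₂ = 1
      · rw [if_pos h1, if_pos h3, if_pos ⟨h1, h3⟩]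
      · rw [if_neg h3, if_neg (fun h : χ₁ = 1 ∧ χ₂ = 1 => h3 h.2), mul_zero]
    · rw [if_neg h1, if_neg (fun h : χ₁ = 1 ∧ χ₂ = 1 => h1 h.1), zero_mul]
  rw [hsplit, hcardB', hcardG, hSS, hSS]
  have hQ0 : (Fintype.card F : ℂ) ≠ 0 := by
    have : Fintype.card F ≠ 0 := by omega
    exact_mod_cast this
  have hQ1 : (Fintype.card F : ℂ) - 1 ≠ 0 := by
    intro h
    have h' : (Fintype.card F : ℂ) = ((1 : ℕ) : ℂ) := by
      rw [Nat.cast_one]; linear_combination h
    have := Nat.cast_injective h'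
    omega
  have e1 : (α * α'⁻¹ = 1 ∧ β * β'⁻¹ = 1) ↔ (α = α' ∧ β = β') :=
    and_congr mul_inv_eq_one mul_inv_eq_one
  have e2 : (α * β'⁻¹ = 1 ∧ β * α'⁻¹ = 1) ↔ (α = β' ∧ β = α') :=
    and_congr mul_inv_eq_one mul_inv_eq_one
  by_cases h1 : α = α' ∧ β = β'
  · by_cases h3 : α = β' ∧ β = α'
    · rw [if_pos h1, if_pos h3, if_pos (e1.mpr h1), if_pos (e2.mpr h3)]
      field_simp
      ring
    · rw [if_pos h1, if_neg h3, if_pos (e1.mpr h1), if_neg (fun h => h3 (e2.mp h))]
      field_simp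
      ring
  · by_cases h3 : α = β' ∧ β = α'
    · rw [if_neg h1, if_pos h3, if_neg (fun h => h1 (e1.mp h)), if_pos (e2.mpr h3)]
      field_simp
      ring
    · rw [if_neg h1, if_neg h3, if_neg (fun h => h1 (e1.mp h)),
        if_neg (fun h => h3 (e2.mp h))]
      simp

end

end Cfsg.Agent.Lib.Helper8
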