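import Mathlib
import Cfsg.Prelude.Def_Characters
import Cfsg.Prelude.Def_ParabolicCharacters
import Cfsg.Agent.Lib.Helper8.GL2Mackey
import Cfsg.Agent.S0148
import Cfsg.Agent.Lib.Lead.CharRing
import Cfsg.Agent.Lib.Lead.CharOrtho
import Cfsg.Agent.Lib.Lead.CharCodeg
import Cfsg.Agent.Lib.Lead.CharComplete
import Cfsg.Agent.Lib.Helper2.CharAux
import Cfsg.Agent.Lib.Helper2.Coh1

set_option autoImplicit false
set_option linter.style.haveILetI false
set_option linter.unusedSectionVars false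
set_option linter.unusedVariables false

universe u

namespace Cfsg.Agent.Lib.Helper8

open Matrix
open scoped ComplexConjugate

section
variable {F : Type u} [Field F]

local notation "GLF" => Matrix.GeneralLinearGroup (Fin 2) F
local notation "MF" => Matrix (Fin 2) (Fin 2) F

theorem h8_borelGL_char_isCharacter [Fintype F] [DecidableEq F] (α β : MulChar F ℂ)
    (B : Subgroup GLF) (hB : ∀ g : GLF, g ∈ B ↔ (g : MF) 1 0 = 0) :
    Cfsg.IsCharacter B (fun b : B => α (((b : GLF) : MF) 0 0) * β (((b : GLF) : MF) 1 1)) := by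
  have hne : ∀ b : B, ((b : GLF) : MF) 0 0 ≠ 0 ∧ ((b : GLF) : MF) 1 1 ≠ 0 := by
    intro b
    have h1 : IsUnit ((b : GLF) : MF) := (b : GLF).isUnit
    have h2 := ((Matrix.isUnit_iff_isUnit_det _).mp h1).ne_zero
    rw [Matrix.det_fin_two, (hB _).mp b.2, mul_zero, sub_zero] at h2
    exact ⟨left_ne_zero_of_mul h2, right_ne_zero_of_mul h2⟩
  let d₀ : B →* Fˣ :=
    { toFun := fun b => Units.mk0 (((b : GLF) : MF) 0 0) (hne b).1
      map_one' := by
        apply Units.ext
        show (((1 : B) : GLF) : MF) 0 0 = 1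
        simp
      map_mul' := by
        intro b b'
        apply Units.ext
        show (((b * b' : B) : GLF) : MF) 0 0 = ((b : GLF) : MF) 0 0 * ((b' : GLF) : MF) 0 0
        rw [Subgroup.coe_mul, Units.val_mul, Matrix.mul_apply, Fin.sum_univ_two,
          (hB _).mp b'.2, mul_zero, add_zero] }
  let d₁ : B →* Fˣ :=
    { toFun := fun b => Units.mk0 (((b : GLF) : MF) 1 1) (hne b).2
      map_one' := by
        apply Units.ext
        show (((1 : B) : GLF) : MF) 1 1 = 1
        simp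
      map_mul' := by
        intro b b'
        apply Units.ext
        show (((b * b' : B) : GLF) : MF) 1 1 = ((b : GLF) : MF) 1 1 * ((b' : GLF) : MF) 1 1
        rw [Subgroup.coe_mul, Units.val_mul, Matrix.mul_apply, Fin.sum_univ_two,
          (hB _).mp b.2, zero_mul, zero_add] }
  have heq : (fun b : B => α (((b : GLF) : MF) 0 0) * β (((b : GLF) : MF) 1 1))
      = fun g : B => ((((MonoidHom.comp α.toUnitHom d₀) * (MonoidHom.comp β.toUnitHom d₁)) g
          : ℂˣ) : ℂ) := by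
    funext b
    rw [MonoidHom.mul_apply, Units.val_mul]
    exact congrArg₂ (· * ·) (MulChar.coe_toUnitHom α (d₀ b)).symm
      (MulChar.coe_toUnitHom β (d₁ b)).symm
  rw [heq]
  exact Cfsg.Agent.Lib.Lead.isCharacter_of_isIrrCharacter
    (Cfsg.Agent.Lib.Lead.isIrrCharacter_of_hom _)

theorem h8_s2304_aux [Fintype F] [DecidableEq F] (α β : MulChar F ℂ) (hαβ : α ≠ β)
    (B : Subgroup GLF) (hB : ∀ g : GLF, g ∈ B ↔ (g : MF) 1 0 = 0) :
    Cfsg.IsIrrCharacter GLF
      (Cfsg.indFun B (fun b : B => α (((b : GLF) : MF) 0 0) * β (((b : GLF) : MF) 1 1))) := by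
  classical
  have hchar := Cfsg.Agent.S0148.result B _ (h8_borelGL_char_isCharacter α β B hB)
  apply Cfsg.Agent.Lib.Lead.isIrrCharacter_of_norm_one hchar
  rw [h8_gl2_mackey α β α β B hB, if_pos (⟨rfl, rfl⟩ : α = α ∧ β = β),
    if_neg (fun h : α = β ∧ β = α => hαβ h.1)]
  norm_num

theorem h8_s2305_aux [Fintype F] [DecidableEq F] (α β α' β' : MulChar F ℂ)
    (B : Subgroup GLF) (hB : ∀ g : GLF, g ∈ B ↔ (g : MF) 1 0 = 0) :
    Cfsg.indFun B (fun b : B => α (((b : GLF) : MF) 0 0) * β (((b : GLF) : MF) 1 1))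
      = Cfsg.indFun B (fun b : B => α' (((b : GLF) : MF) 0 0) * β' (((b : GLF) : MF) 1 1))
      ↔ (α = α' ∧ β = β') ∨ (α = β' ∧ β = α') := by
  classical
  have hself : ∀ γ δ : MulChar F ℂ, Cfsg.classInner
      (Cfsg.indFun B (fun b : B => γ (((b : GLF) : MF) 0 0) * δ (((b : GLF) : MF) 1 1)))
      (Cfsg.indFun B (fun b : B => γ (((b : GLF) : MF) 0 0) * δ (((b : GLF) : MF) 1 1)))
      = 1 + (if γ = δ ∧ δ = γ then 1 else 0) := by
    intro γ δ
    rw [h8_gl2_mackey γ δ γ δ B hB, if_pos (⟨rfl, rfl⟩ : γ = γ ∧ δ = δ)]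
  have hswap : ∀ γ δ : MulChar F ℂ,
      Cfsg.indFun B (fun b : B => γ (((b : GLF) : MF) 0 0) * δ (((b : GLF) : MF) 1 1))
      = Cfsg.indFun B (fun b : B => δ (((b : GLF) : MF) 0 0) * γ (((b : GLF) : MF) 1 1)) := by
    intro γ δ
    have h11 := hself γ δ
    have h22 := hself δ γ
    have h12 := h8_gl2_mackey γ δ δ γ B hB
    have h21 := h8_gl2_mackey δ γ γ δ B hB
    rw [if_pos (⟨rfl, rfl⟩ : γ = γ ∧ δ = δ)] at h12
    rw [if_pos (⟨rfl, rfl⟩ : δ = δ ∧ γ = γ)] at h21
    have hzero : Cfsg.classInner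
        (Cfsg.indFun B (fun b : B => γ (((b : GLF) : MF) 0 0) * δ (((b : GLF) : MF) 1 1))
          - Cfsg.indFun B (fun b : B => δ (((b : GLF) : MF) 0 0) * γ (((b : GLF) : MF) 1 1)))
        (Cfsg.indFun B (fun b : B => γ (((b : GLF) : MF) 0 0) * δ (((b : GLF) : MF) 1 1))
          - Cfsg.indFun B (fun b : B => δ (((b : GLF) : MF) 0 0) * γ (((b : GLF) : MF) 1 1)))
        = 0 := by
      rw [Cfsg.Agent.Lib.Lead.classInner_sub_left, Cfsg.Agent.Lib.Helper2.classInner_sub_right,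
        Cfsg.Agent.Lib.Helper2.classInner_sub_right, h11, h12, h21, h22]
      ring
    have hf := Cfsg.Agent.Lib.Helper2.Coh.eq_zero_of_classInner_self
      (f := Cfsg.indFun B (fun b : B => γ (((b : GLF) : MF) 0 0) * δ (((b : GLF) : MF) 1 1))
          - Cfsg.indFun B (fun b : B => δ (((b : GLF) : MF) 0 0) * γ (((b : GLF) : MF) 1 1)))
      (by rw [hzero]; simp)
    exact sub_eq_zero.mp hf
  constructor
  · intro heq
    have h1 := h8_gl2_mackey α β α' β' B hB
    rw [← heq, hself] at h1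
    by_contra hcon
    have hcon' := not_or.mp hcon
    rw [if_neg hcon'.1, if_neg hcon'.2] at h1
    by_cases h5 : α = β ∧ β = α
    · rw [if_pos h5] at h1; norm_num at h1
    · rw [if_neg h5] at h1; norm_num at h1
  · rintro (⟨h1, h2⟩ | ⟨h1, h2⟩)
    · rw [h1, h2]
    · rw [h1, h2]
      exact hswap β' α'

theorem h8_s2304 [Fintype F] [DecidableEq F] (α β : MulChar F ℂ) (hαβ : α ≠ β) :
    Cfsg.IsIrrCharacter GLF (Cfsg.indFun (Cfsg.upperTriangularGL 2 F)
      (fun b => α (((b : GLF) : MF) 0 0) * β (((b : GLF) : MF) 1 1))) :=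
  h8_s2304_aux α β hαβ _ h8_mem_borelGL_iff

theorem h8_s2305 [Fintype F] [DecidableEq F] (α β α' β' : MulChar F ℂ) :
    Cfsg.indFun (Cfsg.upperTriangularGL 2 F)
        (fun b => α (((b : GLF) : MF) 0 0) * β (((b : GLF) : MF) 1 1))
      = Cfsg.indFun (Cfsg.upperTriangularGL 2 F)
        (fun b => α' (((b : GLF) : MF) 0 0) * β' (((b : GLF) : MF) 1 1))
      ↔ (α = α' ∧ β = β') ∨ (α = β' ∧ β = α') :=
  h8_s2305_aux α β α' β' _ h8_mem_borelGL_iff

end

end Cfsg.Agent.Lib.Helper8
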