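import Mathlib
import Cfsg.Prelude.Def_Characters
import Cfsg.Prelude.Def_ParabolicCharacters
import Cfsg.Agent.Lib.Helper8.SL2Mackey

set_option autoImplicit false
set_option linter.style.haveILetI false
set_option linter.unusedSectionVars false
set_option linter.unusedVariables false

universe u

namespace Cfsg.Agent.Lib.Helper8

open Matrix
open scoped ComplexConjugate

section
variable {F : Type u} [Field F]

local notation "SLF" => Matrix.SpecialLinearGroup (Fin 2) F
local notation "MF" => Matrix (Fin 2) (Fin 2) F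

theorem h8_conj_entry10g (x g : SLF) (s t c e a b γ d : F) (hx : (x : MF) = !![s, t; c, e])
    (hg : (g : MF) = !![a, b; γ, d]) :
    ((x⁻¹ * g * x : SLF) : MF) 1 0 = γ * s * s + (d - a) * c * s - b * c * c := by
  rw [Matrix.SpecialLinearGroup.coe_mul, Matrix.SpecialLinearGroup.coe_mul,
    h8_sl2_coe_inv x s t c e hx, hx, hg, Matrix.mul_fin_two, Matrix.mul_fin_two, h8_entry10]
  ring

theorem h8_conj_entry00g (x g : SLF) (s t c e a b γ d : F) (hx : (x : MF) = !![s, t; c, e])
    (hg : (g : MF) = !![a, b; γ, d]) :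
    ((x⁻¹ * g * x : SLF) : MF) 0 0 = e * a * s + e * b * c - t * γ * s - t * d * c := by
  rw [Matrix.SpecialLinearGroup.coe_mul, Matrix.SpecialLinearGroup.coe_mul,
    h8_sl2_coe_inv x s t c e hx, hx, hg, Matrix.mul_fin_two, Matrix.mul_fin_two, h8_entry00]
  ring

theorem h8ext_apply [DecidableEq F] (B : Subgroup SLF)
    (hB : ∀ g : SLF, g ∈ B ↔ (g : MF) 1 0 = 0) (γ : MulChar F ℂ) (h : SLF) :
    h8ext B γ h = if (h : MF) 1 0 = 0 then γ ((h : MF) 0 0) else 0 := by
  classical
  have h1 : h8ext B γ h = if h ∈ B then γ ((h : MF) 0 0) else 0 :=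
    h8_extendByZero_apply B (fun g : SLF => γ ((g : MF) 0 0)) h
  rw [h1]
  exact if_congr (hB h) rfl rfl

theorem h8_borel_param : ∃ ι : Fˣ × F → SLF, Function.Injective ι ∧
    (∀ p, ((ι p : SLF) : MF) 1 0 = 0) ∧ (∀ h : SLF, (h : MF) 1 0 = 0 → ∃ p, ι p = h) := by
  obtain ⟨ι, hι⟩ : ∃ ι : Fˣ × F → SLF, ∀ p : Fˣ × F,
      ((ι p : SLF) : MF) = !![(p.1 : F), p.2; 0, ((p.1⁻¹ : Fˣ) : F)] :=
    ⟨fun p => ⟨!![(p.1 : F), p.2; 0, ((p.1⁻¹ : Fˣ) : F)], by
      rw [Matrix.det_fin_two_of]; simp⟩, fun p => rfl⟩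
  refine ⟨ι, ?_, ?_, ?_⟩
  · intro p p' h
    have h1 : ((ι p : SLF) : MF) = ((ι p' : SLF) : MF) := by rw [h]
    rw [hι, hι] at h1
    obtain ⟨e00, e01, -, -⟩ := h8_fin_two_inj h1
    exact Prod.ext (Units.ext e00) e01
  · intro p
    rw [hι]
    rfl
  · intro h hh
    obtain ⟨a, b, c, d, hm⟩ : ∃ a b c d : F, (h : MF) = !![a, b; c, d] :=
      ⟨_, _, _, _, Matrix.eta_fin_two _⟩
    have hc : c = 0 := by rw [hm] at hh; exact hh
    subst hc
    have had : a * d = 1 := by
      have h0 := h.det_coe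
      rw [hm, Matrix.det_fin_two_of] at h0
      linear_combination h0
    refine ⟨(⟨a, d, had, by rw [mul_comm]; exact had⟩, b), ?_⟩
    apply Subtype.ext
    rw [hι, hm]
    rfl

theorem h8_sum_borel [Fintype F] [DecidableEq F] (c : ℂ) :
    ∑ w : SLF, (if (w : MF) 1 0 = 0 then c else 0)
      = (((Fintype.card F : ℂ) - 1) * (Fintype.card F : ℂ)) * c := by
  obtain ⟨ι, hinj, hι0, hsurj⟩ := h8_borel_param (F := F)
  have hs : ∑ w : SLF, (if (w : MF) 1 0 = 0 then c else 0)
      = ∑ p : Fˣ × F, (if ((ι p : SLF) : MF) 1 0 = 0 then c else 0) :=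
    h8_sum_of_support_range ι hinj (fun w : SLF => if (w : MF) 1 0 = 0 then c else 0)
      (fun y hy => if_neg (fun h0 => by
        obtain ⟨p, hp⟩ := hsurj y h0
        exact hy p hp))
  rw [hs, Finset.sum_congr rfl (fun p _ => if_pos (hι0 p)), Finset.sum_const,
    Finset.card_univ, nsmul_eq_mul, ← Nat.card_eq_fintype_card, Nat.card_prod, Nat.card_units,
    Nat.card_eq_fintype_card, Nat.cast_mul, Nat.cast_sub Fintype.card_pos, Nat.cast_one]

theorem h8_borel_card [Fintype F] [DecidableEq F] (B : Subgroup SLF)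
    (hB : ∀ g : SLF, g ∈ B ↔ (g : MF) 1 0 = 0) :
    (Nat.card B : ℂ) = ((Fintype.card F : ℂ) - 1) * (Fintype.card F : ℂ) := by
  obtain ⟨ι, hinj, hι0, hsurj⟩ := h8_borel_param (F := F)
  have hcardB : Nat.card B = Nat.card (Fˣ × F) := by
    symm
    refine Nat.card_congr (Equiv.ofBijective
      (fun p => (⟨ι p, (hB _).mpr (hι0 p)⟩ : B)) ⟨?_, ?_⟩)
    · intro p p' h
      exact hinj (congrArg Subtype.val h)
    · rintro ⟨h, hh⟩
      obtain ⟨p, hp⟩ := hsurj h ((hB h).mp hh)
      exact ⟨p, Subtype.ext hp⟩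
  rw [hcardB, Nat.card_prod, Nat.card_units, Nat.card_eq_fintype_card, Nat.cast_mul,
    Nat.cast_sub Fintype.card_pos, Nat.cast_one]

theorem h8_sum_zero00 [Fintype F] [DecidableEq F] (c : ℂ) :
    ∑ x : SLF, (if (x : MF) 0 0 = 0 then c else 0)
      = (((Fintype.card F : ℂ) - 1) * (Fintype.card F : ℂ)) * c := by
  obtain ⟨w₀, hw₀⟩ : ∃ w₀ : SLF, (w₀ : MF) = !![0, 1; -1, 0] :=
    ⟨⟨!![0, 1; -1, 0], by rw [Matrix.det_fin_two_of]; ring⟩, rfl⟩
  rw [← h8_sum_borel c]
  refine Fintype.sum_equiv (Equiv.mulLeft w₀) _ _ (fun x => ?_)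
  show (if (x : MF) 0 0 = 0 then c else 0) = (if ((w₀ * x : SLF) : MF) 1 0 = 0 then c else 0)
  obtain ⟨s, t, c', e, hx⟩ : ∃ s t c' e : F, (x : MF) = !![s, t; c', e] :=
    ⟨_, _, _, _, Matrix.eta_fin_two _⟩
  have h10 : ((w₀ * x : SLF) : MF) 1 0 = -s := by
    rw [Matrix.SpecialLinearGroup.coe_mul, hw₀, hx, Matrix.mul_fin_two, h8_entry10]; ring
  rw [h10, hx, h8_entry00]
  exact if_congr neg_eq_zero.symm rfl rfl

theorem h8_s2433_aux [Fintype F] [DecidableEq F] (α : MulChar F ℂ) (B : Subgroup SLF)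
    (hB : ∀ g : SLF, g ∈ B ↔ (g : MF) 1 0 = 0) (g : SLF) :
    ((g : MF) 0 1 = 0 → (g : MF) 1 0 = 0 → (g : MF) 0 0 ^ 2 ≠ 1 →
      Cfsg.indFun B (fun b : B => α (((b : SLF) : MF) 0 0)) g
        = α ((g : MF) 0 0) + α ((g : MF) 1 1)) ∧
    ((∀ (c : F) (v : Fin 2 → F), v ≠ 0 → (g : MF).mulVec v ≠ c • v) →
      Cfsg.indFun B (fun b : B => α (((b : SLF) : MF) 0 0)) g = 0) ∧
    ((g : MF) 1 0 = 0 → (g : MF) 0 0 = (g : MF) 1 1 → (g : MF) 0 1 ≠ 0 →
      Cfsg.indFun B (fun b : B => α (((b : SLF) : MF) 0 0)) g = α ((g : MF) 0 0)) ∧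
    ((g : MF) 0 1 = 0 → (g : MF) 1 0 = 0 → (g : MF) 0 0 = (g : MF) 1 1 →
      Cfsg.indFun B (fun b : B => α (((b : SLF) : MF) 0 0)) g
        = ((Fintype.card F : ℂ) + 1) * α ((g : MF) 0 0)) := by
  classical
  have hq2 : 1 < Fintype.card F := Fintype.one_lt_card
  have hQ0 : (Fintype.card F : ℂ) ≠ 0 := by
    have : Fintype.card F ≠ 0 := by omega
    exact_mod_cast this
  have hQ1 : (Fintype.card F : ℂ) - 1 ≠ 0 := by
    intro h
    have h' : (Fintype.card F : ℂ) = ((1 : ℕ) : ℂ) := by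
      rw [Nat.cast_one]; linear_combination h
    have := Nat.cast_injective h'
    omega
  have hQQ : ((Fintype.card F : ℂ) - 1) * (Fintype.card F : ℂ) ≠ 0 := mul_ne_zero hQ1 hQ0
  have hcardG : (Nat.card SLF : ℂ)
      = (Fintype.card F : ℂ) * ((Fintype.card F : ℂ) ^ 2 - 1) := by
    rw [h8_card_SL2, Nat.cast_mul, Nat.cast_sub (Nat.one_le_pow _ _ Fintype.card_pos),
      Nat.cast_pow, Nat.cast_one]
  have hform : Cfsg.indFun B (fun b : B => α (((b : SLF) : MF) 0 0)) g
      = (((Fintype.card F : ℂ) - 1) * (Fintype.card F : ℂ))⁻¹ * ∑ x : SLF,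
        (if ((x⁻¹ * g * x : SLF) : MF) 1 0 = 0
          then α (((x⁻¹ * g * x : SLF) : MF) 0 0) else 0) := by
    show (Nat.card B : ℂ)⁻¹ * ∑ x : SLF, h8ext B α (x⁻¹ * g * x) = _
    rw [h8_borel_card B hB]
    congr 1
    exact Finset.sum_congr rfl (fun x _ => h8ext_apply B hB α _)
  rw [hform]
  obtain ⟨a, b, γ, d, hgm⟩ : ∃ a b γ d : F, (g : MF) = !![a, b; γ, d] :=
    ⟨_, _, _, _, Matrix.eta_fin_two _⟩
  have hdetg : a * d - b * γ = 1 := by
    have h0 := g.det_coe
    rw [hgm, Matrix.det_fin_two_of] at h0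
    exact h0
  have hE : ∀ x : SLF, ∃ s t c e : F, s * e - t * c = 1 ∧ (x : MF) 1 0 = c ∧ (x : MF) 0 0 = s ∧
      ((x⁻¹ * g * x : SLF) : MF) 1 0 = γ * s * s + (d - a) * c * s - b * c * c ∧
      ((x⁻¹ * g * x : SLF) : MF) 0 0 = e * a * s + e * b * c - t * γ * s - t * d * c := by
    intro x
    obtain ⟨s, t, c, e, hx⟩ : ∃ s t c e : F, (x : MF) = !![s, t; c, e] :=
      ⟨_, _, _, _, Matrix.eta_fin_two _⟩
    refine ⟨s, t, c, e, ?_, ?_, ?_, h8_conj_entry10g x g s t c e a b γ d hx hgm,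
      h8_conj_entry00g x g s t c e a b γ d hx hgm⟩
    · have h0 := x.det_coe
      rw [hx, Matrix.det_fin_two_of] at h0
      exact h0
    · rw [hx]; rfl
    · rw [hx]; rfl
  rw [hgm]
  simp only [h8_entry00, h8_entry01, h8_entry10, h8_entry11]
  refine ⟨?_, ?_, ?_, ?_⟩
  · intro hb hγ ha2
    subst hb
    subst hγ
    have had : a * d = 1 := by linear_combination hdetg
    have hda : d - a ≠ 0 := by
      intro h
      apply ha2
      rw [pow_two]
      linear_combination had - a * h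
    have hterm : ∀ x : SLF, (if ((x⁻¹ * g * x : SLF) : MF) 1 0 = 0
          then α (((x⁻¹ * g * x : SLF) : MF) 0 0) else 0)
        = (if (x : MF) 1 0 = 0 then α a else 0) + (if (x : MF) 0 0 = 0 then α d else 0) := by
      intro x
      obtain ⟨s, t, c, e, hdet, hx10, hx00, h10, h00⟩ := hE x
      rw [h10, h00, hx10, hx00]
      by_cases hc : c = 0
      · have hs : s ≠ 0 := by
          intro hs0
          rw [hs0, hc] at hdet
          simp at hdet
        have hc10 : (0 : F) * s * s + (d - a) * c * s - 0 * c * c = 0 := by rw [hc]; ring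
        rw [if_pos hc, if_neg hs, add_zero, if_pos hc10]
        congr 1
        linear_combination a * hdet + (a * t - t * d) * hc
      · by_cases hs : s = 0
        · have hc10 : (0 : F) * s * s + (d - a) * c * s - 0 * c * c = 0 := by rw [hs]; ring
          rw [if_neg hc, if_pos hs, zero_add, if_pos hc10]
          congr 1
          linear_combination d * hdet + (e * a - d * e) * hs
        · have hne : ¬ ((0 : F) * s * s + (d - a) * c * s - 0 * c * c = 0) := by
            intro h0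
            have h5 : (d - a) * c * s = 0 := by linear_combination h0
            rcases mul_eq_zero.mp h5 with h | h
            · rcases mul_eq_zero.mp h with h | h
              · exact hda h
              · exact hc h
            · exact hs h
          rw [if_neg hc, if_neg hs, add_zero, if_neg hne]
    rw [Finset.sum_congr rfl (fun x _ => hterm x), Finset.sum_add_distrib, h8_sum_borel,
      h8_sum_zero00, ← mul_add, inv_mul_cancel_left₀ hQQ]
  · intro hnov
    have hterm : ∀ x : SLF, (if ((x⁻¹ * g * x : SLF) : MF) 1 0 = 0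
          then α (((x⁻¹ * g * x : SLF) : MF) 0 0) else 0) = 0 := by
      intro x
      obtain ⟨s, t, c, e, hdet, hx10, hx00, h10, h00⟩ := hE x
      rw [h10]
      apply if_neg
      intro h0
      apply hnov (e * a * s + e * b * c - t * γ * s - t * d * c) ![s, c]
      · intro hv
        have hs : s = 0 := by have := congrFun hv 0; simpa using this
        have hc : c = 0 := by have := congrFun hv 1; simpa using this
        rw [hs, hc] at hdet
        simp at hdet
      · funext i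
        fin_cases i
        · simp [Matrix.mulVec, dotProduct, Fin.sum_univ_two]
          linear_combination (-(a * s + b * c)) * hdet + t * h0
        · simp [Matrix.mulVec, dotProduct, Fin.sum_univ_two]
          linear_combination (-(γ * s + d * c)) * hdet + e * h0
    rw [Finset.sum_eq_zero (fun x _ => hterm x), mul_zero]
  · intro hγ had hb
    subst hγ
    subst had
    have hterm : ∀ x : SLF, (if ((x⁻¹ * g * x : SLF) : MF) 1 0 = 0
          then α (((x⁻¹ * g * x : SLF) : MF) 0 0) else 0)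
        = (if (x : MF) 1 0 = 0 then α a else 0) := by
      intro x
      obtain ⟨s, t, c, e, hdet, hx10, hx00, h10, h00⟩ := hE x
      rw [h10, h00, hx10]
      by_cases hc : c = 0
      · have hc10 : (0 : F) * s * s + (a - a) * c * s - b * c * c = 0 := by rw [hc]; ring
        rw [if_pos hc, if_pos hc10]
        congr 1
        linear_combination a * hdet + (e * b) * hc
      · have hne : ¬ ((0 : F) * s * s + (a - a) * c * s - b * c * c = 0) := by
          intro h0
          have h5 : b * (c * c) = 0 := by linear_combination -h0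
          rcases mul_eq_zero.mp h5 with h | h
          · exact hb h
          · exact hc (mul_self_eq_zero.mp h)
        rw [if_neg hc, if_neg hne]
    rw [Finset.sum_congr rfl (fun x _ => hterm x), h8_sum_borel, inv_mul_cancel_left₀ hQQ]
  · intro hb hγ had
    subst hb
    subst hγ
    subst had
    have hterm : ∀ x : SLF, (if ((x⁻¹ * g * x : SLF) : MF) 1 0 = 0
          then α (((x⁻¹ * g * x : SLF) : MF) 0 0) else 0) = α a := by
      intro x
      obtain ⟨s, t, c, e, hdet, hx10, hx00, h10, h00⟩ := hE x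
      rw [h10, h00]
      have hc10 : (0 : F) * s * s + (a - a) * c * s - 0 * c * c = 0 := by ring
      rw [if_pos hc10]
      congr 1
      linear_combination a * hdet
    rw [Finset.sum_congr rfl (fun x _ => hterm x), Finset.sum_const, Finset.card_univ,
      nsmul_eq_mul, ← Nat.card_eq_fintype_card (α := SLF), hcardG]
    field_simp
    ring

theorem h8_s2433 [Fintype F] [DecidableEq F] (hodd : Odd (Fintype.card F)) (α : MulChar F ℂ)
    (g : SLF) :
    ((g : MF) 0 1 = 0 → (g : MF) 1 0 = 0 → (g : MF) 0 0 ^ 2 ≠ 1 →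
      (Cfsg.indFun ((Cfsg.upperTriangularGL 2 F).comap Matrix.SpecialLinearGroup.toGL)
        (fun b => α (((b : SLF) : MF) 0 0))) g = α ((g : MF) 0 0) + α ((g : MF) 1 1)) ∧
    ((∀ (c : F) (v : Fin 2 → F), v ≠ 0 → (g : MF).mulVec v ≠ c • v) →
      (Cfsg.indFun ((Cfsg.upperTriangularGL 2 F).comap Matrix.SpecialLinearGroup.toGL)
        (fun b => α (((b : SLF) : MF) 0 0))) g = 0) ∧
    ((g : MF) 1 0 = 0 → (g : MF) 0 0 = (g : MF) 1 1 → (g : MF) 0 1 ≠ 0 →
      (Cfsg.indFun ((Cfsg.upperTriangularGL 2 F).comap Matrix.SpecialLinearGroup.toGL)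
        (fun b => α (((b : SLF) : MF) 0 0))) g = α ((g : MF) 0 0)) ∧
    ((g : MF) 0 1 = 0 → (g : MF) 1 0 = 0 → (g : MF) 0 0 = (g : MF) 1 1 →
      (Cfsg.indFun ((Cfsg.upperTriangularGL 2 F).comap Matrix.SpecialLinearGroup.toGL)
        (fun b => α (((b : SLF) : MF) 0 0))) g = ((Fintype.card F : ℂ) + 1) * α ((g : MF) 0 0)) :=
  h8_s2433_aux α _ h8_mem_borel_iff g

end

end Cfsg.Agent.Lib.Helper8
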