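import Mathlib
import Cfsg.Prelude.Def_Characters
import Cfsg.Prelude.Def_ParabolicCharacters
import Cfsg.Agent.Lib.Helper8.SL2Mackey
import Cfsg.Agent.S0148
import Cfsg.Agent.Lib.Lead.CharRing
import Cfsg.Agent.Lib.Lead.CharOrtho
import Cfsg.Agent.Lib.Lead.CharCodeg

set_option autoImplicit false
set_option linter.style.haveILetI false
set_option linter.unusedSectionVars false
set_option linter.unusedVariables false

universe u

namespace Cfsg.Agent.Lib.Helper8

open Matrix
open scoped ComplexConjugate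

section
variable {F : Type u} [Field F]

local notation "SLF" => Matrix.SpecialLinearGroup (Fin 2) F
local notation "MF" => Matrix (Fin 2) (Fin 2) F

theorem h8_borel_char_isCharacter [Fintype F] [DecidableEq F] (α : MulChar F ℂ)
    (B : Subgroup SLF) (hB : ∀ g : SLF, g ∈ B ↔ (g : MF) 1 0 = 0) :
    Cfsg.IsCharacter B (fun b : B => α (((b : SLF) : MF) 0 0)) := by
  have hunit : ∀ b : B, ((b : SLF) : MF) 0 0 * ((b : SLF) : MF) 1 1 = 1 := by
    intro b
    have h0 := (b : SLF).det_coe
    rw [Matrix.det_fin_two, (hB _).mp b.2] at h0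
    linear_combination h0
  let d : B →* Fˣ :=
    { toFun := fun b => ⟨((b : SLF) : MF) 0 0, ((b : SLF) : MF) 1 1, hunit b,
        by rw [mul_comm]; exact hunit b⟩
      map_one' := by
        apply Units.ext
        show (((1 : B) : SLF) : MF) 0 0 = 1
        simp
      map_mul' := by
        intro b b'
        apply Units.ext
        show (((b * b' : B) : SLF) : MF) 0 0 = ((b : SLF) : MF) 0 0 * ((b' : SLF) : MF) 0 0
        rw [Subgroup.coe_mul, Matrix.SpecialLinearGroup.coe_mul, Matrix.mul_apply,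
          Fin.sum_univ_two, (hB _).mp b'.2, mul_zero, add_zero] }
  have heq : (fun b : B => α (((b : SLF) : MF) 0 0))
      = fun g : B => (((MonoidHom.comp α.toUnitHom d) g : ℂˣ) : ℂ) := by
    funext b
    exact (MulChar.coe_toUnitHom α (d b)).symm
  rw [heq]
  exact Cfsg.Agent.Lib.Lead.isCharacter_of_isIrrCharacter
    (Cfsg.Agent.Lib.Lead.isIrrCharacter_of_hom _)

theorem h8_s2306_aux [Fintype F] [DecidableEq F] (α : MulChar F ℂ) (B : Subgroup SLF)
    (hB : ∀ g : SLF, g ∈ B ↔ (g : MF) 1 0 = 0) :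
    Cfsg.IsIrrCharacter SLF (Cfsg.indFun B (fun b : B => α (((b : SLF) : MF) 0 0)))
      ↔ α ^ 2 ≠ 1 := by
  classical
  have hchar : Cfsg.IsCharacter SLF (Cfsg.indFun B (fun b : B => α (((b : SLF) : MF) 0 0))) :=
    Cfsg.Agent.S0148.result B _ (h8_borel_char_isCharacter α B hB)
  have hinner := h8_s2432_aux α α B hB
  rw [if_pos rfl] at hinner
  have hiff : α = α⁻¹ ↔ α ^ 2 = 1 := by
    rw [pow_two]
    constructor
    · intro h
      have h5 : α * α = α * α⁻¹ := congrArg (fun x => α * x) h
      rw [h5, mul_inv_cancel]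
    · intro h
      exact eq_inv_of_mul_eq_one_left h
  constructor
  · intro hirr h2
    have h1 := Cfsg.Agent.Lib.Lead.irr_orthonormal hirr hirr
    rw [if_pos rfl] at h1
    rw [h1, if_pos (hiff.mpr h2)] at hinner
    norm_num at hinner
  · intro h2
    apply Cfsg.Agent.Lib.Lead.isIrrCharacter_of_norm_one hchar
    rw [hinner, if_neg (fun h => h2 (hiff.mp h))]
    norm_num

theorem h8_s2306 [Fintype F] [DecidableEq F] (α : MulChar F ℂ) :
    Cfsg.IsIrrCharacter SLF
      (Cfsg.indFun ((Cfsg.upperTriangularGL 2 F).comap Matrix.SpecialLinearGroup.toGL)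
        (fun b => α (((b : SLF) : MF) 0 0))) ↔ α ^ 2 ≠ 1 :=
  h8_s2306_aux α _ h8_mem_borel_iff

end

end Cfsg.Agent.Lib.Helper8
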