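import Mathlib
import Cfsg.Prelude.Def_Characters
import Cfsg.Prelude.Def_ParabolicCharacters
import Cfsg.Agent.Lib.Helper8.GL2Irr
import Cfsg.Agent.Lib.Helper8.SL2Ind
import Cfsg.Agent.Lib.Helper8.SL2Irr
import Cfsg.Agent.Lib.Lead.CharClifford
import Cfsg.Agent.Lib.Lead.CharKer
import Cfsg.Agent.Lib.Lead.CharApps

set_option autoImplicit false
set_option linter.style.haveILetI false
set_option linter.unusedSectionVars false
set_option linter.unusedVariables false

universe u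

namespace Cfsg.Agent.Lib.Helper8

open Matrix
open scoped ComplexConjugate

theorem h8_norm_two_decomp {G : Type u} [Group G] [Fintype G] {χ : G → ℂ}
    (hχ : Cfsg.IsCharacter G χ) (h2 : Cfsg.classInner χ χ = 2) :
    ∃ χ₁ χ₂ : G → ℂ, Cfsg.IsIrrCharacter G χ₁ ∧ Cfsg.IsIrrCharacter G χ₂ ∧ χ₁ ≠ χ₂ ∧
      χ = χ₁ + χ₂ := by
  classical
  haveI : Finite (Cfsg.IrrCharacter G) := Cfsg.Agent.Lib.Lead.irr_finite
  letI : Fintype (Cfsg.IrrCharacter G) := Fintype.ofFinite _
  have hm : ∀ φ : Cfsg.IrrCharacter G, ∃ n : ℕ, Cfsg.classInner χ φ = (n : ℂ) := fun φ =>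
    Cfsg.Agent.Lib.Lead.classInner_isCharacter_nat hχ
      (Cfsg.Agent.Lib.Lead.isCharacter_of_isIrrCharacter φ.2)
  choose m hm using hm
  have hsum := Cfsg.Agent.Lib.Lead.classInner_self_eq_sum_sq hχ m hm
  rw [h2] at hsum
  have hsum' : ∑ φ : Cfsg.IrrCharacter G, m φ ^ 2 = 2 := by exact_mod_cast hsum.symm
  have hle : ∀ φ, m φ ≤ 1 := by
    intro φ
    by_contra hcon
    have hcon' : 2 ≤ m φ := by omega
    have h3 : m φ ^ 2 ≤ ∑ φ : Cfsg.IrrCharacter G, m φ ^ 2 :=
      Finset.single_le_sum (f := fun φ : Cfsg.IrrCharacter G => m φ ^ 2)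
        (fun _ _ => Nat.zero_le _) (Finset.mem_univ φ)
    have h4 : 4 ≤ m φ ^ 2 := by nlinarith
    omega
  have hsq : ∀ φ, m φ ^ 2 = if m φ = 1 then 1 else 0 := by
    intro φ
    have h5 := hle φ
    by_cases h1 : m φ = 1
    · rw [if_pos h1, h1]; norm_num
    · rw [if_neg h1]
      have h0 : m φ = 0 := by omega
      rw [h0]; norm_num
  have hcard : (Finset.univ.filter (fun φ : Cfsg.IrrCharacter G => m φ = 1)).card = 2 := by
    rw [Finset.card_filter, ← hsum']
    exact Finset.sum_congr rfl (fun φ _ => (hsq φ).symm)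
  obtain ⟨φ₁, φ₂, hne, hS⟩ := Finset.card_eq_two.mp hcard
  refine ⟨φ₁, φ₂, φ₁.2, φ₂.2, fun h => hne (Subtype.ext h), ?_⟩
  have hexp := Cfsg.Agent.Lib.Lead.expansion χ
    (Cfsg.Agent.Lib.Lead.isClassFunction_of_isCharacter hχ)
  have h5 : ∑ φ : Cfsg.IrrCharacter G, Cfsg.classInner χ φ • (φ : G → ℂ)
      = ∑ φ ∈ Finset.univ.filter (fun φ : Cfsg.IrrCharacter G => m φ = 1), (φ : G → ℂ) := by
    rw [Finset.sum_filter]
    refine Finset.sum_congr rfl (fun φ _ => ?_)
    rw [hm φ]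
    have h6 := hle φ
    by_cases h1 : m φ = 1
    · rw [if_pos h1, h1, Nat.cast_one, one_smul]
    · rw [if_neg h1]
      have h0 : m φ = 0 := by omega
      rw [h0, Nat.cast_zero, zero_smul]
  rw [h5, hS, Finset.sum_pair hne] at hexp
  exact hexp

section
variable {F : Type u} [Field F]

local notation "GLF" => Matrix.GeneralLinearGroup (Fin 2) F
local notation "SLF" => Matrix.SpecialLinearGroup (Fin 2) F
local notation "MF" => Matrix (Fin 2) (Fin 2) F

theorem h8_borelGL_card [Fintype F] [DecidableEq F] (B : Subgroup GLF)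
    (hB : ∀ g : GLF, g ∈ B ↔ (g : MF) 1 0 = 0) :
    (Nat.card B : ℂ)
      = (((Fintype.card F : ℂ) - 1) * ((Fintype.card F : ℂ) - 1)) * (Fintype.card F : ℂ) := by
  have hshape : ∀ z : GLF, z ∈ B →
      ∃ a b d : F, (z : MF) = !![a, b; 0, d] ∧ a ≠ 0 ∧ d ≠ 0 := by
    intro z hz
    obtain ⟨a, b, c, d, hzm⟩ : ∃ a b c d : F, (z : MF) = !![a, b; c, d] :=
      ⟨_, _, _, _, Matrix.eta_fin_two _⟩
    have hc : c = 0 := by
      have h := (hB z).mp hz
      rw [hzm] at h
      exact h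
    subst hc
    have hdet := h8_gl2_det_ne_zero z a b 0 d hzm
    refine ⟨a, b, d, hzm, ?_, ?_⟩
    · rintro rfl; apply hdet; ring
    · rintro rfl; apply hdet; ring
  obtain ⟨ι, hι⟩ : ∃ ι : (Fˣ × Fˣ) × F → GLF, ∀ p : (Fˣ × Fˣ) × F,
      ((ι p : GLF) : MF) = !![(p.1.1 : F), p.2; 0, (p.1.2 : F)] :=
    ⟨fun p => Matrix.GeneralLinearGroup.mkOfDetNeZero !![(p.1.1 : F), p.2; 0, (p.1.2 : F)] (by
      rw [Matrix.det_fin_two_of]; simp), fun p => rfl⟩
  have hιB : ∀ p, ι p ∈ B := by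
    intro p
    rw [hB, hι]
    rfl
  have hιinj : Function.Injective ι := by
    intro p p' h
    have h1 : ((ι p : GLF) : MF) = ((ι p' : GLF) : MF) := by rw [h]
    rw [hι, hι] at h1
    obtain ⟨e00, e01, -, e11⟩ := h8_fin_two_inj h1
    exact Prod.ext (Prod.ext (Units.ext e00) (Units.ext e11)) e01
  have hιsurj : ∀ h : GLF, h ∈ B → ∃ p, ι p = h := by
    intro h hh
    obtain ⟨a, b, d, hm, ha, hd⟩ := hshape h hh
    refine ⟨((Units.mk0 a ha, Units.mk0 d hd), b), ?_⟩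
    apply Units.ext
    rw [hι, hm]
    rfl
  have hcardB : Nat.card B = Nat.card ((Fˣ × Fˣ) × F) := by
    symm
    refine Nat.card_congr (Equiv.ofBijective (fun p => (⟨ι p, hιB p⟩ : B)) ⟨?_, ?_⟩)
    · intro p p' h
      exact hιinj (congrArg Subtype.val h)
    · rintro ⟨h, hh⟩
      obtain ⟨p, hp⟩ := hιsurj h hh
      exact ⟨p, Subtype.ext hp⟩
  rw [hcardB, Nat.card_prod, Nat.card_prod, Nat.card_units, Nat.card_eq_fintype_card,
    Nat.cast_mul, Nat.cast_mul, Nat.cast_sub Fintype.card_pos, Nat.cast_one]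

theorem h8_gl2_res [Fintype F] [DecidableEq F] (α : MulChar F ℂ) (B : Subgroup SLF)
    (hB : ∀ g : SLF, g ∈ B ↔ (g : MF) 1 0 = 0)
    (Bt : Subgroup GLF) (hBt : ∀ g : GLF, g ∈ Bt ↔ (g : MF) 1 0 = 0) (g : SLF) :
    Cfsg.indFun Bt (fun b : Bt => α (((b : GLF) : MF) 0 0)
        * (1 : MulChar F ℂ) (((b : GLF) : MF) 1 1)) (Matrix.SpecialLinearGroup.toGL g)
      = Cfsg.indFun B (fun b : B => α (((b : SLF) : MF) 0 0)) g := by
  classical
  have hq2 : 1 < Fintype.card F := Fintype.one_lt_card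
  have hQ0 : (Fintype.card F : ℂ) ≠ 0 := by
    have : Fintype.card F ≠ 0 := by omega
    exact_mod_cast this
  have hQ1 : (Fintype.card F : ℂ) - 1 ≠ 0 := by
    intro h
    have h' : (Fintype.card F : ℂ) = ((1 : ℕ) : ℂ) := by
      rw [Nat.cast_one]; linear_combination h
    have := Nat.cast_injective h'
    omega
  obtain ⟨D, hD⟩ : ∃ D : Fˣ → GLF, ∀ δ : Fˣ, ((D δ : GLF) : MF) = !![(δ : F), 0; 0, 1] :=
    ⟨fun δ => Matrix.GeneralLinearGroup.mkOfDetNeZero !![(δ : F), 0; 0, 1] (by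
      rw [Matrix.det_fin_two_of]; simp), fun δ => rfl⟩
  obtain ⟨E, hE⟩ : ∃ E : SLF × Fˣ → GLF,
      ∀ p, E p = Matrix.SpecialLinearGroup.toGL p.1 * D p.2 := ⟨_, fun _ => rfl⟩
  have hEval : ∀ (y : SLF) (δ : Fˣ) (a b c d : F), (y : MF) = !![a, b; c, d] →
      ((E (y, δ) : GLF) : MF) = !![a * δ, b; c * δ, d] := by
    intro y δ a b c d hy
    rw [hE]
    show ((Matrix.SpecialLinearGroup.toGL y * D δ : GLF) : MF) = _
    rw [Units.val_mul, hD]
    have h1 : ((Matrix.SpecialLinearGroup.toGL y : GLF) : MF) = (y : MF) := rfl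
    rw [h1, hy, Matrix.mul_fin_two]
    refine h8_fin_two_congr ?_ ?_ ?_ ?_ <;> ring
  have hEinj : Function.Injective E := by
    rintro ⟨y, δ⟩ ⟨y', δ'⟩ h
    obtain ⟨a, b, c, d, hy⟩ : ∃ a b c d : F, (y : MF) = !![a, b; c, d] :=
      ⟨_, _, _, _, Matrix.eta_fin_two _⟩
    obtain ⟨a', b', c', d', hy'⟩ : ∃ a' b' c' d' : F, (y' : MF) = !![a', b'; c', d'] :=
      ⟨_, _, _, _, Matrix.eta_fin_two _⟩
    have h1 : ((E (y, δ) : GLF) : MF) = ((E (y', δ') : GLF) : MF) := by rw [h]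
    rw [hEval y δ a b c d hy, hEval y' δ' a' b' c' d' hy'] at h1
    obtain ⟨e00, e01, e10, e11⟩ := h8_fin_two_inj h1
    have hdet : a * d - b * c = 1 := by
      have h0 := y.det_coe
      rw [hy, Matrix.det_fin_two_of] at h0
      exact h0
    have hdet' : a' * d' - b' * c' = 1 := by
      have h0 := y'.det_coe
      rw [hy', Matrix.det_fin_two_of] at h0
      exact h0
    have hδ : (δ : F) = δ' := by
      linear_combination (-(δ : F)) * hdet + d * e00 - b * e10 + (δ' : F) * hdet'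
        + a' * (δ' : F) * e11 - c' * (δ' : F) * e01
    have ha : a = a' := by
      have h5 : (a - a') * (δ : F) = 0 := by linear_combination e00 - a' * hδ
      rcases mul_eq_zero.mp h5 with h | h
      · linear_combination h
      · exact absurd h (Units.ne_zero δ)
    have hc : c = c' := by
      have h5 : (c - c') * (δ : F) = 0 := by linear_combination e10 - c' * hδ
      rcases mul_eq_zero.mp h5 with h | h
      · linear_combination h
      · exact absurd h (Units.ne_zero δ)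
    have hyy : y = y' := by
      apply Subtype.ext
      rw [hy, hy', ha, e01, hc, e11]
    exact Prod.ext hyy (Units.ext hδ)
  have hEbij : Function.Bijective E := by
    rw [Fintype.bijective_iff_injective_and_card]
    refine ⟨hEinj, ?_⟩
    rw [← Nat.card_eq_fintype_card, ← Nat.card_eq_fintype_card, Nat.card_prod, h8_card_SL2,
      Nat.card_units, h8_card_GL2, Nat.card_eq_fintype_card]
    have h5 : Fintype.card F ^ 2 - Fintype.card F = Fintype.card F * (Fintype.card F - 1) := by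
      rw [Nat.mul_sub_one, pow_two]
    rw [h5]
    ring
  have hθG : ∀ h : GLF, h8extG Bt α 1 h
      = if (h : MF) 1 0 = 0 then α ((h : MF) 0 0) * (1 : MulChar F ℂ) ((h : MF) 1 1) else 0 := by
    intro h
    have h1 : h8extG Bt α 1 h
        = if h ∈ Bt then α ((h : MF) 0 0) * (1 : MulChar F ℂ) ((h : MF) 1 1) else 0 :=
      h8_extendByZero_apply Bt
        (fun g : GLF => α ((g : MF) 0 0) * (1 : MulChar F ℂ) ((g : MF) 1 1)) h
    rw [h1]
    exact if_congr (hBt h) rfl rfl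
  have hterm : ∀ (y : SLF) (δ : Fˣ),
      h8extG Bt α 1 ((E (y, δ))⁻¹ * Matrix.SpecialLinearGroup.toGL g * E (y, δ))
        = h8ext B α (y⁻¹ * g * y) := by
    intro y δ
    obtain ⟨a, b, c, d, hh⟩ : ∃ a b c d : F, ((y⁻¹ * g * y : SLF) : MF) = !![a, b; c, d] :=
      ⟨_, _, _, _, Matrix.eta_fin_two _⟩
    have hdet : a * d - b * c = 1 := by
      have h0 := (y⁻¹ * g * y).det_coe
      rw [hh, Matrix.det_fin_two_of] at h0
      exact h0
    obtain ⟨l, hl⟩ : ∃ l : F, l * ((δ : F) * 1 - 0 * 0) = 1 :=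
      ⟨(δ : F)⁻¹, by rw [mul_one, mul_zero, sub_zero]; exact inv_mul_cancel₀ (Units.ne_zero δ)⟩
    have hgrp : (E (y, δ))⁻¹ * Matrix.SpecialLinearGroup.toGL g * E (y, δ)
        = (D δ)⁻¹ * Matrix.SpecialLinearGroup.toGL (y⁻¹ * g * y) * D δ := by
      rw [hE]
      show (Matrix.SpecialLinearGroup.toGL y * D δ)⁻¹ * Matrix.SpecialLinearGroup.toGL g
        * (Matrix.SpecialLinearGroup.toGL y * D δ) = _
      rw [map_mul, map_mul, map_inv]
      group
    have hmat : (((D δ)⁻¹ * Matrix.SpecialLinearGroup.toGL (y⁻¹ * g * y) * D δ : GLF) : MF)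
        = !![a, l * b; c * δ, d] := by
      rw [Units.val_mul, Units.val_mul, h8_gl2_coe_inv (D δ) δ 0 0 1 l (hD δ) hl, hD]
      have h1 : ((Matrix.SpecialLinearGroup.toGL (y⁻¹ * g * y) : GLF) : MF)
          = ((y⁻¹ * g * y : SLF) : MF) := rfl
      rw [h1, hh, Matrix.mul_fin_two, Matrix.mul_fin_two]
      refine h8_fin_two_congr ?_ ?_ ?_ ?_
      · linear_combination a * hl
      · ring
      · linear_combination (c * δ) * hl
      · linear_combination d * hl
    rw [hgrp, hθG, hmat, h8ext_apply B hB, hh]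
    simp only [h8_entry00, h8_entry10, h8_entry11]
    by_cases hc : c = 0
    · have h0 : c * (δ : F) = 0 := by rw [hc, zero_mul]
      have hd : d ≠ 0 := by
        rintro rfl
        rw [hc] at hdet
        simp at hdet
      simp [hc, h0, MulChar.one_apply (Ne.isUnit hd)]
    · have h0 : ¬ (c * (δ : F) = 0) := mul_ne_zero hc (Units.ne_zero δ)
      simp [hc, h0]
  show (Nat.card Bt : ℂ)⁻¹ * ∑ x : GLF,
      h8extG Bt α 1 (x⁻¹ * Matrix.SpecialLinearGroup.toGL g * x)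
    = (Nat.card B : ℂ)⁻¹ * ∑ y : SLF, h8ext B α (y⁻¹ * g * y)
  have hsum : ∑ x : GLF, h8extG Bt α 1 (x⁻¹ * Matrix.SpecialLinearGroup.toGL g * x)
      = ((Fintype.card F : ℂ) - 1) * ∑ y : SLF, h8ext B α (y⁻¹ * g * y) := by
    rw [← hEbij.sum_comp (fun x : GLF =>
      h8extG Bt α 1 (x⁻¹ * Matrix.SpecialLinearGroup.toGL g * x)), Fintype.sum_prod_type]
    simp only [hterm]
    simp only [Finset.sum_const, Finset.card_univ, nsmul_eq_mul]
    rw [← Finset.mul_sum, ← Nat.card_eq_fintype_card (α := Fˣ), Nat.card_units,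
      Nat.card_eq_fintype_card, Nat.cast_sub Fintype.card_pos, Nat.cast_one]
  rw [hsum, h8_borelGL_card Bt hBt, h8_borel_card B hB]
  field_simp

end

end Cfsg.Agent.Lib.Helper8
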