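import Mathlib
import Cfsg.Prelude.Def_Characters
import Cfsg.Prelude.Def_ParabolicCharacters
import Cfsg.Agent.Lib.Helper8.GL2Res
import Cfsg.Agent.Lib.Lead.CharQE

set_option autoImplicit false
set_option linter.style.haveILetI false
set_option linter.unusedSectionVars false
set_option linter.unusedVariables false

universe u

namespace Cfsg.Agent.Lib.Helper8

open Matrix
open scoped ComplexConjugate

section
variable {F : Type u} [Field F]

local notation "GLF" => Matrix.GeneralLinearGroup (Fin 2) F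
local notation "SLF" => Matrix.SpecialLinearGroup (Fin 2) F
local notation "MF" => Matrix (Fin 2) (Fin 2) F

theorem h8_gl2_conj10 (x g : GLF) (s t c e l a b γ d : F) (hx : (x : MF) = !![s, t; c, e])
    (hl : l * (s * e - t * c) = 1) (hg : (g : MF) = !![a, b; γ, d]) :
    ((x⁻¹ * g * x : GLF) : MF) 1 0 = l * (γ * s * s + (d - a) * c * s - b * c * c) := by
  rw [Units.val_mul, Units.val_mul, h8_gl2_coe_inv x s t c e l hx hl, hx, hg,
    Matrix.mul_fin_two, Matrix.mul_fin_two, h8_entry10]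
  ring

theorem h8_sum_borelGL [Fintype F] [DecidableEq F] (Bt : Subgroup GLF)
    (hBt : ∀ g : GLF, g ∈ Bt ↔ (g : MF) 1 0 = 0) :
    ∑ x : GLF, (if (x : MF) 1 0 = 0 then (1 : ℂ) else 0) = (Nat.card Bt : ℂ) := by
  classical
  have h1 : Nat.card Bt = Nat.card {x : GLF // (x : MF) 1 0 = 0} :=
    Nat.card_congr (Equiv.subtypeEquivRight hBt)
  rw [h1, Nat.card_eq_fintype_card, Fintype.card_subtype, Finset.sum_boole]

theorem h8_sum_zero00GL [Fintype F] [DecidableEq F] (Bt : Subgroup GLF)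
    (hBt : ∀ g : GLF, g ∈ Bt ↔ (g : MF) 1 0 = 0) :
    ∑ x : GLF, (if (x : MF) 0 0 = 0 then (1 : ℂ) else 0) = (Nat.card Bt : ℂ) := by
  obtain ⟨w₀, hw₀⟩ : ∃ w₀ : GLF, (w₀ : MF) = !![0, 1; 1, 0] :=
    ⟨Matrix.GeneralLinearGroup.mkOfDetNeZero !![0, 1; 1, 0] (by
      rw [Matrix.det_fin_two_of]; simp), rfl⟩
  rw [← h8_sum_borelGL Bt hBt]
  refine Fintype.sum_equiv (Equiv.mulLeft w₀) _ _ (fun x => ?_)
  show (if (x : MF) 0 0 = 0 then (1 : ℂ) else 0)
    = (if ((w₀ * x : GLF) : MF) 1 0 = 0 then (1 : ℂ) else 0)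
  obtain ⟨s, t, c', e, hx⟩ : ∃ s t c' e : F, (x : MF) = !![s, t; c', e] :=
    ⟨_, _, _, _, Matrix.eta_fin_two _⟩
  have h10 : ((w₀ * x : GLF) : MF) 1 0 = s := by
    rw [Units.val_mul, hw₀, hx, Matrix.mul_fin_two, h8_entry10]; ring
  rw [h10, hx, h8_entry00]

theorem h8_s2308_aux [Fintype F] [DecidableEq F] (Bt : Subgroup GLF)
    (hBt : ∀ g : GLF, g ∈ Bt ↔ (g : MF) 1 0 = 0) (g : GLF) :
    ((∃ a : F, (g : MF) = a • (1 : MF)) →
      Cfsg.indFun Bt (fun _ => (1 : ℂ)) g = (Fintype.card F : ℂ) + 1) ∧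
    ((g : MF) 0 1 = 0 → (g : MF) 1 0 = 0 → (g : MF) 0 0 ≠ (g : MF) 1 1 →
      Cfsg.indFun Bt (fun _ => (1 : ℂ)) g = 2) ∧
    ((∀ (c : F) (v : Fin 2 → F), v ≠ 0 → (g : MF).mulVec v ≠ c • v) →
      Cfsg.indFun Bt (fun _ => (1 : ℂ)) g = 0) ∧
    ((g : MF) 1 0 = 0 → (g : MF) 0 0 = (g : MF) 1 1 → (g : MF) 0 1 ≠ 0 →
      Cfsg.indFun Bt (fun _ => (1 : ℂ)) g = 1) := by
  classical
  have hq2 : 1 < Fintype.card F := Fintype.one_lt_card
  have hQ0 : (Fintype.card F : ℂ) ≠ 0 := by
    have : Fintype.card F ≠ 0 := by omega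
    exact_mod_cast this
  have hQ1 : (Fintype.card F : ℂ) - 1 ≠ 0 := by
    intro h
    have h' : (Fintype.card F : ℂ) = ((1 : ℕ) : ℂ) := by
      rw [Nat.cast_one]; linear_combination h
    have := Nat.cast_injective h'
    omega
  have hBt0 : (Nat.card Bt : ℂ) ≠ 0 := by exact_mod_cast (Nat.card_pos (α := Bt)).ne'
  have hform : Cfsg.indFun Bt (fun _ => (1 : ℂ)) g
      = (Nat.card Bt : ℂ)⁻¹ * ∑ x : GLF,
        (if ((x⁻¹ * g * x : GLF) : MF) 1 0 = 0 then (1 : ℂ) else 0) := by
    show (Nat.card Bt : ℂ)⁻¹ * ∑ x : GLF,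
      Cfsg.extendByZero Bt (fun _ => (1 : ℂ)) (x⁻¹ * g * x) = _
    congr 1
    refine Finset.sum_congr rfl (fun x _ => ?_)
    have h1 : Cfsg.extendByZero Bt (fun _ : Bt => (1 : ℂ)) (x⁻¹ * g * x)
        = if x⁻¹ * g * x ∈ Bt then (1 : ℂ) else 0 :=
      h8_extendByZero_apply Bt (fun _ : GLF => (1 : ℂ)) (x⁻¹ * g * x)
    rw [h1]
    exact if_congr (hBt _) rfl rfl
  rw [hform]
  obtain ⟨a, b, γ, d, hgm⟩ : ∃ a b γ d : F, (g : MF) = !![a, b; γ, d] :=
    ⟨_, _, _, _, Matrix.eta_fin_two _⟩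
  have hE : ∀ x : GLF, ∃ s t c e l : F, l * (s * e - t * c) = 1 ∧ (x : MF) 1 0 = c ∧
      (x : MF) 0 0 = s ∧
      ((x⁻¹ * g * x : GLF) : MF) 1 0 = l * (γ * s * s + (d - a) * c * s - b * c * c) := by
    intro x
    obtain ⟨s, t, c, e, hx⟩ : ∃ s t c e : F, (x : MF) = !![s, t; c, e] :=
      ⟨_, _, _, _, Matrix.eta_fin_two _⟩
    have hdet := h8_gl2_det_ne_zero x s t c e hx
    refine ⟨s, t, c, e, (s * e - t * c)⁻¹, inv_mul_cancel₀ hdet, ?_, ?_,
      h8_gl2_conj10 x g s t c e _ a b γ d hx (inv_mul_cancel₀ hdet) hgm⟩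
    · rw [hx]; rfl
    · rw [hx]; rfl
  rw [hgm]
  simp only [h8_entry00, h8_entry01, h8_entry10, h8_entry11]
  refine ⟨?_, ?_, ?_, ?_⟩
  · rintro ⟨a', ha'⟩
    have hb : b = 0 := by
      have := congrFun (congrFun ha' 0) 1
      simpa using this
    have hγ : γ = 0 := by
      have := congrFun (congrFun ha' 1) 0
      simpa using this
    have ha : a = a' := by
      have := congrFun (congrFun ha' 0) 0
      simpa using this
    have hd : d = a' := by
      have := congrFun (congrFun ha' 1) 1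
      simpa using this
    have hterm : ∀ x : GLF,
        (if ((x⁻¹ * g * x : GLF) : MF) 1 0 = 0 then (1 : ℂ) else 0) = 1 := by
      intro x
      obtain ⟨s, t, c, e, l, hl, hx10, hx00, h10⟩ := hE x
      rw [h10]
      apply if_pos
      rw [hb, hγ, ha, hd]
      ring
    have hc1 : (((Fintype.card F ^ 2 - 1) * (Fintype.card F ^ 2 - Fintype.card F) : ℕ) : ℂ)
        = ((Fintype.card F : ℂ) ^ 2 - 1)
          * ((Fintype.card F : ℂ) ^ 2 - (Fintype.card F : ℂ)) := by
      rw [Nat.cast_mul, Nat.cast_sub (Nat.one_le_pow _ _ Fintype.card_pos),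
        Nat.cast_sub (Nat.le_self_pow two_ne_zero _), Nat.cast_pow, Nat.cast_one]
    rw [Finset.sum_congr rfl (fun x _ => hterm x), Finset.sum_const, Finset.card_univ,
      nsmul_eq_mul, mul_one, ← Nat.card_eq_fintype_card (α := GLF), h8_card_GL2, hc1,
      h8_borelGL_card Bt hBt]
    field_simp
    ring
  · intro hb hγ had
    subst hb
    subst hγ
    have hda : d - a ≠ 0 := fun h => had (by linear_combination -h)
    have hterm : ∀ x : GLF,
        (if ((x⁻¹ * g * x : GLF) : MF) 1 0 = 0 then (1 : ℂ) else 0)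
        = (if (x : MF) 1 0 = 0 then (1 : ℂ) else 0) + (if (x : MF) 0 0 = 0 then (1 : ℂ) else 0) := by
      intro x
      obtain ⟨s, t, c, e, l, hl, hx10, hx00, h10⟩ := hE x
      rw [h10, hx10, hx00]
      have hl0 : l ≠ 0 := by
        rintro rfl
        simp at hl
      by_cases hc : c = 0
      · have hs : s ≠ 0 := by
          intro hs0
          rw [hs0, hc] at hl
          simp at hl
        have hc10 : l * ((0 : F) * s * s + (d - a) * c * s - 0 * c * c) = 0 := by rw [hc]; ring
        rw [if_pos hc, if_neg hs, add_zero, if_pos hc10]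
      · by_cases hs : s = 0
        · have hc10 : l * ((0 : F) * s * s + (d - a) * c * s - 0 * c * c) = 0 := by
            rw [hs]; ring
          rw [if_neg hc, if_pos hs, zero_add, if_pos hc10]
        · have hne : ¬ (l * ((0 : F) * s * s + (d - a) * c * s - 0 * c * c) = 0) := by
            intro h0
            have h5 : l * ((d - a) * c * s) = 0 := by linear_combination h0
            rcases mul_eq_zero.mp h5 with h | h
            · exact hl0 h
            · rcases mul_eq_zero.mp h with h | h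
              · rcases mul_eq_zero.mp h with h | h
                · exact hda h
                · exact hc h
              · exact hs h
          rw [if_neg hc, if_neg hs, add_zero, if_neg hne]
    rw [Finset.sum_congr rfl (fun x _ => hterm x), Finset.sum_add_distrib,
      h8_sum_borelGL Bt hBt, h8_sum_zero00GL Bt hBt]
    field_simp
    ring
  · intro hnov
    have hterm : ∀ x : GLF,
        (if ((x⁻¹ * g * x : GLF) : MF) 1 0 = 0 then (1 : ℂ) else 0) = 0 := by
      intro x
      obtain ⟨s, t, c, e, l, hl, hx10, hx00, h10⟩ := hE x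
      rw [h10]
      apply if_neg
      intro h0
      apply hnov (l * (e * a * s + e * b * c - t * γ * s - t * d * c)) ![s, c]
      · intro hv
        have hs : s = 0 := by have := congrFun hv 0; simpa using this
        have hc : c = 0 := by have := congrFun hv 1; simpa using this
        rw [hs, hc] at hl
        simp at hl
      · funext i
        fin_cases i
        · simp [Matrix.mulVec, dotProduct, Fin.sum_univ_two]
          linear_combination (-(a * s + b * c)) * hl + t * h0
        · simp [Matrix.mulVec, dotProduct, Fin.sum_univ_two]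
          linear_combination (-(γ * s + d * c)) * hl + e * h0
    rw [Finset.sum_eq_zero (fun x _ => hterm x), mul_zero]
  · intro hγ had hb
    subst hγ
    subst had
    have hterm : ∀ x : GLF,
        (if ((x⁻¹ * g * x : GLF) : MF) 1 0 = 0 then (1 : ℂ) else 0)
        = (if (x : MF) 1 0 = 0 then (1 : ℂ) else 0) := by
      intro x
      obtain ⟨s, t, c, e, l, hl, hx10, hx00, h10⟩ := hE x
      rw [h10, hx10]
      have hl0 : l ≠ 0 := by
        rintro rfl
        simp at hl
      by_cases hc : c = 0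
      · have hc10 : l * ((0 : F) * s * s + (a - a) * c * s - b * c * c) = 0 := by rw [hc]; ring
        rw [if_pos hc, if_pos hc10]
      · have hne : ¬ (l * ((0 : F) * s * s + (a - a) * c * s - b * c * c) = 0) := by
          intro h0
          have h5 : l * (b * (c * c)) = 0 := by linear_combination -h0
          rcases mul_eq_zero.mp h5 with h | h
          · exact hl0 h
          · rcases mul_eq_zero.mp h with h | h
            · exact hb h
            · exact hc (mul_self_eq_zero.mp h)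
        rw [if_neg hc, if_neg hne]
    rw [Finset.sum_congr rfl (fun x _ => hterm x), h8_sum_borelGL Bt hBt,
      inv_mul_cancel₀ hBt0]

theorem h8_s2308 [Fintype F] (g : GLF) :
    ((∃ a : F, (g : MF) = a • (1 : MF)) →
      Cfsg.fixedPointCharacter (Cfsg.upperTriangularGL 2 F) g = Fintype.card F + 1) ∧
    ((g : MF) 0 1 = 0 → (g : MF) 1 0 = 0 → (g : MF) 0 0 ≠ (g : MF) 1 1 →
      Cfsg.fixedPointCharacter (Cfsg.upperTriangularGL 2 F) g = 2) ∧
    ((∀ (c : F) (v : Fin 2 → F), v ≠ 0 → (g : MF).mulVec v ≠ c • v) →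
      Cfsg.fixedPointCharacter (Cfsg.upperTriangularGL 2 F) g = 0) ∧
    ((g : MF) 1 0 = 0 → (g : MF) 0 0 = (g : MF) 1 1 → (g : MF) 0 1 ≠ 0 →
      Cfsg.fixedPointCharacter (Cfsg.upperTriangularGL 2 F) g = 1) := by
  classical
  have h := h8_s2308_aux (Cfsg.upperTriangularGL 2 F) h8_mem_borelGL_iff g
  have hfp : Cfsg.fixedPointCharacter (Cfsg.upperTriangularGL 2 F) g
      = Cfsg.indFun (Cfsg.upperTriangularGL 2 F) (fun _ => (1 : ℂ)) g :=
    (Cfsg.Agent.Lib.Lead.indFun_one_eq_card_fixedBy _ g).symm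
  rw [hfp]
  exact h

end

end Cfsg.Agent.Lib.Helper8
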