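import Mathlib
import Cfsg.Prelude.Def_Characters
import Cfsg.Agent.Lib.Helper8.GL2Mackey
import Cfsg.Agent.Lib.Lead.CharRing
import Cfsg.Agent.Lib.Lead.CharCodeg
import Cfsg.Agent.Lib.Lead.CharComplete
import Cfsg.Agent.Lib.Lead.CharRam
import Cfsg.Agent.Lib.Lead.CharKerSub
import Cfsg.Agent.Lib.Lead.CharFT
import Cfsg.Agent.Lib.Lead.QuatSyl4

set_option autoImplicit false
set_option linter.style.haveILetI false
set_option linter.unusedSectionVars false
set_option linter.unusedVariables false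

universe u

namespace Cfsg.Agent.Lib.Helper8

open Matrix
open scoped ComplexConjugate

section
variable {F : Type u} [Field F]

local notation "GLF" => Matrix.GeneralLinearGroup (Fin 2) F
local notation "MF" => Matrix (Fin 2) (Fin 2) F

noncomputable def h8UU (b : F) : GLF :=
  Matrix.GeneralLinearGroup.mkOfDetNeZero !![1, b; 0, 1] (by
    rw [Matrix.det_fin_two_of]; simp)

theorem h8UU_val (b : F) : ((h8UU b : GLF) : MF) = !![1, b; 0, 1] := rfl

noncomputable def h8LL (b : F) : GLF :=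
  Matrix.GeneralLinearGroup.mkOfDetNeZero !![1, 0; b, 1] (by
    rw [Matrix.det_fin_two_of]; simp)

theorem h8LL_val (b : F) : ((h8LL b : GLF) : MF) = !![1, 0; b, 1] := rfl

noncomputable def h8ZZ (z : Fˣ) : GLF :=
  Matrix.GeneralLinearGroup.mkOfDetNeZero !![(z : F), 0; 0, (z : F)] (by
    rw [Matrix.det_fin_two_of]; simp)

theorem h8ZZ_val (z : Fˣ) : ((h8ZZ z : GLF) : MF) = !![(z : F), 0; 0, (z : F)] := rfl

theorem h8UU_zero : h8UU (0 : F) = 1 := by
  apply Units.ext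
  rw [h8UU_val, Units.val_one, Matrix.one_fin_two]

theorem h8LL_zero : h8LL (0 : F) = 1 := by
  apply Units.ext
  rw [h8LL_val, Units.val_one, Matrix.one_fin_two]

theorem h8UU_add (a b : F) : h8UU (a + b) = h8UU a * h8UU b := by
  apply Units.ext
  rw [Units.val_mul, h8UU_val, h8UU_val, h8UU_val, Matrix.mul_fin_two]
  refine h8_fin_two_congr ?_ ?_ ?_ ?_ <;> ring

noncomputable def h8UUHom : Multiplicative F →* GLF where
  toFun x := h8UU (Multiplicative.toAdd x)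
  map_one' := h8UU_zero
  map_mul' x y := h8UU_add _ _

theorem h8UU_conj (b : F) (hb : b ≠ 0) : ∃ x : GLF, h8UU b = x * h8UU 1 * x⁻¹ := by
  obtain ⟨x, hx⟩ : ∃ x : GLF, (x : MF) = !![b, 0; 0, 1] :=
    ⟨Matrix.GeneralLinearGroup.mkOfDetNeZero !![b, 0; 0, 1] (by
      rw [Matrix.det_fin_two_of]; simpa using hb), rfl⟩
  obtain ⟨l, hl⟩ : ∃ l : F, l * (b * 1 - 0 * 0) = 1 :=
    ⟨b⁻¹, by rw [mul_one, mul_zero, sub_zero]; exact inv_mul_cancel₀ hb⟩
  refine ⟨x, ?_⟩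
  apply Units.ext
  rw [Units.val_mul, Units.val_mul, h8_gl2_coe_inv x b 0 0 1 l hx hl, hx, h8UU_val, h8UU_val,
    Matrix.mul_fin_two, Matrix.mul_fin_two]
  refine h8_fin_two_congr ?_ ?_ ?_ ?_
  · linear_combination (-1 : F) * hl
  · linear_combination (-b) * hl
  · ring
  · linear_combination (-1 : F) * hl

theorem h8LL_conj (b : F) : ∃ x : GLF, h8LL b = x * h8UU b * x⁻¹ := by
  obtain ⟨x, hx⟩ : ∃ x : GLF, (x : MF) = !![0, 1; 1, 0] :=
    ⟨Matrix.GeneralLinearGroup.mkOfDetNeZero !![0, 1; 1, 0] (by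
      rw [Matrix.det_fin_two_of]; simp), rfl⟩
  have hl : (-1 : F) * (0 * 0 - 1 * 1) = 1 := by ring
  refine ⟨x, ?_⟩
  apply Units.ext
  rw [Units.val_mul, Units.val_mul, h8_gl2_coe_inv x 0 1 1 0 (-1) hx hl, hx, h8UU_val, h8LL_val,
    Matrix.mul_fin_two, Matrix.mul_fin_two]
  refine h8_fin_two_congr ?_ ?_ ?_ ?_ <;> ring

theorem h8ZZ_mem_center (z : Fˣ) : h8ZZ z ∈ Subgroup.center GLF := by
  rw [Subgroup.mem_center_iff]
  intro g
  obtain ⟨a, b, c, d, hg⟩ : ∃ a b c d : F, (g : MF) = !![a, b; c, d] :=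
    ⟨_, _, _, _, Matrix.eta_fin_two _⟩
  apply Units.ext
  rw [Units.val_mul, Units.val_mul, hg, h8ZZ_val, Matrix.mul_fin_two, Matrix.mul_fin_two]
  refine h8_fin_two_congr ?_ ?_ ?_ ?_ <;> ring

theorem h8_chi_UU {χ : GLF → ℂ} (hcf : Cfsg.IsClassFunction GLF χ) (b : F) (hb : b ≠ 0) :
    χ (h8UU b) = χ (h8UU 1) := by
  obtain ⟨x, hx⟩ := h8UU_conj b hb
  rw [hx]
  exact hcf _ _

theorem h8_chi_LL {χ : GLF → ℂ} (hcf : Cfsg.IsClassFunction GLF χ) (b : F) (hb : b ≠ 0) :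
    χ (h8LL b) = χ (h8UU 1) := by
  obtain ⟨x, hx⟩ := h8LL_conj b
  rw [hx, hcf]
  exact h8_chi_UU hcf b hb

theorem h8_gl2_mult [Fintype F] [DecidableEq F] {χ : GLF → ℂ} (hχ : Cfsg.IsCharacter GLF χ) :
    ∃ m m₀ : ℕ, (Fintype.card F : ℂ) * m = χ 1 - χ (h8UU 1) ∧
      (Fintype.card F : ℂ) * m₀ = χ 1 + ((Fintype.card F : ℂ) - 1) * χ (h8UU 1) := by
  classical
  have hcf := Cfsg.Agent.Lib.Lead.isClassFunction_of_isCharacter hχ
  have hQ0 : (Fintype.card F : ℂ) ≠ 0 := by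
    have : Fintype.card F ≠ 0 := Fintype.card_ne_zero
    exact_mod_cast this
  have hres : Cfsg.IsCharacter (Multiplicative F) (χ ∘ (h8UUHom : Multiplicative F →* GLF)) :=
    Cfsg.Agent.Lib.Lead.isCharacter_comp h8UUHom hχ
  have key : ∀ φ : AddChar F ℂ, ∃ k : ℕ, (Fintype.card F : ℂ) * k
      = χ (h8UU 1) * conj (∑ b : F, φ b) + (χ 1 - χ (h8UU 1)) := by
    intro φ
    have hφ : Cfsg.IsCharacter (Multiplicative F)
        (fun x => ((φ.toMonoidHom.toHomUnits x : ℂˣ) : ℂ)) :=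
      Cfsg.Agent.Lib.Lead.isCharacter_of_isIrrCharacter
        (Cfsg.Agent.Lib.Lead.isIrrCharacter_of_hom _)
    obtain ⟨k, hk⟩ := Cfsg.Agent.Lib.Lead.classInner_isCharacter_nat hres hφ
    refine ⟨k, ?_⟩
    rw [← hk]
    unfold Cfsg.classInner
    have hcard : (Nat.card (Multiplicative F) : ℂ) = (Fintype.card F : ℂ) := by
      rw [Nat.card_eq_fintype_card, Fintype.card_multiplicative]
    rw [hcard, mul_inv_cancel_left₀ hQ0]
    have hsum : ∑ x : Multiplicative F, (χ ∘ (h8UUHom : Multiplicative F →* GLF)) x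
          * conj ((φ.toMonoidHom.toHomUnits x : ℂˣ) : ℂ)
        = ∑ b : F, χ (h8UU b) * conj (φ b) :=
      Fintype.sum_equiv Multiplicative.toAdd _ _ (fun x => by
        rw [MonoidHom.coe_toHomUnits]; rfl)
    rw [hsum]
    have hterm : ∀ b : F, χ (h8UU b) * conj (φ b)
        = χ (h8UU 1) * conj (φ b) + (if b = 0 then χ 1 - χ (h8UU 1) else 0) := by
      intro b
      by_cases hb : b = 0
      · rw [if_pos hb, hb, h8UU_zero, AddChar.map_zero_eq_one, map_one]; ring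
      · rw [if_neg hb, add_zero, h8_chi_UU hcf b hb]
    have hconj : ∑ b : F, conj (φ b) = conj (∑ b : F, φ b) :=
      (map_sum (starRingEnd ℂ) _ _).symm
    rw [Finset.sum_congr rfl (fun b _ => hterm b), Finset.sum_add_distrib, ← Finset.mul_sum,
      hconj, Finset.sum_ite_eq' Finset.univ (0 : F), if_pos (Finset.mem_univ _)]
  obtain ⟨ψ, hψ⟩ : ∃ ψ : AddChar F ℂ, ψ (1 : F) ≠ 1 :=
    AddChar.exists_apply_ne_zero.mpr one_ne_zero
  have hψ1 : ψ ≠ 1 := by
    rintro rfl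
    exact hψ (AddChar.one_apply _)
  obtain ⟨m, hm⟩ := key ψ
  obtain ⟨m₀, hm₀⟩ := key 1
  refine ⟨m, m₀, ?_, ?_⟩
  · rw [hm, AddChar.sum_eq_zero_of_ne_one hψ1, map_zero, mul_zero, zero_add]
  · rw [hm₀]
    have h1 : ∑ b : F, (1 : AddChar F ℂ) b = (Fintype.card F : ℂ) := by
      simp [AddChar.one_apply]
    rw [h1, Complex.conj_natCast]
    ring

theorem h8_gl2_ker [Fintype F] [DecidableEq F] {χ : GLF → ℂ}
    (hχ : Cfsg.IsIrrCharacter GLF χ) (h1 : χ (h8UU 1) = χ 1) : χ 1 = 1 := by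
  classical
  have hcf := Cfsg.Agent.Lib.Lead.isClassFunction_of_isCharacter
    (Cfsg.Agent.Lib.Lead.isCharacter_of_isIrrCharacter hχ)
  obtain ⟨K, hKn, hK, -⟩ :=
    Cfsg.Agent.Lib.Lead.irr_ker_exists (⟨χ, hχ⟩ : Cfsg.IrrCharacter GLF)
  have hK' : ∀ g : GLF, g ∈ K ↔ χ g = χ 1 := hK
  have hKU : ∀ b : F, h8UU b ∈ K := by
    intro b
    by_cases hb : b = 0
    · rw [hb, h8UU_zero]; exact K.one_mem
    · rw [hK', h8_chi_UU hcf b hb, h1]
  have hKL : ∀ b : F, h8LL b ∈ K := by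
    intro b
    by_cases hb : b = 0
    · rw [hb, h8LL_zero]; exact K.one_mem
    · rw [hK', h8_chi_LL hcf b hb, h1]
  have hK1 : ∀ (g : GLF) (a b c d : F), (g : MF) = !![a, b; c, d] → a * d - b * c = 1 →
      c ≠ 0 → g ∈ K := by
    intro g a b c d hg hdet hc
    obtain ⟨l, hl⟩ : ∃ l : F, l * c = 1 := ⟨c⁻¹, inv_mul_cancel₀ hc⟩
    have hgeq : g = h8UU ((a - 1) * l) * h8LL c * h8UU ((d - 1) * l) := by
      apply Units.ext
      rw [Units.val_mul, Units.val_mul, hg, h8UU_val, h8LL_val, h8UU_val, Matrix.mul_fin_two,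
        Matrix.mul_fin_two]
      refine h8_fin_two_congr ?_ ?_ ?_ ?_
      · linear_combination (-(a - 1)) * hl
      · linear_combination (-((a - 1) * (d - 1) * l + b)) * hl - l * hdet
      · ring
      · linear_combination (-(d - 1)) * hl
    rw [hgeq]
    exact K.mul_mem (K.mul_mem (hKU _) (hKL _)) (hKU _)
  have hK2 : ∀ g : GLF, (g : MF).det = 1 → g ∈ K := by
    intro g hdet
    obtain ⟨a, b, c, d, hg⟩ : ∃ a b c d : F, (g : MF) = !![a, b; c, d] :=
      ⟨_, _, _, _, Matrix.eta_fin_two _⟩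
    have hdet' : a * d - b * c = 1 := by
      rw [hg, Matrix.det_fin_two_of] at hdet
      exact hdet
    by_cases hc : c = 0
    · have hg' : ((h8LL 1 * g : GLF) : MF) = !![a, b; a + c, b + d] := by
        rw [Units.val_mul, h8LL_val, hg, Matrix.mul_fin_two]
        refine h8_fin_two_congr ?_ ?_ ?_ ?_ <;> ring
      have ha : a + c ≠ 0 := by
        rw [hc, add_zero]
        rintro rfl
        rw [hc] at hdet'
        simp at hdet'
      have h5 : h8LL 1 * g ∈ K :=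
        hK1 _ a b (a + c) (b + d) hg' (by linear_combination hdet') ha
      have h6 : g = (h8LL 1)⁻¹ * (h8LL 1 * g) := by group
      rw [h6]
      exact K.mul_mem (K.inv_mem (hKL 1)) h5
    · exact hK1 g a b c d hg hdet' hc
  have hle : commutator GLF ≤ K := by
    rw [commutator_def, Subgroup.commutator_le]
    intro x _ y _
    rw [commutatorElement_def]
    apply hK2
    have hd : Matrix.GeneralLinearGroup.det (x * y * x⁻¹ * y⁻¹) = 1 := by
      rw [map_mul, map_mul, map_mul, map_inv, map_inv,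
        mul_comm (Matrix.GeneralLinearGroup.det x) (Matrix.GeneralLinearGroup.det y)]
      group
    have h7 := congrArg Units.val hd
    rw [Matrix.GeneralLinearGroup.val_det_apply, Units.val_one] at h7
    exact h7
  apply Cfsg.Agent.Lib.Lead.irr_linear_of_commutator_le hχ
  intro g hg
  exact (hK' g).mp (hle hg)

theorem h8_gl2_norm [Fintype F] [DecidableEq F] {χ : GLF → ℂ}
    (hχ : Cfsg.IsIrrCharacter GLF χ) :
    ((Fintype.card F : ℝ) - 1)
        * (‖χ 1‖ ^ 2 + 2 * ((Fintype.card F : ℝ) - 1) * ‖χ (h8UU 1)‖ ^ 2)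
      ≤ ((Fintype.card F : ℝ) ^ 2 - 1) * ((Fintype.card F : ℝ) ^ 2 - (Fintype.card F : ℝ)) := by
  classical
  have hcf := Cfsg.Agent.Lib.Lead.isClassFunction_of_isCharacter
    (Cfsg.Agent.Lib.Lead.isCharacter_of_isIrrCharacter hχ)
  have hsum := Cfsg.Agent.Lib.Lead.sum_norm_sq_irr hχ
  have hcard : (Nat.card GLF : ℝ) = ((Fintype.card F : ℝ) ^ 2 - 1)
      * ((Fintype.card F : ℝ) ^ 2 - (Fintype.card F : ℝ)) := by
    rw [h8_card_GL2, Nat.cast_mul, Nat.cast_sub (Nat.one_le_pow _ _ Fintype.card_pos),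
      Nat.cast_sub (Nat.le_self_pow two_ne_zero _), Nat.cast_pow, Nat.cast_one]
  have hcardU : (Fintype.card Fˣ : ℝ) = (Fintype.card F : ℝ) - 1 := by
    rw [← Nat.card_eq_fintype_card (α := Fˣ), Nat.card_units, Nat.card_eq_fintype_card,
      Nat.cast_sub Fintype.card_pos, Nat.cast_one]
  have hval₁ : ∀ (z : Fˣ) (b : F),
      ((h8UU b * h8ZZ z : GLF) : MF) = !![(z : F), b * z; 0, (z : F)] := by
    intro z b
    rw [Units.val_mul, h8UU_val, h8ZZ_val, Matrix.mul_fin_two]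
    refine h8_fin_two_congr ?_ ?_ ?_ ?_ <;> ring
  have hval₂ : ∀ (z b : Fˣ),
      ((h8LL (b : F) * h8ZZ z : GLF) : MF) = !![(z : F), 0; (b : F) * z, (z : F)] := by
    intro z b
    rw [Units.val_mul, h8LL_val, h8ZZ_val, Matrix.mul_fin_two]
    refine h8_fin_two_congr ?_ ?_ ?_ ?_ <;> ring
  obtain ⟨ι, hι₁, hι₂⟩ : ∃ ι : (Fˣ × F) ⊕ (Fˣ × Fˣ) → GLF,
      (∀ p : Fˣ × F, ι (Sum.inl p) = h8UU p.2 * h8ZZ p.1) ∧
      (∀ p : Fˣ × Fˣ, ι (Sum.inr p) = h8LL (p.2 : F) * h8ZZ p.1) :=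
    ⟨fun s => Sum.elim (fun p => h8UU p.2 * h8ZZ p.1) (fun p => h8LL (p.2 : F) * h8ZZ p.1) s,
      fun p => rfl, fun p => rfl⟩
  have hinj : Function.Injective ι := by
    rintro (⟨z, b⟩ | ⟨z, b⟩) (⟨z', b'⟩ | ⟨z', b'⟩) h
    · rw [hι₁, hι₁] at h
      have h1 : ((h8UU b * h8ZZ z : GLF) : MF) = ((h8UU b' * h8ZZ z' : GLF) : MF) := by
        rw [h]
      rw [hval₁, hval₁] at h1
      obtain ⟨e00, e01, -, -⟩ := h8_fin_two_inj h1
      have hz : z = z' := Units.ext e00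
      subst hz
      have hb : b = b' := mul_right_cancel₀ (Units.ne_zero z) e01
      rw [hb]
    · rw [hι₁, hι₂] at h
      have h1 : ((h8UU b * h8ZZ z : GLF) : MF) = ((h8LL (b' : F) * h8ZZ z' : GLF) : MF) := by
        rw [h]
      rw [hval₁, hval₂] at h1
      obtain ⟨-, -, e10, -⟩ := h8_fin_two_inj h1
      exact absurd e10.symm (mul_ne_zero (Units.ne_zero b') (Units.ne_zero z'))
    · rw [hι₂, hι₁] at h
      have h1 : ((h8LL (b : F) * h8ZZ z : GLF) : MF) = ((h8UU b' * h8ZZ z' : GLF) : MF) := by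
        rw [h]
      rw [hval₂, hval₁] at h1
      obtain ⟨-, -, e10, -⟩ := h8_fin_two_inj h1
      exact absurd e10 (mul_ne_zero (Units.ne_zero b) (Units.ne_zero z))
    · rw [hι₂, hι₂] at h
      have h1 : ((h8LL (b : F) * h8ZZ z : GLF) : MF)
          = ((h8LL (b' : F) * h8ZZ z' : GLF) : MF) := by
        rw [h]
      rw [hval₂, hval₂] at h1
      obtain ⟨e00, -, e10, -⟩ := h8_fin_two_inj h1
      have hz : z = z' := Units.ext e00
      subst hz
      have hb : b = b' := Units.ext (mul_right_cancel₀ (Units.ne_zero z) e10)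
      rw [hb]
  have hz : ∀ (z : Fˣ) (g : GLF), ‖χ (g * h8ZZ z)‖ = ‖χ g‖ := by
    intro z g
    obtain ⟨c, hc1, hc⟩ := Cfsg.Agent.Lib.Lead.irr_central_unit
      (⟨χ, hχ⟩ : Cfsg.IrrCharacter GLF) (h8ZZ z) (h8ZZ_mem_center z)
    have h5 : χ (g * h8ZZ z) = c * χ g := hc g
    rw [h5, norm_mul, hc1, one_mul]
  have hle : ∑ s, ‖χ (ι s)‖ ^ 2 ≤ ∑ g : GLF, ‖χ g‖ ^ 2 := by
    rw [← Finset.sum_image (s := Finset.univ) (g := ι) (f := fun g => ‖χ g‖ ^ 2)
      (fun a _ b _ h => hinj h)]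
    exact Finset.sum_le_sum_of_subset_of_nonneg (Finset.subset_univ _)
      (fun g _ _ => by positivity)
  have hfam : ∑ s, ‖χ (ι s)‖ ^ 2 = ((Fintype.card F : ℝ) - 1)
      * (‖χ 1‖ ^ 2 + 2 * ((Fintype.card F : ℝ) - 1) * ‖χ (h8UU 1)‖ ^ 2) := by
    rw [Fintype.sum_sum_type]
    have h1 : ∀ p : Fˣ × F, ‖χ (ι (Sum.inl p))‖ ^ 2
        = ‖χ (h8UU 1)‖ ^ 2 + (if p.2 = 0 then ‖χ 1‖ ^ 2 - ‖χ (h8UU 1)‖ ^ 2 else 0) := by
      intro p
      rw [hι₁, hz]
      by_cases hb : p.2 = 0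
      · rw [if_pos hb, hb, h8UU_zero]; ring
      · rw [if_neg hb, add_zero, h8_chi_UU hcf p.2 hb]
    have h2 : ∀ p : Fˣ × Fˣ, ‖χ (ι (Sum.inr p))‖ ^ 2 = ‖χ (h8UU 1)‖ ^ 2 := by
      intro p
      rw [hι₂, hz, h8_chi_LL hcf (p.2 : F) (Units.ne_zero p.2)]
    have h3 : ∑ p : Fˣ × F, (if p.2 = 0 then ‖χ 1‖ ^ 2 - ‖χ (h8UU 1)‖ ^ 2 else 0)
        = ((Fintype.card F : ℝ) - 1) * (‖χ 1‖ ^ 2 - ‖χ (h8UU 1)‖ ^ 2) := by
      rw [Fintype.sum_prod_type]
      simp only [Finset.sum_ite_eq', Finset.mem_univ, if_true, Finset.sum_const,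
        Finset.card_univ, nsmul_eq_mul, hcardU]
    rw [Finset.sum_congr rfl (fun p _ => h1 p), Finset.sum_congr rfl (fun p _ => h2 p),
      Finset.sum_add_distrib, h3]
    simp only [Finset.sum_const, Finset.card_univ,
      nsmul_eq_mul, Fintype.card_prod, Nat.cast_mul, hcardU]
    have hcF : (Fintype.card F : ℝ) = ((Fintype.card F : ℝ) - 1) + 1 := by ring
    rw [hcF]
    ring
  rw [← hfam, ← hcard, ← hsum]
  exact hle

theorem h8_s2310_aux [Fintype F] [DecidableEq F] (hq : 3 ≤ Fintype.card F) (χ : GLF → ℂ)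
    (hχ : Cfsg.IsIrrCharacter GLF χ) :
    (χ 1 = 1 → χ (h8UU 1) = 1) ∧ (χ 1 = (Fintype.card F : ℂ) + 1 → χ (h8UU 1) = 1) ∧
    (χ 1 = (Fintype.card F : ℂ) - 1 → χ (h8UU 1) = -1) ∧
    (χ 1 = (Fintype.card F : ℂ) → χ (h8UU 1) = 0) := by
  classical
  have hchar := Cfsg.Agent.Lib.Lead.isCharacter_of_isIrrCharacter hχ
  obtain ⟨n, hn⟩ := Cfsg.Agent.Lib.Lead.isCharacter_one_eq_natCast hchar
  obtain ⟨m, m₀, hm, hm₀⟩ := h8_gl2_mult hchar
  have hnorm := h8_gl2_norm hχ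
  obtain ⟨q, hqdef⟩ : ∃ q : ℕ, q = Fintype.card F := ⟨_, rfl⟩
  rw [← hqdef] at hq hm hm₀ hnorm ⊢
  have hq0 : (q : ℂ) ≠ 0 := by
    have : q ≠ 0 := by omega
    exact_mod_cast this
  have hc : χ (h8UU 1) = (n : ℂ) - (q : ℂ) * m := by
    rw [hn] at hm
    linear_combination hm
  have hnat : m₀ + (q - 1) * m = n := by
    have h1 : (q : ℂ) * ((m₀ : ℂ) + ((q : ℂ) - 1) * m) = (q : ℂ) * n := by
      rw [hn] at hm hm₀
      linear_combination hm₀ + ((q : ℂ) - 1) * hm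
    have h2 := mul_left_cancel₀ hq0 h1
    have h3 : ((m₀ + (q - 1) * m : ℕ) : ℂ) = (n : ℂ) := by
      rw [Nat.cast_add, Nat.cast_mul, Nat.cast_sub (by omega), Nat.cast_one]
      exact h2
    exact_mod_cast h3
  have hker : m = 0 → n = 1 := by
    intro hm0
    have h1 : χ (h8UU 1) = χ 1 := by
      rw [hc, hn, hm0]; simp
    have h2 := h8_gl2_ker hχ h1
    rw [hn] at h2
    exact_mod_cast h2
  refine ⟨?_, ?_, ?_, ?_⟩
  · intro h1
    have hn1 : n = 1 := by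
      rw [hn] at h1
      exact_mod_cast h1
    have hm0 : m = 0 := by
      by_contra hne
      have h3 : 1 ≤ m := Nat.one_le_iff_ne_zero.mpr hne
      have h4 : (q - 1) * 1 ≤ (q - 1) * m := Nat.mul_le_mul_left _ h3
      omega
    rw [hc, hn1, hm0]
    simp
  · intro h1
    have hn1 : n = q + 1 := by
      rw [hn] at h1
      exact_mod_cast h1
    have hm2 : m ≤ 2 := by
      by_contra hcon
      have h3 : 3 ≤ m := by omega
      have h4 : (q - 1) * 3 ≤ (q - 1) * m := Nat.mul_le_mul_left _ h3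
      omega
    have hm1 : m = 1 := by
      by_contra hne
      have h01 : m = 0 ∨ m = 2 := by omega
      rcases h01 with h0 | h2
      · have := hker h0
        omega
      · rw [h2] at hnat hc
        have hq3 : q = 3 := by omega
        subst hq3
        have hn4 : n = 4 := by omega
        subst hn4
        have hc2 : χ (h8UU 1) = -((2 : ℕ) : ℂ) := by
          rw [hc]; push_cast; ring
        rw [hn, hc2, norm_neg, Complex.norm_natCast, Complex.norm_natCast] at hnorm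
        norm_num at hnorm
    rw [hc, hn1, hm1]
    push_cast
    ring
  · intro h1
    have hn1 : n + 1 = q := by
      have h2 : ((n + 1 : ℕ) : ℂ) = (q : ℂ) := by
        push_cast
        rw [← hn, h1]
        ring
      exact_mod_cast h2
    have hm2 : m ≤ 1 := by
      by_contra hcon
      have h3 : 2 ≤ m := by omega
      have h4 : (q - 1) * 2 ≤ (q - 1) * m := Nat.mul_le_mul_left _ h3
      omega
    have hm1 : m = 1 := by
      by_contra hne
      have h0 : m = 0 := by omega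
      have := hker h0
      omega
    have hnq : (n : ℂ) = (q : ℂ) - 1 := by
      rw [← hn, h1]
    rw [hc, hnq, hm1]
    push_cast
    ring
  · intro h1
    have hn1 : n = q := by
      rw [hn] at h1
      exact_mod_cast h1
    have hm2 : m ≤ 1 := by
      by_contra hcon
      have h3 : 2 ≤ m := by omega
      have h4 : (q - 1) * 2 ≤ (q - 1) * m := Nat.mul_le_mul_left _ h3
      omega
    have hm1 : m = 1 := by
      by_contra hne
      have h0 : m = 0 := by omega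
      have := hker h0
      omega
    rw [hc, hn1, hm1]
    push_cast
    ring

theorem h8_s2310 [Fintype F] (hq : 3 ≤ Fintype.card F) (χ : GLF → ℂ)
    (hχ : Cfsg.IsIrrCharacter GLF χ) (u : GLF) (hu : (u : MF) = !![1, 1; 0, 1]) :
    (χ 1 = 1 → χ u = 1) ∧ (χ 1 = (Fintype.card F : ℂ) + 1 → χ u = 1) ∧
    (χ 1 = (Fintype.card F : ℂ) - 1 → χ u = -1) ∧ (χ 1 = (Fintype.card F : ℂ) → χ u = 0) := by
  classical
  have hu' : u = h8UU 1 := Units.ext (by rw [hu, h8UU_val])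
  rw [hu']
  exact h8_s2310_aux hq χ hχ

end

end Cfsg.Agent.Lib.Helper8
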