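import Mathlib
import Cfsg.Prelude.Def_Characters
import Cfsg.Prelude.Def_ParabolicCharacters
import Cfsg.Agent.Lib.Helper8.GL2Unip
import Cfsg.Agent.Lib.Helper8.GL2Perm
import Cfsg.Agent.Lib.Lead.CharAbQuot
import Cfsg.Agent.Lib.Lead.CharCons
import Cfsg.Agent.Lib.Helper2.Ind

set_option autoImplicit false
set_option linter.style.haveILetI false
set_option linter.unusedSectionVars false
set_option linter.unusedVariables false

universe u

namespace Cfsg.Agent.Lib.Helper8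

open Matrix
open scoped ComplexConjugate

theorem h8_eq_of_constituent_degree {G : Type u} [Group G] [Fintype G] {Φ χ : G → ℂ}
    (hΦ : Cfsg.IsCharacter G Φ) (hχ : Cfsg.IsIrrCharacter G χ)
    (hne : Cfsg.classInner Φ χ ≠ 0) (hdeg : Φ 1 = χ 1) : Φ = χ := by
  classical
  haveI : Finite (Cfsg.IrrCharacter G) := Cfsg.Agent.Lib.Lead.irr_finite
  letI : Fintype (Cfsg.IrrCharacter G) := Fintype.ofFinite _
  have hm : ∀ φ : Cfsg.IrrCharacter G, ∃ k : ℕ, Cfsg.classInner Φ φ = (k : ℂ) := fun φ =>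
    Cfsg.Agent.Lib.Lead.classInner_isCharacter_nat hΦ
      (Cfsg.Agent.Lib.Lead.isCharacter_of_isIrrCharacter φ.2)
  choose m hm using hm
  have hd : ∀ φ : Cfsg.IrrCharacter G, ∃ k : ℕ, (φ : G → ℂ) 1 = (k : ℂ) := fun φ =>
    Cfsg.Agent.Lib.Lead.irr_one_eq_natCast φ
  choose d hd using hd
  have hd0 : ∀ φ : Cfsg.IrrCharacter G, d φ ≠ 0 := by
    intro φ h
    apply Cfsg.Agent.Lib.Lead.isIrrCharacter_one_ne_zero φ.2
    rw [hd, h, Nat.cast_zero]
  have hexp := Cfsg.Agent.Lib.Lead.expansion Φ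
    (Cfsg.Agent.Lib.Lead.isClassFunction_of_isCharacter hΦ)
  have h1 := congrFun hexp 1
  rw [Finset.sum_apply] at h1
  simp only [Pi.smul_apply, smul_eq_mul, hm, hd] at h1
  obtain ⟨χ', hχ'⟩ : ∃ χ' : Cfsg.IrrCharacter G, (χ' : G → ℂ) = χ := ⟨⟨χ, hχ⟩, rfl⟩
  have h2 : d χ' = ∑ φ : Cfsg.IrrCharacter G, m φ * d φ := by
    have h3 : ((d χ' : ℕ) : ℂ) = ((∑ φ : Cfsg.IrrCharacter G, m φ * d φ : ℕ) : ℂ) := by
      push_cast
      rw [← h1, hdeg, ← hχ']
      exact (hd χ').symm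
    exact_mod_cast h3
  have hmχ : m χ' ≠ 0 := by
    intro h
    apply hne
    rw [← hχ', hm χ', h, Nat.cast_zero]
  rw [← Finset.add_sum_erase Finset.univ _ (Finset.mem_univ χ')] at h2
  have h3 : d χ' ≤ m χ' * d χ' := Nat.le_mul_of_pos_left _ (Nat.pos_of_ne_zero hmχ)
  have h4 : ∑ φ ∈ Finset.univ.erase χ', m φ * d φ = 0 := by omega
  have h5 : m χ' * d χ' = d χ' := by omega
  have hm1 : m χ' = 1 := by
    have h6 : m χ' * d χ' = 1 * d χ' := by rw [h5, one_mul]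
    exact Nat.eq_of_mul_eq_mul_right (Nat.pos_of_ne_zero (hd0 χ')) h6
  have hm0 : ∀ φ : Cfsg.IrrCharacter G, φ ≠ χ' → m φ = 0 := by
    intro φ hφ
    have h6 := (Finset.sum_eq_zero_iff.mp h4) φ (Finset.mem_erase.mpr ⟨hφ, Finset.mem_univ _⟩)
    rcases Nat.mul_eq_zero.mp h6 with h | h
    · exact h
    · exact absurd h (hd0 φ)
  rw [hexp, ← Finset.add_sum_erase Finset.univ _ (Finset.mem_univ χ'), Finset.sum_eq_zero,
    add_zero, hm, hm1, Nat.cast_one, one_smul, hχ']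
  intro φ hφ
  rw [hm, hm0 φ (Finset.mem_erase.mp hφ).1, Nat.cast_zero, zero_smul]

section
variable {F : Type u} [Field F]

local notation "GLF" => Matrix.GeneralLinearGroup (Fin 2) F
local notation "MF" => Matrix (Fin 2) (Fin 2) F

theorem h8_sum_chi_UU [Fintype F] [DecidableEq F] {χ : GLF → ℂ}
    (hcf : Cfsg.IsClassFunction GLF χ) :
    ∑ b : F, χ (h8UU b) = χ 1 + ((Fintype.card F : ℂ) - 1) * χ (h8UU 1) := by
  have hterm : ∀ b : F, χ (h8UU b)
      = χ (h8UU 1) + (if b = 0 then χ 1 - χ (h8UU 1) else 0) := by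
    intro b
    by_cases hb : b = 0
    · rw [if_pos hb, hb, h8UU_zero]; ring
    · rw [if_neg hb, add_zero, h8_chi_UU hcf b hb]
  rw [Finset.sum_congr rfl (fun b _ => hterm b), Finset.sum_add_distrib, Finset.sum_const,
    Finset.card_univ, nsmul_eq_mul, Finset.sum_ite_eq' Finset.univ (0 : F),
    if_pos (Finset.mem_univ _)]
  ring

theorem h8_gl2_vanish_split [Fintype F] [DecidableEq F] {χ : GLF → ℂ}
    (hχ : Cfsg.IsIrrCharacter GLF χ)
    (h0 : χ 1 + ((Fintype.card F : ℂ) - 1) * χ (h8UU 1) = 0) (g : GLF)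
    (h01 : (g : MF) 0 1 = 0) (h10 : (g : MF) 1 0 = 0) (hne : (g : MF) 0 0 ≠ (g : MF) 1 1) :
    χ g = 0 := by
  classical
  have hcf := Cfsg.Agent.Lib.Lead.isClassFunction_of_isCharacter
    (Cfsg.Agent.Lib.Lead.isCharacter_of_isIrrCharacter hχ)
  have hsumU := h8_sum_chi_UU hcf
  rw [h0] at hsumU
  have hQ0 : (Fintype.card F : ℂ) ≠ 0 := by
    have : Fintype.card F ≠ 0 := Fintype.card_ne_zero
    exact_mod_cast this
  obtain ⟨a, b₀, c₀, d, hg⟩ : ∃ a b c d : F, (g : MF) = !![a, b; c, d] :=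
    ⟨_, _, _, _, Matrix.eta_fin_two _⟩
  have hb0 : b₀ = 0 := by rw [hg] at h01; exact h01
  have hc0 : c₀ = 0 := by rw [hg] at h10; exact h10
  subst hb0
  subst hc0
  have had : d - a ≠ 0 := by
    rw [hg] at hne
    intro h
    apply hne
    show a = d
    linear_combination -h
  obtain ⟨l, hl⟩ : ∃ l : F, l * (d - a) = 1 := ⟨(d - a)⁻¹, inv_mul_cancel₀ had⟩
  have hconj : ∀ b : F, χ (g * h8UU b) = χ g := by
    intro b
    have h5 : g * h8UU b = h8UU (a * b * l) * g * (h8UU (a * b * l))⁻¹ := by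
      apply eq_mul_inv_of_mul_eq
      apply Units.ext
      rw [Units.val_mul, Units.val_mul, Units.val_mul, hg, h8UU_val, h8UU_val,
        Matrix.mul_fin_two, Matrix.mul_fin_two, Matrix.mul_fin_two]
      refine h8_fin_two_congr ?_ ?_ ?_ ?_
      · ring
      · linear_combination (-(a * b)) * hl
      · ring
      · ring
    rw [h5]
    exact hcf _ _
  obtain ⟨n, ρ, hirr, rfl⟩ := hχ
  haveI := hirr
  obtain ⟨A, hA⟩ : ∃ A : Module.End ℂ (Fin n → ℂ), A = ∑ b : F, ρ (h8UU b) := ⟨_, rfl⟩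
  have hAA : A * A = (Fintype.card F : ℂ) • A := by
    rw [hA, Finset.sum_mul_sum]
    have h6 : ∀ b : F, ∑ b' : F, ρ (h8UU b) * ρ (h8UU b') = ∑ c : F, ρ (h8UU c) := by
      intro b
      have h7 : ∀ b' : F, ρ (h8UU b) * ρ (h8UU b') = ρ (h8UU (b + b')) := by
        intro b'
        rw [← map_mul, ← h8UU_add]
      rw [Finset.sum_congr rfl (fun b' _ => h7 b')]
      exact Fintype.sum_equiv (Equiv.addLeft b) _ _ (fun _ => rfl)
    rw [Finset.sum_congr rfl (fun b _ => h6 b), Finset.sum_const, Finset.card_univ,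
      Nat.cast_smul_eq_nsmul]
  have htrA : LinearMap.trace ℂ (Fin n → ℂ) A = 0 := by
    rw [hA, map_sum]
    exact hsumU
  have he : IsIdempotentElem ((Fintype.card F : ℂ)⁻¹ • A) := by
    show ((Fintype.card F : ℂ)⁻¹ • A) * ((Fintype.card F : ℂ)⁻¹ • A)
      = (Fintype.card F : ℂ)⁻¹ • A
    rw [smul_mul_assoc, mul_smul_comm, hAA, smul_smul, smul_smul]
    congr 1
    field_simp
  have htr : LinearMap.trace ℂ (Fin n → ℂ) ((Fintype.card F : ℂ)⁻¹ • A) = 0 := by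
    rw [map_smul, htrA, smul_zero]
  have he0 := LinearMap.IsIdempotentElem.eq_zero_of_trace_eq_zero he htr
  have hA0 : A = 0 := by
    rcases smul_eq_zero.mp he0 with h | h
    · exact absurd h (inv_ne_zero hQ0)
    · exact h
  have h8 : ∑ b : F, ρ.character (g * h8UU b)
      = LinearMap.trace ℂ (Fin n → ℂ) (ρ g * A) := by
    rw [hA, Finset.mul_sum, map_sum]
    refine Finset.sum_congr rfl (fun b _ => ?_)
    rw [← map_mul]
    rfl
  rw [hA0, mul_zero, map_zero, Finset.sum_congr rfl (fun b _ => hconj b), Finset.sum_const,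
    Finset.card_univ, nsmul_eq_mul] at h8
  rcases mul_eq_zero.mp h8 with h | h
  · exact absurd h hQ0
  · exact h

theorem h8_s2309_p1 [Fintype F] [DecidableEq F] (χ : GLF → ℂ)
    (hχ : Cfsg.IsIrrCharacter GLF χ) (g : GLF)
    (hdeg : χ 1 = (Fintype.card F : ℂ) - 1)
    (h01 : (g : MF) 0 1 = 0) (h10 : (g : MF) 1 0 = 0) (hne : (g : MF) 0 0 ≠ (g : MF) 1 1) :
    χ g = 0 := by
  classical
  by_cases hq : 3 ≤ Fintype.card F
  · have hu := (h8_s2310_aux hq χ hχ).2.2.1 hdeg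
    apply h8_gl2_vanish_split hχ _ g h01 h10 hne
    rw [hu, hdeg]
    ring
  · exfalso
    have hq1 : 1 < Fintype.card F := Fintype.one_lt_card
    have hq2 : Fintype.card F = 2 := by omega
    have hsub : Subsingleton Fˣ := Fintype.card_le_one_iff_subsingleton.mp (by
      rw [← Nat.card_eq_fintype_card, Nat.card_units, Nat.card_eq_fintype_card, hq2])
    have hdet : (g : MF) 0 0 * (g : MF) 1 1 ≠ 0 := by
      have h1 : IsUnit ((g : GLF) : MF) := g.isUnit
      have h2 := ((Matrix.isUnit_iff_isUnit_det _).mp h1).ne_zero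
      rw [Matrix.det_fin_two, h01, zero_mul, sub_zero] at h2
      exact h2
    have h3 := congrArg Units.val (Subsingleton.elim (Units.mk0 _ (left_ne_zero_of_mul hdet))
      (Units.mk0 _ (right_ne_zero_of_mul hdet)))
    exact hne h3

theorem h8_borelGL_diagHom (Bt : Subgroup GLF)
    (hBt : ∀ g : GLF, g ∈ Bt ↔ (g : MF) 1 0 = 0) :
    ∃ dd : Bt →* Fˣ × Fˣ, ∀ b : Bt, ((dd b).1 : F) = ((b : GLF) : MF) 0 0 ∧
      ((dd b).2 : F) = ((b : GLF) : MF) 1 1 := by
  have hne : ∀ b : Bt, ((b : GLF) : MF) 0 0 ≠ 0 ∧ ((b : GLF) : MF) 1 1 ≠ 0 := by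
    intro b
    have h1 : IsUnit ((b : GLF) : MF) := (b : GLF).isUnit
    have h2 := ((Matrix.isUnit_iff_isUnit_det _).mp h1).ne_zero
    rw [Matrix.det_fin_two, (hBt _).mp b.2, mul_zero, sub_zero] at h2
    exact ⟨left_ne_zero_of_mul h2, right_ne_zero_of_mul h2⟩
  let d₀ : Bt →* Fˣ :=
    { toFun := fun b => Units.mk0 (((b : GLF) : MF) 0 0) (hne b).1
      map_one' := by
        apply Units.ext
        show (((1 : Bt) : GLF) : MF) 0 0 = 1
        simp
      map_mul' := by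
        intro b b'
        apply Units.ext
        show (((b * b' : Bt) : GLF) : MF) 0 0 = ((b : GLF) : MF) 0 0 * ((b' : GLF) : MF) 0 0
        rw [Subgroup.coe_mul, Units.val_mul, Matrix.mul_apply, Fin.sum_univ_two,
          (hBt _).mp b'.2, mul_zero, add_zero] }
  let d₁ : Bt →* Fˣ :=
    { toFun := fun b => Units.mk0 (((b : GLF) : MF) 1 1) (hne b).2
      map_one' := by
        apply Units.ext
        show (((1 : Bt) : GLF) : MF) 1 1 = 1
        simp
      map_mul' := by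
        intro b b'
        apply Units.ext
        show (((b * b' : Bt) : GLF) : MF) 1 1 = ((b : GLF) : MF) 1 1 * ((b' : GLF) : MF) 1 1
        rw [Subgroup.coe_mul, Units.val_mul, Matrix.mul_apply, Fin.sum_univ_two,
          (hBt _).mp b.2, zero_mul, zero_add] }
  exact ⟨d₀.prod d₁, fun b => ⟨rfl, rfl⟩⟩

theorem h8_gl2_elliptic_not_conj_borel (g x : GLF)
    (hnov : ∀ (c : F) (v : Fin 2 → F), v ≠ 0 → (g : MF).mulVec v ≠ c • v) :
    ((x⁻¹ * g * x : GLF) : MF) 1 0 ≠ 0 := by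
  obtain ⟨a, b, γ, d, hgm⟩ : ∃ a b γ d : F, (g : MF) = !![a, b; γ, d] :=
    ⟨_, _, _, _, Matrix.eta_fin_two _⟩
  obtain ⟨s, t, c, e, hx⟩ : ∃ s t c e : F, (x : MF) = !![s, t; c, e] :=
    ⟨_, _, _, _, Matrix.eta_fin_two _⟩
  have hdet := h8_gl2_det_ne_zero x s t c e hx
  obtain ⟨l, hl⟩ : ∃ l : F, l * (s * e - t * c) = 1 := ⟨_, inv_mul_cancel₀ hdet⟩
  rw [h8_gl2_conj10 x g s t c e l a b γ d hx hl hgm]
  intro h0
  rw [hgm] at hnov
  apply hnov (l * (e * a * s + e * b * c - t * γ * s - t * d * c)) ![s, c]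
  · intro hv
    have hs : s = 0 := by have := congrFun hv 0; simpa using this
    have hc : c = 0 := by have := congrFun hv 1; simpa using this
    rw [hs, hc] at hl
    simp at hl
  · funext i
    fin_cases i
    · simp [Matrix.mulVec, dotProduct, Fin.sum_univ_two]
      linear_combination (-(a * s + b * c)) * hl + t * h0
    · simp [Matrix.mulVec, dotProduct, Fin.sum_univ_two]
      linear_combination (-(γ * s + d * c)) * hl + e * h0

theorem h8_s2309_p2 [Fintype F] [DecidableEq F] (χ : GLF → ℂ)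
    (hχ : Cfsg.IsIrrCharacter GLF χ) (g : GLF)
    (hdeg : χ 1 = (Fintype.card F : ℂ) + 1)
    (hnov : ∀ (c : F) (v : Fin 2 → F), v ≠ 0 → (g : MF).mulVec v ≠ c • v) : χ g = 0 := by
  classical
  have hchar := Cfsg.Agent.Lib.Lead.isCharacter_of_isIrrCharacter hχ
  have hcf := Cfsg.Agent.Lib.Lead.isClassFunction_of_isCharacter hchar
  have hq1 : 1 < Fintype.card F := Fintype.one_lt_card
  have hQ0 : (Fintype.card F : ℂ) ≠ 0 := by
    have : Fintype.card F ≠ 0 := Fintype.card_ne_zero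
    exact_mod_cast this
  have hQ1 : (Fintype.card F : ℂ) - 1 ≠ 0 := by
    intro h
    have h' : (Fintype.card F : ℂ) = ((1 : ℕ) : ℂ) := by
      rw [Nat.cast_one]; linear_combination h
    have := Nat.cast_injective h'
    omega
  by_cases hq : 3 ≤ Fintype.card F
  swap
  · exfalso
    have hq2' : Fintype.card F = 2 := by omega
    have hsum := Cfsg.Agent.Lib.Lead.sum_norm_sq_irr hχ
    have hcard : (Nat.card GLF : ℝ) = 6 := by
      rw [h8_card_GL2, hq2']; norm_num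
    have h1 : ‖χ 1‖ ^ 2 ≤ ∑ g : GLF, ‖χ g‖ ^ 2 :=
      Finset.single_le_sum (f := fun g : GLF => ‖χ g‖ ^ 2) (fun g _ => sq_nonneg _)
        (Finset.mem_univ 1)
    rw [hsum, hcard, hdeg, hq2'] at h1
    have h3 : ‖(((2 : ℕ) : ℂ) + 1)‖ = 3 := by
      have h4 : (((2 : ℕ) : ℂ) + 1) = ((3 : ℕ) : ℂ) := by push_cast; norm_num
      rw [h4, Complex.norm_natCast]; norm_num
    rw [h3] at h1
    norm_num at h1
  have hu := (h8_s2310_aux hq χ hχ).2.1 hdeg
  have hsumU := h8_sum_chi_UU hcf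
  rw [hu, hdeg] at hsumU
  have hsumU0 : ∑ b : F, χ (h8UU b) ≠ 0 := by
    rw [hsumU]
    intro h
    apply hQ0
    linear_combination (1 / 2 : ℂ) * h
  obtain ⟨Bt, hBt⟩ : ∃ Bt : Subgroup GLF, ∀ g : GLF, g ∈ Bt ↔ (g : MF) 1 0 = 0 :=
    ⟨Cfsg.upperTriangularGL 2 F, h8_mem_borelGL_iff⟩
  obtain ⟨dd, hdd⟩ := h8_borelGL_diagHom Bt hBt
  letI : Fintype (dd.ker) := Fintype.ofFinite _
  have hab : ∀ x y : Bt, x * y * x⁻¹ * y⁻¹ ∈ dd.ker := by
    intro x y
    rw [MonoidHom.mem_ker, map_mul, map_mul, map_mul, map_inv, map_inv,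
      mul_comm (dd x) (dd y)]
    group
  obtain ⟨β, hβ⟩ : ∃ β : Bt → ℂ, β = fun b : Bt => χ (b : GLF) := ⟨_, rfl⟩
  have hβchar : Cfsg.IsCharacter Bt β := by
    rw [hβ]
    exact Cfsg.Agent.Lib.Lead.isCharacter_res Bt hchar
  have hβcf := Cfsg.Agent.Lib.Lead.isClassFunction_of_isCharacter hβchar
  have hsumN : ∑ n : dd.ker, β (n : Bt) = ∑ b : F, χ (h8UU b) := by
    have hmemB : ∀ b : F, h8UU b ∈ Bt := fun b => (hBt _).mpr (by rw [h8UU_val]; rfl)
    have hmemK : ∀ b : F, (⟨h8UU b, hmemB b⟩ : Bt) ∈ dd.ker := by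
      intro b
      rw [MonoidHom.mem_ker]
      refine Prod.ext (Units.ext ?_) (Units.ext ?_)
      · rw [(hdd _).1]
        show ((h8UU b : GLF) : MF) 0 0 = 1
        rw [h8UU_val]; rfl
      · rw [(hdd _).2]
        show ((h8UU b : GLF) : MF) 1 1 = 1
        rw [h8UU_val]; rfl
    have hbij : Function.Bijective
        (fun b : F => (⟨⟨h8UU b, hmemB b⟩, hmemK b⟩ : dd.ker)) := by
      constructor
      · intro b b' h
        have h1 : ((h8UU b : GLF) : MF) = ((h8UU b' : GLF) : MF) :=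
          congrArg (fun n : dd.ker => (((n : Bt) : GLF) : MF)) h
        rw [h8UU_val, h8UU_val] at h1
        exact (h8_fin_two_inj h1).2.1
      · rintro ⟨⟨x, hx⟩, hn⟩
        obtain ⟨a, b, c, d, hxm⟩ : ∃ a b c d : F, (x : MF) = !![a, b; c, d] :=
          ⟨_, _, _, _, Matrix.eta_fin_two _⟩
        have hc : c = 0 := by
          have h1 := (hBt x).mp hx
          rw [hxm] at h1
          exact h1
        rw [MonoidHom.mem_ker] at hn
        have ha : a = 1 := by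
          have h1 := (hdd ⟨x, hx⟩).1
          rw [hn] at h1
          have h2 : (((⟨x, hx⟩ : Bt) : GLF) : MF) 0 0 = a := by
            show (x : MF) 0 0 = a
            rw [hxm]; rfl
          rw [h2] at h1
          exact h1.symm
        have hd : d = 1 := by
          have h1 := (hdd ⟨x, hx⟩).2
          rw [hn] at h1
          have h2 : (((⟨x, hx⟩ : Bt) : GLF) : MF) 1 1 = d := by
            show (x : MF) 1 1 = d
            rw [hxm]; rfl
          rw [h2] at h1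
          exact h1.symm
        refine ⟨b, ?_⟩
        apply Subtype.ext
        apply Subtype.ext
        apply Units.ext
        show ((h8UU b : GLF) : MF) = (x : MF)
        rw [h8UU_val, hxm, ha, hc, hd]
    rw [← hbij.sum_comp (fun n : dd.ker => β (n : Bt))]
    refine Finset.sum_congr rfl (fun b _ => ?_)
    show β ⟨h8UU b, hmemB b⟩ = χ (h8UU b)
    rw [hβ]
  haveI : Finite (Cfsg.IrrCharacter Bt) := Cfsg.Agent.Lib.Lead.irr_finite
  letI : Fintype (Cfsg.IrrCharacter Bt) := Fintype.ofFinite _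
  have hexp := Cfsg.Agent.Lib.Lead.expansion β hβcf
  have hs : ∀ b : Bt, β b
      = ∑ ξ : Cfsg.IrrCharacter Bt, Cfsg.classInner β ξ * (ξ : Bt → ℂ) b := by
    intro b
    have h1 := congrFun hexp b
    rw [Finset.sum_apply] at h1
    simp only [Pi.smul_apply, smul_eq_mul] at h1
    exact h1
  have hsumN' : ∑ n : dd.ker, β (n : Bt) = ∑ ξ : Cfsg.IrrCharacter Bt,
      Cfsg.classInner β ξ * ∑ n : dd.ker, (ξ : Bt → ℂ) (n : Bt) := by
    have h9 : ∀ n : dd.ker, β (n : Bt)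
        = ∑ ξ : Cfsg.IrrCharacter Bt, Cfsg.classInner β ξ * (ξ : Bt → ℂ) (n : Bt) :=
      fun n => hs n
    rw [Finset.sum_congr rfl (fun n _ => h9 n), Finset.sum_comm]
    refine Finset.sum_congr rfl (fun ξ _ => ?_)
    rw [Finset.mul_sum]
  obtain ⟨ξ, hξ1, hξ2⟩ : ∃ ξ : Cfsg.IrrCharacter Bt, Cfsg.classInner β ξ ≠ 0 ∧
      ∑ n : dd.ker, (ξ : Bt → ℂ) (n : Bt) ≠ 0 := by
    by_contra hcon
    push Not at hcon
    apply hsumU0
    rw [← hsumN, hsumN']
    refine Finset.sum_eq_zero (fun ξ _ => ?_)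
    by_cases h : Cfsg.classInner β ξ = 0
    · rw [h, zero_mul]
    · rw [hcon ξ h, mul_zero]
  have hnorm1 := Cfsg.Agent.Lib.Lead.norm_eq_one_of_over_one dd.ker hab ξ.2 hξ2 1
  obtain ⟨k, hk⟩ := Cfsg.Agent.Lib.Lead.irr_one_eq_natCast ξ
  have hk1 : k = 1 := by
    rw [hk, Complex.norm_natCast] at hnorm1
    exact_mod_cast hnorm1
  have hξone : (ξ : Bt → ℂ) 1 = 1 := by rw [hk, hk1, Nat.cast_one]
  obtain ⟨Φ, hΦ⟩ : ∃ Φ : GLF → ℂ, Φ = Cfsg.indFun Bt (ξ : Bt → ℂ) := ⟨_, rfl⟩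
  have hΦchar : Cfsg.IsCharacter GLF Φ := by
    rw [hΦ]
    exact Cfsg.Agent.Lib.Lead.isCharacter_indFun Bt
      (Cfsg.Agent.Lib.Lead.isCharacter_of_isIrrCharacter ξ.2)
  have hidx : (Bt.index : ℂ) = (Fintype.card F : ℂ) + 1 := by
    have h1 := Subgroup.card_mul_index Bt
    have h2 : (Nat.card Bt : ℂ) * (Bt.index : ℂ) = (Nat.card GLF : ℂ) := by exact_mod_cast h1
    have hc1 : (((Fintype.card F ^ 2 - 1) * (Fintype.card F ^ 2 - Fintype.card F) : ℕ) : ℂ)
        = ((Fintype.card F : ℂ) ^ 2 - 1)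
          * ((Fintype.card F : ℂ) ^ 2 - (Fintype.card F : ℂ)) := by
      rw [Nat.cast_mul, Nat.cast_sub (Nat.one_le_pow _ _ Fintype.card_pos),
        Nat.cast_sub (Nat.le_self_pow two_ne_zero _), Nat.cast_pow, Nat.cast_one]
    rw [h8_borelGL_card Bt hBt, h8_card_GL2, hc1] at h2
    have h3 : ((Fintype.card F : ℂ) - 1) * ((Fintype.card F : ℂ) - 1) * (Fintype.card F : ℂ)
        ≠ 0 := mul_ne_zero (mul_ne_zero hQ1 hQ1) hQ0
    apply mul_left_cancel₀ h3
    rw [h2]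
    ring
  have hΦ1 : Φ 1 = χ 1 := by
    rw [hΦ, Cfsg.Agent.Lib.Lead.indFun_one, hidx, hξone, mul_one, hdeg]
  have hΦχ : Cfsg.classInner Φ χ ≠ 0 := by
    rw [hΦ, Cfsg.Agent.Lib.Helper2.frobenius_reciprocity Bt (ξ : Bt → ℂ) χ hcf]
    have h1 : (fun h : Bt => χ (h : GLF)) = β := hβ.symm
    rw [h1, Cfsg.Agent.Lib.Lead.classInner_conj_symm β ξ]
    intro h
    exact hξ1 ((map_eq_zero _).mp h)
  have heq := h8_eq_of_constituent_degree hΦchar hχ hΦχ hΦ1
  rw [← heq, hΦ]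
  show (Nat.card Bt : ℂ)⁻¹ * ∑ x : GLF, Cfsg.extendByZero Bt (ξ : Bt → ℂ) (x⁻¹ * g * x) = 0
  rw [Finset.sum_eq_zero, mul_zero]
  intro x _
  apply Cfsg.Agent.Lib.Helper2.extendByZero_not_mem
  rw [hBt]
  exact h8_gl2_elliptic_not_conj_borel g x hnov

theorem h8_s2309 [Fintype F] (χ : GLF → ℂ) (hχ : Cfsg.IsIrrCharacter GLF χ) (g : GLF) :
    (χ 1 = (Fintype.card F : ℂ) - 1 → (g : MF) 0 1 = 0 → (g : MF) 1 0 = 0 →
      (g : MF) 0 0 ≠ (g : MF) 1 1 → χ g = 0) ∧
    (χ 1 = (Fintype.card F : ℂ) + 1 →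
      (∀ (c : F) (v : Fin 2 → F), v ≠ 0 → (g : MF).mulVec v ≠ c • v) → χ g = 0) := by
  classical
  exact ⟨fun hdeg h01 h10 hne => h8_s2309_p1 χ hχ g hdeg h01 h10 hne,
    fun hdeg hnov => h8_s2309_p2 χ hχ g hdeg hnov⟩

end

end Cfsg.Agent.Lib.Helper8
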