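import Mathlib
import Cfsg.Prelude.Def_Characters
import Cfsg.Prelude.Def_ParabolicCharacters
import Cfsg.Agent.Lib.Helper8.GL2Cusp
import Cfsg.Agent.Lib.Lead.CharNorm

set_option autoImplicit false
set_option linter.style.haveILetI false
set_option linter.unusedSectionVars false
set_option linter.unusedVariables false

universe u

namespace Cfsg.Agent.Lib.Helper8

open Matrix
open scoped ComplexConjugate

theorem h8_linear_norm {G : Type u} [Group G] [Fintype G] {ψ : G → ℂ}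
    (hψ : Cfsg.IsIrrCharacter G ψ) (h1 : ψ 1 = 1) (x : G) : ‖ψ x‖ = 1 := by
  have hsum := Cfsg.Agent.Lib.Lead.sum_norm_sq_irr hψ
  have hle : ∀ g : G, ‖ψ g‖ ≤ 1 := by
    intro g
    have h2 := Cfsg.Agent.Lib.Lead.norm_irr_le (⟨ψ, hψ⟩ : Cfsg.IrrCharacter G) g
    have h3 : ‖ψ 1‖ = 1 := by rw [h1, norm_one]
    calc ‖ψ g‖ ≤ ‖ψ 1‖ := h2
      _ = 1 := h3
  have h0 : ∑ g : G, (1 - ‖ψ g‖ ^ 2) = 0 := by
    rw [Finset.sum_sub_distrib, hsum, Finset.sum_const, Finset.card_univ, nsmul_eq_mul, mul_one,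
      Nat.card_eq_fintype_card, sub_self]
  have h3 := (Finset.sum_eq_zero_iff_of_nonneg (fun g _ => by
    have h4 := hle g
    have h5 := norm_nonneg (ψ g)
    nlinarith)).mp h0 x (Finset.mem_univ x)
  have h4 := hle x
  have h5 := norm_nonneg (ψ x)
  nlinarith

theorem h8_decomp_plus_one {G : Type u} [Group G] [Fintype G] {Φ χ : G → ℂ}
    (hΦ : Cfsg.IsCharacter G Φ) (hχ : Cfsg.IsIrrCharacter G χ)
    (hne : Cfsg.classInner Φ χ ≠ 0) (hdeg : Φ 1 = χ 1 + 1) (h2 : χ 1 ≠ 1) :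
    ∃ ψ : G → ℂ, Cfsg.IsIrrCharacter G ψ ∧ ψ 1 = 1 ∧ Φ = χ + ψ := by
  classical
  haveI : Finite (Cfsg.IrrCharacter G) := Cfsg.Agent.Lib.Lead.irr_finite
  letI : Fintype (Cfsg.IrrCharacter G) := Fintype.ofFinite _
  have hm : ∀ φ : Cfsg.IrrCharacter G, ∃ k : ℕ, Cfsg.classInner Φ φ = (k : ℂ) := fun φ =>
    Cfsg.Agent.Lib.Lead.classInner_isCharacter_nat hΦ
      (Cfsg.Agent.Lib.Lead.isCharacter_of_isIrrCharacter φ.2)
  choose m hm using hm
  have hd : ∀ φ : Cfsg.IrrCharacter G, ∃ k : ℕ, (φ : G → ℂ) 1 = (k : ℂ) := fun φ =>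
    Cfsg.Agent.Lib.Lead.irr_one_eq_natCast φ
  choose d hd using hd
  have hd0 : ∀ φ : Cfsg.IrrCharacter G, d φ ≠ 0 := by
    intro φ h
    apply Cfsg.Agent.Lib.Lead.isIrrCharacter_one_ne_zero φ.2
    rw [hd, h, Nat.cast_zero]
  have hexp := Cfsg.Agent.Lib.Lead.expansion Φ
    (Cfsg.Agent.Lib.Lead.isClassFunction_of_isCharacter hΦ)
  have h1 := congrFun hexp 1
  rw [Finset.sum_apply] at h1
  simp only [Pi.smul_apply, smul_eq_mul, hm, hd] at h1
  obtain ⟨χ', hχ'⟩ : ∃ χ' : Cfsg.IrrCharacter G, (χ' : G → ℂ) = χ := ⟨⟨χ, hχ⟩, rfl⟩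
  have hdχ : d χ' ≠ 1 := by
    intro h
    apply h2
    rw [← hχ', hd, h, Nat.cast_one]
  have h2' : d χ' + 1 = ∑ φ : Cfsg.IrrCharacter G, m φ * d φ := by
    have h3 : ((d χ' + 1 : ℕ) : ℂ) = ((∑ φ : Cfsg.IrrCharacter G, m φ * d φ : ℕ) : ℂ) := by
      push_cast
      rw [← h1, hdeg, ← hχ', hd χ']
    exact_mod_cast h3
  have hmχ : m χ' ≠ 0 := by
    intro h
    apply hne
    rw [← hχ', hm χ', h, Nat.cast_zero]
  rw [← Finset.add_sum_erase Finset.univ _ (Finset.mem_univ χ')] at h2'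
  have hdχ0 := hd0 χ'
  have hm1 : m χ' = 1 := by
    by_contra hcon
    have h3 : 2 ≤ m χ' := by omega
    have h4 : 2 * d χ' ≤ m χ' * d χ' := Nat.mul_le_mul_right (d χ') h3
    omega
  rw [hm1, one_mul] at h2'
  have hS : ∑ φ ∈ Finset.univ.erase χ', m φ * d φ = 1 := by omega
  obtain ⟨φ₀, hφ₀mem, hφ₀⟩ : ∃ φ₀ ∈ Finset.univ.erase χ', m φ₀ * d φ₀ ≠ 0 :=
    Finset.exists_ne_zero_of_sum_ne_zero (by rw [hS]; exact one_ne_zero)
  rw [← Finset.add_sum_erase _ _ hφ₀mem] at hS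
  have hS0 : ∑ φ ∈ (Finset.univ.erase χ').erase φ₀, m φ * d φ = 0 := by omega
  have hmd : m φ₀ * d φ₀ = 1 := by omega
  have hmφ₀ : m φ₀ = 1 := Nat.eq_one_of_mul_eq_one_right hmd
  have hdφ₀ : d φ₀ = 1 := Nat.eq_one_of_mul_eq_one_left hmd
  have hm0 : ∀ φ ∈ (Finset.univ.erase χ').erase φ₀, m φ = 0 := by
    intro φ hφ
    have h6 := (Finset.sum_eq_zero_iff.mp hS0) φ hφ
    rcases Nat.mul_eq_zero.mp h6 with h | h
    · exact h
    · exact absurd h (hd0 φ)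
  refine ⟨φ₀, φ₀.2, by rw [hd, hdφ₀, Nat.cast_one], ?_⟩
  rw [hexp, ← Finset.add_sum_erase Finset.univ _ (Finset.mem_univ χ'),
    ← Finset.add_sum_erase _ _ hφ₀mem, Finset.sum_eq_zero, add_zero, hm, hm1, Nat.cast_one,
    one_smul, hm, hmφ₀, Nat.cast_one, one_smul, hχ']
  intro φ hφ
  rw [hm, hm0 φ hφ, Nat.cast_zero, zero_smul]

section
variable {F : Type u} [Field F]

local notation "GLF" => Matrix.GeneralLinearGroup (Fin 2) F
local notation "MF" => Matrix (Fin 2) (Fin 2) F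

theorem h8_gl2_deg_q_u [Fintype F] [DecidableEq F] (χ : GLF → ℂ)
    (hχ : Cfsg.IsIrrCharacter GLF χ) (hdeg : χ 1 = (Fintype.card F : ℂ)) :
    χ (h8UU 1) = 0 := by
  classical
  by_cases hq : 3 ≤ Fintype.card F
  · exact (h8_s2310_aux hq χ hχ).2.2.2 hdeg
  · have hq1 : 1 < Fintype.card F := Fintype.one_lt_card
    have hq2 : Fintype.card F = 2 := by omega
    have hchar := Cfsg.Agent.Lib.Lead.isCharacter_of_isIrrCharacter hχ
    obtain ⟨n, hn⟩ := Cfsg.Agent.Lib.Lead.isCharacter_one_eq_natCast hchar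
    obtain ⟨m, m₀, hm, hm₀⟩ := h8_gl2_mult hchar
    have hnorm := h8_gl2_norm hχ
    rw [hq2] at hm hm₀ hnorm hdeg
    have hn2 : n = 2 := by
      rw [hn] at hdeg
      exact_mod_cast hdeg
    subst hn2
    have hc : χ (h8UU 1) = ((2 : ℕ) : ℂ) - ((2 : ℕ) : ℂ) * m := by
      rw [hn] at hm
      linear_combination hm
    have hnat : m₀ + m = 2 := by
      have h1 : ((2 : ℕ) : ℂ) * ((m₀ : ℂ) + (m : ℂ)) = ((2 : ℕ) : ℂ) * ((2 : ℕ) : ℂ) := by
        rw [hn] at hm hm₀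
        linear_combination hm₀ + (((2 : ℕ) : ℂ) - 1) * hm
      have h2 := mul_left_cancel₀ (by norm_num : ((2 : ℕ) : ℂ) ≠ 0) h1
      exact_mod_cast h2
    have hm012 : m = 0 ∨ m = 1 ∨ m = 2 := by omega
    rcases hm012 with h | h | h
    · exfalso
      have h1 : χ (h8UU 1) = χ 1 := by
        rw [hc, hn, h]; simp
      have h2 := h8_gl2_ker hχ h1
      rw [hn] at h2
      norm_num at h2
    · rw [hc, h]; norm_num
    · exfalso
      have hc2 : χ (h8UU 1) = -((2 : ℕ) : ℂ) := by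
        rw [hc, h]; push_cast; ring
      rw [hn, hc2, norm_neg, Complex.norm_natCast] at hnorm
      norm_num at hnorm

theorem h8_gl2_borel_constituent [Fintype F] [DecidableEq F] (χ : GLF → ℂ)
    (hχ : Cfsg.IsIrrCharacter GLF χ) (hsumU0 : ∑ b : F, χ (h8UU b) ≠ 0)
    (Bt : Subgroup GLF) (hBt : ∀ g : GLF, g ∈ Bt ↔ (g : MF) 1 0 = 0) :
    ∃ ξ : Cfsg.IrrCharacter Bt, (ξ : Bt → ℂ) 1 = 1 ∧
      Cfsg.classInner (Cfsg.indFun Bt (ξ : Bt → ℂ)) χ ≠ 0 := by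
  classical
  have hchar := Cfsg.Agent.Lib.Lead.isCharacter_of_isIrrCharacter hχ
  have hcf := Cfsg.Agent.Lib.Lead.isClassFunction_of_isCharacter hchar
  obtain ⟨dd, hdd⟩ := h8_borelGL_diagHom Bt hBt
  letI : Fintype (dd.ker) := Fintype.ofFinite _
  have hab : ∀ x y : Bt, x * y * x⁻¹ * y⁻¹ ∈ dd.ker := by
    intro x y
    rw [MonoidHom.mem_ker, map_mul, map_mul, map_mul, map_inv, map_inv,
      mul_comm (dd x) (dd y)]
    group
  obtain ⟨β, hβ⟩ : ∃ β : Bt → ℂ, β = fun b : Bt => χ (b : GLF) := ⟨_, rfl⟩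
  have hβchar : Cfsg.IsCharacter Bt β := by
    rw [hβ]
    exact Cfsg.Agent.Lib.Lead.isCharacter_res Bt hchar
  have hβcf := Cfsg.Agent.Lib.Lead.isClassFunction_of_isCharacter hβchar
  have hsumN : ∑ n : dd.ker, β (n : Bt) = ∑ b : F, χ (h8UU b) := by
    have hmemB : ∀ b : F, h8UU b ∈ Bt := fun b => (hBt _).mpr (by rw [h8UU_val]; rfl)
    have hmemK : ∀ b : F, (⟨h8UU b, hmemB b⟩ : Bt) ∈ dd.ker := by
      intro b
      rw [MonoidHom.mem_ker]
      refine Prod.ext (Units.ext ?_) (Units.ext ?_)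
      · rw [(hdd _).1]
        show ((h8UU b : GLF) : MF) 0 0 = 1
        rw [h8UU_val]; rfl
      · rw [(hdd _).2]
        show ((h8UU b : GLF) : MF) 1 1 = 1
        rw [h8UU_val]; rfl
    have hbij : Function.Bijective
        (fun b : F => (⟨⟨h8UU b, hmemB b⟩, hmemK b⟩ : dd.ker)) := by
      constructor
      · intro b b' h
        have h1 : ((h8UU b : GLF) : MF) = ((h8UU b' : GLF) : MF) :=
          congrArg (fun n : dd.ker => (((n : Bt) : GLF) : MF)) h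
        rw [h8UU_val, h8UU_val] at h1
        exact (h8_fin_two_inj h1).2.1
      · rintro ⟨⟨x, hx⟩, hn⟩
        obtain ⟨a, b, c, d, hxm⟩ : ∃ a b c d : F, (x : MF) = !![a, b; c, d] :=
          ⟨_, _, _, _, Matrix.eta_fin_two _⟩
        have hc : c = 0 := by
          have h1 := (hBt x).mp hx
          rw [hxm] at h1
          exact h1
        rw [MonoidHom.mem_ker] at hn
        have ha : a = 1 := by
          have h1 := (hdd ⟨x, hx⟩).1
          rw [hn] at h1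
          have h2 : (((⟨x, hx⟩ : Bt) : GLF) : MF) 0 0 = a := by
            show (x : MF) 0 0 = a
            rw [hxm]; rfl
          rw [h2] at h1
          exact h1.symm
        have hd : d = 1 := by
          have h1 := (hdd ⟨x, hx⟩).2
          rw [hn] at h1
          have h2 : (((⟨x, hx⟩ : Bt) : GLF) : MF) 1 1 = d := by
            show (x : MF) 1 1 = d
            rw [hxm]; rfl
          rw [h2] at h1
          exact h1.symm
        refine ⟨b, ?_⟩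
        apply Subtype.ext
        apply Subtype.ext
        apply Units.ext
        show ((h8UU b : GLF) : MF) = (x : MF)
        rw [h8UU_val, hxm, ha, hc, hd]
    rw [← hbij.sum_comp (fun n : dd.ker => β (n : Bt))]
    refine Finset.sum_congr rfl (fun b _ => ?_)
    show β ⟨h8UU b, hmemB b⟩ = χ (h8UU b)
    rw [hβ]
  haveI : Finite (Cfsg.IrrCharacter Bt) := Cfsg.Agent.Lib.Lead.irr_finite
  letI : Fintype (Cfsg.IrrCharacter Bt) := Fintype.ofFinite _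
  have hexp := Cfsg.Agent.Lib.Lead.expansion β hβcf
  have hs : ∀ b : Bt, β b
      = ∑ ξ : Cfsg.IrrCharacter Bt, Cfsg.classInner β ξ * (ξ : Bt → ℂ) b := by
    intro b
    have h1 := congrFun hexp b
    rw [Finset.sum_apply] at h1
    simp only [Pi.smul_apply, smul_eq_mul] at h1
    exact h1
  have hsumN' : ∑ n : dd.ker, β (n : Bt) = ∑ ξ : Cfsg.IrrCharacter Bt,
      Cfsg.classInner β ξ * ∑ n : dd.ker, (ξ : Bt → ℂ) (n : Bt) := by
    have h9 : ∀ n : dd.ker, β (n : Bt)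
        = ∑ ξ : Cfsg.IrrCharacter Bt, Cfsg.classInner β ξ * (ξ : Bt → ℂ) (n : Bt) :=
      fun n => hs n
    rw [Finset.sum_congr rfl (fun n _ => h9 n), Finset.sum_comm]
    refine Finset.sum_congr rfl (fun ξ _ => ?_)
    rw [Finset.mul_sum]
  obtain ⟨ξ, hξ1, hξ2⟩ : ∃ ξ : Cfsg.IrrCharacter Bt, Cfsg.classInner β ξ ≠ 0 ∧
      ∑ n : dd.ker, (ξ : Bt → ℂ) (n : Bt) ≠ 0 := by
    by_contra hcon
    push Not at hcon
    apply hsumU0
    rw [← hsumN, hsumN']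
    refine Finset.sum_eq_zero (fun ξ _ => ?_)
    by_cases h : Cfsg.classInner β ξ = 0
    · rw [h, zero_mul]
    · rw [hcon ξ h, mul_zero]
  have hnorm1 := Cfsg.Agent.Lib.Lead.norm_eq_one_of_over_one dd.ker hab ξ.2 hξ2 1
  obtain ⟨k, hk⟩ := Cfsg.Agent.Lib.Lead.irr_one_eq_natCast ξ
  have hk1 : k = 1 := by
    rw [hk, Complex.norm_natCast] at hnorm1
    exact_mod_cast hnorm1
  refine ⟨ξ, by rw [hk, hk1, Nat.cast_one], ?_⟩
  rw [Cfsg.Agent.Lib.Helper2.frobenius_reciprocity Bt (ξ : Bt → ℂ) χ hcf]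
  have h1 : (fun h : Bt => χ (h : GLF)) = β := hβ.symm
  rw [h1, Cfsg.Agent.Lib.Lead.classInner_conj_symm β ξ]
  intro h
  exact hξ1 ((map_eq_zero _).mp h)

theorem h8_s2320_aux [Fintype F] [DecidableEq F] (χ : GLF → ℂ)
    (hχ : Cfsg.IsIrrCharacter GLF χ) (hdeg : χ 1 = (Fintype.card F : ℂ)) (g : GLF) :
    ((g : MF) 0 1 = 0 → (g : MF) 1 0 = 0 → (g : MF) 0 0 ≠ (g : MF) 1 1 → ‖χ g‖ = 1) ∧
    ((∀ (c : F) (v : Fin 2 → F), v ≠ 0 → (g : MF).mulVec v ≠ c • v) → ‖χ g‖ = 1) := by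
  classical
  have hchar := Cfsg.Agent.Lib.Lead.isCharacter_of_isIrrCharacter hχ
  have hcf := Cfsg.Agent.Lib.Lead.isClassFunction_of_isCharacter hchar
  have hq1 : 1 < Fintype.card F := Fintype.one_lt_card
  have hQ0 : (Fintype.card F : ℂ) ≠ 0 := by
    have : Fintype.card F ≠ 0 := Fintype.card_ne_zero
    exact_mod_cast this
  have hQ1 : (Fintype.card F : ℂ) - 1 ≠ 0 := by
    intro h
    have h' : (Fintype.card F : ℂ) = ((1 : ℕ) : ℂ) := by
      rw [Nat.cast_one]; linear_combination h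
    have := Nat.cast_injective h'
    omega
  have hu := h8_gl2_deg_q_u χ hχ hdeg
  have hsumU := h8_sum_chi_UU hcf
  rw [hu, hdeg, mul_zero, add_zero] at hsumU
  have hsumU0 : ∑ b : F, χ (h8UU b) ≠ 0 := by
    rw [hsumU]; exact hQ0
  obtain ⟨Bt, hBt⟩ : ∃ Bt : Subgroup GLF, ∀ g : GLF, g ∈ Bt ↔ (g : MF) 1 0 = 0 :=
    ⟨Cfsg.upperTriangularGL 2 F, h8_mem_borelGL_iff⟩
  have hBt0 : (Nat.card Bt : ℂ) ≠ 0 := by exact_mod_cast (Nat.card_pos (α := Bt)).ne'
  obtain ⟨ξ, hξone, hΦχ⟩ := h8_gl2_borel_constituent χ hχ hsumU0 Bt hBt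
  have hcfξ := Cfsg.Agent.Lib.Lead.isClassFunction_of_isCharacter
    (Cfsg.Agent.Lib.Lead.isCharacter_of_isIrrCharacter ξ.2)
  obtain ⟨Φ, hΦ⟩ : ∃ Φ : GLF → ℂ, Φ = Cfsg.indFun Bt (ξ : Bt → ℂ) := ⟨_, rfl⟩
  rw [← hΦ] at hΦχ
  have hΦchar : Cfsg.IsCharacter GLF Φ := by
    rw [hΦ]
    exact Cfsg.Agent.Lib.Lead.isCharacter_indFun Bt
      (Cfsg.Agent.Lib.Lead.isCharacter_of_isIrrCharacter ξ.2)
  have hidx : (Bt.index : ℂ) = (Fintype.card F : ℂ) + 1 := by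
    have h1 := Subgroup.card_mul_index Bt
    have h2 : (Nat.card Bt : ℂ) * (Bt.index : ℂ) = (Nat.card GLF : ℂ) := by exact_mod_cast h1
    have hc1 : (((Fintype.card F ^ 2 - 1) * (Fintype.card F ^ 2 - Fintype.card F) : ℕ) : ℂ)
        = ((Fintype.card F : ℂ) ^ 2 - 1)
          * ((Fintype.card F : ℂ) ^ 2 - (Fintype.card F : ℂ)) := by
      rw [Nat.cast_mul, Nat.cast_sub (Nat.one_le_pow _ _ Fintype.card_pos),
        Nat.cast_sub (Nat.le_self_pow two_ne_zero _), Nat.cast_pow, Nat.cast_one]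
    rw [h8_borelGL_card Bt hBt, h8_card_GL2, hc1] at h2
    have h3 : ((Fintype.card F : ℂ) - 1) * ((Fintype.card F : ℂ) - 1) * (Fintype.card F : ℂ)
        ≠ 0 := mul_ne_zero (mul_ne_zero hQ1 hQ1) hQ0
    apply mul_left_cancel₀ h3
    rw [h2]
    ring
  have hΦ1 : Φ 1 = χ 1 + 1 := by
    rw [hΦ, Cfsg.Agent.Lib.Lead.indFun_one, hidx, hξone, mul_one, hdeg]
  have hχ1 : χ 1 ≠ 1 := by
    rw [hdeg]
    intro h
    have h' : (Fintype.card F : ℂ) = ((1 : ℕ) : ℂ) := by rw [Nat.cast_one]; exact h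
    have := Nat.cast_injective h'
    omega
  obtain ⟨ψ, hψirr, hψ1, hΦeq⟩ := h8_decomp_plus_one hΦchar hχ hΦχ hΦ1 hχ1
  have hψchar := Cfsg.Agent.Lib.Lead.isCharacter_of_isIrrCharacter hψirr
  have hψcf := Cfsg.Agent.Lib.Lead.isClassFunction_of_isCharacter hψchar
  have hψnorm : ∀ x : GLF, ‖ψ x‖ = 1 := h8_linear_norm hψirr hψ1
  have hχval : ∀ x : GLF, χ x = Φ x - ψ x := by
    intro x
    rw [hΦeq]
    simp
  have hχψ : χ ≠ ψ := by
    intro h
    apply hχ1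
    rw [h, hψ1]
  have hres : (fun b : Bt => ψ (b : GLF)) = (ξ : Bt → ℂ) := by
    apply h8_eq_of_constituent_degree (Cfsg.Agent.Lib.Lead.isCharacter_res Bt hψchar) ξ.2
    · have h1 : Cfsg.classInner Φ ψ = 1 := by
        rw [hΦeq, Cfsg.Agent.Lib.Lead.classInner_add_left,
          Cfsg.Agent.Lib.Lead.irr_orthonormal hχ hψirr,
          Cfsg.Agent.Lib.Lead.irr_orthonormal hψirr hψirr, if_pos rfl, if_neg hχψ, zero_add]
      rw [hΦ, Cfsg.Agent.Lib.Helper2.frobenius_reciprocity Bt (ξ : Bt → ℂ) ψ hψcf] at h1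
      rw [Cfsg.Agent.Lib.Lead.classInner_conj_symm (ξ : Bt → ℂ) (fun b : Bt => ψ (b : GLF)), h1]
      simp
    · show ψ ((1 : Bt) : GLF) = (ξ : Bt → ℂ) 1
      rw [hξone]
      exact hψ1
  refine ⟨?_, ?_⟩
  swap
  · intro hnov
    have hΦg : Φ g = 0 := by
      rw [hΦ]
      show (Nat.card Bt : ℂ)⁻¹ * ∑ x : GLF, Cfsg.extendByZero Bt (ξ : Bt → ℂ) (x⁻¹ * g * x) = 0
      rw [Finset.sum_eq_zero, mul_zero]
      intro x _
      apply Cfsg.Agent.Lib.Helper2.extendByZero_not_mem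
      rw [hBt]
      exact h8_gl2_elliptic_not_conj_borel g x hnov
    rw [hχval, hΦg, zero_sub, norm_neg, hψnorm]
  · intro h01 h10 hne
    obtain ⟨a, b₀, c₀, d, hg⟩ : ∃ a b c d : F, (g : MF) = !![a, b; c, d] :=
      ⟨_, _, _, _, Matrix.eta_fin_two _⟩
    have hb0 : b₀ = 0 := by rw [hg] at h01; exact h01
    have hc0 : c₀ = 0 := by rw [hg] at h10; exact h10
    subst hb0
    subst hc0
    have had : d - a ≠ 0 := by
      rw [hg] at hne
      intro h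
      apply hne
      show a = d
      linear_combination -h
    have hgB : g ∈ Bt := (hBt g).mpr h10
    obtain ⟨w, hw⟩ : ∃ w : GLF, (w : MF) = !![0, 1; 1, 0] :=
      ⟨Matrix.GeneralLinearGroup.mkOfDetNeZero !![0, 1; 1, 0] (by
        rw [Matrix.det_fin_two_of]; simp), rfl⟩
    have hwinv : ((w⁻¹ : GLF) : MF) = !![0, 1; 1, 0] := by
      rw [h8_gl2_coe_inv w 0 1 1 0 (-1) hw (by ring)]
      refine h8_fin_two_congr ?_ ?_ ?_ ?_ <;> ring
    have hg'm : ((w⁻¹ * g * w : GLF) : MF) = !![d, 0; 0, a] := by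
      rw [Units.val_mul, Units.val_mul, hwinv, hg, hw, Matrix.mul_fin_two, Matrix.mul_fin_two]
      refine h8_fin_two_congr ?_ ?_ ?_ ?_ <;> ring
    have hg'B : w⁻¹ * g * w ∈ Bt := (hBt _).mpr (by rw [hg'm]; rfl)
    have hΦg : Φ g = (ξ : Bt → ℂ) ⟨g, hgB⟩ + (ξ : Bt → ℂ) ⟨w⁻¹ * g * w, hg'B⟩ := by
      rw [hΦ]
      show (Nat.card Bt : ℂ)⁻¹ * ∑ x : GLF, Cfsg.extendByZero Bt (ξ : Bt → ℂ) (x⁻¹ * g * x) = _
      have hterm : ∀ x : GLF, Cfsg.extendByZero Bt (ξ : Bt → ℂ) (x⁻¹ * g * x)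
          = (ξ : Bt → ℂ) ⟨g, hgB⟩ * (if (x : MF) 1 0 = 0 then (1 : ℂ) else 0)
            + (ξ : Bt → ℂ) ⟨w⁻¹ * g * w, hg'B⟩ * (if (x : MF) 0 0 = 0 then (1 : ℂ) else 0) := by
        intro x
        obtain ⟨s, t, c, e, hx⟩ : ∃ s t c e : F, (x : MF) = !![s, t; c, e] :=
          ⟨_, _, _, _, Matrix.eta_fin_two _⟩
        have hdet := h8_gl2_det_ne_zero x s t c e hx
        obtain ⟨l, hl⟩ : ∃ l : F, l * (s * e - t * c) = 1 := ⟨_, inv_mul_cancel₀ hdet⟩
        have h10x := h8_gl2_conj10 x g s t c e l a 0 0 d hx hl hg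
        have hl0 : l ≠ 0 := by
          rintro rfl
          simp at hl
        have hx10 : (x : MF) 1 0 = c := by rw [hx]; rfl
        have hx00 : (x : MF) 0 0 = s := by rw [hx]; rfl
        rw [hx10, hx00]
        by_cases hc : c = 0
        · have hs : s ≠ 0 := by
            intro hs0
            rw [hs0, hc] at hl
            simp at hl
          rw [if_pos hc, if_neg hs, mul_one, mul_zero, add_zero]
          have hxB : x ∈ Bt := (hBt x).mpr (by rw [hx10]; exact hc)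
          have hmem : x⁻¹ * g * x ∈ Bt :=
            Bt.mul_mem (Bt.mul_mem (Bt.inv_mem hxB) hgB) hxB
          rw [Cfsg.Agent.Lib.Helper2.extendByZero_mem Bt _ hmem]
          have h5 := hcfξ ⟨g, hgB⟩ (⟨x, hxB⟩⁻¹)
          have hel : (⟨x⁻¹ * g * x, hmem⟩ : Bt)
              = (⟨x, hxB⟩ : Bt)⁻¹ * ⟨g, hgB⟩ * ((⟨x, hxB⟩ : Bt)⁻¹)⁻¹ :=
            Subtype.ext (by
              show x⁻¹ * g * x = x⁻¹ * g * (x⁻¹)⁻¹
              rw [inv_inv])
          rw [hel, h5]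
        · by_cases hs : s = 0
          · rw [if_neg hc, if_pos hs, mul_zero, zero_add, mul_one]
            have hy : ((w⁻¹ * x : GLF) : MF) = !![c, e; s, t] := by
              rw [Units.val_mul, hwinv, hx, Matrix.mul_fin_two]
              refine h8_fin_two_congr ?_ ?_ ?_ ?_ <;> ring
            have hyB : w⁻¹ * x ∈ Bt := (hBt _).mpr (by rw [hy]; exact hs)
            have heq : x⁻¹ * g * x = (w⁻¹ * x)⁻¹ * (w⁻¹ * g * w) * ((w⁻¹ * x)⁻¹)⁻¹ := by
              group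
            have hmem : x⁻¹ * g * x ∈ Bt := by
              rw [heq, inv_inv]
              exact Bt.mul_mem (Bt.mul_mem (Bt.inv_mem hyB) hg'B) hyB
            rw [Cfsg.Agent.Lib.Helper2.extendByZero_mem Bt _ hmem]
            have h5 := hcfξ ⟨w⁻¹ * g * w, hg'B⟩ (⟨w⁻¹ * x, hyB⟩⁻¹)
            have hel : (⟨x⁻¹ * g * x, hmem⟩ : Bt)
                = (⟨w⁻¹ * x, hyB⟩ : Bt)⁻¹ * ⟨w⁻¹ * g * w, hg'B⟩
                  * ((⟨w⁻¹ * x, hyB⟩ : Bt)⁻¹)⁻¹ :=
              Subtype.ext heq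
            rw [hel, h5]
          · rw [if_neg hc, if_neg hs, mul_zero, mul_zero, add_zero]
            apply Cfsg.Agent.Lib.Helper2.extendByZero_not_mem
            rw [hBt, h10x]
            intro h0
            have h5 : l * ((d - a) * c * s) = 0 := by linear_combination h0
            rcases mul_eq_zero.mp h5 with h | h
            · exact hl0 h
            · rcases mul_eq_zero.mp h with h | h
              · rcases mul_eq_zero.mp h with h | h
                · exact had h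
                · exact hc h
              · exact hs h
      rw [Finset.sum_congr rfl (fun x _ => hterm x), Finset.sum_add_distrib, ← Finset.mul_sum,
        ← Finset.mul_sum, h8_sum_borelGL Bt hBt, h8_sum_zero00GL Bt hBt]
      field_simp
    have h1 : (ξ : Bt → ℂ) ⟨g, hgB⟩ = ψ g := by rw [← hres]
    have h2 : (ξ : Bt → ℂ) ⟨w⁻¹ * g * w, hg'B⟩ = ψ g := by
      rw [← hres]
      show ψ (w⁻¹ * g * w) = ψ g
      have h3 := hψcf g w⁻¹
      rw [inv_inv] at h3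
      exact h3
    rw [hχval, hΦg, h1, h2, add_sub_cancel_right, hψnorm]

theorem h8_s2320 [Fintype F] (χ : GLF → ℂ) (hχ : Cfsg.IsIrrCharacter GLF χ)
    (hdeg : χ 1 = (Fintype.card F : ℂ)) (g : GLF) :
    ((g : MF) 0 1 = 0 → (g : MF) 1 0 = 0 → (g : MF) 0 0 ≠ (g : MF) 1 1 → ‖χ g‖ = 1) ∧
    ((∀ (c : F) (v : Fin 2 → F), v ≠ 0 → (g : MF).mulVec v ≠ c • v) → ‖χ g‖ = 1) := by
  classical
  exact h8_s2320_aux χ hχ hdeg g

end

end Cfsg.Agent.Lib.Helper8
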