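import Mathlib
import Cfsg.Agent.Lib.Helper8.CyclicMax

/-! Isaacs–Passman: half-transitive odd `p`-groups of automorphisms are cyclic and
semiregular. -/

set_option autoImplicit false

namespace Cfsg.Agent.Lib.Helper8

universe u v

section
variable {P : Type u} {E : Type v} [Group P] [AddCommGroup E] [DistribMulAction P E]

theorem h8_smul_norm (y : P) (n : ℕ) (hy : y ^ n = 1) (e : E) :
    y • (∑ i ∈ Finset.range n, y ^ i • e) = ∑ i ∈ Finset.range n, y ^ i • e := by
  rw [Finset.smul_sum]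
  have h3 : ∀ i, y • (y ^ i • e) = y ^ (i + 1) • e := by
    intro i; rw [pow_succ', mul_smul]
  simp_rw [h3]
  have h4 := Finset.sum_range_succ (fun i => y ^ i • e) n
  have h5 := Finset.sum_range_succ' (fun i => y ^ i • e) n
  rw [h4] at h5
  simp only [hy, pow_zero] at h5
  exact (add_right_cancel h5).symm

theorem h8_norm_of_fixed (y : P) (n : ℕ) (c : E) (hc : y • c = c) :
    ∑ i ∈ Finset.range n, y ^ i • c = n • c := by
  have h1 : ∀ i : ℕ, y ^ i • c = c := by
    intro i
    induction i with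
    | zero => simp
    | succ i ih => rw [pow_succ, mul_smul, hc, ih]
  simp_rw [h1]
  rw [Finset.sum_const, Finset.card_range]

theorem h8_nsmul_cancel {q : ℕ} (hE : ∀ e : E, q • e = 0) (n : ℕ) (hn : Nat.Coprime n q) (e : E)
    (h : n • e = 0) : e = 0 := by
  have h1 : addOrderOf e ∣ n := addOrderOf_dvd_of_nsmul_eq_zero h
  have h2 : addOrderOf e ∣ q := addOrderOf_dvd_of_nsmul_eq_zero (hE e)
  have h3 : addOrderOf e ∣ 1 := by
    have := Nat.dvd_gcd h1 h2
    rwa [Nat.Coprime.gcd_eq_one hn] at this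
  exact AddMonoid.addOrderOf_eq_one_iff.1 (Nat.dvd_one.1 h3)

theorem h8_central_fpf [Finite P] [FaithfulSMul P E] {p q : ℕ} [Fact p.Prime]
    (hP : IsPGroup p P) (hq : q.Prime) (hpq : p ≠ q) (hE : ∀ e : E, q • e = 0)
    (hconst : ∀ a b : E, a ≠ 0 → b ≠ 0 →
      Nat.card (MulAction.stabilizer P a) = Nat.card (MulAction.stabilizer P b))
    (z : P) (hzc : ∀ g : P, g * z = z * g) (hz1 : z ≠ 1) (a : E) (ha : z • a = a) : a = 0 := by
  by_contra ha0
  have hp : p.Prime := Fact.out
  obtain ⟨o, ho⟩ : ∃ o, o = orderOf z := ⟨_, rfl⟩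
  have hzo : z ^ o = 1 := by rw [ho]; exact pow_orderOf_eq_one z
  have hcop : Nat.Coprime o q := by
    obtain ⟨k, hk⟩ := hP z
    have h1 : o ∣ p ^ k := by rw [ho]; exact orderOf_dvd_of_pow_eq_one hk
    exact Nat.Coprime.coprime_dvd_left h1 (Nat.Coprime.pow_left k ((Nat.coprime_primes hp hq).2 hpq))
  obtain ⟨e₀, he₀⟩ : ∃ e₀ : E, z • e₀ ≠ e₀ := by
    by_contra hno
    push Not at hno
    apply hz1
    apply FaithfulSMul.eq_of_smul_eq_smul (α := E)
    intro e; rw [hno e, one_smul]
  obtain ⟨N, hN⟩ : ∃ N : E → E, ∀ e, N e = ∑ i ∈ Finset.range o, z ^ i • e := ⟨_, fun _ => rfl⟩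
  have hN1 : ∀ e, z • N e = N e := fun e => by rw [hN]; exact h8_smul_norm z o hzo e
  have hN2 : ∀ c, z • c = c → N c = o • c := fun c hc => by
    rw [hN]; exact h8_norm_of_fixed z o c hc
  have hNsub : ∀ e₁ e₂, N (e₁ - e₂) = N e₁ - N e₂ := by
    intro e₁ e₂; simp only [hN, smul_sub, Finset.sum_sub_distrib]
  have hNg : ∀ (g : P) e, N (g • e) = g • N e := by
    intro g e
    simp only [hN, Finset.smul_sum]
    apply Finset.sum_congr rfl
    intro i _
    rw [← mul_smul, ← mul_smul]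
    congr 1
    exact ((show Commute z g from (hzc g).symm).pow_left i).eq
  have hNn : ∀ e, N (o • e) = o • N e := by
    intro e
    simp only [hN]
    rw [← Finset.sum_nsmul]
    apply Finset.sum_congr rfl
    intro i _
    exact smul_comm (z ^ i) o e
  obtain ⟨b, hb⟩ : ∃ b : E, b = o • e₀ - N e₀ := ⟨_, rfl⟩
  have hNb : N b = 0 := by
    rw [hb, hNsub, hNn, hN2 (N e₀) (hN1 e₀), sub_self]
  have hb0 : b ≠ 0 := by
    intro h0
    rw [hb, sub_eq_zero] at h0
    have h1 : z • (o • e₀) = o • e₀ := by rw [h0]; exact hN1 e₀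
    have h2 : o • (z • e₀ - e₀) = 0 := by
      rw [nsmul_sub, ← smul_comm z o e₀, h1, sub_self]
    exact he₀ (sub_eq_zero.1 (h8_nsmul_cancel hE o hcop _ h2))
  have hbfix : ∀ c : E, N c = 0 → z • c = c → c = 0 := by
    intro c hc1 hc2
    have := hN2 c hc2
    rw [hc1] at this
    exact h8_nsmul_cancel hE o hcop c this.symm
  have hab0 : a + b ≠ 0 := by
    intro h0
    have h1 : b = -a := eq_neg_of_add_eq_zero_right h0
    have h2 : z • b = b := by rw [h1, smul_neg, ha]
    exact hb0 (hbfix b hNb h2)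
  have hstab : ∀ g : P, g • (a + b) = a + b → g • a = a ∧ g • b = b := by
    intro g hg
    rw [smul_add] at hg
    obtain ⟨d, hd⟩ : ∃ d : E, d = g • a - a := ⟨_, rfl⟩
    have hd' : d = b - g • b := by
      rw [hd, sub_eq_sub_iff_add_eq_add, hg, add_comm]
    have hdz : z • d = d := by
      rw [hd, smul_sub, ha, ← mul_smul, ← hzc g, mul_smul, ha]
    have hNd : N d = 0 := by
      rw [hd', hNsub, hNg, hNb, smul_zero, sub_zero]
    have hd0 := hbfix d hNd hdz
    constructor
    · rw [hd] at hd0; exact sub_eq_zero.1 hd0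
    · rw [hd'] at hd0; exact (sub_eq_zero.1 hd0).symm
  have h1 : MulAction.stabilizer P (a + b) ≤ MulAction.stabilizer P a := fun g hg =>
    MulAction.mem_stabilizer_iff.2 (hstab g (MulAction.mem_stabilizer_iff.1 hg)).1
  have h2 : MulAction.stabilizer P (a + b) ≤ MulAction.stabilizer P b := fun g hg =>
    MulAction.mem_stabilizer_iff.2 (hstab g (MulAction.mem_stabilizer_iff.1 hg)).2
  have h3 := Subgroup.eq_of_le_of_card_ge h1 (le_of_eq (hconst a (a + b) ha0 hab0))
  have h4 := Subgroup.eq_of_le_of_card_ge h2 (le_of_eq (hconst b (a + b) hb0 hab0))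
  have h5 : z ∈ MulAction.stabilizer P b := by
    rw [← h4, h3]; exact MulAction.mem_stabilizer_iff.2 ha
  exact hb0 (hbfix b hNb (MulAction.mem_stabilizer_iff.1 h5))

theorem h8_halftrans_cyclic [Finite P] [FaithfulSMul P E] {p q : ℕ} [Fact p.Prime]
    (hp2 : p ≠ 2) (hP : IsPGroup p P) (hq : q.Prime) (hpq : p ≠ q) (hE : ∀ e : E, q • e = 0)
    (hE0 : ∃ e : E, e ≠ 0)
    (hconst : ∀ a b : E, a ≠ 0 → b ≠ 0 →
      Nat.card (MulAction.stabilizer P a) = Nat.card (MulAction.stabilizer P b)) :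
    IsCyclic P := by
  by_contra hnc
  have hp : p.Prime := Fact.out
  have hpcop : Nat.Coprime p q := (Nat.coprime_primes hp hq).2 hpq
  have hK1 := h8_central_fpf hP hq hpq hE hconst
  have hTnc : ¬ IsCyclic (⊤ : Subgroup P) := fun h => hnc (Subgroup.topEquiv.isCyclic.1 h)
  obtain ⟨A, -, hAn, hAc, hAe, hAcard⟩ := h8_exists_normal_elab hp2 hP ⊤ hTnc
  have hA1 : A ≠ ⊥ := by
    intro h; rw [h, Subgroup.card_bot] at hAcard
    have := hp.one_lt; nlinarith
  obtain ⟨z, hzAZ, hz1⟩ : ∃ z ∈ A ⊓ Subgroup.center P, z ≠ 1 := by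
    by_contra hcon; push Not at hcon
    exact h8_normal_inf_center_ne_bot hP A hA1 ((Subgroup.eq_bot_iff_forall _).2 hcon)
  have hzA : z ∈ A := hzAZ.1
  have hzc : ∀ g : P, g * z = z * g := Subgroup.mem_center_iff.1 hzAZ.2
  have hzp : z ^ p = 1 := hAe z hzA
  have hzo : orderOf z = p := orderOf_eq_prime hzp hz1
  have hAfix : ∀ c : E, (∀ u ∈ A, u • c = c) → c = 0 := fun c hc => hK1 z hzc hz1 c (hc z hzA)
  have hgen : ∀ u ∈ A, u ≠ 1 → ∀ u' ∈ A, u' ∉ Subgroup.zpowers u → ∀ H : Subgroup P,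
      u ∈ H → u' ∈ H → A ≤ H := by
    intro u hu hu1 u' hu' hu'z H huH hu'H
    have huo : orderOf u = p := orderOf_eq_prime (hAe u hu) hu1
    have hle : Subgroup.zpowers u ≤ H ⊓ A := Subgroup.zpowers_le.2 ⟨huH, hu⟩
    have hDA : H ⊓ A ≤ A := inf_le_right
    obtain ⟨j, hj2, hj⟩ := (Nat.dvd_prime_pow hp).1
      (show Nat.card ↥(H ⊓ A) ∣ p ^ 2 by rw [← hAcard]; exact Subgroup.card_dvd_of_le hDA)
    have hj1 : 1 ≤ j := by
      have h1 := Subgroup.card_le_of_le hle
      rw [Nat.card_zpowers, huo, hj] at h1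
      by_contra h0
      have h2 : j = 0 := by omega
      rw [h2, pow_zero] at h1
      have := hp.one_lt
      omega
    rcases (by omega : j = 1 ∨ j = 2) with rfl | rfl
    · exfalso
      have h1 := Subgroup.eq_of_le_of_card_ge hle (by rw [hj, Nat.card_zpowers, huo, pow_one])
      exact hu'z (by rw [h1]; exact ⟨hu'H, hu'⟩)
    · have h1 := Subgroup.eq_of_le_of_card_ge hDA (by rw [hj, hAcard])
      rw [← h1]; exact inf_le_left
  have hF : ∀ u ∈ A, u ≠ 1 → ∀ u' ∈ A, u' ∉ Subgroup.zpowers u → ∀ c : E,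
      u • c = c → u' • c = c → c = 0 := by
    intro u hu hu1 u' hu' hu'z c hc hc'
    apply hAfix
    intro w hw
    have := hgen u hu hu1 u' hu' hu'z (MulAction.stabilizer P c)
      (MulAction.mem_stabilizer_iff.2 hc) (MulAction.mem_stabilizer_iff.2 hc') hw
    exact MulAction.mem_stabilizer_iff.1 this
  obtain ⟨y, hyA, hy1, a, ha0, hya⟩ : ∃ y ∈ A, y ≠ 1 ∧ ∃ a : E, a ≠ 0 ∧ y • a = a := by
    by_contra hcon
    push Not at hcon
    have hfpf : ∀ y ∈ A, y ≠ 1 → ∀ a : E, y • a = a → a = 0 := by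
      intro y hy hy1 a ha; by_contra h0; exact hcon y hy hy1 a h0 ha
    obtain ⟨e, he⟩ := hE0
    obtain ⟨x, hxA, hxz⟩ : ∃ x ∈ A, x ∉ Subgroup.zpowers z := by
      by_contra hno; push Not at hno
      have h1 : A ≤ Subgroup.zpowers z := hno
      have h2 := Subgroup.card_le_of_le h1
      rw [hAcard, Nat.card_zpowers, hzo] at h2
      have := hp.one_lt; nlinarith
    have hxz' : x * z = z * x := hzc x
    have hw : ∀ j : ℕ, ∑ i ∈ Finset.range p, (x * z ^ j) ^ i • e = 0 := by
      intro j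
      have hmem : x * z ^ j ∈ A := A.mul_mem hxA (A.pow_mem hzA j)
      have hne : x * z ^ j ≠ 1 := by
        intro h
        apply hxz
        have : x = (z ^ j)⁻¹ := eq_inv_of_mul_eq_one_left h
        rw [this]; exact Subgroup.inv_mem _ (Subgroup.pow_mem _ (Subgroup.mem_zpowers z) j)
      exact hfpf _ hmem hne _ (h8_smul_norm _ p (hAe _ hmem) e)
    have hsum : ∑ j ∈ Finset.range p, ∑ i ∈ Finset.range p, (x * z ^ j) ^ i • e = 0 :=
      Finset.sum_eq_zero (fun j _ => hw j)
    rw [Finset.sum_comm] at hsum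
    rw [Finset.sum_eq_single 0] at hsum
    · simp only [pow_zero, one_smul, Finset.sum_const, Finset.card_range] at hsum
      exact he (h8_nsmul_cancel hE p hpcop e hsum)
    · intro i hi hi0
      have h1 : ∀ j : ℕ, (x * z ^ j) ^ i • e = x ^ i • ((z ^ i) ^ j • e) := by
        intro j
        have hc : Commute x (z ^ j) := (show Commute x z from hxz').pow_right j
        rw [hc.mul_pow, mul_smul, ← pow_mul, ← pow_mul, mul_comm j i]
      simp_rw [h1]
      rw [← Finset.smul_sum]
      have hzi1 : z ^ i ≠ 1 := by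
        intro h
        have := orderOf_dvd_of_pow_eq_one h
        rw [hzo] at this
        exact Nat.not_dvd_of_pos_of_lt (Nat.pos_of_ne_zero hi0) (Finset.mem_range.1 hi) this
      have h2 := hfpf _ (A.pow_mem hzA i) hzi1 _
        (h8_smul_norm (z ^ i) p (hAe _ (A.pow_mem hzA i)) e)
      rw [h2, smul_zero]
    · intro h0; exact absurd (Finset.mem_range.2 hp.pos) h0
  -- y is not central
  have hyc : ¬ ∀ g : P, g * y = y * g := fun h => ha0 (hK1 y h hy1 a hya)
  push Not at hyc
  obtain ⟨g, hg⟩ := hyc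
  obtain ⟨y', hy'def⟩ : ∃ y' : P, y' = g * y * g⁻¹ := ⟨_, rfl⟩
  have hy'A : y' ∈ A := by rw [hy'def]; exact hAn.conj_mem y hyA g
  have hyo : orderOf y = p := orderOf_eq_prime (hAe y hyA) hy1
  have hy'z : y' ∉ Subgroup.zpowers y := by
    intro hmem
    have hmem' : g * y * g⁻¹ ∈ Submonoid.powers y := by
      rw [mem_powers_iff_mem_zpowers, ← hy'def]; exact hmem
    obtain ⟨k, hk⟩ := (Submonoid.mem_powers_iff _ _).1 hmem'
    have hiter : ∀ i : ℕ, g ^ i * y * (g ^ i)⁻¹ = y ^ (k ^ i) := by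
      intro i
      induction i with
      | zero => simp
      | succ i ih =>
        calc g ^ (i + 1) * y * (g ^ (i + 1))⁻¹ = g * (g ^ i * y * (g ^ i)⁻¹) * g⁻¹ := by
              rw [pow_succ']; group
          _ = g * y ^ (k ^ i) * g⁻¹ := by rw [ih]
          _ = (g * y * g⁻¹) ^ (k ^ i) := conj_pow.symm
          _ = y ^ (k ^ (i + 1)) := by rw [← hk, ← pow_mul, pow_succ']
    obtain ⟨N, hN⟩ := hP g
    have h1 : y ^ (k ^ (p ^ N)) = y ^ 1 := by rw [← hiter, hN]; simp
    have hmod : k ^ (p ^ N) ≡ 1 [MOD p] := by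
      have := pow_eq_pow_iff_modEq.1 h1; rwa [hyo] at this
    have hfer : ∀ n : ℕ, k ^ (p ^ n) ≡ k [MOD p] := by
      intro n
      induction n with
      | zero => rw [pow_zero, pow_one]
      | succ n ih =>
        rw [pow_succ, pow_mul]
        have h2 : (k ^ p ^ n) ^ p ≡ k ^ p ^ n [MOD p] := by
          rw [← ZMod.natCast_eq_natCast_iff]; push_cast; exact ZMod.pow_card _
        exact h2.trans ih
    have hk1 : k ≡ 1 [MOD p] := (hfer N).symm.trans hmod
    have h2 : y ^ k = y ^ 1 := by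
      rw [pow_eq_pow_iff_modEq, hyo]; exact hk1
    rw [pow_one] at h2
    apply hg
    have h3 : g * y * g⁻¹ = y := by rw [← hk, h2]
    calc g * y = (g * y * g⁻¹) * g := by group
      _ = y * g := by rw [h3]
  have hy'1 : y' ≠ 1 := fun h => hy'z (by rw [h]; exact Subgroup.one_mem _)
  obtain ⟨b, hbdef⟩ : ∃ b : E, b = g • a := ⟨_, rfl⟩
  have hb0 : b ≠ 0 := by
    intro h; rw [hbdef] at h
    have h1 : a = g⁻¹ • (g • a) := by rw [inv_smul_smul]
    rw [h, smul_zero] at h1; exact ha0 h1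
  have hy'b : y' • b = b := by
    rw [hy'def, hbdef, ← mul_smul]
    have : g * y * g⁻¹ * g = g * y := by group
    rw [this, mul_smul, hya]
  obtain ⟨π, hπ⟩ : ∃ π : E → E, ∀ e, π e = ∑ i ∈ Finset.range p, y ^ i • e := ⟨_, fun _ => rfl⟩
  have hπadd : ∀ e₁ e₂, π (e₁ + e₂) = π e₁ + π e₂ := by
    intro e₁ e₂; simp only [hπ, smul_add, Finset.sum_add_distrib]
  have hπfix : ∀ c, y • c = c → π c = p • c := fun c hc => by
    rw [hπ]; exact h8_norm_of_fixed y p c hc
  have hπ0 : ∀ u' ∈ A, u' ∉ Subgroup.zpowers y → ∀ c : E, u' • c = c → π c = 0 := by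
    intro u' hu' hu'z c hc
    apply hF y hyA hy1 u' hu' hu'z
    · rw [hπ]; exact h8_smul_norm y p (hAe y hyA) c
    · rw [hπ, Finset.smul_sum]
      apply Finset.sum_congr rfl
      intro i _
      rw [← mul_smul, hAc u' hu' (y ^ i) (A.pow_mem hyA i), mul_smul, hc]
  have hfixz : ∀ u ∈ A, u ≠ 1 → u ∈ Subgroup.zpowers y → ∀ c : E, u • c = c → y • c = c := by
    intro u hu hu1 huz c hc
    have huo : orderOf u = p := orderOf_eq_prime (hAe u hu) hu1
    have h1 : Subgroup.zpowers u = Subgroup.zpowers y :=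
      Subgroup.eq_of_le_of_card_ge (Subgroup.zpowers_le.2 huz)
        (by rw [Nat.card_zpowers, Nat.card_zpowers, huo, hyo])
    have h2 : y ∈ Subgroup.zpowers u := by rw [h1]; exact Subgroup.mem_zpowers y
    have h3 : Subgroup.zpowers u ≤ MulAction.stabilizer P c :=
      Subgroup.zpowers_le.2 (MulAction.mem_stabilizer_iff.2 hc)
    exact MulAction.mem_stabilizer_iff.1 (h3 h2)
  have hZ2 : ∀ h : P, h * y * h⁻¹ ∈ Subgroup.zpowers y → h * y' * h⁻¹ ∈ Subgroup.zpowers y →
      False := by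
    intro h h1 h2
    obtain ⟨k, hk⟩ := Subgroup.mem_zpowers_iff.1 h1
    obtain ⟨l, hl⟩ := Subgroup.mem_zpowers_iff.1 h2
    have hy : y = (h⁻¹ * y * h⁻¹⁻¹) ^ k := by
      rw [conj_zpow, hk]; group
    have hy' : y' = (h⁻¹ * y * h⁻¹⁻¹) ^ l := by
      rw [conj_zpow, hl]; group
    have ho : orderOf (h⁻¹ * y * h⁻¹⁻¹) = p := by
      apply orderOf_eq_prime
      · rw [conj_pow, hAe y hyA]; group
      · intro h3
        apply hy1
        have : y = h⁻¹⁻¹ * (h⁻¹ * y * h⁻¹⁻¹) * h⁻¹ := by group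
        rw [this, h3]; group
    have h3 : Subgroup.zpowers y = Subgroup.zpowers (h⁻¹ * y * h⁻¹⁻¹) :=
      Subgroup.eq_of_le_of_card_ge
        (Subgroup.zpowers_le.2 (by rw [Subgroup.mem_zpowers_iff]; exact ⟨k, hy.symm⟩))
        (by rw [Nat.card_zpowers, Nat.card_zpowers, ho, hyo])
    apply hy'z
    rw [h3, Subgroup.mem_zpowers_iff]; exact ⟨l, hy'.symm⟩
  have hswap : ∀ h : P, h • (a + b) = a + b → h • a = a ∧ h • b = b := by
    intro h hh
    rw [smul_add] at hh
    have hy₁A : h * y * h⁻¹ ∈ A := hAn.conj_mem y hyA h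
    have hy₁'A : h * y' * h⁻¹ ∈ A := hAn.conj_mem y' hy'A h
    have hy₁1 : h * y * h⁻¹ ≠ 1 := by
      intro h1; apply hy1
      have : y = h⁻¹ * (h * y * h⁻¹) * h := by group
      rw [this, h1]; group
    have hy₁'1 : h * y' * h⁻¹ ≠ 1 := by
      intro h1; apply hy'1
      have : y' = h⁻¹ * (h * y' * h⁻¹) * h := by group
      rw [this, h1]; group
    have hfa : (h * y * h⁻¹) • (h • a) = h • a := by
      rw [← mul_smul]
      have : h * y * h⁻¹ * h = h * y := by group
      rw [this, mul_smul, hya]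
    have hfb : (h * y' * h⁻¹) • (h • b) = h • b := by
      rw [← mul_smul]
      have : h * y' * h⁻¹ * h = h * y' := by group
      rw [this, mul_smul, hy'b]
    have hπeq : π (h • a) + π (h • b) = p • a := by
      rw [← hπadd, hh, hπadd, hπfix a hya, hπ0 y' hy'A hy'z b hy'b, add_zero]
    have hcase : (h • a = a ∧ h • b = b) ∨ (h • a = b ∧ h • b = a) := by
      by_cases hc1 : h * y * h⁻¹ ∈ Subgroup.zpowers y
      · left
        have hc2 : h * y' * h⁻¹ ∉ Subgroup.zpowers y := fun hc2 => hZ2 h hc1 hc2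
        have h1 : y • (h • a) = h • a := hfixz _ hy₁A hy₁1 hc1 _ hfa
        rw [hπfix _ h1, hπ0 _ hy₁'A hc2 _ hfb, add_zero] at hπeq
        have h2 : h • a = a := by
          have : p • (h • a - a) = 0 := by rw [nsmul_sub, hπeq, sub_self]
          exact sub_eq_zero.1 (h8_nsmul_cancel hE p hpcop _ this)
        refine ⟨h2, ?_⟩
        rw [h2] at hh; exact add_left_cancel hh
      · right
        rw [hπ0 _ hy₁A hc1 _ hfa, zero_add] at hπeq
        have hc2 : h * y' * h⁻¹ ∈ Subgroup.zpowers y := by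
          by_contra hc2
          rw [hπ0 _ hy₁'A hc2 _ hfb] at hπeq
          exact ha0 (h8_nsmul_cancel hE p hpcop a hπeq.symm)
        have h1 : y • (h • b) = h • b := hfixz _ hy₁'A hy₁'1 hc2 _ hfb
        rw [hπfix _ h1] at hπeq
        have h2 : h • b = a := by
          have : p • (h • b - a) = 0 := by rw [nsmul_sub, hπeq, sub_self]
          exact sub_eq_zero.1 (h8_nsmul_cancel hE p hpcop _ this)
        refine ⟨?_, h2⟩
        rw [h2, add_comm] at hh; exact add_left_cancel hh
    rcases hcase with hc | ⟨hc1, hc2⟩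
    · exact hc
    · have h2a : (h ^ 2) • a = a := by rw [pow_two, mul_smul, hc1, hc2]
      have h2b : (h ^ 2) • b = b := by rw [pow_two, mul_smul, hc2, hc1]
      have hodd : Nat.Coprime 2 (orderOf h) := by
        obtain ⟨k, hk⟩ := hP h
        have h3 : orderOf h ∣ p ^ k := orderOf_dvd_of_pow_eq_one hk
        exact Nat.Coprime.coprime_dvd_right h3
          (Nat.Coprime.pow_right k ((Nat.coprime_primes Nat.prime_two hp).2 (Ne.symm hp2)))
      obtain ⟨m, hm⟩ := exists_pow_eq_self_of_coprime hodd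
      have hpa : ∀ n : ℕ, (h ^ 2) ^ n • a = a := by
        intro n
        induction n with
        | zero => simp
        | succ n ih => rw [pow_succ, mul_smul, h2a, ih]
      have hpb : ∀ n : ℕ, (h ^ 2) ^ n • b = b := by
        intro n
        induction n with
        | zero => simp
        | succ n ih => rw [pow_succ, mul_smul, h2b, ih]
      constructor
      · have := hpa m; rwa [hm] at this
      · have := hpb m; rwa [hm] at this
  have hab0 : a + b ≠ 0 := by
    intro h0
    have h1 : b = -a := eq_neg_of_add_eq_zero_right h0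
    have h2 : y • b = b := by rw [h1, smul_neg, hya]
    exact hb0 (hF y hyA hy1 y' hy'A hy'z b h2 hy'b)
  have h1 : MulAction.stabilizer P (a + b) ≤ MulAction.stabilizer P a := fun g hg =>
    MulAction.mem_stabilizer_iff.2 (hswap g (MulAction.mem_stabilizer_iff.1 hg)).1
  have h2 : MulAction.stabilizer P (a + b) ≤ MulAction.stabilizer P b := fun g hg =>
    MulAction.mem_stabilizer_iff.2 (hswap g (MulAction.mem_stabilizer_iff.1 hg)).2
  have h3 := Subgroup.eq_of_le_of_card_ge h1 (le_of_eq (hconst a (a + b) ha0 hab0))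
  have h4 := Subgroup.eq_of_le_of_card_ge h2 (le_of_eq (hconst b (a + b) hb0 hab0))
  have h5 : y ∈ MulAction.stabilizer P b := by
    rw [← h4, h3]; exact MulAction.mem_stabilizer_iff.2 hya
  exact hb0 (hF y hyA hy1 y' hy'A hy'z b (MulAction.mem_stabilizer_iff.1 h5) hy'b)

theorem h8_s1160 [Finite P] [Finite E] [FaithfulSMul P E] {p q : ℕ} [Fact p.Prime]
    (hp2 : p ≠ 2) (hP : IsPGroup p P) (hq : q.Prime) (hE : ∀ e : E, q • e = 0)
    (hconst : ∀ a b : E, a ≠ 0 → b ≠ 0 →
      Nat.card (MulAction.stabilizer P a) = Nat.card (MulAction.stabilizer P b)) :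
    IsCyclic P ∧ ∀ g : P, g ≠ 1 → ∀ a : E, g • a = a → a = 0 := by
  have hp : p.Prime := Fact.out
  have htriv : (∀ (g : P) (e : E), g • e = e) →
      IsCyclic P ∧ ∀ g : P, g ≠ 1 → ∀ a : E, g • a = a → a = 0 := by
    intro h
    have h1 : ∀ g : P, g = 1 := fun g =>
      FaithfulSMul.eq_of_smul_eq_smul (α := E) (fun e => by rw [h g e, one_smul])
    have : Subsingleton P := ⟨fun x y => by rw [h1 x, h1 y]⟩
    exact ⟨isCyclic_of_subsingleton, fun g hg => absurd (h1 g) hg⟩
  by_cases hE0 : ∃ e : E, e ≠ 0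
  · by_cases hpq : p = q
    · apply htriv
      subst hpq
      have hdvd : p ∣ Nat.card E := by
        obtain ⟨e, he⟩ := hE0
        have h1 : addOrderOf e ∣ p := addOrderOf_dvd_of_nsmul_eq_zero (hE e)
        have h2 : addOrderOf e = p := by
          rcases (Nat.dvd_prime hp).1 h1 with h | h
          · exact absurd (AddMonoid.addOrderOf_eq_one_iff.1 h) he
          · exact h
        rw [← h2]; exact addOrderOf_dvd_natCard e
      obtain ⟨b, hbfix, hb0⟩ := hP.exists_fixed_point_of_prime_dvd_card_of_fixed_point E hdvd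
        (a := 0) (by intro g; exact smul_zero g)
      have hb0' : b ≠ 0 := fun h => hb0 h.symm
      have hstab : MulAction.stabilizer P b = ⊤ := by
        rw [eq_top_iff]; intro g _; exact MulAction.mem_stabilizer_iff.2 (hbfix g)
      intro g e
      by_cases he : e = 0
      · rw [he, smul_zero]
      · have h1 := hconst e b he hb0'
        rw [hstab] at h1
        have h2 : MulAction.stabilizer P e = ⊤ :=
          (Subgroup.card_eq_iff_eq_top _).1 (by rw [h1, Subgroup.card_top])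
        have : g ∈ MulAction.stabilizer P e := by rw [h2]; trivial
        exact MulAction.mem_stabilizer_iff.1 this
    · have hK1 := h8_central_fpf hP hq hpq hE hconst
      have hcyc := h8_halftrans_cyclic hp2 hP hq hpq hE hE0 hconst
      refine ⟨hcyc, ?_⟩
      intro g hg1 a hga
      have hcomm : ∀ x y : P, x * y = y * x := (IsCyclic.commGroup (α := P)).mul_comm
      obtain ⟨k, hk⟩ := hP g
      have hgo : p ∣ orderOf g := by
        have h1 : orderOf g ∣ p ^ k := orderOf_dvd_of_pow_eq_one hk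
        obtain ⟨j, -, hj⟩ := (Nat.dvd_prime_pow hp).1 h1
        rcases Nat.eq_zero_or_pos j with h0 | h0
        · rw [h0, pow_zero] at hj; exact absurd (orderOf_eq_one_iff.1 hj) hg1
        · rw [hj]; exact dvd_pow_self p h0.ne'
      have hzo := orderOf_pow_orderOf_div (orderOf_pos g).ne' hgo
      obtain ⟨z, hz⟩ : ∃ z, z = g ^ (orderOf g / p) := ⟨_, rfl⟩
      rw [← hz] at hzo
      have hz1 : z ≠ 1 := by
        intro h; rw [h, orderOf_one] at hzo; exact hp.one_lt.ne hzo
      have hza : z • a = a := by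
        rw [hz]
        have : ∀ n : ℕ, g ^ n • a = a := by
          intro n
          induction n with
          | zero => simp
          | succ n ih => rw [pow_succ, mul_smul, hga, ih]
        exact this _
      exact hK1 z (fun x => hcomm x z) hz1 a hza
  · apply htriv
    push Not at hE0
    intro g e; rw [hE0 e, smul_zero]

end

end Cfsg.Agent.Lib.Helper8
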