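import Mathlib
import Cfsg.Agent.Lib.Helper8.FrobeniusCount
import Cfsg.Agent.Lib.Helper8.ConjClass

set_option autoImplicit false
universe u v
namespace Cfsg.Agent.Lib.Helper8

/-- if all fibres of `f` have cardinality divisible by `k`, so has the domain -/
theorem h8_dvd_card_of_fibers {α : Type u} {β : Type v} [Finite α] (f : α → β) (k : ℕ)
    (h : ∀ a : α, k ∣ Nat.card {a' : α // f a' = f a}) : k ∣ Nat.card α := by
  classical
  have : Fintype α := Fintype.ofFinite α
  rw [Nat.card_eq_fintype_card, ← Finset.card_univ,
    Finset.card_eq_sum_card_image f (Finset.univ : Finset α)]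
  apply Finset.dvd_sum
  intro b hb
  obtain ⟨a, -, rfl⟩ := Finset.mem_image.1 hb
  have := h a
  rw [Nat.card_eq_fintype_card, Fintype.card_subtype] at this
  exact this

/-- Frobenius' theorem for arbitrary exponent -/
theorem h8_frobenius_gcd {G : Type u} [Group G] [Finite G] (n : ℕ) :
    Nat.gcd n (Nat.card G) ∣ Nat.card {x : G // x ^ n = 1} := by
  have h1 := h8_frobenius_dvd (G := G) (Nat.gcd n (Nat.card G)) (Nat.gcd_dvd_right _ _)
  have h2 : Nat.card {x : G // x ^ (Nat.gcd n (Nat.card G)) = 1} = Nat.card {x : G // x ^ n = 1} := by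
    apply Nat.card_congr
    apply Equiv.subtypeEquivRight
    intro x
    rw [pow_gcd_eq_one]
    exact ⟨fun h => h.1, fun h => ⟨h, pow_card_eq_one'⟩⟩
  rwa [h2] at h1

/-- the prime power case with `p ∣ orderOf c`, `c` central -/
theorem h8_hall_pp {G : Type u} [Group G] [Finite G] (p e : ℕ) (hp : p.Prime) (c : G)
    (hpm : p ∣ orderOf c) :
    p ^ e ∣ Nat.card {x : G // x ^ (p ^ e) = c} := by
  have hord : ∀ x : G, x ^ (p ^ e) = c → orderOf x = p ^ e * orderOf c := by
    intro x hx
    have hpos : orderOf x ≠ 0 := (orderOf_pos x).ne'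
    obtain ⟨a, o', hpo', hoeq⟩ := Nat.exists_eq_pow_mul_and_not_dvd hpos p hp.ne_one
    have hae : e < a := by
      by_contra hcon
      have hle : a ≤ e := not_lt.1 hcon
      have h1 : c ^ o' = 1 := by
        rw [← hx, ← pow_mul]
        have : p ^ e * o' = orderOf x * p ^ (e - a) := by
          rw [hoeq, mul_assoc, mul_comm o', ← mul_assoc, ← pow_add, Nat.add_sub_cancel' hle]
        rw [this, pow_mul, pow_orderOf_eq_one, one_pow]
      exact hpo' (hpm.trans (orderOf_dvd_of_pow_eq_one h1))
    have hdvd : p ^ e ∣ orderOf x := by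
      rw [hoeq]
      exact (pow_dvd_pow p hae.le).trans (Dvd.intro _ rfl)
    have h2 := orderOf_pow' x (pow_pos hp.pos e).ne'
    rw [hx, Nat.gcd_eq_right hdvd] at h2
    rw [h2, Nat.mul_div_cancel' hdvd]
  apply h8_dvd_card_of_fibers (fun x : {x : G // x ^ (p ^ e) = c} => Subgroup.zpowers x.1)
  rintro ⟨x₀, hx₀⟩
  have hfro := h8_frobenius_dvd (G := ↥(Subgroup.zpowers x₀)) (p ^ e)
    (by rw [Nat.card_zpowers, hord x₀ hx₀]; exact Dvd.intro _ rfl)
  have hcomm : ∀ k ∈ Subgroup.zpowers x₀, x₀ * k = k * x₀ := by
    intro k hk
    obtain ⟨j, rfl⟩ := Subgroup.mem_zpowers_iff.1 hk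
    exact ((Commute.refl x₀).zpow_right j).eq
  have hcard : Nat.card {a' : {x : G // x ^ (p ^ e) = c} //
      Subgroup.zpowers a'.1 = Subgroup.zpowers x₀} =
      Nat.card {k : ↥(Subgroup.zpowers x₀) // k ^ (p ^ e) = 1} := by
    apply Nat.card_congr
    exact
      { toFun := fun a => ⟨⟨x₀⁻¹ * a.1.1, by
            have h1 : a.1.1 ∈ Subgroup.zpowers x₀ :=
              (SetLike.ext_iff.1 a.2 a.1.1).1 (Subgroup.mem_zpowers _)
            exact Subgroup.mul_mem _ (Subgroup.inv_mem _ (Subgroup.mem_zpowers x₀)) h1⟩, by
            have h1 : a.1.1 ∈ Subgroup.zpowers x₀ :=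
              (SetLike.ext_iff.1 a.2 a.1.1).1 (Subgroup.mem_zpowers _)
            apply Subtype.ext
            rw [Subgroup.coe_pow, Subgroup.coe_one]
            show (x₀⁻¹ * a.1.1) ^ (p ^ e) = 1
            have hc : Commute x₀⁻¹ a.1.1 := (show Commute x₀ a.1.1 from hcomm _ h1).inv_left
            rw [hc.mul_pow, inv_pow, hx₀, a.1.2, inv_mul_cancel]⟩
        invFun := fun k => ⟨⟨x₀ * k.1.1, by
            have hc : Commute x₀ k.1.1 := hcomm _ k.1.2
            have hk : k.1.1 ^ (p ^ e) = 1 := by
              have := congrArg Subtype.val k.2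
              rwa [Subgroup.coe_pow, Subgroup.coe_one] at this
            rw [hc.mul_pow, hx₀, hk, mul_one]⟩, by
            have hc : Commute x₀ k.1.1 := hcomm _ k.1.2
            have hk : k.1.1 ^ (p ^ e) = 1 := by
              have := congrArg Subtype.val k.2
              rwa [Subgroup.coe_pow, Subgroup.coe_one] at this
            have hsol : (x₀ * k.1.1) ^ (p ^ e) = c := by
              rw [hc.mul_pow, hx₀, hk, mul_one]
            show Subgroup.zpowers (x₀ * k.1.1) = Subgroup.zpowers x₀
            apply Subgroup.eq_of_le_of_card_ge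
            · rw [Subgroup.zpowers_le]
              exact Subgroup.mul_mem _ (Subgroup.mem_zpowers x₀) k.1.2
            · rw [Nat.card_zpowers, Nat.card_zpowers, hord _ hsol, hord _ hx₀]⟩
        left_inv := fun a => by
          apply Subtype.ext
          apply Subtype.ext
          show x₀ * (x₀⁻¹ * a.1.1) = a.1.1
          rw [mul_inv_cancel_left]
        right_inv := fun k => by
          apply Subtype.ext
          apply Subtype.ext
          show x₀⁻¹ * (x₀ * k.1.1) = k.1.1
          rw [inv_mul_cancel_left] }
  rw [hcard]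
  exact hfro

/-- **P. Hall's generalisation of Frobenius' theorem**, elementwise form -/
theorem h8_hall_aux : ∀ (g : ℕ) (G : Type u) [Group G] [Finite G], Nat.card G = g →
    ∀ (n : ℕ), 0 < n → ∀ c : G,
      Nat.gcd n (Nat.card (Subgroup.centralizer {c})) ∣ Nat.card {x : G // x ^ n = c} := by
  intro g
  induction g using Nat.strong_induction_on with
  | _ g IHg =>
  intro G _ _ hg n
  induction n using Nat.strong_induction_on with
  | _ n IHn =>
  intro hn c
  classical
  have hfin : Fintype G := Fintype.ofFinite G
  by_cases hc : Subgroup.centralizer {c} = ⊤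
  · have hcz : ∀ y : G, y * c = c * y := by
      intro y
      have : y ∈ Subgroup.centralizer {c} := by rw [hc]; trivial
      rwa [Subgroup.mem_centralizer_singleton_iff] at this
    rw [hc, Subgroup.card_top, hg]
    -- helper for coprime factorizations
    have key : ∀ a b : ℕ, 0 < a → a < n → n = a * b →
        Nat.gcd a g ∣ Nat.card {x : G // x ^ n = c} := by
      intro a b ha han hab
      have hsum : Nat.card {x : G // x ^ n = c} =
          ∑ y : G, (if y ^ b = c then Nat.card {x : G // x ^ a = y} else 0) := by
        rw [Nat.card_eq_fintype_card, Fintype.card_subtype,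
          Finset.card_eq_sum_card_fiberwise (f := fun x : G => x ^ a)
            (t := (Finset.univ : Finset G)) (fun x _ => Finset.mem_univ _)]
        refine Finset.sum_congr rfl (fun y _ => ?_)
        by_cases hy : y ^ b = c
        · rw [if_pos hy, Nat.card_eq_fintype_card, Fintype.card_subtype]
          congr 1
          ext x
          simp only [Finset.mem_filter, Finset.mem_univ, true_and]
          constructor
          · exact fun h => h.2
          · intro h
            refine ⟨?_, h⟩
            rw [hab, pow_mul, h, hy]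
        · rw [if_neg hy]
          rw [Finset.card_eq_zero, Finset.filter_eq_empty_iff]
          intro x hx
          rw [Finset.mem_filter] at hx
          intro hxa
          apply hy
          rw [← hxa, ← pow_mul, ← hab]
          exact hx.2
      rw [hsum]
      apply h8_dvd_sum_of_conj_invariant
      · intro t y
        have h1 : (t * y * t⁻¹) ^ b = c ↔ y ^ b = c := by
          rw [conj_pow]
          constructor
          · intro h
            have : y ^ b = t⁻¹ * (t * y ^ b * t⁻¹) * t := by group
            rw [this, h, hcz t⁻¹]; group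
          · intro h
            rw [h, hcz t]; group
        have h2 : Nat.card {x : G // x ^ a = t * y * t⁻¹} = Nat.card {x : G // x ^ a = y} := by
          apply Nat.card_congr
          exact
            { toFun := fun x => ⟨t⁻¹ * x.1 * t, by
                have : t⁻¹ * x.1 * t = t⁻¹ * x.1 * t⁻¹⁻¹ := by rw [inv_inv]
                rw [this, conj_pow, x.2]; group⟩
              invFun := fun x => ⟨t * x.1 * t⁻¹, by rw [conj_pow, x.2]⟩
              left_inv := fun x => by apply Subtype.ext; show t * (t⁻¹ * x.1 * t) * t⁻¹ = x.1; group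
              right_inv := fun x => by apply Subtype.ext; show t⁻¹ * (t * x.1 * t⁻¹) * t = x.1; group }
        by_cases hy : y ^ b = c
        · rw [if_pos hy, if_pos (h1.2 hy), h2]
        · rw [if_neg hy, if_neg (fun h => hy (h1.1 h))]
      · intro y
        by_cases hy : y ^ b = c
        · rw [if_pos hy]
          have h1 := IHn a han ha y
          have h2 : Nat.gcd a g ∣ (Subgroup.centralizer {y}).index *
              Nat.gcd a (Nat.card (Subgroup.centralizer {y})) := by
            rw [← Nat.gcd_mul_left]
            apply Nat.dvd_gcd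
            · exact (Nat.gcd_dvd_left a g).trans (Dvd.intro_left _ rfl)
            · rw [mul_comm, Subgroup.card_mul_index, hg]
              exact Nat.gcd_dvd_right a g
          exact h2.trans (Nat.mul_dvd_mul_left _ h1)
        · rw [if_neg hy, mul_zero]
          exact dvd_zero _
    by_cases hn1 : n = 1
    · rw [hn1, Nat.gcd_one_left]
      exact one_dvd _
    obtain ⟨q, hq, hqn⟩ : ∃ q : ℕ, q.Prime ∧ q ∣ n :=
      ⟨Nat.minFac n, Nat.minFac_prime hn1, Nat.minFac_dvd n⟩
    obtain ⟨e, n', hqn', hneq⟩ := Nat.exists_eq_pow_mul_and_not_dvd hn.ne' q hq.ne_one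
    have he : e ≠ 0 := by
      rintro rfl
      rw [pow_zero, one_mul] at hneq
      exact hqn' (hneq ▸ hqn)
    have hn'pos : 0 < n' := by
      rcases Nat.eq_zero_or_pos n' with h0 | h0
      · rw [h0, mul_zero] at hneq; omega
      · exact h0
    have hpe2 : 2 ≤ q ^ e := by
      calc 2 ≤ q := hq.two_le
        _ = q ^ 1 := (pow_one _).symm
        _ ≤ q ^ e := Nat.pow_le_pow_right hq.pos (Nat.one_le_iff_ne_zero.2 he)
    by_cases hn'1 : n' = 1
    · -- prime power case
      rw [hn'1, mul_one] at hneq
      rw [hneq]
      by_cases hpm : q ∣ orderOf c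
      · exact (Nat.gcd_dvd_left _ _).trans (h8_hall_pp q e hq c hpm)
      · have hcop : Nat.Coprime (q ^ e) (orderOf c) :=
          Nat.Coprime.pow_left e ((Nat.Prime.coprime_iff_not_dvd hq).2 hpm)
        obtain ⟨m, hm⟩ := exists_pow_eq_self_of_coprime hcop
        have hc0 : (c ^ m) ^ (q ^ e) = c := by
          rw [← pow_mul, mul_comm, pow_mul]; exact hm
        have hc0z : ∀ y : G, Commute y (c ^ m) := fun y => (show Commute y c from hcz y).pow_right m
        have hcard : Nat.card {x : G // x ^ (q ^ e) = c} =
            Nat.card {x : G // x ^ (q ^ e) = 1} := by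
          apply Nat.card_congr
          exact
            { toFun := fun x => ⟨x.1 * (c ^ m)⁻¹, by
                rw [((hc0z x.1).inv_right).mul_pow, inv_pow, hc0, x.2, mul_inv_cancel]⟩
              invFun := fun x => ⟨x.1 * c ^ m, by
                rw [(hc0z x.1).mul_pow, hc0, x.2, one_mul]⟩
              left_inv := fun x => by
                apply Subtype.ext
                show x.1 * (c ^ m)⁻¹ * c ^ m = x.1
                rw [inv_mul_cancel_right]
              right_inv := fun x => by
                apply Subtype.ext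
                show x.1 * c ^ m * (c ^ m)⁻¹ = x.1
                rw [mul_inv_cancel_right] }
        rw [hcard, ← hg]
        exact h8_frobenius_gcd _
    · -- coprime factorization
      have hn'2 : 2 ≤ n' := by omega
      have h1 := key (q ^ e) n' (by positivity) (by rw [hneq]; nlinarith) hneq
      have h2 := key n' (q ^ e) hn'pos (by rw [hneq]; nlinarith)
        (by rw [hneq, mul_comm])
      have hcop : Nat.Coprime (q ^ e) n' :=
        Nat.Coprime.pow_left e ((Nat.Prime.coprime_iff_not_dvd hq).2 hqn')
      have hgcd : Nat.gcd n g = Nat.gcd (q ^ e) g * Nat.gcd n' g := by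
        rw [hneq, Nat.gcd_comm, Nat.Coprime.gcd_mul g hcop, Nat.gcd_comm g, Nat.gcd_comm g]
      rw [hgcd]
      exact Nat.Coprime.mul_dvd_of_dvd_of_dvd
        (Nat.Coprime.coprime_dvd_left (Nat.gcd_dvd_left _ _)
          (Nat.Coprime.coprime_dvd_right (Nat.gcd_dvd_left _ _) hcop)) h1 h2
  · -- non-central: pass to the centralizer
    obtain ⟨H, hH⟩ : ∃ H : Subgroup G, H = Subgroup.centralizer {c} := ⟨_, rfl⟩
    rw [← hH] at hc ⊢
    have hcH : c ∈ H := by
      rw [hH, Subgroup.mem_centralizer_singleton_iff]
    have hlt : Nat.card H < g := by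
      rw [← hg]
      by_contra hcon
      exact hc (Subgroup.eq_top_of_card_eq H
        (le_antisymm (Subgroup.card_le_card_group H) (not_lt.1 hcon)))
    have h1 := IHg (Nat.card H) hlt H rfl n hn ⟨c, hcH⟩
    have htop : Subgroup.centralizer {(⟨c, hcH⟩ : H)} = ⊤ := by
      rw [eq_top_iff]
      intro y _
      rw [Subgroup.mem_centralizer_singleton_iff]
      apply Subtype.ext
      have h2 : (y : G) ∈ Subgroup.centralizer {c} := (SetLike.ext_iff.1 hH y.1).1 y.2
      rw [Subgroup.mem_centralizer_singleton_iff] at h2
      exact h2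
    rw [htop, Subgroup.card_top] at h1
    have hcomm : ∀ x : G, x ^ n = c → x ∈ H := by
      intro x hx
      refine (SetLike.ext_iff.1 hH x).2 ?_
      rw [Subgroup.mem_centralizer_singleton_iff, ← hx, ← pow_succ, ← pow_succ']
    have hcard : Nat.card {x : G // x ^ n = c} = Nat.card {x : H // x ^ n = ⟨c, hcH⟩} := by
      apply Nat.card_congr
      exact
        { toFun := fun x => ⟨⟨x.1, hcomm x.1 x.2⟩, Subtype.ext x.2⟩
          invFun := fun x => ⟨x.1.1, by
            have := congrArg Subtype.val x.2
            rwa [Subgroup.coe_pow] at this⟩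
          left_inv := fun x => rfl
          right_inv := fun x => rfl }
    rw [hcard]
    exact h1

theorem h8_hall_class {G : Type u} [Group G] [Finite G] (c : G) (n : ℕ) :
    Nat.gcd (Nat.card {y : G // IsConj c y} * n) (Nat.card G) ∣
      Nat.card {x : G // IsConj c (x ^ n)} := by
  classical
  have hfin : Fintype G := Fintype.ofFinite G
  rcases Nat.eq_zero_or_pos n with rfl | hn
  · rw [mul_zero, Nat.gcd_zero_left]
    by_cases hc : c = 1
    · have : Nat.card {x : G // IsConj c (x ^ 0)} = Nat.card G := by
        apply Nat.card_congr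
        apply Equiv.subtypeUnivEquiv
        intro x
        rw [pow_zero, hc]
      rw [this]
    · have : Nat.card {x : G // IsConj c (x ^ 0)} = 0 := by
        have hemp : IsEmpty {x : G // IsConj c (x ^ 0)} := by
          constructor
          rintro ⟨x, hx⟩
          rw [pow_zero, isConj_one_left] at hx
          exact hc hx
        exact Nat.card_of_isEmpty
      rw [this]
      exact dvd_zero _
  have hh : Nat.card {y : G // IsConj c y} = (Subgroup.centralizer ({c} : Set G)).index := by
    rw [← h8_ncard_conj_eq_index c]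
    exact Nat.card_coe_set_eq {h : G | IsConj c h}
  have hmain := h8_hall_aux (Nat.card G) G rfl n hn c
  -- card = h * A(n, c)
  have hcard : Nat.card {x : G // IsConj c (x ^ n)} =
      Nat.card {y : G // IsConj c y} * Nat.card {x : G // x ^ n = c} := by
    have hFy : Fintype {y : G // IsConj c y} := Fintype.ofFinite _
    let f : {x : G // IsConj c (x ^ n)} → {y : G // IsConj c y} := fun x => ⟨x.1 ^ n, x.2⟩
    rw [← Nat.card_congr (Equiv.sigmaFiberEquiv f), Nat.card_sigma]
    have hterm : ∀ y : {y : G // IsConj c y},
        Nat.card {x : {x : G // IsConj c (x ^ n)} // f x = y} = Nat.card {x : G // x ^ n = c} := by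
      rintro ⟨y, hy⟩
      obtain ⟨t, ht⟩ := isConj_iff.1 hy
      apply Nat.card_congr
      exact
        { toFun := fun x => ⟨t⁻¹ * x.1.1 * t, by
              have h1 : x.1.1 ^ n = y := congrArg Subtype.val x.2
              have : t⁻¹ * x.1.1 * t = t⁻¹ * x.1.1 * t⁻¹⁻¹ := by rw [inv_inv]
              rw [this, conj_pow, h1, ← ht]; group⟩
          invFun := fun x => ⟨⟨t * x.1 * t⁻¹, by
              rw [conj_pow, x.2, ht]; exact hy⟩, by
              apply Subtype.ext
              show (t * x.1 * t⁻¹) ^ n = y
              rw [conj_pow, x.2, ht]⟩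
          left_inv := fun x => by
            apply Subtype.ext
            apply Subtype.ext
            show t * (t⁻¹ * x.1.1 * t) * t⁻¹ = x.1.1
            group
          right_inv := fun x => by
            apply Subtype.ext
            show t⁻¹ * (t * x.1 * t⁻¹) * t = x.1
            group }
    rw [Finset.sum_congr rfl (fun y _ => hterm y), Finset.sum_const, Finset.card_univ,
      smul_eq_mul]
    congr 1
    exact Nat.card_eq_fintype_card.symm
  rw [hcard, hh]
  have hg : Nat.card G = (Subgroup.centralizer ({c} : Set G)).index *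
      Nat.card (Subgroup.centralizer ({c} : Set G)) := by
    rw [mul_comm, Subgroup.card_mul_index]
  rw [hg, Nat.gcd_mul_left]
  exact Nat.mul_dvd_mul_left _ hmain

end Cfsg.Agent.Lib.Helper8
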