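import Mathlib
import Cfsg.Prelude.Def_Transfer

set_option autoImplicit false
set_option linter.style.haveILetI false
universe u

namespace Cfsg.Agent.Lib.Helper8

/-- homomorphisms out of `Q₈` from the relations, with explicit values -/
theorem h8_quat2_lift2 {Γ : Type u} [Group Γ] (A B : Γ) (hA4 : A ^ 4 = 1) (hBB : B * B = A * A)
    (hABA : A * B * A = B) :
    ∃ f : QuaternionGroup 2 →* Γ, (∀ i, f (QuaternionGroup.a i) = A ^ i.val) ∧
      (∀ i, f (QuaternionGroup.xa i) = B * A ^ i.val) := by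
  have hpm : ∀ m : ℕ, A ^ (m % 4) = A ^ m := fun m => (pow_eq_pow_mod m hA4).symm
  have hAB : ∀ s : ℕ, A ^ s * B = B * A ^ (3 * s) := by
    intro s
    induction s with
    | zero => simp
    | succ s ih =>
      have h1 : A * B = B * A ^ 3 := by
        have h2 : A * B * A * A ^ 3 = B * A ^ 3 := by rw [hABA]
        have h3 : A * B * A * A ^ 3 = A * B * A ^ 4 := by
          rw [show (4 : ℕ) = 1 + 3 from rfl, pow_add, pow_one]; group
        rw [h3, hA4, mul_one] at h2
        exact h2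
      calc A ^ (s + 1) * B = A * (A ^ s * B) := by rw [pow_succ']; group
        _ = A * (B * A ^ (3 * s)) := by rw [ih]
        _ = (A * B) * A ^ (3 * s) := by group
        _ = (B * A ^ 3) * A ^ (3 * s) := by rw [h1]
        _ = B * A ^ (3 * (s + 1)) := by rw [mul_assoc, ← pow_add]; congr 2; ring
  obtain ⟨F, hFa, hFx⟩ : ∃ F : QuaternionGroup 2 → Γ,
      (∀ i, F (QuaternionGroup.a i) = A ^ i.val) ∧
      (∀ i, F (QuaternionGroup.xa i) = B * A ^ i.val) :=
    ⟨fun k => match k with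
      | QuaternionGroup.a i => A ^ i.val
      | QuaternionGroup.xa i => B * A ^ i.val, fun i => rfl, fun i => rfl⟩
  have hmul : ∀ x y : QuaternionGroup 2, F (x * y) = F x * F y := by
    intro x y
    cases x with
    | a i =>
      cases y with
      | a j =>
        rw [QuaternionGroup.a_mul_a, hFa, hFa, hFa, ← pow_add, ← hpm (i.val + j.val), ← hpm]
        congr 1
        revert i j; decide
      | xa j =>
        rw [QuaternionGroup.a_mul_xa, hFa, hFx, hFx, ← mul_assoc, hAB, mul_assoc, ← pow_add,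
          ← hpm (3 * i.val + j.val), ← hpm]
        congr 2
        revert i j; decide
    | xa i =>
      cases y with
      | a j =>
        rw [QuaternionGroup.xa_mul_a, hFa, hFx, hFx, mul_assoc, ← pow_add,
          ← hpm (i.val + j.val), ← hpm]
        congr 2
        revert i j; decide
      | xa j =>
        rw [QuaternionGroup.xa_mul_xa, hFa, hFx, hFx]
        have h1 : B * A ^ i.val * (B * A ^ j.val) = A ^ (2 + 3 * i.val + j.val) := by
          calc B * A ^ i.val * (B * A ^ j.val) = B * (A ^ i.val * B) * A ^ j.val := by group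
            _ = B * (B * A ^ (3 * i.val)) * A ^ j.val := by rw [hAB]
            _ = (B * B) * A ^ (3 * i.val) * A ^ j.val := by group
            _ = A ^ (2 + 3 * i.val + j.val) := by
                rw [hBB, pow_add, pow_add, pow_two]
        rw [h1, ← hpm (2 + 3 * i.val + j.val), ← hpm]
        congr 1
        clear h1
        revert i j; decide
  exact ⟨MonoidHom.mk' F hmul, hFa, hFx⟩

theorem h8_pow_four {Γ : Type u} [Group Γ] (g : Γ) : g ^ 4 = g * g * (g * g) := by
  rw [show (4 : ℕ) = 2 + 2 from rfl, pow_add, pow_two]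

/-- power of a product when the commutator is central -/
theorem h8_mul_pow_central {Γ : Type u} [Group Γ] (a b d : Γ) (hba : b * a = d * a * b)
    (hda : d * a = a * d) (hdb : d * b = b * d) (k : ℕ) :
    (a * b) ^ k = a ^ k * b ^ k * d ^ (k * (k - 1) / 2) := by
  have hbk : ∀ k : ℕ, b ^ k * a = d ^ k * a * b ^ k := by
    intro k
    induction k with
    | zero => simp
    | succ k ih =>
      have hdbk : d ^ k * b = b * d ^ k := (Commute.pow_left (show Commute d b from hdb) k).eq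
      calc b ^ (k + 1) * a = b * (b ^ k * a) := by rw [pow_succ']; group
        _ = b * (d ^ k * a * b ^ k) := by rw [ih]
        _ = (b * d ^ k) * a * b ^ k := by group
        _ = (d ^ k * b) * a * b ^ k := by rw [hdbk]
        _ = d ^ k * (b * a) * b ^ k := by group
        _ = d ^ k * (d * a * b) * b ^ k := by rw [hba]
        _ = d ^ (k + 1) * a * b ^ (k + 1) := by rw [pow_succ, pow_succ']; group
  induction k with
  | zero => simp
  | succ k ih =>
    have h1 : (k + 1) * (k + 1 - 1) / 2 = k * (k - 1) / 2 + k := Nat.triangle_succ k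
    obtain ⟨T, hT⟩ : ∃ T : ℕ, T = k * (k - 1) / 2 := ⟨_, rfl⟩
    rw [← hT] at ih h1
    have hdTa : d ^ T * a = a * d ^ T := (Commute.pow_left (show Commute d a from hda) T).eq
    have hdTb : d ^ T * b = b * d ^ T := (Commute.pow_left (show Commute d b from hdb) T).eq
    have hdka : d ^ k * a = a * d ^ k := (Commute.pow_left (show Commute d a from hda) k).eq
    have hdkb : d ^ k * b ^ (k + 1) = b ^ (k + 1) * d ^ k :=
      (Commute.pow_pow (show Commute d b from hdb) k (k + 1)).eq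
    have hdd : d ^ k * d ^ T = d ^ T * d ^ k := (Commute.pow_pow (Commute.refl d) k T).eq
    rw [pow_succ, ih, h1]
    calc a ^ k * b ^ k * d ^ T * (a * b) = a ^ k * b ^ k * (d ^ T * a) * b := by group
      _ = a ^ k * b ^ k * (a * d ^ T) * b := by rw [hdTa]
      _ = a ^ k * (b ^ k * a) * (d ^ T * b) := by group
      _ = a ^ k * (d ^ k * a * b ^ k) * (b * d ^ T) := by rw [hbk, hdTb]
      _ = a ^ k * (d ^ k * a) * (b ^ k * b) * d ^ T := by group
      _ = a ^ k * (a * d ^ k) * b ^ (k + 1) * d ^ T := by rw [hdka, ← pow_succ]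
      _ = (a ^ k * a) * (d ^ k * b ^ (k + 1)) * d ^ T := by group
      _ = a ^ (k + 1) * (b ^ (k + 1) * d ^ k) * d ^ T := by rw [hdkb, ← pow_succ]
      _ = a ^ (k + 1) * b ^ (k + 1) * (d ^ k * d ^ T) := by group
      _ = a ^ (k + 1) * b ^ (k + 1) * d ^ (T + k) := by rw [hdd, ← pow_add]

theorem h8_ham_core {G : Type u} [Group G] [Finite G]
    (hz : ∀ x g : G, g * x * g⁻¹ ∈ Subgroup.zpowers x) (K : Subgroup G)
    (x y : G) (hxK : x ∈ K) (hyK : y ∈ K) (hxy : x * y ≠ y * x)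
    (hmin : ∀ x' ∈ K, ∀ y' ∈ K, x' * y' ≠ y' * x' →
      orderOf x + orderOf y ≤ orderOf x' + orderOf y')
    (hle : orderOf y ≤ orderOf x) :
    orderOf x = 4 ∧ orderOf y = 4 ∧ x * x = y * y ∧ x * y * x = y := by
  have hcomm_of_mem : ∀ g h : G, h ∈ Subgroup.zpowers g → h * g = g * h := by
    intro g h hh
    obtain ⟨k, rfl⟩ := Subgroup.mem_zpowers_iff.1 hh
    exact ((Commute.refl g).zpow_left k).eq
  obtain ⟨c, hc⟩ : ∃ c : G, c = x * y * x⁻¹ * y⁻¹ := ⟨_, rfl⟩
  have hc1 : c ≠ 1 := by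
    intro h
    apply hxy
    rw [hc] at h
    calc x * y = (x * y * x⁻¹ * y⁻¹) * (y * x) := by group
      _ = y * x := by rw [h, one_mul]
  have hcy : c ∈ Subgroup.zpowers y := by
    rw [hc]
    exact (Subgroup.zpowers y).mul_mem (hz y x)
      ((Subgroup.zpowers y).inv_mem (Subgroup.mem_zpowers y))
  have hcx : c ∈ Subgroup.zpowers x := by
    have h1 : y * x * y⁻¹ ∈ Subgroup.zpowers x := hz x y
    have h2 : c = x * (y * x * y⁻¹)⁻¹ := by rw [hc]; group
    rw [h2]
    exact (Subgroup.zpowers x).mul_mem (Subgroup.mem_zpowers x) ((Subgroup.zpowers x).inv_mem h1)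
  have hcxc : c * x = x * c := hcomm_of_mem x c hcx
  have hcyc : c * y = y * c := hcomm_of_mem y c hcy
  have hxyc : x * y = c * y * x := by rw [hc]; group
  have hpow1 : ∀ k : ℕ, x ^ k * y = c ^ k * y * x ^ k := by
    intro k
    induction k with
    | zero => simp
    | succ k ih =>
      have hcxk : c ^ k * x = x * c ^ k := (Commute.pow_left (show Commute c x from hcxc) k).eq
      calc x ^ (k + 1) * y = x * (x ^ k * y) := by rw [pow_succ']; group
        _ = x * (c ^ k * y * x ^ k) := by rw [ih]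
        _ = (x * c ^ k) * y * x ^ k := by group
        _ = (c ^ k * x) * y * x ^ k := by rw [hcxk]
        _ = c ^ k * (x * y) * x ^ k := by group
        _ = c ^ k * (c * y * x) * x ^ k := by rw [hxyc]
        _ = c ^ (k + 1) * y * x ^ (k + 1) := by rw [pow_succ, pow_succ']; group
  have hpow2 : ∀ k : ℕ, x * y ^ k = c ^ k * y ^ k * x := by
    intro k
    induction k with
    | zero => simp
    | succ k ih =>
      have hcyk : c * y ^ k = y ^ k * c := (Commute.pow_right (show Commute c y from hcyc) k).eq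
      calc x * y ^ (k + 1) = (x * y ^ k) * y := by rw [pow_succ]; group
        _ = (c ^ k * y ^ k * x) * y := by rw [ih]
        _ = c ^ k * y ^ k * (x * y) := by group
        _ = c ^ k * y ^ k * (c * y * x) := by rw [hxyc]
        _ = c ^ k * (y ^ k * c) * y * x := by group
        _ = c ^ k * (c * y ^ k) * y * x := by rw [hcyk]
        _ = c ^ (k + 1) * y ^ (k + 1) * x := by rw [pow_succ, pow_succ]; group
  have hordx_pos : 0 < orderOf x := orderOf_pos x
  have hordy_pos : 0 < orderOf y := orderOf_pos y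
  have hcp_x : ∀ p : ℕ, p.Prime → p ∣ orderOf x → c ^ p = 1 := by
    intro p hp hpx
    have h1 : orderOf (x ^ p) = orderOf x / p := orderOf_pow_of_dvd hp.ne_zero hpx
    have h2 : orderOf (x ^ p) < orderOf x := by
      rw [h1]; exact Nat.div_lt_self hordx_pos hp.one_lt
    have h3 : x ^ p * y = y * x ^ p := by
      by_contra hne
      have := hmin (x ^ p) (K.pow_mem hxK p) y hyK hne
      omega
    have h4 := hpow1 p
    rw [h3] at h4
    have h5 : c ^ p * (y * x ^ p) = 1 * (y * x ^ p) := by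
      rw [one_mul, ← mul_assoc]; exact h4.symm
    exact mul_right_cancel h5
  have hcq_y : ∀ q : ℕ, q.Prime → q ∣ orderOf y → c ^ q = 1 := by
    intro q hq hqy
    have h1 : orderOf (y ^ q) = orderOf y / q := orderOf_pow_of_dvd hq.ne_zero hqy
    have h2 : orderOf (y ^ q) < orderOf y := by
      rw [h1]; exact Nat.div_lt_self hordy_pos hq.one_lt
    have h3 : x * y ^ q = y ^ q * x := by
      by_contra hne
      have := hmin x hxK (y ^ q) (K.pow_mem hyK q) hne
      omega
    have h4 := hpow2 q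
    rw [h3] at h4
    have h5 : c ^ q * (y ^ q * x) = 1 * (y ^ q * x) := by
      rw [one_mul, ← mul_assoc]; exact h4.symm
    exact mul_right_cancel h5
  have hx1 : orderOf x ≠ 1 := by
    intro h
    rw [orderOf_eq_one_iff] at h
    apply hxy; rw [h, one_mul, mul_one]
  have hy1 : orderOf y ≠ 1 := by
    intro h
    rw [orderOf_eq_one_iff] at h
    apply hxy; rw [h, one_mul, mul_one]
  have hoc1 : orderOf c ≠ 1 := fun h => hc1 (orderOf_eq_one_iff.1 h)
  obtain ⟨p, hp, hpx⟩ := Nat.exists_prime_and_dvd hx1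
  have hocp : orderOf c = p := by
    have h1 : orderOf c ∣ p := orderOf_dvd_of_pow_eq_one (hcp_x p hp hpx)
    rcases (Nat.dvd_prime hp).1 h1 with h | h
    · exact absurd h hoc1
    · exact h
  have hxprime : ∀ r : ℕ, r.Prime → r ∣ orderOf x → r = p := by
    intro r hr hrx
    have h1 : orderOf c ∣ r := orderOf_dvd_of_pow_eq_one (hcp_x r hr hrx)
    rw [hocp] at h1
    exact ((Nat.prime_dvd_prime_iff_eq hp hr).1 h1).symm
  have hyprime : ∀ r : ℕ, r.Prime → r ∣ orderOf y → r = p := by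
    intro r hr hry
    have h1 : orderOf c ∣ r := orderOf_dvd_of_pow_eq_one (hcq_y r hr hry)
    rw [hocp] at h1
    exact ((Nat.prime_dvd_prime_iff_eq hp hr).1 h1).symm
  obtain ⟨m, hm⟩ : ∃ m : ℕ, orderOf x = p ^ m :=
    ⟨_, Nat.eq_prime_pow_of_unique_prime_dvd hordx_pos.ne' (fun {d} hd hdx => hxprime d hd hdx)⟩
  obtain ⟨n, hn⟩ : ∃ n : ℕ, orderOf y = p ^ n :=
    ⟨_, Nat.eq_prime_pow_of_unique_prime_dvd hordy_pos.ne' (fun {d} hd hdy => hyprime d hd hdy)⟩
  have hm1 : 1 ≤ m := by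
    rcases Nat.eq_zero_or_pos m with h | h
    · rw [h, pow_zero] at hm; exact absurd hm hx1
    · exact h
  have hn1 : 1 ≤ n := by
    rcases Nat.eq_zero_or_pos n with h | h
    · rw [h, pow_zero] at hn; exact absurd hn hy1
    · exact h
  have hnm : n ≤ m := by
    rw [hm, hn] at hle
    exact (Nat.pow_le_pow_iff_right hp.one_lt).1 hle
  have hcp : c ^ p = 1 := by rw [← hocp]; exact pow_orderOf_eq_one c
  have hgen : ∀ (g : G) (e : ℕ), 1 ≤ e → orderOf g = p ^ e → c ∈ Subgroup.zpowers g →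
      ∃ j : ℕ, c = (g ^ (p ^ (e - 1))) ^ j := by
    intro g e he hg hcg
    obtain ⟨s, hs⟩ := (Submonoid.mem_powers_iff c g).1 (mem_powers_iff_mem_zpowers.2 hcg)
    have h1 : g ^ (s * p) = 1 := by rw [pow_mul, hs]; exact hcp
    have h2 : p ^ e ∣ s * p := by rw [← hg]; exact orderOf_dvd_of_pow_eq_one h1
    have h3 : p ^ (e - 1) ∣ s := by
      have h4 : p ^ e = p ^ (e - 1) * p := by rw [← pow_succ]; congr 1; omega
      rw [h4] at h2
      exact Nat.dvd_of_mul_dvd_mul_right hp.pos h2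
    obtain ⟨j, hj⟩ := h3
    exact ⟨j, by rw [← pow_mul, ← hj, hs]⟩
  obtain ⟨j, hj⟩ := hgen x m hm1 hm hcx
  obtain ⟨i, hi⟩ := hgen y n hn1 hn hcy
  obtain ⟨u, hu⟩ : ∃ u : G, u = y ^ (p ^ (n - 1)) := ⟨_, rfl⟩
  rw [← hu] at hi
  have hup : u ^ p = 1 := by
    rw [hu, ← pow_mul, ← pow_succ, show n - 1 + 1 = n by omega, ← hn]; exact pow_orderOf_eq_one y
  have hpi : ¬ p ∣ i := by
    rintro ⟨i', rfl⟩
    apply hc1
    rw [hi, pow_mul, hup, one_pow]
  obtain ⟨i', -, hi'⟩ := Nat.exists_mul_mod_eq_one_of_coprime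
    ((Nat.Prime.coprime_iff_not_dvd hp).2 hpi).symm hp.one_lt
  have hu_c : u = c ^ i' := by
    rw [hi, ← pow_mul, pow_eq_pow_mod (i * i') hup, hi', pow_one]
  obtain ⟨t, ht⟩ : ∃ t : ℕ, t = j * i' * p ^ (m - n) := ⟨_, rfl⟩
  have hu_x : u = x ^ (t * p ^ (n - 1)) := by
    rw [hu_c, hj, ← pow_mul, ← pow_mul, ht]
    congr 1
    have h1 : p ^ (m - 1) = p ^ (m - n) * p ^ (n - 1) := by rw [← pow_add]; congr 1; omega
    rw [h1]; ring
  obtain ⟨w, hw⟩ : ∃ w : G, w = x ^ t := ⟨_, rfl⟩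
  have hwK : w ∈ K := by rw [hw]; exact K.pow_mem hxK t
  have hcw : c * w = w * c := by
    rw [hw]; exact (Commute.pow_right (show Commute c x from hcxc) t).eq
  have hwy : w * y = c ^ t * y * w := by rw [hw]; exact hpow1 t
  obtain ⟨d, hd⟩ : ∃ d : G, d = c ^ t := ⟨_, rfl⟩
  have hdw : d * w⁻¹ = w⁻¹ * d := by
    have h1 : d * w = w * d := by
      rw [hd]; exact (Commute.pow_left (show Commute c w from hcw) t).eq
    calc d * w⁻¹ = w⁻¹ * (w * d) * w⁻¹ := by group
      _ = w⁻¹ * (d * w) * w⁻¹ := by rw [h1]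
      _ = w⁻¹ * d := by group
  have hdy : d * y = y * d := by
    rw [hd]; exact (Commute.pow_left (show Commute c y from hcyc) t).eq
  have hyw : y * w⁻¹ = d * w⁻¹ * y := by
    have h1 : w * y = d * y * w := by rw [hd]; exact hwy
    calc y * w⁻¹ = w⁻¹ * (w * y) * w⁻¹ := by group
      _ = w⁻¹ * (d * y * w) * w⁻¹ := by rw [h1]
      _ = (w⁻¹ * d) * y := by group
      _ = d * w⁻¹ * y := by rw [← hdw]
  obtain ⟨y', hy'⟩ : ∃ y' : G, y' = w⁻¹ * y := ⟨_, rfl⟩
  have hy'K : y' ∈ K := by rw [hy']; exact K.mul_mem (K.inv_mem hwK) hyK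
  have hxy' : x * y' ≠ y' * x := by
    intro h
    have hxw : x * w⁻¹ = w⁻¹ * x := by
      have h0 : x * w = w * x := by rw [hw]; exact (Commute.pow_right (Commute.refl x) t).eq
      calc x * w⁻¹ = w⁻¹ * (w * x) * w⁻¹ := by group
        _ = w⁻¹ * (x * w) * w⁻¹ := by rw [h0]
        _ = w⁻¹ * x := by group
    rw [hy'] at h
    have h2 : x * y = y * x := by
      calc x * y = w * (w⁻¹ * x) * y := by group
        _ = w * (x * w⁻¹) * y := by rw [hxw]
        _ = w * (x * (w⁻¹ * y)) := by group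
        _ = w * (w⁻¹ * y * x) := by rw [h]
        _ = y * x := by group
    exact hxy h2
  have hkey := h8_mul_pow_central w⁻¹ y d hyw hdw hdy (p ^ (n - 1))
  rw [← hy'] at hkey
  have hwk : (w⁻¹) ^ (p ^ (n - 1)) * y ^ (p ^ (n - 1)) = 1 := by
    rw [← hu, hu_x, hw, inv_pow, ← pow_mul, inv_mul_cancel]
  rw [hwk, one_mul, hd, ← pow_mul] at hkey
  obtain ⟨T, hT⟩ : ∃ T : ℕ, T = p ^ (n - 1) * (p ^ (n - 1) - 1) / 2 := ⟨_, rfl⟩
  have hT2 : 2 * T = p ^ (n - 1) * (p ^ (n - 1) - 1) := by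
    rw [hT]; exact Nat.two_mul_div_two_of_even (Nat.even_mul_pred_self _)
  rw [← hT] at hkey
  have hndvd : ¬ p ∣ t * T := by
    intro hdvd
    have h1 : y' ^ (p ^ (n - 1)) = 1 := by
      rw [hkey]
      obtain ⟨e, he⟩ := hdvd
      rw [he, pow_mul, hcp, one_pow]
    have h2 : orderOf y' ∣ p ^ (n - 1) := orderOf_dvd_of_pow_eq_one h1
    have h3 : orderOf y' ≤ p ^ (n - 1) := Nat.le_of_dvd (pow_pos hp.pos _) h2
    have h4 : p ^ (n - 1) < p ^ n := Nat.pow_lt_pow_right hp.one_lt (by omega)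
    have h5 := hmin x hxK y' hy'K hxy'
    rw [hn] at h5
    omega
  have hn_ne1 : n ≠ 1 := by
    intro h
    apply hndvd
    have h0 : T = 0 := by rw [hT, h]; simp
    rw [h0, mul_zero]; exact dvd_zero p
  have hp2 : p = 2 := by
    by_contra hp2
    apply hndvd
    have h1 : p ∣ p ^ (n - 1) := dvd_pow_self p (by omega)
    have h2 : p ∣ 2 * T := by rw [hT2]; exact Dvd.dvd.mul_right h1 _
    have h3 : p ∣ T := by
      rcases (Nat.Prime.dvd_mul hp).1 h2 with h | h
      · exact absurd ((Nat.prime_dvd_prime_iff_eq hp Nat.prime_two).1 h) hp2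
      · exact h
    exact Dvd.dvd.mul_left h3 t
  rw [hp2] at hm hn hj hu hT2 hndvd ht
  have hn2 : n = 2 := by
    by_contra hn2
    apply hndvd
    have hn3 : 3 ≤ n := by omega
    have h1 : 4 ∣ 2 ^ (n - 1) := by
      have h0 : 2 ^ (n - 1) = 4 * 2 ^ (n - 3) := by
        rw [show (4 : ℕ) = 2 ^ 2 from rfl, ← pow_add]; congr 1; omega
      rw [h0]; exact Dvd.intro _ rfl
    have h2 : 4 ∣ 2 * T := by rw [hT2]; exact Dvd.dvd.mul_right h1 _
    have h3 : 2 ∣ T := by omega
    exact Dvd.dvd.mul_left h3 t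
  have hm2 : m = 2 := by
    by_contra hm2
    apply hndvd
    have hm3 : 3 ≤ m := by omega
    have h1 : 2 ∣ t := by
      rw [ht]
      exact Dvd.dvd.mul_left (dvd_pow_self 2 (by omega)) _
    exact Dvd.dvd.mul_right h1 T
  have hx4 : orderOf x = 4 := by rw [hm, hm2]; norm_num
  have hy4 : orderOf y = 4 := by rw [hn, hn2]; norm_num
  have hsq : ∀ g : G, orderOf g = 4 → ∀ j : ℕ, c = (g ^ 2) ^ j → c = g * g := by
    intro g hg j hj
    have h1 : (g ^ 2) ^ 2 = 1 := by
      rw [← pow_mul, show 2 * 2 = orderOf g from hg.symm]; exact pow_orderOf_eq_one g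
    rw [pow_eq_pow_mod j h1] at hj
    rcases Nat.mod_two_eq_zero_or_one j with h | h
    · rw [h, pow_zero] at hj; exact absurd hj hc1
    · rw [h, pow_one, pow_two] at hj; exact hj
  have e1 : 2 ^ (m - 1) = 2 := by rw [hm2]; norm_num
  have e2 : 2 ^ (n - 1) = 2 := by rw [hn2]; norm_num
  rw [e1] at hj
  rw [e2] at hu
  rw [hu] at hi
  have hcxx : c = x * x := hsq x hx4 j hj
  have hcyy : c = y * y := hsq y hy4 i hi
  refine ⟨hx4, hy4, by rw [← hcxx, hcyy], ?_⟩
  have h1 : x * y = x * x * y * x := by rw [← hcxx]; exact hxyc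
  calc x * y * x = x⁻¹ * (x * x * y * x) := by group
    _ = x⁻¹ * (x * y) := by rw [← h1]
    _ = y := by group

theorem h8_ham_pair {G : Type u} [Group G] [Finite G]
    (hz : ∀ x g : G, g * x * g⁻¹ ∈ Subgroup.zpowers x) (K : Subgroup G)
    (hK : ∃ x ∈ K, ∃ y ∈ K, x * y ≠ y * x) :
    ∃ A ∈ K, ∃ B ∈ K, orderOf A = 4 ∧ orderOf B = 4 ∧ A * A = B * B ∧ A * B * A = B := by
  classical
  have hex : ∃ n : ℕ, ∃ x ∈ K, ∃ y ∈ K, x * y ≠ y * x ∧ orderOf x + orderOf y = n := by
    obtain ⟨x, hx, y, hy, hxy⟩ := hK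
    exact ⟨_, x, hx, y, hy, hxy, rfl⟩
  obtain ⟨x, hx, y, hy, hxy, hn⟩ := Nat.find_spec hex
  have hmin : ∀ x' ∈ K, ∀ y' ∈ K, x' * y' ≠ y' * x' →
      orderOf x + orderOf y ≤ orderOf x' + orderOf y' := by
    intro x' hx' y' hy' hne
    rw [hn]
    exact Nat.find_min' hex ⟨x', hx', y', hy', hne, rfl⟩
  rcases le_total (orderOf y) (orderOf x) with hle | hle
  · exact ⟨x, hx, y, hy, h8_ham_core hz K x y hx hy hxy hmin hle⟩
  · have hmin' : ∀ x' ∈ K, ∀ y' ∈ K, x' * y' ≠ y' * x' →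
        orderOf y + orderOf x ≤ orderOf x' + orderOf y' := by
      intro x' hx' y' hy' hne
      have := hmin x' hx' y' hy' hne
      omega
    exact ⟨y, hy, x, hx, h8_ham_core hz K y x hy hx (fun h => hxy h.symm) hmin' hle⟩

theorem h8_s4211 {G : Type u} [Group G] [Finite G] (hna : ¬ IsMulCommutative G)
    (hn : ∀ H : Subgroup G, H.Normal) :
    ∃ Q E A : Subgroup G, Nonempty (Q ≃* QuaternionGroup 2) ∧ Cfsg.IsElementaryAbelian 2 E ∧
      IsMulCommutative A ∧ Odd (Nat.card A) ∧ E ⊓ A = ⊥ ∧ Q ⊓ (E ⊔ A) = ⊥ ∧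
      Q ⊔ (E ⊔ A) = ⊤ := by
  have hz : ∀ x g : G, g * x * g⁻¹ ∈ Subgroup.zpowers x := fun x g =>
    (hn (Subgroup.zpowers x)).conj_mem x (Subgroup.mem_zpowers x) g
  have hK : ∃ x ∈ (⊤ : Subgroup G), ∃ y ∈ (⊤ : Subgroup G), x * y ≠ y * x := by
    by_contra hcon
    push Not at hcon
    exact hna ⟨⟨fun a b => hcon a (Subgroup.mem_top a) b (Subgroup.mem_top b)⟩⟩
  obtain ⟨A, -, B, -, hA4, hB4, hAB2, hABA⟩ := h8_ham_pair hz ⊤ hK
  have hA4' : A ^ 4 = 1 := by rw [← hA4]; exact pow_orderOf_eq_one A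
  have hB4' : B ^ 4 = 1 := by rw [← hB4]; exact pow_orderOf_eq_one B
  obtain ⟨c, hc⟩ : ∃ c : G, c = A * A := ⟨_, rfl⟩
  have hcc : c * c = 1 := by
    rw [hc]
    calc A * A * (A * A) = A ^ 4 := (h8_pow_four A).symm
      _ = 1 := hA4'
  have hc1 : c ≠ 1 := by
    intro h
    have h1 : A ^ 2 = 1 := by rw [pow_two, ← hc]; exact h
    have h2 := orderOf_dvd_of_pow_eq_one h1
    rw [hA4] at h2; norm_num at h2
  have hcA : c * A = A * c := by rw [hc]; group
  have hcB : c * B = B * c := by rw [hc, hAB2]; group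
  have hABne : A * B ≠ B * A := by
    intro h
    apply hc1
    have h1 : B * (A * A) = B := by
      calc B * (A * A) = (B * A) * A := by group
        _ = A * B * A := by rw [h]
        _ = B := hABA
    rw [hc]
    exact mul_left_cancel (a := B) (by rw [h1, mul_one])
  have hcinv : c⁻¹ = c := inv_eq_of_mul_eq_one_right hcc
  have hBinv : B⁻¹ = B * c := by
    apply inv_eq_of_mul_eq_one_right
    calc B * (B * c) = (B * B) * c := by group
      _ = 1 := by rw [← hAB2, ← hc, hcc]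
  have hBAB : B * A * B⁻¹ = A⁻¹ := by
    calc B * A * B⁻¹ = A⁻¹ * (A * B * A) * B⁻¹ := by group
      _ = A⁻¹ := by rw [hABA]; group
  have hABAinv : A * B * A⁻¹ = B⁻¹ := by
    calc A * B * A⁻¹ = (A * B * A) * (A * A)⁻¹ := by group
      _ = B * c⁻¹ := by rw [hABA, ← hc]
      _ = B * c := by rw [hcinv]
      _ = B⁻¹ := hBinv.symm
  haveI : NeZero (2 * 2) := ⟨by norm_num⟩
  obtain ⟨f, hfa, hfx⟩ := h8_quat2_lift2 A B hA4' hAB2.symm hABA
  have hfinj : Function.Injective f := by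
    rw [injective_iff_map_eq_one]
    intro k hk
    cases k with
    | a i =>
      rw [hfa] at hk
      have h1 : orderOf A ∣ i.val := orderOf_dvd_of_pow_eq_one hk
      rw [hA4] at h1
      have h2 : i.val < 2 * 2 := ZMod.val_lt i
      have h3 : i.val = 0 := by omega
      have h4 : i = 0 := (ZMod.val_eq_zero i).1 h3
      rw [h4]; rfl
    | xa i =>
      exfalso
      rw [hfx] at hk
      apply hABne
      have h1 : B = (A ^ i.val)⁻¹ := eq_inv_of_mul_eq_one_left hk
      rw [h1]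
      group
  obtain ⟨Q, hQ⟩ : ∃ Q : Subgroup G, Q = f.range := ⟨_, rfl⟩
  have hAQ : A ∈ Q := by
    rw [hQ]
    refine ⟨QuaternionGroup.a 1, ?_⟩
    rw [hfa]
    have h1 : (1 : ZMod (2 * 2)).val = 1 := rfl
    rw [h1, pow_one]
  have hBQ : B ∈ Q := by
    rw [hQ]
    refine ⟨QuaternionGroup.xa 0, ?_⟩
    rw [hfx]
    have h1 : (0 : ZMod (2 * 2)).val = 0 := rfl
    rw [h1, pow_zero, mul_one]
  obtain ⟨C, hC⟩ : ∃ C : Subgroup G, C = Subgroup.centralizer ({A, B} : Set G) := ⟨_, rfl⟩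
  have hCmem : ∀ g : G, g ∈ C ↔ (A * g = g * A ∧ B * g = g * B) := by
    intro g
    rw [hC, Subgroup.mem_centralizer_iff]
    constructor
    · intro h
      exact ⟨h A (by simp), h B (by simp)⟩
    · rintro ⟨h1, h2⟩ s hs
      rcases hs with hs | hs
      · rw [hs]; exact h1
      · have hs' : s = B := hs
        rw [hs']; exact h2
  have hconj4 : ∀ X : G, X ^ 4 = 1 → X * X ≠ 1 → ∀ g : G,
      g * X * g⁻¹ = X ∨ g * X * g⁻¹ = X⁻¹ := by
    intro X hX4 hXX g
    obtain ⟨k, hk⟩ := (Submonoid.mem_powers_iff _ X).1 (mem_powers_iff_mem_zpowers.2 (hz X g))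
    have hk' : g * X * g⁻¹ = X ^ (k % 4) := by rw [← pow_eq_pow_mod k hX4]; exact hk.symm
    obtain ⟨r, hr⟩ : ∃ r, r = k % 4 := ⟨_, rfl⟩
    rw [← hr] at hk'
    have hr4 : r = 0 ∨ r = 1 ∨ r = 2 ∨ r = 3 := by omega
    rcases hr4 with rfl | rfl | rfl | rfl
    · exfalso; apply hXX
      rw [pow_zero] at hk'
      have h1 : X = 1 := by
        calc X = g⁻¹ * (g * X * g⁻¹) * g := by group
          _ = 1 := by rw [hk']; group
      rw [h1, one_mul]
    · left; rw [hk', pow_one]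
    · exfalso; apply hXX
      have h2 : (g * X * g⁻¹) * (g * X * g⁻¹) = 1 := by
        rw [hk']
        calc X ^ 2 * X ^ 2 = X ^ 4 := by group
          _ = 1 := hX4
      calc X * X = g⁻¹ * ((g * X * g⁻¹) * (g * X * g⁻¹)) * g := by group
        _ = 1 := by rw [h2]; group
    · right; rw [hk']
      apply eq_inv_of_mul_eq_one_left
      calc X ^ 3 * X = X ^ 4 := by group
        _ = 1 := hX4
  have hconjA := hconj4 A hA4' (by rw [← hc]; exact hc1)
  have hconjB := hconj4 B hB4' (by rw [← hAB2, ← hc]; exact hc1)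
  have hdecomp : ∀ g : G, ∃ q ∈ Q, g * q ∈ C := by
    intro g
    obtain ⟨q₁, hq₁Q, hq₁⟩ : ∃ q₁ ∈ Q, (g * q₁) * A * (g * q₁)⁻¹ = A := by
      rcases hconjA g with h | h
      · exact ⟨1, Q.one_mem, by rw [mul_one]; exact h⟩
      · refine ⟨B, hBQ, ?_⟩
        calc (g * B) * A * (g * B)⁻¹ = g * (B * A * B⁻¹) * g⁻¹ := by group
          _ = g * A⁻¹ * g⁻¹ := by rw [hBAB]
          _ = (g * A * g⁻¹)⁻¹ := by group
          _ = A := by rw [h, inv_inv]
    obtain ⟨q₂, hq₂Q, hq₂A, hq₂B⟩ : ∃ q₂ ∈ Q, (g * q₂) * A * (g * q₂)⁻¹ = A ∧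
        (g * q₂) * B * (g * q₂)⁻¹ = B := by
      rcases hconjB (g * q₁) with h | h
      · exact ⟨q₁, hq₁Q, hq₁, h⟩
      · refine ⟨q₁ * A, Q.mul_mem hq₁Q hAQ, ?_, ?_⟩
        · calc (g * (q₁ * A)) * A * (g * (q₁ * A))⁻¹ = (g * q₁) * A * (g * q₁)⁻¹ := by group
            _ = A := hq₁
        · calc (g * (q₁ * A)) * B * (g * (q₁ * A))⁻¹
              = (g * q₁) * (A * B * A⁻¹) * (g * q₁)⁻¹ := by group
            _ = (g * q₁) * B⁻¹ * (g * q₁)⁻¹ := by rw [hABAinv]
            _ = ((g * q₁) * B * (g * q₁)⁻¹)⁻¹ := by group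
            _ = B := by rw [h, inv_inv]
    refine ⟨q₂, hq₂Q, ?_⟩
    rw [hCmem]
    constructor
    · calc A * (g * q₂) = ((g * q₂) * A * (g * q₂)⁻¹) * (g * q₂) := by rw [hq₂A]
        _ = (g * q₂) * A := by group
    · calc B * (g * q₂) = ((g * q₂) * B * (g * q₂)⁻¹) * (g * q₂) := by rw [hq₂B]
        _ = (g * q₂) * B := by group
  have hC4 : ∀ z ∈ C, z ^ 4 = 1 → z * z = 1 := by
    intro z hzC hz4
    obtain ⟨hzA, hzB⟩ := (hCmem z).1 hzC
    obtain ⟨w, hw⟩ : ∃ w : G, w = z * B := ⟨_, rfl⟩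
    have hww : w * w = z * z * c := by
      rw [hw, hc, hAB2]
      calc z * B * (z * B) = z * (B * z) * B := by group
        _ = z * (z * B) * B := by rw [hzB]
        _ = z * z * (B * B) := by group
    have hcz : c * z = z * c := by
      rw [hc]
      calc A * A * z = A * (A * z) := by group
        _ = A * (z * A) := by rw [hzA]
        _ = (A * z) * A := by group
        _ = z * A * A := by rw [hzA]
        _ = z * (A * A) := by group
    have hw4 : w ^ 4 = 1 := by
      calc w ^ 4 = (w * w) * (w * w) := h8_pow_four w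
        _ = (z * z * c) * (z * z * c) := by rw [hww]
        _ = z * z * (c * z) * z * c := by group
        _ = z * z * (z * c) * z * c := by rw [hcz]
        _ = z * z * z * (c * z) * c := by group
        _ = z * z * z * (z * c) * c := by rw [hcz]
        _ = z ^ 4 * (c * c) := by rw [h8_pow_four z]; group
        _ = 1 := by rw [hz4, hcc, one_mul]
    have hAw : A * w * A⁻¹ = w * c := by
      rw [hw]
      calc A * (z * B) * A⁻¹ = (A * z) * B * A⁻¹ := by group
        _ = (z * A) * B * A⁻¹ := by rw [hzA]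
        _ = z * (A * B * A⁻¹) := by group
        _ = z * B⁻¹ := by rw [hABAinv]
        _ = z * (B * c) := by rw [hBinv]
        _ = z * B * c := by group
    have hcw : c ∈ Subgroup.zpowers w := by
      have h1 : w * c ∈ Subgroup.zpowers w := by rw [← hAw]; exact hz w A
      have h2 : c = w⁻¹ * (w * c) := by group
      rw [h2]
      exact (Subgroup.zpowers w).mul_mem
        ((Subgroup.zpowers w).inv_mem (Subgroup.mem_zpowers w)) h1
    obtain ⟨k, hk⟩ := (Submonoid.mem_powers_iff _ w).1 (mem_powers_iff_mem_zpowers.2 hcw)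
    have hk' : c = w ^ (k % 4) := by rw [← pow_eq_pow_mod k hw4]; exact hk.symm
    obtain ⟨r, hr⟩ : ∃ r, r = k % 4 := ⟨_, rfl⟩
    rw [← hr] at hk'
    have hr4 : r = 0 ∨ r = 1 ∨ r = 2 ∨ r = 3 := by omega
    have hwc : w ≠ c := by
      intro h
      apply hABne
      have hz_eq : z = c * B⁻¹ := by rw [← h, hw]; group
      rw [hz_eq] at hzA
      have h3 : A * B⁻¹ = B⁻¹ * A := by
        calc A * B⁻¹ = c⁻¹ * (c * A) * B⁻¹ := by group
          _ = c⁻¹ * (A * c) * B⁻¹ := by rw [hcA]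
          _ = c⁻¹ * (A * (c * B⁻¹)) := by group
          _ = c⁻¹ * ((c * B⁻¹) * A) := by rw [hzA]
          _ = B⁻¹ * A := by group
      calc A * B = B * (B⁻¹ * A) * B := by group
        _ = B * (A * B⁻¹) * B := by rw [h3]
        _ = B * A := by group
    rcases hr4 with rfl | rfl | rfl | rfl
    · rw [pow_zero] at hk'; exact absurd hk' hc1
    · rw [pow_one] at hk'; exact absurd hk'.symm hwc
    · rw [pow_two, hww] at hk'
      have h3 : z * z * c = 1 * c := by rw [one_mul]; exact hk'.symm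
      exact mul_right_cancel h3
    · exfalso; apply hwc
      have h1 : w * c = 1 := by
        rw [hk']
        calc w * w ^ 3 = w ^ 4 := by group
          _ = 1 := hw4
      calc w = (w * c) * c⁻¹ := by group
        _ = c⁻¹ := by rw [h1, one_mul]
        _ = c := hcinv
  have hCab : ∀ u ∈ C, ∀ v ∈ C, u * v = v * u := by
    by_contra hcon
    push Not at hcon
    obtain ⟨u, hu, v, hv, huv⟩ := hcon
    obtain ⟨A', hA'C, B', -, hA'4, -, -, -⟩ := h8_ham_pair hz C ⟨u, hu, v, hv, huv⟩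
    have h1 : A' ^ 4 = 1 := by rw [← hA'4]; exact pow_orderOf_eq_one A'
    have h2 := hC4 A' hA'C h1
    have h3 : orderOf A' ∣ 2 := orderOf_dvd_of_pow_eq_one (by rw [pow_two]; exact h2)
    rw [hA'4] at h3; norm_num at h3
  obtain ⟨C₂, hC₂⟩ : ∃ C₂ : Subgroup G, ∀ z, z ∈ C₂ ↔ (z ∈ C ∧ z * z = 1) :=
    ⟨{ carrier := {z | z ∈ C ∧ z * z = 1}
       one_mem' := ⟨C.one_mem, one_mul 1⟩
       mul_mem' := by
         rintro a b ⟨ha, haa⟩ ⟨hb, hbb⟩
         refine ⟨C.mul_mem ha hb, ?_⟩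
         calc a * b * (a * b) = a * (b * a) * b := by group
           _ = a * (a * b) * b := by rw [hCab b hb a ha]
           _ = (a * a) * (b * b) := by group
           _ = 1 := by rw [haa, hbb, one_mul]
       inv_mem' := by
         rintro a ⟨ha, haa⟩
         refine ⟨C.inv_mem ha, ?_⟩
         calc a⁻¹ * a⁻¹ = (a * a)⁻¹ := by group
           _ = 1 := by rw [haa, inv_one] }, fun z => Iff.rfl⟩
  obtain ⟨Ao, hAo⟩ : ∃ Ao : Subgroup G, ∀ z, z ∈ Ao ↔ (z ∈ C ∧ ∃ k : ℕ, Odd k ∧ z ^ k = 1) :=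
    ⟨{ carrier := {z | z ∈ C ∧ ∃ k : ℕ, Odd k ∧ z ^ k = 1}
       one_mem' := ⟨C.one_mem, 1, odd_one, one_pow 1⟩
       mul_mem' := by
         rintro a b ⟨ha, ka, hka, hak⟩ ⟨hb, kb, hkb, hbk⟩
         refine ⟨C.mul_mem ha hb, ka * kb, hka.mul hkb, ?_⟩
         rw [(show Commute a b from hCab a ha b hb).mul_pow, pow_mul, hak, one_pow,
           mul_comm ka kb, pow_mul, hbk, one_pow, one_mul]
       inv_mem' := by
         rintro a ⟨ha, ka, hka, hak⟩
         exact ⟨C.inv_mem ha, ka, hka, by rw [inv_pow, hak, inv_one]⟩ }, fun z => Iff.rfl⟩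
  have hCdec : ∀ z ∈ C, ∃ e ∈ C₂, ∃ a ∈ Ao, z = e * a := by
    intro z hzC
    have hn4 : ¬ 4 ∣ orderOf z := by
      intro h4
      have h1 : orderOf (z ^ (orderOf z / 4)) = 4 := by
        have hd : orderOf z / 4 ∣ orderOf z := Nat.div_dvd_of_dvd h4
        rw [orderOf_pow_of_dvd (by
          have hpos := orderOf_pos z
          intro h0
          have hmul := Nat.div_mul_cancel h4
          omega) hd]
        exact Nat.div_div_self h4 (orderOf_pos z).ne'
      have h2 := hC4 (z ^ (orderOf z / 4)) (C.pow_mem hzC (orderOf z / 4))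
        (by
          have h0 := pow_orderOf_eq_one (z ^ (orderOf z / 4))
          rw [h1] at h0
          exact h0)
      have h3 : orderOf (z ^ (orderOf z / 4)) ∣ 2 :=
        orderOf_dvd_of_pow_eq_one (by rw [pow_two]; exact h2)
      rw [h1] at h3; norm_num at h3
    obtain ⟨m, hm, hzm⟩ : ∃ m : ℕ, Odd m ∧ z ^ (2 * m) = 1 := by
      rcases Nat.even_or_odd (orderOf z) with he | ho
      · obtain ⟨m, hm⟩ := he
        refine ⟨m, ?_, ?_⟩
        · rcases Nat.even_or_odd m with ⟨l, hl⟩ | ho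
          · exfalso; apply hn4; rw [hm, hl]; exact ⟨l, by ring⟩
          · exact ho
        · rw [two_mul, ← hm]; exact pow_orderOf_eq_one z
      · exact ⟨orderOf z, ho, by rw [mul_comm, pow_mul, pow_orderOf_eq_one, one_pow]⟩
    refine ⟨z ^ m, (hC₂ _).2 ⟨C.pow_mem hzC m, ?_⟩, z ^ (m + 1),
      (hAo _).2 ⟨C.pow_mem hzC _, m, hm, ?_⟩, ?_⟩
    · rw [← pow_add, ← two_mul]; exact hzm
    · obtain ⟨l, hl⟩ := hm
      rw [← pow_mul]
      have h1 : (m + 1) * m = (2 * m) * (l + 1) := by rw [hl]; ring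
      rw [h1, pow_mul, hzm, one_pow]
    · rw [← pow_add]
      have h1 : m + (m + 1) = 2 * m + 1 := by ring
      rw [h1, pow_succ, hzm, one_mul]
  have hcC : c ∈ C := (hCmem c).2 ⟨hcA.symm, hcB.symm⟩
  have hcC₂ : c ∈ C₂ := (hC₂ c).2 ⟨hcC, hcc⟩
  obtain ⟨E, -, hEmax⟩ := Finite.exists_le_maximal
    (p := fun E : Subgroup G => E ≤ C₂ ∧ c ∉ E) (a := ⊥)
    ⟨bot_le, fun h => hc1 (Subgroup.mem_bot.1 h)⟩
  obtain ⟨hEC₂, hcE⟩ := hEmax.prop
  have hEC : E ≤ C := fun e he => ((hC₂ e).1 (hEC₂ he)).1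
  have hAoC : Ao ≤ C := fun a ha => ((hAo a).1 ha).1
  have hEsplit : ∀ z ∈ C₂, z ∈ E ∨ z * c ∈ E := by
    intro z hzC₂
    by_contra hcon
    push Not at hcon
    obtain ⟨hzE, hzcE⟩ := hcon
    have h1 : ¬ (E ⊔ Subgroup.zpowers z ≤ C₂ ∧ c ∉ E ⊔ Subgroup.zpowers z) := by
      intro h
      have h2 : E ⊔ Subgroup.zpowers z ≤ E := hEmax.le_of_ge h le_sup_left
      exact hzE (h2 (Subgroup.mem_sup_right (Subgroup.mem_zpowers z)))
    have h3 : E ⊔ Subgroup.zpowers z ≤ C₂ :=
      sup_le hEC₂ (by rw [Subgroup.zpowers_le]; exact hzC₂)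
    have h4 : c ∈ E ⊔ Subgroup.zpowers z := by
      by_contra h; exact h1 ⟨h3, h⟩
    haveI := hn (Subgroup.zpowers z)
    have h5 : c ∈ ((E ⊔ Subgroup.zpowers z : Subgroup G) : Set G) := h4
    rw [Subgroup.mul_normal] at h5
    obtain ⟨e, he, w, hw, hew⟩ := Set.mem_mul.1 h5
    have hzz : z * z = 1 := ((hC₂ z).1 hzC₂).2
    obtain ⟨k, hk⟩ := (Submonoid.mem_powers_iff _ z).1 (mem_powers_iff_mem_zpowers.2 hw)
    have hz2 : z ^ 2 = 1 := by rw [pow_two]; exact hzz
    rw [pow_eq_pow_mod k hz2] at hk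
    rcases Nat.mod_two_eq_zero_or_one k with h | h
    · rw [h, pow_zero] at hk
      rw [← hk, mul_one] at hew
      rw [hew] at he; exact hcE he
    · rw [h, pow_one] at hk
      rw [← hk] at hew
      apply hzcE
      have hzC : z ∈ C := ((hC₂ z).1 hzC₂).1
      have heC : e ∈ C := hEC he
      have h6 : z * c = e := by
        rw [← hew]
        calc z * (e * z) = (z * e) * z := by group
          _ = (e * z) * z := by rw [hCab z hzC e heC]
          _ = e * (z * z) := by group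
          _ = e := by rw [hzz, mul_one]
      rw [h6]; exact he
  have hodd_sq : ∀ a ∈ Ao, a * a = 1 → a = 1 := by
    intro a ha haa
    obtain ⟨-, k, ⟨l, hl⟩, hak⟩ := (hAo a).1 ha
    rw [hl, pow_succ, pow_mul, pow_two, haa, one_pow, one_mul] at hak
    exact hak
  refine ⟨Q, E, Ao, ?_, ?_, ?_, ?_, ?_, ?_, ?_⟩
  · rw [hQ]; exact ⟨(MonoidHom.ofInjective hfinj).symm⟩
  · refine ⟨⟨⟨fun a b => Subtype.ext (hCab a.1 (hEC a.2) b.1 (hEC b.2))⟩⟩, ?_⟩
    intro a ha
    rw [pow_two]; exact ((hC₂ a).1 (hEC₂ ha)).2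
  · exact ⟨⟨fun a b => Subtype.ext (hCab a.1 (hAoC a.2) b.1 (hAoC b.2))⟩⟩
  · rw [← Nat.not_even_iff_odd]
    intro hev
    haveI : Fact (Nat.Prime 2) := ⟨Nat.prime_two⟩
    obtain ⟨a, ha⟩ := exists_prime_orderOf_dvd_card' (G := Ao) 2 hev.two_dvd
    have ha2 : (a : G) * (a : G) = 1 := by
      have h0 := pow_orderOf_eq_one a
      rw [ha, pow_two] at h0
      exact congrArg Subtype.val h0
    have h1 := hodd_sq a.1 a.2 ha2
    have h2 : a = 1 := Subtype.ext h1
    rw [h2, orderOf_one] at ha; norm_num at ha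
  · rw [eq_bot_iff]
    rintro z ⟨hzE, hzA⟩
    rw [Subgroup.mem_bot]
    exact hodd_sq z hzA ((hC₂ z).1 (hEC₂ hzE)).2
  · rw [eq_bot_iff]
    rintro g ⟨hgQ, hgEA⟩
    rw [Subgroup.mem_bot]
    have hgC : g ∈ C := (sup_le hEC hAoC) hgEA
    obtain ⟨hgA, hgB⟩ := (hCmem g).1 hgC
    have hg1c : g = 1 ∨ g = c := by
      have hgQ' : g ∈ f.range := by rw [← hQ]; exact hgQ
      obtain ⟨k, hkg⟩ := hgQ'
      cases k with
      | a i =>
        rw [hfa] at hkg
        have hlt : i.val < 2 * 2 := ZMod.val_lt i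
        obtain ⟨r, hr⟩ : ∃ r, r = i.val := ⟨_, rfl⟩
        rw [← hr] at hkg hlt
        have hr4 : r = 0 ∨ r = 1 ∨ r = 2 ∨ r = 3 := by omega
        rcases hr4 with rfl | rfl | rfl | rfl
        · left; rw [← hkg, pow_zero]
        · exfalso; rw [pow_one] at hkg; rw [← hkg] at hgB; exact hABne hgB.symm
        · right; rw [← hkg, pow_two, hc]
        · exfalso; apply hABne
          have h3 : A ^ 3 = A⁻¹ := by
            apply eq_inv_of_mul_eq_one_left
            calc A ^ 3 * A = A ^ 4 := by group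
              _ = 1 := hA4'
          rw [← hkg, h3] at hgB
          calc A * B = A * (B * A⁻¹) * A := by group
            _ = A * (A⁻¹ * B) * A := by rw [hgB]
            _ = B * A := by group
      | xa i =>
        exfalso
        rw [hfx] at hkg
        rw [← hkg] at hgA
        apply hABne
        calc A * B = (A * (B * A ^ i.val)) * (A ^ i.val)⁻¹ := by group
          _ = ((B * A ^ i.val) * A) * (A ^ i.val)⁻¹ := by rw [hgA]
          _ = B * A := by group
    rcases hg1c with h | h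
    · exact h
    · exfalso
      rw [h] at hgEA
      haveI := hn Ao
      have h5 : c ∈ ((E ⊔ Ao : Subgroup G) : Set G) := hgEA
      rw [Subgroup.mul_normal] at h5
      obtain ⟨e, he, a, ha, hea⟩ := Set.mem_mul.1 h5
      have haC₂ : a ∈ C₂ := by
        have h6 : a = e⁻¹ * c := by rw [← hea]; group
        rw [h6]; exact C₂.mul_mem (C₂.inv_mem (hEC₂ he)) hcC₂
      have ha1 := hodd_sq a ha ((hC₂ a).1 haC₂).2
      rw [ha1, mul_one] at hea
      rw [hea] at he; exact hcE he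
  · rw [eq_top_iff]
    intro g _
    obtain ⟨q, hqQ, hgq⟩ := hdecomp g
    obtain ⟨e, he, a, ha, hzdec⟩ := hCdec (g * q) hgq
    have hcQ : c ∈ Q := by rw [hc]; exact Q.mul_mem hAQ hAQ
    rcases hEsplit e he with h | h
    · have h6 : g = (e * a) * q⁻¹ := by rw [← hzdec]; group
      rw [h6]
      exact Subgroup.mul_mem _ (Subgroup.mem_sup_right (Subgroup.mul_mem _
        (Subgroup.mem_sup_left h) (Subgroup.mem_sup_right ha)))
        (Subgroup.mem_sup_left (Q.inv_mem hqQ))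
    · have hca : c * a = a * c := hCab c hcC a (hAoC ha)
      have h6 : g = ((e * c) * a) * (c * q⁻¹) := by
        calc g = (g * q) * q⁻¹ := by group
          _ = (e * a) * q⁻¹ := by rw [hzdec]
          _ = e * (c * c) * a * q⁻¹ := by rw [hcc, mul_one]
          _ = e * c * (c * a) * q⁻¹ := by group
          _ = e * c * (a * c) * q⁻¹ := by rw [hca]
          _ = ((e * c) * a) * (c * q⁻¹) := by group
      rw [h6]
      exact Subgroup.mul_mem _ (Subgroup.mem_sup_right (Subgroup.mul_mem _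
        (Subgroup.mem_sup_left h) (Subgroup.mem_sup_right ha)))
        (Subgroup.mem_sup_left (Q.mul_mem hcQ (Q.inv_mem hqQ)))

end Cfsg.Agent.Lib.Helper8
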