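import Mathlib.GroupTheory.OrderOfElement
import Mathlib.GroupTheory.Subgroup.Centralizer
import Cfsg.Prelude.Def_TwoFusion

set_option autoImplicit false

namespace Cfsg.Agent.Lib.Helper8

variable {G : Type*} [Group G]

theorem h8_sq_of_orderOf_two {x : G} (hx : orderOf x = 2) : x * x = 1 := by
  have := pow_orderOf_eq_one x
  rw [hx, pow_two] at this
  exact this

theorem h8_inv_of_orderOf_two {x : G} (hx : orderOf x = 2) : x⁻¹ = x :=
  inv_eq_of_mul_eq_one_left (h8_sq_of_orderOf_two hx)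

/-- if `x` is an involution inverting `r`, then `x * r^j * x = (r^j)⁻¹` -/
theorem h8_invol_pow {x r : G} (hx : x * x = 1) (hr : x * r * x = r⁻¹) (j : ℕ) :
    x * r ^ j * x = (r ^ j)⁻¹ := by
  have hxi : x⁻¹ = x := inv_eq_of_mul_eq_one_left hx
  have h1 : x * r ^ j * x⁻¹ = (x * r * x⁻¹) ^ j := (conj_pow (a := x) (b := r) (i := j)).symm
  rw [hxi, hr, inv_pow] at h1
  exact h1

/-- conjugating the involution `x` by `r^j`, when `x` inverts `r` -/
theorem h8_pow_conj_invol {x r : G} (hx : x * x = 1) (hr : x * r * x = r⁻¹) (j : ℕ) :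
    r ^ j * x * (r ^ j)⁻¹ = r ^ (2 * j) * x := by
  have h := h8_invol_pow hx hr j
  have h2 : x * (r ^ j)⁻¹ = r ^ j * x := by
    have e : x * (r ^ j)⁻¹ = x * (x * r ^ j * x) := by rw [h]
    rw [e]
    calc x * (x * r ^ j * x) = (x * x) * r ^ j * x := by group
      _ = r ^ j * x := by rw [hx, one_mul]
  calc r ^ j * x * (r ^ j)⁻¹ = r ^ j * (x * (r ^ j)⁻¹) := by group
    _ = r ^ j * (r ^ j * x) := by rw [h2]
    _ = r ^ (2 * j) * x := by rw [two_mul, pow_add]; group

theorem h8_isolated_conj {z : G} (hz : Cfsg.IsIsolatedInvolution z) (g : G) :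
    Cfsg.IsIsolatedInvolution (g * z * g⁻¹) := by
  refine ⟨?_, ?_⟩
  · have : orderOf (g * z * g⁻¹) = orderOf z := by simpa using (MulAut.conj g).orderOf_eq z
    rw [this]; exact hz.1
  · intro k hk
    have h1 : Commute z (g⁻¹ * k * g * z * (g⁻¹ * k * g)⁻¹) := by
      have e : g⁻¹ * k * g * z * (g⁻¹ * k * g)⁻¹ = g⁻¹ * (k * (g * z * g⁻¹) * k⁻¹) * g := by group
      rw [e]
      have hk' : (g * z * g⁻¹) * (k * (g * z * g⁻¹) * k⁻¹) = (k * (g * z * g⁻¹) * k⁻¹) * (g * z * g⁻¹) := hk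
      show z * (g⁻¹ * (k * (g * z * g⁻¹) * k⁻¹) * g) = (g⁻¹ * (k * (g * z * g⁻¹) * k⁻¹) * g) * z
      calc z * (g⁻¹ * (k * (g * z * g⁻¹) * k⁻¹) * g)
          = g⁻¹ * ((g * z * g⁻¹) * (k * (g * z * g⁻¹) * k⁻¹)) * g := by group
        _ = g⁻¹ * ((k * (g * z * g⁻¹) * k⁻¹) * (g * z * g⁻¹)) * g := by rw [hk']
        _ = (g⁻¹ * (k * (g * z * g⁻¹) * k⁻¹) * g) * z := by group
    have h2 := hz.2 _ h1
    calc k * (g * z * g⁻¹) * k⁻¹ = g * (g⁻¹ * k * g * z * (g⁻¹ * k * g)⁻¹) * g⁻¹ := by group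
      _ = g * z * g⁻¹ := by rw [h2]

/-- the product of an isolated involution with a conjugate has odd order -/
theorem h8_isolated_odd [Finite G] {z : G} (hz : Cfsg.IsIsolatedInvolution z) (g : G) :
    Odd (orderOf (z * (g * z * g⁻¹))) := by
  set a := g * z * g⁻¹ with ha
  set r := z * a with hr
  have hzz : z * z = 1 := h8_sq_of_orderOf_two hz.1
  have haa : a * a = 1 := by
    rw [ha]
    calc g * z * g⁻¹ * (g * z * g⁻¹) = g * (z * z) * g⁻¹ := by group
      _ = 1 := by rw [hzz]; group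
  have hzr : z * r * z = r⁻¹ := by
    rw [hr]
    have : (z * a)⁻¹ = a * z := by
      rw [mul_inv_rev, inv_eq_of_mul_eq_one_left hzz, inv_eq_of_mul_eq_one_left haa]
    rw [this]
    calc z * (z * a) * z = (z * z) * a * z := by group
      _ = a * z := by rw [hzz, one_mul]
  have har : a * r * a = r⁻¹ := by
    rw [hr]
    have : (z * a)⁻¹ = a * z := by
      rw [mul_inv_rev, inv_eq_of_mul_eq_one_left hzz, inv_eq_of_mul_eq_one_left haa]
    rw [this]
    calc a * (z * a) * a = a * z * (a * a) := by group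
      _ = a * z := by rw [haa, mul_one]
  by_contra hodd
  rw [Nat.not_odd_iff_even] at hodd
  obtain ⟨m, hm⟩ := hodd
  have hpos : 0 < orderOf r := orderOf_pos r
  have hm0 : 0 < m := by omega
  set w := r ^ m with hw
  have hw1 : w ≠ 1 := pow_ne_one_of_lt_orderOf hm0.ne' (by omega)
  have hww : w * w = 1 := by
    rw [hw, ← pow_add, ← hm]; exact pow_orderOf_eq_one r
  have hwi : w⁻¹ = w := inv_eq_of_mul_eq_one_left hww
  have hzw : z * w * z = w := by
    have := h8_invol_pow hzz hzr m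
    rw [← hw, hwi] at this
    exact this
  -- w * z commutes with z
  have hcomm : Commute z (w * z) := by
    show z * (w * z) = w * z * z
    calc z * (w * z) = z * w * z := by group
      _ = w := hzw
      _ = w * (z * z) := by rw [hzz, mul_one]
      _ = w * z * z := by group
  rcases Nat.even_or_odd' m with ⟨j, hj | hj⟩
  · -- m = 2 j: w z = r^j z r^{-j}
    have h1 := h8_pow_conj_invol hzz hzr j
    rw [← hj, ← hw] at h1
    have h2 := hz.2 (r ^ j) (by rw [h1]; exact hcomm)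
    rw [h1] at h2
    exact hw1 (by simpa using h2)
  · -- m = 2 j + 1: w z = r^(j+1) a r^{-(j+1)}
    have h1 := h8_pow_conj_invol haa har (j + 1)
    have h3 : r ^ (2 * (j + 1)) * a = w * z := by
      have e1 : a = r⁻¹ * z := by
        have : r⁻¹ = a * z := by
          rw [hr, mul_inv_rev, inv_eq_of_mul_eq_one_left hzz, inv_eq_of_mul_eq_one_left haa]
        rw [this]
        calc a = a * (z * z) := by rw [hzz, mul_one]
          _ = a * z * z := by group
      have e2 : r ^ (2 * (j + 1)) = r ^ m * r := by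
        rw [hj, ← pow_succ]; congr 1
      calc r ^ (2 * (j + 1)) * a = r ^ m * r * (r⁻¹ * z) := by rw [e2]; congr 1
        _ = w * z := by rw [hw]; group
    rw [h3] at h1
    have h4 : r ^ (j + 1) * a * (r ^ (j + 1))⁻¹ = (r ^ (j + 1) * g) * z * (r ^ (j + 1) * g)⁻¹ := by
      rw [ha]; group
    rw [h4] at h1
    have h2 := hz.2 (r ^ (j + 1) * g) (by rw [h1]; exact hcomm)
    rw [h1] at h2
    exact hw1 (by simpa using h2)

/-- key lemma: a conjugate `g z g⁻¹` of an isolated involution `z` is `h z h⁻¹` for an element `h`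
of odd order inverted by `z`, lying in the cyclic group generated by `z * (g z g⁻¹)` -/
theorem h8_isolated_key [Finite G] {z : G} (hz : Cfsg.IsIsolatedInvolution z) (g : G) :
    ∃ h : G, Odd (orderOf h) ∧ z * h * z⁻¹ = h⁻¹ ∧ h * z * h⁻¹ = g * z * g⁻¹ ∧
      h ∈ Subgroup.zpowers (z * (g * z * g⁻¹)) := by
  have hodd := h8_isolated_odd hz g
  set a := g * z * g⁻¹ with ha
  set r := z * a with hr
  have hzz : z * z = 1 := h8_sq_of_orderOf_two hz.1
  have hzi : z⁻¹ = z := inv_eq_of_mul_eq_one_left hzz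
  have haa : a * a = 1 := by
    rw [ha]
    calc g * z * g⁻¹ * (g * z * g⁻¹) = g * (z * z) * g⁻¹ := by group
      _ = 1 := by rw [hzz]; group
  have hzr : z * r * z = r⁻¹ := by
    rw [hr]
    have : (z * a)⁻¹ = a * z := by
      rw [mul_inv_rev, inv_eq_of_mul_eq_one_left hzz, inv_eq_of_mul_eq_one_left haa]
    rw [this]
    calc z * (z * a) * z = (z * z) * a * z := by group
      _ = a * z := by rw [hzz, one_mul]
  obtain ⟨k, hk⟩ := hodd
  refine ⟨r ^ k, ?_, ?_, ?_, ?_⟩
  · exact Odd.of_dvd_nat ⟨k, hk⟩ (orderOf_pow_dvd k)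
  · rw [hzi]; exact h8_invol_pow hzz hzr k
  · rw [h8_pow_conj_invol hzz hzr k]
    have e1 : r ^ (2 * k) * r = 1 := by
      rw [← pow_succ, ← hk]; exact pow_orderOf_eq_one r
    have e2 : r ^ (2 * k) = r⁻¹ := eq_inv_of_mul_eq_one_left e1
    rw [e2]
    have : r⁻¹ = a * z := by
      rw [hr, mul_inv_rev, inv_eq_of_mul_eq_one_left hzz, inv_eq_of_mul_eq_one_left haa]
    rw [this]
    calc a * z * z = a * (z * z) := by group
      _ = a := by rw [hzz, mul_one]
  · exact Subgroup.pow_mem _ (Subgroup.mem_zpowers r) k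

/-- dihedral lemma, even case: for involutions `x`, `y` with `x * y` of order `2 * m`, the element
`w = (x * y)^m` is an involution commuting with `x` and `y`, and `w * x` is conjugate to `x` or `y`. -/
theorem h8_dihedral_even {x y : G} (hxx : x * x = 1) (hyy : y * y = 1) {m : ℕ}
    (hm : orderOf (x * y) = 2 * m) (hm0 : 0 < m) :
    (x * y) ^ m ≠ 1 ∧ (x * y) ^ m * (x * y) ^ m = 1 ∧ x * (x * y) ^ m * x = (x * y) ^ m ∧
      y * (x * y) ^ m * y = (x * y) ^ m ∧
      ((∃ c : G, c * x * c⁻¹ = (x * y) ^ m * x) ∨ (∃ c : G, c * y * c⁻¹ = (x * y) ^ m * x)) := by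
  set r := x * y with hr
  have hri : r⁻¹ = y * x := by
    rw [hr, mul_inv_rev, inv_eq_of_mul_eq_one_left hxx, inv_eq_of_mul_eq_one_left hyy]
  have hxr : x * r * x = r⁻¹ := by
    rw [hri, hr]
    calc x * (x * y) * x = (x * x) * y * x := by group
      _ = y * x := by rw [hxx, one_mul]
  have hyr : y * r * y = r⁻¹ := by
    rw [hri, hr]
    calc y * (x * y) * y = y * x * (y * y) := by group
      _ = y * x := by rw [hyy, mul_one]
  set w := r ^ m with hw
  have hw1 : w ≠ 1 := pow_ne_one_of_lt_orderOf hm0.ne' (by omega)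
  have hww : w * w = 1 := by
    rw [hw, ← pow_add, ← two_mul, ← hm]; exact pow_orderOf_eq_one r
  have hwi : w⁻¹ = w := inv_eq_of_mul_eq_one_left hww
  have hxw : x * w * x = w := by
    have := h8_invol_pow hxx hxr m
    rw [← hw, hwi] at this
    exact this
  have hyw : y * w * y = w := by
    have := h8_invol_pow hyy hyr m
    rw [← hw, hwi] at this
    exact this
  refine ⟨hw1, hww, hxw, hyw, ?_⟩
  rcases Nat.even_or_odd' m with ⟨j, hj | hj⟩
  · left
    refine ⟨r ^ j, ?_⟩
    have h1 := h8_pow_conj_invol hxx hxr j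
    rw [← hj, ← hw] at h1
    exact h1
  · right
    refine ⟨r ^ (j + 1), ?_⟩
    have h1 := h8_pow_conj_invol hyy hyr (j + 1)
    rw [h1]
    have e1 : y = r⁻¹ * x := by
      rw [hri]
      calc y = y * (x * x) := by rw [hxx, mul_one]
        _ = y * x * x := by group
    have e2 : r ^ (2 * (j + 1)) = r ^ m * r := by
      rw [hj, ← pow_succ]; congr 1
    calc r ^ (2 * (j + 1)) * y = r ^ m * r * (r⁻¹ * x) := by rw [e2]; congr 1
      _ = w * x := by rw [hw]; group


/-- an element with `x^2 = 1` and odd order is trivial -/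
theorem h8_eq_one_of_sq_of_odd {x : G} (h2 : x * x = 1) {n : ℕ} (hn : Odd n) (hxn : x ^ n = 1) :
    x = 1 := by
  obtain ⟨k, rfl⟩ := hn
  have : x ^ (2 * k) = 1 := by
    rw [pow_mul, pow_two, h2, one_pow]
  rw [pow_succ, this, one_mul] at hxn
  exact hxn

end Cfsg.Agent.Lib.Helper8
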