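import Mathlib
import Cfsg.Prelude.Def_TwoFusion
import Cfsg.Agent.Lib.Helper8.Isolated
import Cfsg.Agent.S1185

set_option autoImplicit false
set_option linter.style.haveILetI false
universe u

namespace Cfsg.Agent.Lib.Helper8

section
variable {G : Type u} [Group G]

/-- `w` is a conjugate of `z` -/
def h8IsD (z w : G) : Prop := ∃ g : G, g * z * g⁻¹ = w

/-- the midpoint of two involutions whose product has odd order -/
noncomputable def h8Mid (w w' : G) : G := (w * w') ^ (orderOf (w * w') / 2) * w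

theorem h8Mid_facts {w w' : G} (hw : w * w = 1) (hw' : w' * w' = 1)
    (hodd : Odd (orderOf (w * w'))) :
    h8Mid w w' * w * (h8Mid w w')⁻¹ = w' ∧ h8Mid w w' * h8Mid w w' = 1 ∧
      ∃ b : G, b * w * b⁻¹ = h8Mid w w' := by
  obtain ⟨j, hj⟩ := hodd
  have hj2 : orderOf (w * w') / 2 = j := by omega
  unfold h8Mid
  rw [hj2]
  have hui : (w * w')⁻¹ = w' * w := by
    rw [mul_inv_rev, inv_eq_of_mul_eq_one_left hw, inv_eq_of_mul_eq_one_left hw']
  have hr : w * (w * w') * w = (w * w')⁻¹ := by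
    rw [hui]
    calc w * (w * w') * w = (w * w) * w' * w := by group
      _ = w' * w := by rw [hw, one_mul]
  have hu1 : (w * w') ^ (2 * j + 1) = 1 := by rw [← hj]; exact pow_orderOf_eq_one _
  have h2j : (w * w') ^ (2 * j) = (w * w')⁻¹ := by
    apply eq_inv_of_mul_eq_one_left
    rw [← pow_succ]; exact hu1
  have hconj := h8_pow_conj_invol hw hr j
  have hinvp := h8_invol_pow hw hr j
  refine ⟨?_, ?_, ?_⟩
  · calc (w * w') ^ j * w * w * ((w * w') ^ j * w)⁻¹
        = (w * w') ^ j * w * ((w * w') ^ j)⁻¹ := by group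
      _ = (w * w') ^ (2 * j) * w := hconj
      _ = w' := by rw [h2j, hui, mul_assoc, hw, mul_one]
  · calc (w * w') ^ j * w * ((w * w') ^ j * w)
        = (w * w') ^ j * (w * (w * w') ^ j * w) := by group
      _ = 1 := by rw [hinvp, mul_inv_cancel]
  · refine ⟨(w * w') ^ (j * (j + 1)), ?_⟩
    rw [h8_pow_conj_invol hw hr (j * (j + 1))]
    have e : 2 * (j * (j + 1)) = (2 * j + 1) * j + j := by ring
    rw [e, pow_add, pow_mul, hu1, one_pow, one_mul]

theorem h8Mid_eq {w m : G} (hw : w * w = 1) (hm : m * m = 1) (hodd : Odd (orderOf (w * m))) :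
    h8Mid w (m * w * m) = m := by
  have hcop : (orderOf (w * m)).Coprime 2 := hodd.coprime_two_right
  obtain ⟨j, hj⟩ := hodd
  have e1 : w * (m * w * m) = (w * m) ^ 2 := by rw [pow_two]; group
  have ho : orderOf ((w * m) ^ 2) = orderOf (w * m) := hcop.orderOf_pow
  unfold h8Mid
  rw [e1, ho, hj]
  have hj2 : (2 * j + 1) / 2 = j := by omega
  rw [hj2, ← pow_mul]
  have h1 : (w * m) ^ (2 * j + 1) = 1 := by rw [← hj]; exact pow_orderOf_eq_one _
  have h2 : (w * m) ^ (2 * j) = (w * m)⁻¹ := by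
    apply eq_inv_of_mul_eq_one_left; rw [← pow_succ]; exact h1
  rw [h2, mul_inv_rev, inv_eq_of_mul_eq_one_left hw, inv_eq_of_mul_eq_one_left hm, mul_assoc,
    hw, mul_one]

theorem h8Mid_symm {w w' : G} (hw : w * w = 1) (hw' : w' * w' = 1)
    (hodd : Odd (orderOf (w * w'))) : h8Mid w' w = h8Mid w w' := by
  obtain ⟨j, hj⟩ := hodd
  have hinv : w' * w = (w * w')⁻¹ := by
    rw [mul_inv_rev, inv_eq_of_mul_eq_one_left hw, inv_eq_of_mul_eq_one_left hw']
  unfold h8Mid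
  rw [hinv, orderOf_inv, hj]
  have hj2 : (2 * j + 1) / 2 = j := by omega
  rw [hj2]
  have h1 : (w * w') ^ (2 * j + 1) = 1 := by rw [← hj]; exact pow_orderOf_eq_one _
  have e : w' = (w * w')⁻¹ * w := by
    rw [← hinv, mul_assoc, hw, mul_one]
  have h3 : (w * w') ^ j = ((w * w')⁻¹) ^ (j + 1) := by
    rw [inv_pow, eq_inv_iff_mul_eq_one, ← pow_add]
    have e2 : j + (j + 1) = 2 * j + 1 := by ring
    rw [e2]; exact h1
  rw [h3]
  calc ((w * w')⁻¹) ^ j * w' = ((w * w')⁻¹) ^ j * ((w * w')⁻¹ * w) := by rw [← e]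
    _ = ((w * w')⁻¹) ^ (j + 1) * w := by rw [pow_succ, mul_assoc]

theorem h8Mid_conj (c w w' : G) :
    c * h8Mid w w' * c⁻¹ = h8Mid (c * w * c⁻¹) (c * w' * c⁻¹) := by
  unfold h8Mid
  have e : c * w * c⁻¹ * (c * w' * c⁻¹) = c * (w * w') * c⁻¹ := by group
  have ho : orderOf (c * (w * w') * c⁻¹) = orderOf (w * w') := by
    simpa using (MulAut.conj c).orderOf_eq (w * w')
  rw [e, ho, conj_pow]
  group

variable [Finite G] {z : G}

omit [Finite G] in
theorem h8D_sq (hz : Cfsg.IsIsolatedInvolution z) {w : G} (hw : h8IsD z w) : w * w = 1 := by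
  obtain ⟨g, rfl⟩ := hw
  have hzz := h8_sq_of_orderOf_two hz.1
  calc g * z * g⁻¹ * (g * z * g⁻¹) = g * (z * z) * g⁻¹ := by group
    _ = 1 := by rw [hzz]; group

omit [Finite G] in
theorem h8D_conj (w : G) (hw : h8IsD z w) (c : G) : h8IsD z (c * w * c⁻¹) := by
  obtain ⟨g, rfl⟩ := hw
  exact ⟨c * g, by group⟩

theorem h8D_odd (hz : Cfsg.IsIsolatedInvolution z) {w w' : G} (hw : h8IsD z w)
    (hw' : h8IsD z w') : Odd (orderOf (w * w')) := by
  obtain ⟨g, rfl⟩ := hw
  obtain ⟨g', rfl⟩ := hw'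
  have h1 := h8_isolated_odd (h8_isolated_conj hz g) (g' * g⁻¹)
  have e : g' * g⁻¹ * (g * z * g⁻¹) * (g' * g⁻¹)⁻¹ = g' * z * g'⁻¹ := by group
  rw [e] at h1
  exact h1

theorem h8_isolated_count (hz : Cfsg.IsIsolatedInvolution z) (s : G) (hs : s * s = 1)
    (hsz : Commute s z) :
    Nat.card {w : G // h8IsD z w} = Nat.card {w : G // h8IsD z w ∧ Commute w s} *
      Nat.card {w : G // h8IsD z w ∧ Commute w (z * s)} := by
  have hsi : s⁻¹ = s := inv_eq_of_mul_eq_one_left hs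
  have hzz := h8_sq_of_orderOf_two hz.1
  have hPhi : ∀ w, h8IsD z w → h8IsD z (h8Mid w (s * w * s⁻¹)) ∧
      Commute (h8Mid w (s * w * s⁻¹)) s ∧
      h8Mid w (s * w * s⁻¹) * w * (h8Mid w (s * w * s⁻¹))⁻¹ = s * w * s⁻¹ ∧
      h8Mid w (s * w * s⁻¹) * h8Mid w (s * w * s⁻¹) = 1 := by
    intro w hw
    have hw' := h8D_conj w hw s
    have hww := h8D_sq hz hw
    have hww' := h8D_sq hz hw'
    have hodd := h8D_odd hz hw hw'
    obtain ⟨h1, h2, b, hb⟩ := h8Mid_facts hww hww' hodd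
    refine ⟨?_, ?_, h1, h2⟩
    · rw [← hb]; exact h8D_conj w hw b
    · have h3 := h8Mid_conj s w (s * w * s⁻¹)
      have e : s * (s * w * s⁻¹) * s⁻¹ = w := by
        rw [hsi]
        calc s * (s * w * s) * s = (s * s) * w * (s * s) := by group
          _ = w := by rw [hs, one_mul, mul_one]
      rw [e, h8Mid_symm hww hww' hodd] at h3
      exact (mul_inv_eq_iff_eq_mul.1 h3).symm
  have hfib : ∀ w m, h8IsD z w → h8IsD z m → Commute m s →
      (Commute w (m * s) ↔ h8Mid w (s * w * s⁻¹) = m) := by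
    intro w m hw hm hms
    have hww := h8D_sq hz hw
    have hmm := h8D_sq hz hm
    have hmi : m⁻¹ = m := inv_eq_of_mul_eq_one_left hmm
    constructor
    · intro hc
      have e : s * w * s⁻¹ = m * w * m := by
        rw [hsi]
        have h1 : w * (m * s) = m * s * w := hc
        calc s * w * s = (m * m) * s * w * s := by rw [hmm, one_mul]
          _ = m * (m * s * w) * s := by group
          _ = m * (w * (m * s)) * s := by rw [h1]
          _ = m * w * m * (s * s) := by group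
          _ = m * w * m := by rw [hs, mul_one]
      rw [e]
      exact h8Mid_eq hww hmm (h8D_odd hz hw hm)
    · intro hmid
      obtain ⟨-, -, h1, -⟩ := hPhi w hw
      rw [hmid, hmi, hsi] at h1
      show w * (m * s) = m * s * w
      calc w * (m * s) = (m * m) * w * (m * s) := by rw [hmm, one_mul]
        _ = m * (m * w * m) * s := by group
        _ = m * (s * w * s) * s := by rw [h1]
        _ = m * s * w * (s * s) := by group
        _ = m * s * w := by rw [hs, mul_one]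
  have hd : ∀ m : {w : G // h8IsD z w ∧ Commute w s},
      ∃ d : G, d * z * d⁻¹ = m.1 ∧ Commute d s := by
    rintro ⟨m, ⟨g, rfl⟩, hms⟩
    obtain ⟨h, -, -, hconj, hmem⟩ := h8_isolated_key hz g
    refine ⟨h, hconj, ?_⟩
    obtain ⟨k, rfl⟩ := Subgroup.mem_zpowers_iff.1 hmem
    exact Commute.zpow_left (Commute.mul_left hsz.symm hms) k
  choose d hd1 hd2 using hd
  have hms : ∀ m : {w : G // h8IsD z w ∧ Commute w s},
      m.1 * s = d m * (z * s) * (d m)⁻¹ := by
    intro m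
    rw [← hd1 m]
    have h1 : (d m)⁻¹ * s = s * (d m)⁻¹ := ((hd2 m).inv_left).eq
    calc d m * z * (d m)⁻¹ * s = d m * z * ((d m)⁻¹ * s) := by group
      _ = d m * z * (s * (d m)⁻¹) := by rw [h1]
      _ = d m * (z * s) * (d m)⁻¹ := by group
  have hkey : ∀ (m : {w : G // h8IsD z w ∧ Commute w s})
      (v : {w : G // h8IsD z w ∧ Commute w (z * s)}),
      h8Mid (d m * v.1 * (d m)⁻¹) (s * (d m * v.1 * (d m)⁻¹) * s⁻¹) = m.1 := by
    intro m v
    apply (hfib _ _ (h8D_conj _ v.2.1 _) m.2.1 m.2.2).1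
    rw [hms m]
    have hv : v.1 * (z * s) = z * s * v.1 := v.2.2
    show d m * v.1 * (d m)⁻¹ * (d m * (z * s) * (d m)⁻¹)
      = d m * (z * s) * (d m)⁻¹ * (d m * v.1 * (d m)⁻¹)
    calc d m * v.1 * (d m)⁻¹ * (d m * (z * s) * (d m)⁻¹)
        = d m * (v.1 * (z * s)) * (d m)⁻¹ := by group
      _ = d m * (z * s * v.1) * (d m)⁻¹ := by rw [hv]
      _ = d m * (z * s) * (d m)⁻¹ * (d m * v.1 * (d m)⁻¹) := by group
  have hbij : Function.Bijective
      (fun p : {w : G // h8IsD z w ∧ Commute w s} × {w : G // h8IsD z w ∧ Commute w (z * s)} =>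
        (⟨d p.1 * p.2.1 * (d p.1)⁻¹, h8D_conj _ p.2.2.1 _⟩ : {w : G // h8IsD z w})) := by
    constructor
    · rintro ⟨m, v⟩ ⟨m', v'⟩ he
      have he' : d m * v.1 * (d m)⁻¹ = d m' * v'.1 * (d m')⁻¹ := congrArg Subtype.val he
      have h1 := hkey m v
      have h2 := hkey m' v'
      rw [he'] at h1
      have hmm' : m = m' := Subtype.ext (h1.symm.trans h2)
      subst hmm'
      have hvv : v.1 = v'.1 := mul_left_cancel (mul_right_cancel he')
      have hvv' : v = v' := Subtype.ext hvv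
      rw [hvv']
    · rintro ⟨w, hw⟩
      obtain ⟨hD, hc, -, -⟩ := hPhi w hw
      have hwc : Commute w (h8Mid w (s * w * s⁻¹) * s) := (hfib w _ hw hD hc).2 rfl
      have e := hms ⟨h8Mid w (s * w * s⁻¹), hD, hc⟩
      rw [e] at hwc
      refine ⟨(⟨h8Mid w (s * w * s⁻¹), hD, hc⟩,
        ⟨(d ⟨h8Mid w (s * w * s⁻¹), hD, hc⟩)⁻¹ * w * d ⟨h8Mid w (s * w * s⁻¹), hD, hc⟩,
          ?_, ?_⟩), ?_⟩
      · have h0 := h8D_conj w hw (d ⟨h8Mid w (s * w * s⁻¹), hD, hc⟩)⁻¹
        rwa [inv_inv] at h0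
      · generalize d ⟨h8Mid w (s * w * s⁻¹), hD, hc⟩ = dm at hwc ⊢
        have h1 : w * (dm * (z * s) * dm⁻¹) = dm * (z * s) * dm⁻¹ * w := hwc
        show dm⁻¹ * w * dm * (z * s) = z * s * (dm⁻¹ * w * dm)
        calc dm⁻¹ * w * dm * (z * s) = dm⁻¹ * (w * (dm * (z * s) * dm⁻¹)) * dm := by group
          _ = dm⁻¹ * (dm * (z * s) * dm⁻¹ * w) * dm := by rw [h1]
          _ = z * s * (dm⁻¹ * w * dm) := by group
      · apply Subtype.ext
        show d ⟨h8Mid w (s * w * s⁻¹), hD, hc⟩ *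
          ((d ⟨h8Mid w (s * w * s⁻¹), hD, hc⟩)⁻¹ * w * d ⟨h8Mid w (s * w * s⁻¹), hD, hc⟩) *
          (d ⟨h8Mid w (s * w * s⁻¹), hD, hc⟩)⁻¹ = w
        group
  rw [← Nat.card_prod]
  exact (Nat.card_congr (Equiv.ofBijective _ hbij)).symm

theorem h8_isolated_KD (hz : Cfsg.IsIsolatedInvolution z) (a : G) (ha : Commute z a) :
    Nat.card {k : G // Odd (orderOf k) ∧ z * k * z⁻¹ = k⁻¹ ∧ Commute k a}
      = Nat.card {w : G // h8IsD z w ∧ Commute w a} := by
  have hbij : Function.Bijective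
      (fun k : {k : G // Odd (orderOf k) ∧ z * k * z⁻¹ = k⁻¹ ∧ Commute k a} =>
        (⟨k.1 * z * k.1⁻¹, ⟨k.1, rfl⟩, (k.2.2.2.mul_left ha).mul_left k.2.2.2.inv_left⟩ :
          {w : G // h8IsD z w ∧ Commute w a})) := by
    constructor
    · rintro ⟨k, hk1, hk2, hk3⟩ ⟨k', hk1', hk2', hk3'⟩ he
      have he' : k * z * k⁻¹ = k' * z * k'⁻¹ := congrArg Subtype.val he
      obtain ⟨k₀, -, huniq⟩ := Cfsg.Agent.S1185.result z hz k
      have h1 : k = k₀ :=
        huniq k ⟨⟨hk1, hk2⟩, by rw [inv_mul_cancel]; exact Subgroup.one_mem _⟩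
      have h2 : k' = k₀ := huniq k' ⟨⟨hk1', hk2'⟩, by
        rw [Subgroup.mem_centralizer_singleton_iff]
        calc k⁻¹ * k' * z = k⁻¹ * (k' * z * k'⁻¹) * k' := by group
          _ = k⁻¹ * (k * z * k⁻¹) * k' := by rw [he']
          _ = z * (k⁻¹ * k') := by group⟩
      apply Subtype.ext
      show k = k'
      rw [h1, h2]
    · rintro ⟨w, ⟨g, rfl⟩, hwa⟩
      obtain ⟨h, hodd, hinv, hconj, hmem⟩ := h8_isolated_key hz g
      have hha : Commute h a := by
        obtain ⟨k, rfl⟩ := Subgroup.mem_zpowers_iff.1 hmem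
        exact Commute.zpow_left (Commute.mul_left ha hwa) k
      exact ⟨⟨h, hodd, hinv, hha⟩, Subtype.ext hconj⟩
  exact Nat.card_congr (Equiv.ofBijective _ hbij)

theorem h8_isolated_GKC (hz : Cfsg.IsIsolatedInvolution z) :
    Nat.card G = Nat.card {k : G // Odd (orderOf k) ∧ z * k * z⁻¹ = k⁻¹} *
      Nat.card (Subgroup.centralizer ({z} : Set G)) := by
  have hbij : Function.Bijective
      (fun p : {k : G // Odd (orderOf k) ∧ z * k * z⁻¹ = k⁻¹} ×
        Subgroup.centralizer ({z} : Set G) => p.1.1 * p.2.1) := by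
    constructor
    · rintro ⟨⟨k, hk⟩, ⟨c, hc⟩⟩ ⟨⟨k', hk'⟩, ⟨c', hc'⟩⟩ he
      have he' : k * c = k' * c' := he
      obtain ⟨k₀, -, huniq⟩ := Cfsg.Agent.S1185.result z hz (k * c)
      have h1 : k = k₀ := huniq k ⟨hk, by
        have e : (k * c)⁻¹ * k = c⁻¹ := by group
        rw [e]; exact Subgroup.inv_mem _ hc⟩
      have h2 : k' = k₀ := huniq k' ⟨hk', by
        have e : (k * c)⁻¹ * k' = c'⁻¹ := by rw [he']; group
        rw [e]; exact Subgroup.inv_mem _ hc'⟩
      have hkk : k = k' := h1.trans h2.symm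
      subst hkk
      have hcc : c = c' := mul_left_cancel he'
      subst hcc
      rfl
    · intro g
      obtain ⟨k₀, ⟨hk, hmem⟩, -⟩ := Cfsg.Agent.S1185.result z hz g
      refine ⟨(⟨k₀, hk⟩, ⟨k₀⁻¹ * g, ?_⟩), ?_⟩
      · have e : k₀⁻¹ * g = (g⁻¹ * k₀)⁻¹ := by group
        rw [e]; exact Subgroup.inv_mem _ hmem
      · show k₀ * (k₀⁻¹ * g) = g
        group
  rw [← Nat.card_prod]
  exact (Nat.card_congr (Equiv.ofBijective _ hbij)).symm

end

theorem h8_s1186 {G : Type u} [Group G] [Finite G] (z : G) (hz : Cfsg.IsIsolatedInvolution z)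
    (s : G) (hs : orderOf s = 2) (hsz : Commute s z) :
    Nat.card G = Nat.card (Subgroup.centralizer ({z} : Set G)) *
      Nat.card {k : G // Odd (orderOf k) ∧ z * k * z⁻¹ = k⁻¹ ∧ Commute k (s * z)} *
      Nat.card {k : G // Odd (orderOf k) ∧ z * k * z⁻¹ = k⁻¹ ∧ Commute k s} := by
  have hss := h8_sq_of_orderOf_two hs
  have h1 := h8_isolated_GKC hz
  have h2 : Nat.card {k : G // Odd (orderOf k) ∧ z * k * z⁻¹ = k⁻¹}
      = Nat.card {w : G // h8IsD z w} := by
    have e1 : Nat.card {k : G // Odd (orderOf k) ∧ z * k * z⁻¹ = k⁻¹}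
        = Nat.card {k : G // Odd (orderOf k) ∧ z * k * z⁻¹ = k⁻¹ ∧ Commute k 1} :=
      Nat.card_congr (Equiv.subtypeEquivRight
        (fun k => ⟨fun h => ⟨h.1, h.2, Commute.one_right k⟩, fun h => ⟨h.1, h.2.1⟩⟩))
    have e2 : Nat.card {w : G // h8IsD z w ∧ Commute w 1} = Nat.card {w : G // h8IsD z w} :=
      Nat.card_congr (Equiv.subtypeEquivRight
        (fun w => ⟨fun h => h.1, fun h => ⟨h, Commute.one_right w⟩⟩))
    rw [e1, h8_isolated_KD hz 1 (Commute.one_right z), e2]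
  have h3 := h8_isolated_count hz s hss hsz
  have h4 := h8_isolated_KD hz s hsz.symm
  have h5 := h8_isolated_KD hz (z * s) (Commute.mul_right (Commute.refl z) hsz.symm)
  have e : s * z = z * s := hsz.eq
  rw [e, h1, h2, h3, h4, h5]
  ring

end Cfsg.Agent.Lib.Helper8
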