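import Mathlib
import Cfsg.Prelude.Def_Involutions
import Cfsg.Agent.Lib.Helper8.Isolated2
import Cfsg.Agent.Lib.Helper8.Pronormal

set_option autoImplicit false
set_option linter.style.haveILetI false
universe u

namespace Cfsg.Agent.Lib.Helper8

section
variable {G : Type u} [Group G]

theorem h8se_orderOf_conj (a t : G) : orderOf (a * t * a⁻¹) = orderOf t :=
  (MulAut.conj a).orderOf_eq t

theorem h8se_orderOf_conj' (a t : G) : orderOf (a⁻¹ * t * a) = orderOf t := by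
  have h := h8se_orderOf_conj a⁻¹ t
  rw [inv_inv] at h
  exact h

theorem h8se_fix_iff (H : Subgroup G) (c a : G) :
    c • (QuotientGroup.mk a : G ⧸ H) = QuotientGroup.mk a ↔ a⁻¹ * c * a ∈ H := by
  rw [MulAction.Quotient.smul_mk, smul_eq_mul, QuotientGroup.eq, ← inv_mem_iff]
  have e : ((c * a)⁻¹ * a)⁻¹ = a⁻¹ * c * a := by group
  rw [e]

theorem h8se_fix_unique {H : Subgroup G} (hH : Cfsg.IsStronglyEmbedded H) {t : G}
    (ht : orderOf t = 2) {x y : G ⧸ H} (hx : t • x = x) (hy : t • y = y) : x = y := by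
  obtain ⟨a, rfl⟩ := QuotientGroup.mk_surjective x
  obtain ⟨b, rfl⟩ := QuotientGroup.mk_surjective y
  by_contra hne
  have hg : a⁻¹ * b ∉ H := fun h => hne (QuotientGroup.eq.mpr h)
  have hodd := hH.2.2 _ hg
  rw [h8se_fix_iff] at hx hy
  have hmem : a⁻¹ * t * a ∈ H ⊓ H.map (MulAut.conj (a⁻¹ * b)).toMonoidHom := by
    refine Subgroup.mem_inf.mpr ⟨hx, ?_⟩
    rw [h8_map_conj_mem]
    have e : (a⁻¹ * b)⁻¹ * (a⁻¹ * t * a) * (a⁻¹ * b) = b⁻¹ * t * b := by group
    rw [e]; exact hy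
  have ho : orderOf
      (⟨a⁻¹ * t * a, hmem⟩ : ↥(H ⊓ H.map (MulAut.conj (a⁻¹ * b)).toMonoidHom)) = 2 := by
    rw [← Subgroup.orderOf_coe]
    show orderOf (a⁻¹ * t * a) = 2
    rw [h8se_orderOf_conj', ht]
  have hdvd := orderOf_dvd_natCard
    (⟨a⁻¹ * t * a, hmem⟩ : ↥(H ⊓ H.map (MulAut.conj (a⁻¹ * b)).toMonoidHom))
  rw [ho] at hdvd
  exact hodd.not_two_dvd_nat hdvd

theorem h8se_commute_fix {H : Subgroup G} (hH : Cfsg.IsStronglyEmbedded H) {t c : G}
    (ht : orderOf t = 2) {x : G ⧸ H} (hx : t • x = x) (hc : c * t = t * c) : c • x = x := by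
  apply h8se_fix_unique hH ht _ hx
  rw [← mul_smul, ← hc, mul_smul, hx]

variable [Finite G]

theorem h8se_odd {H : Subgroup G} (hH : Cfsg.IsStronglyEmbedded H) {t s : G}
    (ht : orderOf t = 2) (hs : orderOf s = 2) {x y : G ⧸ H} (hx : t • x = x) (hy : s • y = y)
    (hxy : x ≠ y) : Odd (orderOf (t * s)) := by
  by_contra hno
  rw [Nat.not_odd_iff_even] at hno
  obtain ⟨k, hk⟩ := hno
  have hk2 : orderOf (t * s) = 2 * k := by omega
  have hpos : 0 < orderOf (t * s) := orderOf_pos _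
  have hk0 : 0 < k := by omega
  have htt := h8_sq_of_orderOf_two ht
  have hss := h8_sq_of_orderOf_two hs
  obtain ⟨hw1, hww, htw, hsw, -⟩ := h8_dihedral_even htt hss hk2 hk0
  generalize (t * s) ^ k = w at hw1 hww htw hsw
  have how : orderOf w = 2 := by
    apply orderOf_eq_prime
    · rw [pow_two]; exact hww
    · exact hw1
  have hct : w * t = t * w := by
    calc w * t = (t * w * t) * t := by rw [htw]
      _ = t * w * (t * t) := by group
      _ = t * w := by rw [htt, mul_one]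
  have hcs : w * s = s * w := by
    calc w * s = (s * w * s) * s := by rw [hsw]
      _ = s * w * (s * s) := by group
      _ = s * w := by rw [hss, mul_one]
  have h1 : w • x = x := h8se_commute_fix hH ht hx hct
  have h2 : w • y = y := h8se_commute_fix hH hs hy hcs
  exact hxy (h8se_fix_unique hH how h1 h2)

theorem h8se_exists_invol {H : Subgroup G} (hH : Cfsg.IsStronglyEmbedded H) :
    ∃ t : G, orderOf t = 2 ∧ t ∈ H := by
  haveI : Fact (Nat.Prime 2) := ⟨Nat.prime_two⟩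
  obtain ⟨t, ht⟩ := exists_prime_orderOf_dvd_card' (G := H) 2 (even_iff_two_dvd.mp hH.2.1)
  exact ⟨t, by rw [Subgroup.orderOf_coe]; exact ht, t.2⟩

theorem h8se_exists_fix {H : Subgroup G} (hH : Cfsg.IsStronglyEmbedded H) {u : G}
    (hu : orderOf u = 2) : ∃ x : G ⧸ H, u • x = x := by
  obtain ⟨t, ht, htH⟩ := h8se_exists_invol hH
  have htt := h8_sq_of_orderOf_two ht
  have huu := h8_sq_of_orderOf_two hu
  have ht1 : t • (QuotientGroup.mk 1 : G ⧸ H) = QuotientGroup.mk 1 := by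
    rw [h8se_fix_iff]; simpa using htH
  by_cases hodd : Odd (orderOf (t * u))
  · obtain ⟨hm, -, -⟩ := h8Mid_facts htt huu hodd
    refine ⟨QuotientGroup.mk (h8Mid t u), ?_⟩
    have e : (h8Mid t u)⁻¹ * u * h8Mid t u = t := by
      calc (h8Mid t u)⁻¹ * u * h8Mid t u
          = (h8Mid t u)⁻¹ * (h8Mid t u * t * (h8Mid t u)⁻¹) * h8Mid t u := by rw [hm]
        _ = t := by group
    rw [h8se_fix_iff, e]; exact htH
  · rw [Nat.not_odd_iff_even] at hodd
    obtain ⟨k, hk⟩ := hodd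
    have hk2 : orderOf (t * u) = 2 * k := by omega
    have hpos : 0 < orderOf (t * u) := orderOf_pos _
    have hk0 : 0 < k := by omega
    obtain ⟨hw1, hww, htw, huw, -⟩ := h8_dihedral_even htt huu hk2 hk0
    generalize (t * u) ^ k = w at hw1 hww htw huw
    have how : orderOf w = 2 := by
      apply orderOf_eq_prime
      · rw [pow_two]; exact hww
      · exact hw1
    have hct : w * t = t * w := by
      calc w * t = (t * w * t) * t := by rw [htw]
        _ = t * w * (t * t) := by group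
        _ = t * w := by rw [htt, mul_one]
    have hcu : u * w = w * u := by
      calc u * w = u * (u * w * u) := by rw [huw]
        _ = (u * u) * w * u := by group
        _ = w * u := by rw [huu, one_mul]
    have h1 : w • (QuotientGroup.mk 1 : G ⧸ H) = QuotientGroup.mk 1 :=
      h8se_commute_fix hH ht ht1 hct
    exact ⟨_, h8se_commute_fix hH how h1 hcu⟩

theorem h8se_mid {H : Subgroup G} (hH : Cfsg.IsStronglyEmbedded H) {t s : G}
    (ht : orderOf t = 2) (hs : orderOf s = 2) {x y : G ⧸ H} (hx : t • x = x) (hy : s • y = y)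
    (hxy : x ≠ y) :
    h8Mid t s * t * (h8Mid t s)⁻¹ = s ∧ orderOf (h8Mid t s) = 2 ∧ h8Mid t s • x = y ∧
      h8Mid t s • y = x := by
  have htt := h8_sq_of_orderOf_two ht
  have hss := h8_sq_of_orderOf_two hs
  have hodd := h8se_odd hH ht hs hx hy hxy
  obtain ⟨hm, hmm, b, hb⟩ := h8Mid_facts htt hss hodd
  have hom : orderOf (h8Mid t s) = 2 := by
    rw [← hb, h8se_orderOf_conj, ht]
  have hsm : s * h8Mid t s = h8Mid t s * t := by
    calc s * h8Mid t s = (h8Mid t s * t * (h8Mid t s)⁻¹) * h8Mid t s := by rw [hm]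
      _ = h8Mid t s * t := by group
  have h1 : h8Mid t s • x = y := by
    apply h8se_fix_unique hH hs _ hy
    rw [← mul_smul, hsm, mul_smul, hx]
  refine ⟨hm, hom, h1, ?_⟩
  rw [← h1, ← mul_smul, hmm, one_smul]

theorem h8_s1225 (H : Subgroup G) (hH : Cfsg.IsStronglyEmbedded H) (u : G)
    (_hu : orderOf u = 2) (huH : u ∉ H) (s t : G) (hs : orderOf s = 2) (hsH : s ∈ H)
    (ht : orderOf t = 2) (htH : t ∈ H) :
    (∃ d ∈ (H ⊓ H.map (MulAut.conj u).toMonoidHom), d * s * d⁻¹ = t) ∧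
      ∀ a b : G, orderOf a = 2 → orderOf b = 2 → IsConj a b := by
  have key : ∀ s t : G, orderOf s = 2 → s ∈ H → orderOf t = 2 → t ∈ H →
      ∃ d ∈ (H ⊓ H.map (MulAut.conj u).toMonoidHom), d * s * d⁻¹ = t := by
    intro s t hs hsH ht htH
    have hxy : (QuotientGroup.mk 1 : G ⧸ H) ≠ QuotientGroup.mk u := by
      intro h
      rw [QuotientGroup.eq] at h
      apply huH
      simpa using h
    have hsx : s • (QuotientGroup.mk 1 : G ⧸ H) = QuotientGroup.mk 1 := by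
      rw [h8se_fix_iff]; simpa using hsH
    have htx : t • (QuotientGroup.mk 1 : G ⧸ H) = QuotientGroup.mk 1 := by
      rw [h8se_fix_iff]; simpa using htH
    have hs0 : orderOf (u * s * u⁻¹) = 2 := by rw [h8se_orderOf_conj, hs]
    have hs0y : (u * s * u⁻¹) • (QuotientGroup.mk u : G ⧸ H) = QuotientGroup.mk u := by
      rw [h8se_fix_iff]
      have e : u⁻¹ * (u * s * u⁻¹) * u = s := by group
      rw [e]; exact hsH
    obtain ⟨h1, -, h1x, h1y⟩ := h8se_mid hH ht hs0 htx hs0y hxy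
    obtain ⟨h2, -, h2x, h2y⟩ := h8se_mid hH hs hs0 hsx hs0y hxy
    generalize h8Mid t (u * s * u⁻¹) = m₁ at h1 h1x h1y
    generalize h8Mid s (u * s * u⁻¹) = m₂ at h2 h2x h2y
    refine ⟨m₁⁻¹ * m₂, ⟨?_, ?_⟩, ?_⟩
    · have h3 : (m₁⁻¹ * m₂) • (QuotientGroup.mk 1 : G ⧸ H) = QuotientGroup.mk 1 := by
        rw [mul_smul, h2x, inv_smul_eq_iff, h1x]
      rw [h8se_fix_iff] at h3
      simpa using h3
    · show m₁⁻¹ * m₂ ∈ H.map (MulAut.conj u).toMonoidHom
      rw [h8_map_conj_mem, ← h8se_fix_iff]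
      rw [mul_smul, h2y, inv_smul_eq_iff, h1y]
    · calc m₁⁻¹ * m₂ * s * (m₁⁻¹ * m₂)⁻¹ = m₁⁻¹ * (m₂ * s * m₂⁻¹) * m₁ := by group
        _ = m₁⁻¹ * (m₁ * t * m₁⁻¹) * m₁ := by rw [h2, h1]
        _ = t := by group
  refine ⟨key s t hs hsH ht htH, ?_⟩
  intro a b ha hb
  obtain ⟨x, hx⟩ := h8se_exists_fix hH ha
  obtain ⟨y, hy⟩ := h8se_exists_fix hH hb
  obtain ⟨ga, rfl⟩ := QuotientGroup.mk_surjective x
  obtain ⟨gb, rfl⟩ := QuotientGroup.mk_surjective y
  rw [h8se_fix_iff] at hx hy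
  obtain ⟨d, -, hd⟩ := key (ga⁻¹ * a * ga) (gb⁻¹ * b * gb) (by rw [h8se_orderOf_conj', ha]) hx
    (by rw [h8se_orderOf_conj', hb]) hy
  rw [isConj_iff]
  refine ⟨gb * d * ga⁻¹, ?_⟩
  calc gb * d * ga⁻¹ * a * (gb * d * ga⁻¹)⁻¹
      = gb * (d * (ga⁻¹ * a * ga) * d⁻¹) * gb⁻¹ := by group
    _ = gb * (gb⁻¹ * b * gb) * gb⁻¹ := by rw [hd]
    _ = b := by group

omit [Finite G] in
theorem h8se_card_fix (H : Subgroup G) (x : G ⧸ H) :
    Nat.card {t : G // orderOf t = 2 ∧ t • x = x} =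
      Nat.card {t : G // orderOf t = 2 ∧ t ∈ H} := by
  obtain ⟨a, rfl⟩ := QuotientGroup.mk_surjective x
  apply Nat.card_congr
  refine Equiv.subtypeEquiv (MulAut.conj a⁻¹).toEquiv ?_
  intro t
  show (orderOf t = 2 ∧ _) ↔ (orderOf (a⁻¹ * t * a⁻¹⁻¹) = 2 ∧ a⁻¹ * t * a⁻¹⁻¹ ∈ H)
  rw [inv_inv, h8se_orderOf_conj', h8se_fix_iff]

theorem h8se_le {H : Subgroup G} (hH : Cfsg.IsStronglyEmbedded H) {x y : G ⧸ H}
    (hxy : x ≠ y) :
    Nat.card {t : G // orderOf t = 2 ∧ t • x = x} ≤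
      Nat.card {i : G // orderOf i = 2 ∧ i • x = y} := by
  obtain ⟨t₀, ht₀, ht₀H⟩ := h8se_exists_invol hH
  obtain ⟨b, rfl⟩ := QuotientGroup.mk_surjective y
  have hs0 : orderOf (b * t₀ * b⁻¹) = 2 := by rw [h8se_orderOf_conj, ht₀]
  have hs0y : (b * t₀ * b⁻¹) • (QuotientGroup.mk b : G ⧸ H) = QuotientGroup.mk b := by
    rw [h8se_fix_iff]
    have e : b⁻¹ * (b * t₀ * b⁻¹) * b = t₀ := by group
    rw [e]; exact ht₀H
  generalize b * t₀ * b⁻¹ = s₀ at hs0 hs0y
  apply Nat.card_le_card_of_injective (fun t : {t : G // orderOf t = 2 ∧ t • x = x} =>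
    (⟨h8Mid t.1 s₀, (h8se_mid hH t.2.1 hs0 t.2.2 hs0y hxy).2.1,
      (h8se_mid hH t.2.1 hs0 t.2.2 hs0y hxy).2.2.1⟩ :
      {i : G // orderOf i = 2 ∧ i • x = QuotientGroup.mk b}))
  intro t t' htt'
  have hm : h8Mid t.1 s₀ = h8Mid t'.1 s₀ := congrArg Subtype.val htt'
  have h1 := (h8se_mid hH t.2.1 hs0 t.2.2 hs0y hxy).1
  have h2 := (h8se_mid hH t'.2.1 hs0 t'.2.2 hs0y hxy).1
  apply Subtype.ext
  rw [← hm] at h2
  have h3 : h8Mid t.1 s₀ * t.1 * (h8Mid t.1 s₀)⁻¹ = h8Mid t.1 s₀ * t'.1 * (h8Mid t.1 s₀)⁻¹ := by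
    rw [h1, h2]
  simpa using h3

theorem h8_s1224 (H : Subgroup G) (hH : Cfsg.IsStronglyEmbedded H) (x y : G ⧸ H)
    (_hxy : x ≠ y) :
    Nat.card {i : G // orderOf i = 2 ∧ i • x = y} =
      Nat.card {t : G // orderOf t = 2 ∧ t ∈ H} := by
  classical
  haveI : Fintype (G ⧸ H) := Fintype.ofFinite _
  have hc1 : Nat.card {u : G // orderOf u = 2} =
      ∑ z : G ⧸ H, Nat.card {i : G // orderOf i = 2 ∧ i • x = z} := by
    rw [← Nat.card_sigma]
    apply Nat.card_congr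
    exact (Equiv.sigmaFiberEquiv (fun u : {u : G // orderOf u = 2} => u.1 • x)).symm.trans
      (Equiv.sigmaCongrRight (fun z => Equiv.subtypeSubtypeEquivSubtypeInter
        (fun u : G => orderOf u = 2) (fun i : G => i • x = z)))
  have hex : ∀ u : {u : G // orderOf u = 2}, ∃ z : G ⧸ H, u.1 • z = z :=
    fun u => h8se_exists_fix hH u.2
  choose φ hφ using hex
  have hc2 : Nat.card {u : G // orderOf u = 2} =
      ∑ z : G ⧸ H, Nat.card {i : G // orderOf i = 2 ∧ i • z = z} := by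
    rw [← Nat.card_sigma]
    apply Nat.card_congr
    refine (Equiv.sigmaFiberEquiv φ).symm.trans (Equiv.sigmaCongrRight (fun z => ?_))
    refine (Equiv.subtypeEquivRight (fun u => ?_)).trans
      (Equiv.subtypeSubtypeEquivSubtypeInter (fun u : G => orderOf u = 2)
        (fun i : G => i • z = z))
    constructor
    · intro h; rw [← h]; exact hφ u
    · intro h; exact h8se_fix_unique hH u.2 (hφ u) h
  have hsum : ∑ z : G ⧸ H, Nat.card {i : G // orderOf i = 2 ∧ i • z = z} =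
      ∑ _z : G ⧸ H, Nat.card {t : G // orderOf t = 2 ∧ t ∈ H} := by
    apply Finset.sum_congr rfl
    intro z _
    exact h8se_card_fix H z
  have hle : ∀ z ∈ (Finset.univ : Finset (G ⧸ H)),
      Nat.card {t : G // orderOf t = 2 ∧ t ∈ H} ≤
        Nat.card {i : G // orderOf i = 2 ∧ i • x = z} := by
    intro z _
    by_cases hz : x = z
    · subst hz
      exact le_of_eq (h8se_card_fix H x).symm
    · rw [← h8se_card_fix H x]
      exact h8se_le hH hz
  have heq : ∑ _z : G ⧸ H, Nat.card {t : G // orderOf t = 2 ∧ t ∈ H} =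
      ∑ z : G ⧸ H, Nat.card {i : G // orderOf i = 2 ∧ i • x = z} := by
    rw [← hsum, ← hc2, hc1]
  exact ((Finset.sum_eq_sum_iff_of_le hle).mp heq y (Finset.mem_univ y)).symm

end

end Cfsg.Agent.Lib.Helper8
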