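import Mathlib
import Cfsg.Agent.Lib.Helper8.StrEmb
import Cfsg.Agent.S1226

set_option autoImplicit false
set_option linter.style.haveILetI false
set_option linter.unusedSectionVars false
universe u

namespace Cfsg.Agent.Lib.Helper8

section
variable {G : Type u} [Group G] [Finite G]

/-- some involution fixes a given coset -/
theorem h8se_exists_invol_fix {H : Subgroup G} (hH : Cfsg.IsStronglyEmbedded H) (y : G ⧸ H) :
    ∃ s : G, orderOf s = 2 ∧ s • y = y := by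
  obtain ⟨t₀, ht₀, ht₀H⟩ := h8se_exists_invol hH
  obtain ⟨b, rfl⟩ := QuotientGroup.mk_surjective y
  refine ⟨b * t₀ * b⁻¹, by rw [h8se_orderOf_conj, ht₀], ?_⟩
  rw [h8se_fix_iff]
  have e : b⁻¹ * (b * t₀ * b⁻¹) * b = t₀ := by group
  rw [e]; exact ht₀H

/-- some involution swaps two distinct cosets -/
theorem h8se_exists_swap {H : Subgroup G} (hH : Cfsg.IsStronglyEmbedded H) {x y : G ⧸ H}
    (hxy : x ≠ y) : ∃ i : G, orderOf i = 2 ∧ i • x = y ∧ i • y = x := by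
  obtain ⟨s, hs, hsx⟩ := h8se_exists_invol_fix hH x
  obtain ⟨s', hs', hsy⟩ := h8se_exists_invol_fix hH y
  obtain ⟨-, h2, h3, h4⟩ := h8se_mid hH hs hs' hsx hsy hxy
  exact ⟨_, h2, h3, h4⟩

/-- the two-point stabilizer is transitive on the involutions fixing the first point -/
theorem h8se_trans {H : Subgroup G} (hH : Cfsg.IsStronglyEmbedded H) {x y : G ⧸ H}
    (hxy : x ≠ y) {s t : G} (hs : orderOf s = 2) (hsx : s • x = x) (ht : orderOf t = 2)
    (htx : t • x = x) : ∃ d : G, d • x = x ∧ d • y = y ∧ d * s * d⁻¹ = t := by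
  obtain ⟨s', hs', hsy⟩ := h8se_exists_invol_fix hH y
  obtain ⟨h1, -, h1x, h1y⟩ := h8se_mid hH ht hs' htx hsy hxy
  obtain ⟨h2, -, h2x, h2y⟩ := h8se_mid hH hs hs' hsx hsy hxy
  generalize h8Mid t s' = m₁ at h1 h1x h1y
  generalize h8Mid s s' = m₂ at h2 h2x h2y
  refine ⟨m₁⁻¹ * m₂, ?_, ?_, ?_⟩
  · rw [mul_smul, h2x, inv_smul_eq_iff, h1x]
  · rw [mul_smul, h2y, inv_smul_eq_iff, h1y]
  · calc m₁⁻¹ * m₂ * s * (m₁⁻¹ * m₂)⁻¹ = m₁⁻¹ * (m₂ * s * m₂⁻¹) * m₁ := by group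
      _ = m₁⁻¹ * (m₁ * t * m₁⁻¹) * m₁ := by rw [h2, h1]
      _ = t := by group

theorem h8se_mem_D (H : Subgroup G) (w g : G) :
    g ∈ H ⊓ H.map (MulAut.conj w).toMonoidHom ↔
      g • (QuotientGroup.mk 1 : G ⧸ H) = QuotientGroup.mk 1 ∧
        g • (QuotientGroup.mk w : G ⧸ H) = QuotientGroup.mk w := by
  rw [Subgroup.mem_inf, h8_map_conj_mem, h8se_fix_iff, h8se_fix_iff]
  simp

/-- involution centralizers are elementary abelian 2-groups -/
def h8EC (G : Type u) [Group G] : Prop :=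
  ∀ t : G, orderOf t = 2 → IsMulCommutative (Subgroup.centralizer ({t} : Set G)) ∧
    ∀ c ∈ Subgroup.centralizer ({t} : Set G), c ^ 2 = 1

theorem h8ec_sq (hC : h8EC G) {t c : G} (ht : orderOf t = 2) (hc : c * t = t * c) :
    c * c = 1 := by
  have h := (hC t ht).2 c (Subgroup.mem_centralizer_singleton_iff.mpr hc)
  rw [pow_two] at h
  exact h

theorem h8_one_or_invol {c : G} (h : c * c = 1) : c = 1 ∨ orderOf c = 2 := by
  by_cases hc : c = 1
  · exact Or.inl hc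
  · right
    haveI : Fact (Nat.Prime 2) := ⟨Nat.prime_two⟩
    exact orderOf_eq_prime (by rw [pow_two]; exact h) hc

theorem h8ec_inj {H : Subgroup G} (hH : Cfsg.IsStronglyEmbedded H) (hC : h8EC G)
    {x y : G ⧸ H} (hxy : x ≠ y) {s d d' : G} (hs : orderOf s = 2) (hdx : d • x = x)
    (hdy : d • y = y) (hdx' : d' • x = x) (hdy' : d' • y = y)
    (h : d * s * d⁻¹ = d' * s * d'⁻¹) : d = d' := by
  have hc : (d⁻¹ * d') * s = s * (d⁻¹ * d') := by
    calc d⁻¹ * d' * s = d⁻¹ * (d' * s * d'⁻¹) * d' := by group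
      _ = d⁻¹ * (d * s * d⁻¹) * d' := by rw [h]
      _ = s * (d⁻¹ * d') := by group
  have hsq := h8ec_sq hC hs hc
  rcases h8_one_or_invol hsq with h1 | h2
  · exact inv_mul_eq_one.mp h1
  · exfalso
    apply hxy
    apply h8se_fix_unique hH h2
    · rw [mul_smul, hdx', inv_smul_eq_iff, hdx]
    · rw [mul_smul, hdy', inv_smul_eq_iff, hdy]

theorem h8ec_card_D {H : Subgroup G} (hH : Cfsg.IsStronglyEmbedded H) (hC : h8EC G)
    {x y : G ⧸ H} (hxy : x ≠ y) :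
    Nat.card {d : G // d • x = x ∧ d • y = y} = Nat.card {t : G // orderOf t = 2 ∧ t ∈ H} := by
  obtain ⟨s, hs, hsx⟩ := h8se_exists_invol_fix hH x
  rw [← h8se_card_fix H x]
  have hf : ∀ d : {d : G // d • x = x ∧ d • y = y},
      orderOf (d.1 * s * d.1⁻¹) = 2 ∧ (d.1 * s * d.1⁻¹) • x = x := by
    intro d
    refine ⟨by rw [h8se_orderOf_conj, hs], ?_⟩
    rw [mul_smul, mul_smul, inv_smul_eq_iff.mpr d.2.1.symm, hsx, d.2.1]
  apply Nat.card_congr
  refine Equiv.ofBijective (fun d => ⟨d.1 * s * d.1⁻¹, hf d⟩) ⟨?_, ?_⟩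
  · intro d d' h
    have h' : d.1 * s * d.1⁻¹ = d'.1 * s * d'.1⁻¹ := congrArg Subtype.val h
    exact Subtype.ext (h8ec_inj hH hC hxy hs d.2.1 d.2.2 d'.2.1 d'.2.2 h')
  · intro t
    obtain ⟨d, hdx, hdy, hd⟩ := h8se_trans hH hxy hs hsx t.2.1 t.2.2
    exact ⟨⟨d, hdx, hdy⟩, Subtype.ext hd⟩

/-- an involution swapping two points inverts their common stabilizer -/
theorem h8ec_invert {H : Subgroup G} (hH : Cfsg.IsStronglyEmbedded H) (hC : h8EC G)
    {x y : G ⧸ H} (hxy : x ≠ y) {u : G} (hu : orderOf u = 2) (hux : u • x = y) {d : G}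
    (hdx : d • x = x) (hdy : d • y = y) : u * d * u⁻¹ = d⁻¹ := by
  have huu := h8_sq_of_orderOf_two hu
  have hui : u⁻¹ = u := inv_eq_of_mul_eq_one_left huu
  have huy : u • y = x := by rw [← hux, ← mul_smul, huu, one_smul]
  have hf : ∀ i : {i : G // orderOf i = 2 ∧ i • x = y},
      (u * i.1) • x = x ∧ (u * i.1) • y = y := by
    rintro ⟨i, hi2, hix⟩
    have hii := h8_sq_of_orderOf_two hi2
    have hiy : i • y = x := by
      calc i • y = i • (i • x) := by rw [hix]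
        _ = x := by rw [← mul_smul, hii, one_smul]
    exact ⟨by rw [mul_smul, hix, huy], by rw [mul_smul, hiy, hux]⟩
  have hinj : Function.Injective (fun i : {i : G // orderOf i = 2 ∧ i • x = y} =>
      (⟨u * i.1, hf i⟩ : {d : G // d • x = x ∧ d • y = y})) := by
    intro i i' h
    have h' : u * i.1 = u * i'.1 := congrArg Subtype.val h
    exact Subtype.ext (mul_left_cancel h')
  have hcard : Nat.card {d : G // d • x = x ∧ d • y = y} ≤
      Nat.card {i : G // orderOf i = 2 ∧ i • x = y} := by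
    rw [h8ec_card_D hH hC hxy, h8_s1224 H hH x y hxy]
  obtain ⟨i, hi⟩ := (hinj.bijective_of_nat_card_le hcard).2 ⟨d, hdx, hdy⟩
  have hi' : u * i.1 = d := congrArg Subtype.val hi
  have hii := h8_sq_of_orderOf_two i.2.1
  rw [← hi', mul_inv_rev, hui, inv_eq_of_mul_eq_one_left hii, ← mul_assoc u u, huu, one_mul]

theorem h8ec_comm_D {H : Subgroup G} (hH : Cfsg.IsStronglyEmbedded H) (hC : h8EC G)
    {x y : G ⧸ H} (hxy : x ≠ y) {d d' : G} (hdx : d • x = x) (hdy : d • y = y)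
    (hdx' : d' • x = x) (hdy' : d' • y = y) : d * d' = d' * d := by
  obtain ⟨u, hu, hux, -⟩ := h8se_exists_swap hH hxy
  have h1 := h8ec_invert hH hC hxy hu hux hdx hdy
  have h2 := h8ec_invert hH hC hxy hu hux hdx' hdy'
  have h3 : u * (d * d') * u⁻¹ = (d * d')⁻¹ :=
    h8ec_invert hH hC hxy hu hux (by rw [mul_smul, hdx', hdx]) (by rw [mul_smul, hdy', hdy])
  have h4 : u * (d * d') * u⁻¹ = d⁻¹ * d'⁻¹ := by
    calc u * (d * d') * u⁻¹ = (u * d * u⁻¹) * (u * d' * u⁻¹) := by group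
      _ = d⁻¹ * d'⁻¹ := by rw [h1, h2]
  rw [h3] at h4
  calc d * d' = ((d * d')⁻¹)⁻¹ := (inv_inv _).symm
    _ = (d⁻¹ * d'⁻¹)⁻¹ := by rw [h4]
    _ = d' * d := by group

theorem h8ec_comm_fix {H : Subgroup G}
    (hHc : ∀ s t : G, s ∈ H → t ∈ H → orderOf s = 2 → orderOf t = 2 → s * t = t * s)
    {x : G ⧸ H} {s t : G} (hs : orderOf s = 2) (ht : orderOf t = 2) (hsx : s • x = x)
    (htx : t • x = x) : s * t = t * s := by
  obtain ⟨a, rfl⟩ := QuotientGroup.mk_surjective x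
  rw [h8se_fix_iff] at hsx htx
  have h := hHc _ _ hsx htx (by rw [h8se_orderOf_conj', hs]) (by rw [h8se_orderOf_conj', ht])
  calc s * t = a * ((a⁻¹ * s * a) * (a⁻¹ * t * a)) * a⁻¹ := by group
    _ = a * ((a⁻¹ * t * a) * (a⁻¹ * s * a)) * a⁻¹ := by rw [h]
    _ = t * s := by group

/-- no element of a point stabilizer inverts a nontrivial element of a two-point stabilizer -/
theorem h8ec_no_invert {H : Subgroup G} (hH : Cfsg.IsStronglyEmbedded H) (hC : h8EC G)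
    (hHc : ∀ s t : G, s ∈ H → t ∈ H → orderOf s = 2 → orderOf t = 2 → s * t = t * s)
    {x y : G ⧸ H} (hxy : x ≠ y) {h g : G} (hhx : h • x = x) (hgx : g • x = x)
    (hgy : g • y = y) (hinv : h * g * h⁻¹ = g⁻¹) : g = 1 := by
  have hg1 : g * g = 1 → g = 1 := by
    intro hgg
    rcases h8_one_or_invol hgg with h1 | h2
    · exact h1
    · exact absurd (h8se_fix_unique hH h2 hgx hgy) hxy
  obtain ⟨s, hs, hsx⟩ := h8se_exists_invol_fix hH x
  have hs' : orderOf (h * s * h⁻¹) = 2 := by rw [h8se_orderOf_conj, hs]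
  have hsx' : (h * s * h⁻¹) • x = x := by
    rw [mul_smul, mul_smul, inv_smul_eq_iff.mpr hhx.symm, hsx, hhx]
  obtain ⟨d, hdx, hdy, hd⟩ := h8se_trans hH hxy hs hsx hs' hsx'
  have hc : (d⁻¹ * h) * s = s * (d⁻¹ * h) := by
    calc d⁻¹ * h * s = d⁻¹ * (h * s * h⁻¹) * h := by group
      _ = d⁻¹ * (d * s * d⁻¹) * h := by rw [hd]
      _ = s * (d⁻¹ * h) := by group
  have hcc := h8ec_sq hC hs hc
  have hcx : (d⁻¹ * h) • x = x := by rw [mul_smul, hhx, inv_smul_eq_iff, hdx]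
  have hgix : g⁻¹ • x = x := inv_smul_eq_iff.mpr hgx.symm
  have hgiy : g⁻¹ • y = y := inv_smul_eq_iff.mpr hgy.symm
  have hcomm : d * g⁻¹ = g⁻¹ * d := h8ec_comm_D hH hC hxy hdx hdy hgix hgiy
  have hcg : (d⁻¹ * h) * g * (d⁻¹ * h)⁻¹ = g⁻¹ := by
    calc d⁻¹ * h * g * (d⁻¹ * h)⁻¹ = d⁻¹ * (h * g * h⁻¹) * d := by group
      _ = d⁻¹ * g⁻¹ * d := by rw [hinv]
      _ = d⁻¹ * (g⁻¹ * d) := by group
      _ = d⁻¹ * (d * g⁻¹) := by rw [hcomm]
      _ = g⁻¹ := by group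
  generalize d⁻¹ * h = c at hcc hcx hcg
  have hci : c⁻¹ = c := inv_eq_of_mul_eq_one_left hcc
  rw [hci] at hcg
  rcases h8_one_or_invol hcc with h1 | h2
  · subst h1
    apply hg1
    have e : g = g⁻¹ := by simpa using hcg
    exact mul_eq_one_iff_eq_inv.mpr e
  · have h3 : (c * g) * (c * g) = 1 := by
      calc c * g * (c * g) = (c * g * c) * g := by group
        _ = g⁻¹ * g := by rw [hcg]
        _ = 1 := inv_mul_cancel g
    rcases h8_one_or_invol h3 with h4 | h5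
    · have hgc : g = c := by
        have e := eq_inv_of_mul_eq_one_right h4
        rw [hci] at e
        exact e
      exfalso
      apply hxy
      exact h8se_fix_unique hH (by rw [hgc]; exact h2) hgx hgy
    · have hcgx : (c * g) • x = x := by rw [mul_smul, hgx, hcx]
      have hcm := h8ec_comm_fix hHc h2 h5 hcx hcgx
      apply hg1
      have h6 : c * g = g * c := by
        have e : c * (c * g) = c * (g * c) := by rw [hcm]; group
        exact mul_left_cancel e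
      have h7 : g⁻¹ = g := by
        calc g⁻¹ = c * g * c := hcg.symm
          _ = g * c * c := by rw [h6]
          _ = g := by rw [mul_assoc, hcc, mul_one]
      exact mul_eq_one_iff_eq_inv.mpr h7.symm

/-- an element fixing three distinct points is trivial -/
theorem h8ec_three {H : Subgroup G} (hH : Cfsg.IsStronglyEmbedded H) (hC : h8EC G)
    (hHc : ∀ s t : G, s ∈ H → t ∈ H → orderOf s = 2 → orderOf t = 2 → s * t = t * s)
    {x₁ x₂ x₃ : G ⧸ H} (h12 : x₁ ≠ x₂) (h13 : x₁ ≠ x₃) (h23 : x₂ ≠ x₃) {g : G}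
    (h1 : g • x₁ = x₁) (h2 : g • x₂ = x₂) (h3 : g • x₃ = x₃) : g = 1 := by
  obtain ⟨a, ha, ha1, -⟩ := h8se_exists_swap hH h12
  obtain ⟨b, hb, hb2, -⟩ := h8se_exists_swap hH h23
  obtain ⟨c, hc, hc3, -⟩ := h8se_exists_swap hH (Ne.symm h13)
  have e1 : a * g * a⁻¹ = g⁻¹ := h8ec_invert hH hC h12 ha ha1 h1 h2
  have e2 : b * g * b⁻¹ = g⁻¹ := h8ec_invert hH hC h23 hb hb2 h2 h3
  have e3 : c * g * c⁻¹ = g⁻¹ := h8ec_invert hH hC (Ne.symm h13) hc hc3 h3 h1
  have e2' : b * g⁻¹ * b⁻¹ = g := by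
    calc b * g⁻¹ * b⁻¹ = (b * g * b⁻¹)⁻¹ := by group
      _ = g := by rw [e2, inv_inv]
  refine h8ec_no_invert hH hC hHc h12 (h := c * b * a) ?_ h1 h2 ?_
  · rw [mul_smul, mul_smul, ha1, hb2, hc3]
  · calc c * b * a * g * (c * b * a)⁻¹ = c * (b * (a * g * a⁻¹) * b⁻¹) * c⁻¹ := by group
      _ = c * (b * g⁻¹ * b⁻¹) * c⁻¹ := by rw [e1]
      _ = c * g * c⁻¹ := by rw [e2']
      _ = g⁻¹ := e3

/-- the normalizer of a Sylow 2-subgroup -/
abbrev h8N (T : Sylow 2 G) : Subgroup G := Subgroup.normalizer ((T : Subgroup G) : Set G)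

/-- consequences of the hypotheses of the PSL(2,2^n) characterization -/
structure h8ECT (T : Sylow 2 G) : Prop where
  hH : Cfsg.IsStronglyEmbedded (h8N T)
  hC : h8EC G
  comm : ∀ a ∈ (T : Subgroup G), ∀ b ∈ (T : Subgroup G), a * b = b * a
  cent : ∀ t ∈ (T : Subgroup G), orderOf t = 2 → Subgroup.centralizer ({t} : Set G) = T
  inv_mem : ∀ t ∈ h8N T, orderOf t = 2 → t ∈ (T : Subgroup G)
  invol : ∀ t ∈ (T : Subgroup G), t ≠ 1 → orderOf t = 2
  four : 4 ≤ Nat.card (T : Subgroup G)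

theorem h8ECT.hHc {T : Sylow 2 G} (hT : h8ECT T) :
    ∀ s t : G, s ∈ h8N T → t ∈ h8N T → orderOf s = 2 → orderOf t = 2 → s * t = t * s :=
  fun s t hs ht hs2 ht2 => hT.comm s (hT.inv_mem s hs hs2) t (hT.inv_mem t ht ht2)

theorem h8ect_of (T : Sylow 2 G) (hnc : ¬ IsCyclic (T : Subgroup G))
    (hnn : ¬ (T : Subgroup G).Normal) (hC : h8EC G) : h8ECT T := by
  classical
  have hTp : IsPGroup 2 (T : Subgroup G) := T.isPGroup'
  have hCp : ∀ t : G, orderOf t = 2 → IsPGroup 2 (Subgroup.centralizer ({t} : Set G)) := by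
    intro t ht c
    refine ⟨1, ?_⟩
    have := (hC t ht).2 c c.2
    exact Subtype.ext (by simpa using this)
  have hTne : (T : Subgroup G) ≠ ⊥ := by
    intro h
    apply hnc
    rw [h]
    infer_instance
  haveI : Nontrivial (T : Subgroup G) := (Subgroup.nontrivial_iff_ne_bot _).2 hTne
  have hcen : Nontrivial (Subgroup.center (T : Subgroup G)) := hTp.center_nontrivial
  have h2 : 2 ∣ Nat.card (Subgroup.center (T : Subgroup G)) := by
    have hp : IsPGroup 2 (Subgroup.center (T : Subgroup G)) := hTp.to_subgroup _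
    obtain ⟨n, hn⟩ := IsPGroup.iff_card.1 hp
    have hn0 : n ≠ 0 := by
      rintro rfl
      have : Nat.card (Subgroup.center (T : Subgroup G)) = 1 := by simpa using hn
      have := (Nat.card_eq_one_iff_unique.1 this).1
      exact not_subsingleton _ this
    rw [hn]
    exact dvd_pow_self 2 hn0
  obtain ⟨z, hz⟩ := exists_prime_orderOf_dvd_card' 2 h2
  have hz2 : orderOf ((z : (T : Subgroup G)) : G) = 2 := by
    rw [Subgroup.orderOf_coe, Subgroup.orderOf_coe]; exact hz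
  have hTz : (T : Subgroup G) ≤ Subgroup.centralizer ({((z : (T : Subgroup G)) : G)} : Set G) := by
    intro s hs
    rw [Subgroup.mem_centralizer_singleton_iff]
    have := Subgroup.mem_center_iff.1 z.2 ⟨s, hs⟩
    have := congrArg Subtype.val this
    simpa using this
  have hTeq : Subgroup.centralizer ({((z : (T : Subgroup G)) : G)} : Set G) = T :=
    T.is_maximal' (hCp _ hz2) hTz
  have hTcomm : ∀ a ∈ (T : Subgroup G), ∀ b ∈ (T : Subgroup G), a * b = b * a := by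
    intro a ha b hb
    rw [← hTeq] at ha hb
    have := (hC _ hz2).1
    have := mul_comm' (⟨a, ha⟩ : Subgroup.centralizer ({((z : (T : Subgroup G)) : G)} : Set G))
      ⟨b, hb⟩
    exact congrArg Subtype.val this
  have hcent : ∀ t ∈ (T : Subgroup G), orderOf t = 2 →
      Subgroup.centralizer ({t} : Set G) = T := by
    intro t htT ht
    refine T.is_maximal' (hCp t ht) ?_
    intro s hs
    rw [Subgroup.mem_centralizer_singleton_iff]
    exact hTcomm s hs t htT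
  have hinv : ∀ t ∈ Subgroup.normalizer ((T : Subgroup G) : Set G), orderOf t = 2 →
      t ∈ (T : Subgroup G) := by
    intro t htN ht
    have hzp : IsPGroup 2 (Subgroup.zpowers t) := by
      rw [IsPGroup.iff_card, Nat.card_zpowers, ht]
      exact ⟨1, by simp⟩
    have hle : Subgroup.zpowers t ≤ Subgroup.normalizer ((T : Subgroup G) : Set G) := by
      rw [Subgroup.zpowers_le]; exact htN
    have hsup := IsPGroup.to_sup_of_normal_right' hzp hTp hle
    have := T.is_maximal' hsup le_sup_right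
    have h1 : Subgroup.zpowers t ≤ Subgroup.zpowers t ⊔ (T : Subgroup G) := le_sup_left
    rw [this] at h1
    exact h1 (Subgroup.mem_zpowers t)
  refine ⟨Cfsg.Agent.S1226.result T hnc hnn hC, hC, hTcomm, hcent, hinv, ?_, ?_⟩
  · intro t ht ht1
    haveI : Fact (Nat.Prime 2) := ⟨Nat.prime_two⟩
    rw [← hTeq] at ht
    have := (hC _ hz2).2 t ht
    exact orderOf_eq_prime this ht1
  · obtain ⟨n, hn⟩ := IsPGroup.iff_card.1 hTp
    rcases n with _ | _ | n
    · exfalso; apply hTne; apply Subgroup.eq_bot_of_card_eq; simpa using hn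
    · exfalso; apply hnc
      haveI : Fact (Nat.Prime 2) := ⟨Nat.prime_two⟩
      exact isCyclic_of_prime_card (p := 2) (by simpa using hn)
    · rw [hn]
      calc 4 = 2 ^ 2 := by norm_num
        _ ≤ 2 ^ (n + 1 + 1) := Nat.pow_le_pow_right (by norm_num) (by omega)

theorem h8ect_N_iff (T : Sylow 2 G) (g : G) :
    g • (QuotientGroup.mk 1 : G ⧸ h8N T) = QuotientGroup.mk 1 ↔ g ∈ h8N T := by
  rw [h8se_fix_iff]; simp

theorem h8ect_T_fix {T : Sylow 2 G} {t : G} (ht : t ∈ (T : Subgroup G)) :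
    t • (QuotientGroup.mk 1 : G ⧸ h8N T) = QuotientGroup.mk 1 :=
  (h8ect_N_iff T t).mpr (Subgroup.le_normalizer ht)

theorem h8ect_T_free {T : Sylow 2 G} (hT : h8ECT T) {t : G} (ht : t ∈ (T : Subgroup G))
    {x : G ⧸ h8N T} (hx : x ≠ QuotientGroup.mk 1) (htx : t • x = x) : t = 1 := by
  by_contra h1
  exact hx (h8se_fix_unique hT.hH (hT.invol t ht h1) htx (h8ect_T_fix ht))

theorem h8ect_dec {T : Sylow 2 G} (hT : h8ECT T) {y : G ⧸ h8N T}
    (hy : y ≠ QuotientGroup.mk 1) {h : G} (hh : h ∈ h8N T) :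
    ∃ d t : G, d • (QuotientGroup.mk 1 : G ⧸ h8N T) = QuotientGroup.mk 1 ∧ d • y = y ∧
      t ∈ (T : Subgroup G) ∧ h = d * t := by
  obtain ⟨s, hs, hsN⟩ := h8se_exists_invol hT.hH
  have hsT := hT.inv_mem s hsN hs
  have hsx := h8ect_T_fix (T := T) hsT
  have hhx := (h8ect_N_iff T h).mpr hh
  have hs' : orderOf (h * s * h⁻¹) = 2 := by rw [h8se_orderOf_conj, hs]
  have hsx' : (h * s * h⁻¹) • (QuotientGroup.mk 1 : G ⧸ h8N T) = QuotientGroup.mk 1 := by
    rw [mul_smul, mul_smul, inv_smul_eq_iff.mpr hhx.symm, hsx, hhx]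
  obtain ⟨d, hdx, hdy, hd⟩ := h8se_trans hT.hH (Ne.symm hy) hs hsx hs' hsx'
  refine ⟨d, d⁻¹ * h, hdx, hdy, ?_, by group⟩
  rw [← hT.cent s hsT hs, Subgroup.mem_centralizer_singleton_iff]
  calc d⁻¹ * h * s = d⁻¹ * (h * s * h⁻¹) * h := by group
    _ = d⁻¹ * (d * s * d⁻¹) * h := by rw [hd]
    _ = s * (d⁻¹ * h) := by group

theorem h8ect_card_invol {T : Sylow 2 G} (hT : h8ECT T) :
    Nat.card {t : G // orderOf t = 2 ∧ t ∈ h8N T} = Nat.card (T : Subgroup G) - 1 := by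
  have e : {t : G | orderOf t = 2 ∧ t ∈ h8N T} = ((T : Subgroup G) : Set G) \ {1} := by
    ext t
    simp only [Set.mem_ofPred_eq, Set.mem_sdiff, SetLike.mem_coe, Set.mem_singleton_iff]
    constructor
    · rintro ⟨h2, hN⟩
      refine ⟨hT.inv_mem t hN h2, ?_⟩
      rintro rfl
      rw [orderOf_one] at h2
      omega
    · rintro ⟨hT', h1⟩
      exact ⟨hT.invol t hT' h1, Subgroup.le_normalizer hT'⟩
  have h1 : Nat.card {t : G // orderOf t = 2 ∧ t ∈ h8N T} =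
      ({t : G | orderOf t = 2 ∧ t ∈ h8N T}).ncard := Nat.card_coe_set_eq _
  have h2 : (((T : Subgroup G) : Set G)).ncard = Nat.card (T : Subgroup G) :=
    (Nat.card_coe_set_eq _).symm
  rw [h1, e, Set.ncard_sdiff_singleton_of_mem (one_mem _), h2]

theorem h8ect_D_ne {T : Sylow 2 G} (hT : h8ECT T) {y : G ⧸ h8N T}
    (hy : y ≠ QuotientGroup.mk 1) :
    ∃ d : G, d ≠ 1 ∧ d • (QuotientGroup.mk 1 : G ⧸ h8N T) = QuotientGroup.mk 1 ∧ d • y = y := by
  have hc := h8ec_card_D hT.hH hT.hC (Ne.symm hy)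
  rw [h8ect_card_invol hT] at hc
  have h4 := hT.four
  have h1 : 1 < Nat.card {d : G // d • (QuotientGroup.mk 1 : G ⧸ h8N T) = QuotientGroup.mk 1 ∧
      d • y = y} := by omega
  haveI := Finite.one_lt_card_iff_nontrivial.mp h1
  obtain ⟨d, hd⟩ := exists_ne (⟨1, one_smul _ _, one_smul _ _⟩ :
    {d : G // d • (QuotientGroup.mk 1 : G ⧸ h8N T) = QuotientGroup.mk 1 ∧ d • y = y})
  exact ⟨d.1, fun h => hd (Subtype.ext h), d.2.1, d.2.2⟩

theorem h8_s1227 (T : Sylow 2 G) (hnc : ¬ IsCyclic (T : Subgroup G))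
    (hnn : ¬ (T : Subgroup G).Normal) (hC : h8EC G) (u : G) (hu : orderOf u = 2)
    (huH : u ∉ h8N T) :
    (∀ d ∈ h8N T ⊓ (h8N T).map (MulAut.conj u).toMonoidHom, u * d * u⁻¹ = d⁻¹) ∧
      Nat.card (h8N T) = Nat.card T * (Nat.card T - 1) ∧
      Subgroup.IsComplement'
        ((h8N T ⊓ (h8N T).map (MulAut.conj u).toMonoidHom).subgroupOf (h8N T))
        ((T : Subgroup G).subgroupOf (h8N T)) := by
  have hT := h8ect_of T hnc hnn hC
  have hxy : (QuotientGroup.mk 1 : G ⧸ h8N T) ≠ QuotientGroup.mk u := by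
    intro h
    rw [QuotientGroup.eq] at h
    apply huH
    simpa using h
  have hux : u • (QuotientGroup.mk 1 : G ⧸ h8N T) = QuotientGroup.mk u := by
    rw [MulAction.Quotient.smul_mk, smul_eq_mul, mul_one]
  have hinvert : ∀ d ∈ h8N T ⊓ (h8N T).map (MulAut.conj u).toMonoidHom,
      u * d * u⁻¹ = d⁻¹ := by
    intro d hd
    rw [h8se_mem_D] at hd
    exact h8ec_invert hT.hH hT.hC hxy hu hux hd.1 hd.2
  have hcompl : Subgroup.IsComplement'
      ((h8N T ⊓ (h8N T).map (MulAut.conj u).toMonoidHom).subgroupOf (h8N T))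
      ((T : Subgroup G).subgroupOf (h8N T)) := by
    apply Subgroup.isComplement'_of_disjoint_and_mul_eq_univ
    · rw [Subgroup.disjoint_def]
      intro x hxD hxT
      rw [Subgroup.mem_subgroupOf] at hxD hxT
      rw [h8se_mem_D] at hxD
      by_contra hne
      have hne' : (x : G) ≠ 1 := fun h => hne (Subtype.ext h)
      exact hxy (h8se_fix_unique hT.hH (hT.invol _ hxT hne') hxD.1 hxD.2)
    · rw [Set.eq_univ_iff_forall]
      intro x
      obtain ⟨d, t, hd1, hdy, ht, hx⟩ := h8ect_dec hT (Ne.symm hxy) x.2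
      have hdN : d ∈ h8N T := (h8ect_N_iff T d).mp hd1
      refine Set.mem_mul.mpr ⟨⟨d, hdN⟩, ?_, ⟨t, Subgroup.le_normalizer ht⟩, ?_, ?_⟩
      · rw [SetLike.mem_coe, Subgroup.mem_subgroupOf, h8se_mem_D]; exact ⟨hd1, hdy⟩
      · rw [SetLike.mem_coe, Subgroup.mem_subgroupOf]; exact ht
      · exact Subtype.ext hx.symm
  refine ⟨hinvert, ?_, hcompl⟩
  have h1 := hcompl.card_mul_card
  have h2 : Nat.card ((h8N T ⊓ (h8N T).map (MulAut.conj u).toMonoidHom).subgroupOf (h8N T)) =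
      Nat.card (T : Subgroup G) - 1 := by
    rw [Nat.card_congr (Subgroup.subgroupOfEquivOfLe
      (inf_le_left : h8N T ⊓ (h8N T).map (MulAut.conj u).toMonoidHom ≤ h8N T)).toEquiv]
    rw [← h8ect_card_invol hT, ← h8ec_card_D hT.hH hT.hC hxy]
    exact Nat.card_congr (Equiv.subtypeEquivRight (fun g => h8se_mem_D (h8N T) u g))
  have h3 : Nat.card ((T : Subgroup G).subgroupOf (h8N T)) = Nat.card (T : Subgroup G) :=
    Nat.card_congr (Subgroup.subgroupOfEquivOfLe Subgroup.le_normalizer).toEquiv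
  rw [h2, h3] at h1
  rw [← h1]
  exact mul_comm _ _

theorem h8_s1228 (T : Sylow 2 G) (hnc : ¬ IsCyclic (T : Subgroup G))
    (hnn : ¬ (T : Subgroup G).Normal) (hC : h8EC G) (u : G) (hu : orderOf u = 2)
    (huH : u ∉ h8N T) :
    Subgroup.normalizer
        ((h8N T ⊓ (h8N T).map (MulAut.conj u).toMonoidHom : Subgroup G) : Set G) =
      (h8N T ⊓ (h8N T).map (MulAut.conj u).toMonoidHom) ⊔ Subgroup.zpowers u ∧
    ∀ g : G, ((∀ d ∈ h8N T ⊓ (h8N T).map (MulAut.conj u).toMonoidHom,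
      d • (QuotientGroup.mk g : G ⧸ h8N T) = QuotientGroup.mk g) ↔
      (QuotientGroup.mk g : G ⧸ h8N T) = QuotientGroup.mk 1 ∨
        (QuotientGroup.mk g : G ⧸ h8N T) = QuotientGroup.mk u) := by
  have hT := h8ect_of T hnc hnn hC
  have hxy : (QuotientGroup.mk 1 : G ⧸ h8N T) ≠ QuotientGroup.mk u := by
    intro h
    rw [QuotientGroup.eq] at h
    apply huH
    simpa using h
  have hux : u • (QuotientGroup.mk 1 : G ⧸ h8N T) = QuotientGroup.mk u := by
    rw [MulAction.Quotient.smul_mk, smul_eq_mul, mul_one]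
  have huu := h8_sq_of_orderOf_two hu
  have hui : u⁻¹ = u := inv_eq_of_mul_eq_one_left huu
  have huy : u • (QuotientGroup.mk u : G ⧸ h8N T) = QuotientGroup.mk 1 := by
    rw [MulAction.Quotient.smul_mk, smul_eq_mul, huu]
  generalize hD : h8N T ⊓ (h8N T).map (MulAut.conj u).toMonoidHom = D
  have hmem : ∀ g : G, g ∈ D ↔ g • (QuotientGroup.mk 1 : G ⧸ h8N T) = QuotientGroup.mk 1 ∧
      g • (QuotientGroup.mk u : G ⧸ h8N T) = QuotientGroup.mk u := by
    intro g; rw [← hD]; exact h8se_mem_D (h8N T) u g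
  have hfix : ∀ z : G ⧸ h8N T, (∀ d ∈ D, d • z = z) ↔
      z = QuotientGroup.mk 1 ∨ z = QuotientGroup.mk u := by
    intro z
    constructor
    · intro h
      by_contra hz
      push Not at hz
      obtain ⟨d, hd1, hdx, hdy⟩ := h8ect_D_ne hT (Ne.symm hxy)
      have hdD : d ∈ D := (hmem d).mpr ⟨hdx, hdy⟩
      exact hd1 (h8ec_three hT.hH hT.hC hT.hHc hxy (Ne.symm hz.1) (Ne.symm hz.2) hdx hdy
        (h d hdD))
    · rintro (rfl | rfl) d hd
      · exact ((hmem d).mp hd).1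
      · exact ((hmem d).mp hd).2
  have hinvert : ∀ d ∈ D, u * d * u⁻¹ = d⁻¹ := by
    intro d hd
    have h := (hmem d).mp hd
    exact h8ec_invert hT.hH hT.hC hxy hu hux h.1 h.2
  have hunorm : u ∈ Subgroup.normalizer (D : Set G) := by
    rw [Subgroup.mem_normalizer_iff]
    intro h
    constructor
    · intro hh
      rw [hinvert h hh]; exact inv_mem hh
    · intro hh
      have e := hinvert _ hh
      have e2 : u * (u * h * u⁻¹) * u⁻¹ = h := by
        rw [hui]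
        calc u * (u * h * u) * u = (u * u) * h * (u * u) := by group
          _ = h := by rw [huu, one_mul, mul_one]
      rw [e2] at e
      rw [e]; exact inv_mem hh
  refine ⟨?_, fun g => hfix _⟩
  apply le_antisymm
  · intro g hg
    have hginv : ∀ d ∈ D, g⁻¹ * d * g ∈ D := by
      intro d hd
      have h := (Subgroup.mem_normalizer_iff.mp (inv_mem hg) d).mp hd
      simpa using h
    have hperm : ∀ z : G ⧸ h8N T, (∀ d ∈ D, d • z = z) → ∀ d ∈ D, d • (g • z) = g • z := by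
      intro z hz d hd
      have h := hz _ (hginv d hd)
      have e : d * g = g * (g⁻¹ * d * g) := by group
      rw [← mul_smul, e, mul_smul, h]
    have h1 := (hfix _).mp (hperm _ ((hfix _).mpr (Or.inl rfl)))
    have h2 := (hfix _).mp (hperm _ ((hfix _).mpr (Or.inr rfl)))
    rcases h1 with h1 | h1
    · rcases h2 with h2 | h2
      · exfalso
        exact hxy (smul_left_cancel g (h2.trans h1.symm)).symm
      · exact Subgroup.mem_sup_left ((hmem g).mpr ⟨h1, h2⟩)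
    · rcases h2 with h2 | h2
      · have hug : u * g ∈ D := by
          rw [hmem]
          exact ⟨by rw [mul_smul, h1, huy], by rw [mul_smul, h2, hux]⟩
        have e : g = u⁻¹ * (u * g) := by group
        rw [e, sup_comm]
        exact Subgroup.mul_mem_sup (inv_mem (Subgroup.mem_zpowers u)) hug
      · exfalso
        exact hxy (smul_left_cancel g (h2.trans h1.symm)).symm
  · exact sup_le Subgroup.le_normalizer (by rw [Subgroup.zpowers_le]; exact hunorm)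

/-- the Sylow 2-subgroup is transitive on the points other than its fixed point -/
theorem h8ect_reg {T : Sylow 2 G} (hT : h8ECT T) {x y : G ⧸ h8N T}
    (hx : x ≠ QuotientGroup.mk 1) (hy : y ≠ QuotientGroup.mk 1) :
    ∃ t ∈ (T : Subgroup G), t • x = y := by
  by_cases hxy : x = y
  · exact ⟨1, one_mem _, by rw [one_smul, hxy]⟩
  obtain ⟨d, hd1, hdx0, hdy⟩ := h8ect_D_ne hT hy
  have hdN : d ∈ h8N T := (h8ect_N_iff T d).mp hdx0
  obtain ⟨d', t, hd'0, hd'x, ht, hdt⟩ := h8ect_dec hT hx hdN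
  have hd'N : d' ∈ h8N T := (h8ect_N_iff T d').mp hd'0
  have hd'1 : d' ≠ 1 := by
    rintro rfl
    rw [one_mul] at hdt
    subst hdt
    exact hy (h8se_fix_unique hT.hH (hT.invol _ ht hd1) hdy hdx0)
  have hd'T : d' ∉ (T : Subgroup G) := by
    intro h
    exact hx (h8se_fix_unique hT.hH (hT.invol d' h hd'1) hd'x hd'0)
  have hnorm : ∀ t₀ ∈ (T : Subgroup G), t₀ * d' * t₀⁻¹ * d'⁻¹ ∈ (T : Subgroup G) := by
    intro t₀ ht₀
    have h1 : d' * t₀⁻¹ * d'⁻¹ ∈ (T : Subgroup G) :=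
      (Subgroup.mem_normalizer_iff.mp hd'N t₀⁻¹).mp (inv_mem ht₀)
    have e : t₀ * d' * t₀⁻¹ * d'⁻¹ = t₀ * (d' * t₀⁻¹ * d'⁻¹) := by group
    rw [e]; exact mul_mem ht₀ h1
  have hinj : Function.Injective (fun t₀ : (T : Subgroup G) =>
      (⟨(t₀ : G) * d' * (t₀ : G)⁻¹ * d'⁻¹, hnorm t₀ t₀.2⟩ : (T : Subgroup G))) := by
    intro t₀ t₁ h
    have h' : (t₀ : G) * d' * (t₀ : G)⁻¹ * d'⁻¹ = (t₁ : G) * d' * (t₁ : G)⁻¹ * d'⁻¹ :=
      congrArg Subtype.val h
    have h'' : (t₀ : G) * d' * (t₀ : G)⁻¹ = (t₁ : G) * d' * (t₁ : G)⁻¹ := mul_right_cancel h'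
    have hc : ((t₁ : G)⁻¹ * t₀) * d' = d' * ((t₁ : G)⁻¹ * t₀) := by
      calc (t₁ : G)⁻¹ * t₀ * d' = (t₁ : G)⁻¹ * ((t₀ : G) * d' * (t₀ : G)⁻¹) * t₀ := by group
        _ = (t₁ : G)⁻¹ * ((t₁ : G) * d' * (t₁ : G)⁻¹) * t₀ := by rw [h'']
        _ = d' * ((t₁ : G)⁻¹ * t₀) := by group
    have hcT : (t₁ : G)⁻¹ * t₀ ∈ (T : Subgroup G) := mul_mem (inv_mem t₁.2) t₀.2
    by_contra hne
    have hc1 : (t₁ : G)⁻¹ * t₀ ≠ 1 := by
      intro h1
      apply hne
      exact Subtype.ext (inv_mul_eq_one.mp h1).symm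
    have ho := hT.invol _ hcT hc1
    have hcen := hT.cent _ hcT ho
    apply hd'T
    rw [← hcen, Subgroup.mem_centralizer_singleton_iff]
    exact hc.symm
  have hsurj := Finite.injective_iff_surjective.mp hinj
  have htgt : d * d'⁻¹ ∈ (T : Subgroup G) := by
    rw [hdt]
    exact (Subgroup.mem_normalizer_iff.mp hd'N t).mp ht
  obtain ⟨t₀, ht₀⟩ := hsurj ⟨d * d'⁻¹, htgt⟩
  have ht₀' : (t₀ : G) * d' * (t₀ : G)⁻¹ * d'⁻¹ = d * d'⁻¹ := congrArg Subtype.val ht₀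
  have ht₀'' : (t₀ : G) * d' * (t₀ : G)⁻¹ = d := mul_right_cancel ht₀'
  refine ⟨t₀, t₀.2, ?_⟩
  have hfix : d • ((t₀ : G) • x) = (t₀ : G) • x := by
    rw [← ht₀'', mul_smul, mul_smul, inv_smul_smul, hd'x]
  by_contra hne
  have h0 : (t₀ : G) • x ≠ QuotientGroup.mk 1 := by
    intro h
    apply hx
    have h1 : (t₀ : G) • (QuotientGroup.mk 1 : G ⧸ h8N T) = QuotientGroup.mk 1 :=
      h8ect_T_fix t₀.2
    exact smul_left_cancel _ (h.trans h1.symm)
  exact hd1 (h8ec_three hT.hH hT.hC hT.hHc (Ne.symm hy) (Ne.symm h0) (fun h => hne h.symm)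
    hdx0 hdy hfix)

theorem h8ect_move {T : Sylow 2 G} (hT : h8ECT T) (p x y : G ⧸ h8N T) (hx : x ≠ p)
    (hy : y ≠ p) : ∃ t : G, t • p = p ∧ t • x = y ∧ (x ≠ y → orderOf t = 2) := by
  obtain ⟨a, rfl⟩ := QuotientGroup.mk_surjective p
  have hp : a⁻¹ • (QuotientGroup.mk a : G ⧸ h8N T) = QuotientGroup.mk 1 := by
    rw [MulAction.Quotient.smul_mk, smul_eq_mul, inv_mul_cancel]
  have hx' : a⁻¹ • x ≠ QuotientGroup.mk 1 := by
    intro h; apply hx; exact smul_left_cancel _ (h.trans hp.symm)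
  have hy' : a⁻¹ • y ≠ QuotientGroup.mk 1 := by
    intro h; apply hy; exact smul_left_cancel _ (h.trans hp.symm)
  obtain ⟨t₀, ht₀, ht₀x⟩ := h8ect_reg hT hx' hy'
  refine ⟨a * t₀ * a⁻¹, ?_, ?_, ?_⟩
  · rw [mul_smul, mul_smul, hp, h8ect_T_fix ht₀, MulAction.Quotient.smul_mk, smul_eq_mul,
      mul_one]
  · rw [mul_smul, mul_smul, ht₀x, smul_inv_smul]
  · intro hxy
    rw [h8se_orderOf_conj]
    apply hT.invol t₀ ht₀
    rintro rfl
    rw [one_smul] at ht₀x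
    exact hxy (smul_left_cancel _ ht₀x)

theorem h8ect_move2 {T : Sylow 2 G} (hT : h8ECT T) (p q z z' : G ⧸ h8N T) (hpq : p ≠ q)
    (hz : z ≠ p) (hzq : z ≠ q) (hz' : z' ≠ p) (hzq' : z' ≠ q) :
    ∃ d : G, d • p = p ∧ d • q = q ∧ d • z = z' := by
  obtain ⟨t, htp, htq, hto⟩ := h8ect_move hT p q z (Ne.symm hpq) hz
  obtain ⟨t', htp', htq', hto'⟩ := h8ect_move hT p q z' (Ne.symm hpq) hz'
  obtain ⟨d, hdp, hdq, hd⟩ :=
    h8se_trans hT.hH hpq (hto (Ne.symm hzq)) htp (hto' (Ne.symm hzq')) htp'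
  refine ⟨d, hdp, hdq, ?_⟩
  have e : d * t = t' * d := by
    calc d * t = (d * t * d⁻¹) * d := by group
      _ = t' * d := by rw [hd]
  rw [← htq, ← mul_smul, e, mul_smul, hdq, htq']

theorem h8_s1229 (T : Sylow 2 G) (hnc : ¬ IsCyclic (T : Subgroup G))
    (hnn : ¬ (T : Subgroup G).Normal) (hC : h8EC G) :
    (∀ x₁ x₂ x₃ y₁ y₂ y₃ : G ⧸ h8N T, x₁ ≠ x₂ → x₁ ≠ x₃ → x₂ ≠ x₃ → y₁ ≠ y₂ → y₁ ≠ y₃ →
      y₂ ≠ y₃ → ∃ g : G, g • x₁ = y₁ ∧ g • x₂ = y₂ ∧ g • x₃ = y₃) ∧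
    (∀ g : G, ∀ x₁ x₂ x₃ : G ⧸ h8N T, x₁ ≠ x₂ → x₁ ≠ x₃ → x₂ ≠ x₃ → g • x₁ = x₁ →
      g • x₂ = x₂ → g • x₃ = x₃ → g = 1) ∧
    (∀ x y : G ⧸ h8N T, x ≠ QuotientGroup.mk 1 → y ≠ QuotientGroup.mk 1 →
      ∃! t : G, t ∈ T ∧ t • x = y) := by
  have hT := h8ect_of T hnc hnn hC
  refine ⟨?_, ?_, ?_⟩
  · intro x₁ x₂ x₃ y₁ y₂ y₃ h12 h13 h23 k12 k13 k23
    obtain ⟨g₁, hg₁⟩ : ∃ g : G, g • x₁ = y₁ := by
      obtain ⟨a, rfl⟩ := QuotientGroup.mk_surjective x₁
      obtain ⟨b, rfl⟩ := QuotientGroup.mk_surjective y₁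
      exact ⟨b * a⁻¹, by rw [MulAction.Quotient.smul_mk, smul_eq_mul, inv_mul_cancel_right]⟩
    have hx2 : g₁ • x₂ ≠ y₁ := by
      intro h
      exact h12 (smul_left_cancel g₁ (h.trans hg₁.symm)).symm
    obtain ⟨g₂, hg₂p, hg₂x, -⟩ := h8ect_move hT y₁ (g₁ • x₂) y₂ hx2 (Ne.symm k12)
    have hx3a : g₂ • g₁ • x₃ ≠ y₁ := by
      intro h
      have e : g₂ • g₁ • x₃ = g₂ • g₁ • x₁ := by rw [h, hg₁, hg₂p]
      exact h13 (smul_left_cancel g₁ (smul_left_cancel g₂ e)).symm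
    have hx3b : g₂ • g₁ • x₃ ≠ y₂ := by
      intro h
      have e : g₂ • g₁ • x₃ = g₂ • g₁ • x₂ := by rw [h, hg₂x]
      exact h23 (smul_left_cancel g₁ (smul_left_cancel g₂ e)).symm
    obtain ⟨g₃, hg₃p, hg₃q, hg₃z⟩ := h8ect_move2 hT y₁ y₂ (g₂ • g₁ • x₃) y₃ k12 hx3a hx3b
      (Ne.symm k13) (Ne.symm k23)
    refine ⟨g₃ * g₂ * g₁, ?_, ?_, ?_⟩
    · rw [mul_smul, mul_smul, hg₁, hg₂p, hg₃p]
    · rw [mul_smul, mul_smul, hg₂x, hg₃q]
    · rw [mul_smul, mul_smul, hg₃z]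
  · intro g x₁ x₂ x₃ h12 h13 h23 h1 h2 h3
    exact h8ec_three hT.hH hT.hC hT.hHc h12 h13 h23 h1 h2 h3
  · intro x y hx hy
    obtain ⟨t, ht, htx⟩ := h8ect_reg hT hx hy
    refine ⟨t, ⟨ht, htx⟩, ?_⟩
    rintro t' ⟨ht', ht'x⟩
    have h1 : (t⁻¹ * t') • x = x := by rw [mul_smul, ht'x, inv_smul_eq_iff, htx]
    have h2 := h8ect_T_free hT (mul_mem (inv_mem ht) ht') hx h1
    exact (inv_mul_eq_one.mp h2).symm

end

end Cfsg.Agent.Lib.Helper8
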