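import Mathlib
import Cfsg.Prelude.Def_TwoFusion
import Cfsg.Prelude.Def_Transfer
import Cfsg.Agent.Lib.Helper8.Isolated2
import Cfsg.Agent.Lib.Helper8.Transfer
import Cfsg.Agent.Lib.Helper2.PResidual

set_option autoImplicit false
set_option linter.style.haveILetI false
universe u

namespace Cfsg.Agent.Lib.Helper8

theorem h8_odd_card_of_involution {α : Type u} [Finite α] (σ : Function.End α)
    (hσ : σ * σ = 1) (a₀ : α) (h₀ : ∀ a, σ a = a ↔ a = a₀) : Odd (Nat.card α) := by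
  classical
  haveI := Fintype.ofFinite α
  haveI : Fact (Nat.Prime 2) := ⟨Nat.prime_two⟩
  have h1 := Equiv.Perm.card_fixedPoints_modEq (f := σ) (p := 2) (n := 1) (by
    rw [pow_one, pow_two]; exact hσ)
  rw [← Nat.card_eq_fintype_card, ← Nat.card_eq_fintype_card] at h1
  have h2 : Nat.card (Function.fixedPoints σ) = 1 := by
    rw [Nat.card_eq_one_iff_unique]
    refine ⟨⟨?_⟩, ⟨⟨a₀, (h₀ a₀).2 rfl⟩⟩⟩
    rintro ⟨a, ha⟩ ⟨b, hb⟩
    apply Subtype.ext
    show a = b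
    rw [(h₀ a).1 ha, (h₀ b).1 hb]
  rw [h2] at h1
  rw [Nat.odd_iff]
  exact h1

theorem h8_s1183_aux {G : Type u} [Group G] [Finite G] (z : G)
    (hz : Cfsg.IsIsolatedInvolution z) (C : Subgroup G)
    (hC : C = Subgroup.centralizer ({z} : Set G)) :
    Cfsg.pResidual 2 G = ⊤ ↔ Cfsg.pResidual 2 ↥C = ⊤ := by
  haveI : Fact (Nat.Prime 2) := ⟨Nat.prime_two⟩
  have hzz := h8_sq_of_orderOf_two hz.1
  have hzi : z⁻¹ = z := inv_eq_of_mul_eq_one_left hzz
  have hCm : ∀ g, g ∈ C ↔ g * z = z * g := by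
    intro g; rw [hC, Subgroup.mem_centralizer_singleton_iff]
  have hKC : ∀ g : G, ∃ k : G, (Odd (orderOf k) ∧ z * k * z⁻¹ = k⁻¹) ∧ g⁻¹ * k ∈ C ∧
      ∀ k' : G, (Odd (orderOf k') ∧ z * k' * z⁻¹ = k'⁻¹) → g⁻¹ * k' ∈ C → k' = k := by
    intro g
    obtain ⟨k, ⟨hk, hmem⟩, huniq⟩ := Cfsg.Agent.S1185.result z hz g
    exact ⟨k, hk, by rw [hC]; exact hmem, fun k' hk' hm' => huniq k' ⟨hk', by rw [← hC]; exact hm'⟩⟩
  constructor
  · intro hG
    by_contra hCne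
    haveI hRn : (Cfsg.pResidual 2 ↥C).Normal := Cfsg.Agent.Lib.Helper2.pResidual_normal 2 _
    have hQ : IsPGroup 2 (↥C ⧸ Cfsg.pResidual 2 ↥C) :=
      Cfsg.Agent.Lib.Helper2.isPGroup_quotient_pResidual 2 _
    haveI hQnt : Nontrivial (↥C ⧸ Cfsg.pResidual 2 ↥C) := by
      obtain ⟨c, -, hc⟩ := SetLike.exists_of_lt (lt_top_iff_ne_top.2 hCne)
      refine ⟨⟨QuotientGroup.mk c, 1, ?_⟩⟩
      rw [Ne, QuotientGroup.eq_one_iff]; exact hc
    haveI : Group.IsNilpotent (↥C ⧸ Cfsg.pResidual 2 ↥C) := hQ.isNilpotent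
    have hcomm : commutator (↥C ⧸ Cfsg.pResidual 2 ↥C) < ⊤ :=
      Group.IsSolvable.commutator_lt_top_of_nontrivial _
    obtain ⟨q, -, hq⟩ := SetLike.exists_of_lt hcomm
    obtain ⟨c, rfl⟩ := QuotientGroup.mk_surjective q
    have hA : IsPGroup 2 (Abelianization (↥C ⧸ Cfsg.pResidual 2 ↥C)) :=
      hQ.to_quotient (commutator (↥C ⧸ Cfsg.pResidual 2 ↥C))
    let ψ : ↥C →* Abelianization (↥C ⧸ Cfsg.pResidual 2 ↥C) :=
      (Abelianization.of).comp (QuotientGroup.mk' (Cfsg.pResidual 2 ↥C))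
    have hψc : ψ c ≠ 1 := by
      intro h1
      apply hq
      exact (QuotientGroup.eq_one_iff _).1 h1
    -- index of C is odd
    have hidx : Odd C.index := by
      have h1 := h8_isolated_GKC hz
      rw [← hC] at h1
      have h2 := C.card_mul_index
      have h3 : C.index = Nat.card {k : G // Odd (orderOf k) ∧ z * k * z⁻¹ = k⁻¹} := by
        have hpos : 0 < Nat.card C := Nat.card_pos
        apply Nat.eq_of_mul_eq_mul_left hpos
        rw [h2, h1, mul_comm]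
      rw [h3]
      refine h8_odd_card_of_involution
        (fun k => ⟨k.1⁻¹, by rw [orderOf_inv]; exact k.2.1, by
          have e : z * k.1⁻¹ * z⁻¹ = (z * k.1 * z⁻¹)⁻¹ := by group
          rw [e, k.2.2]⟩)
        (by funext k; exact Subtype.ext (inv_inv k.1))
        ⟨1, by rw [orderOf_one]; exact odd_one, by simp⟩ ?_
      rintro ⟨k, hk1, hk2⟩
      constructor
      · intro he
        have he' : k⁻¹ = k := congrArg Subtype.val he
        have hkk : k * k = 1 := by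
          calc k * k = k⁻¹ * k := by rw [he']
            _ = 1 := inv_mul_cancel k
        exact Subtype.ext (h8_eq_one_of_sq_of_odd hkk hk1 (pow_orderOf_eq_one k))
      · intro he
        have he' : k = 1 := congrArg Subtype.val he
        apply Subtype.ext
        show k⁻¹ = k
        rw [he', inv_one]
    -- transfer
    have hkey : ∀ (k : ℕ) (g₀ : G) (hk : g₀⁻¹ * (c : G) ^ k * g₀ ∈ C),
        ψ ⟨g₀⁻¹ * (c : G) ^ k * g₀, hk⟩ = ψ ⟨(c : G), c.2⟩ ^ k := by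
      intro k g₀ hk
      obtain ⟨k₀, hk₀, hmem, huniq⟩ := hKC g₀
      have ha : (c : G) ^ k ∈ C := C.pow_mem c.2 k
      have haz : (c : G) ^ k * z = z * (c : G) ^ k := (hCm _).1 ha
      have hc₀ : k₀⁻¹ * g₀ ∈ C := by
        have e : k₀⁻¹ * g₀ = (g₀⁻¹ * k₀)⁻¹ := by group
        rw [e]; exact C.inv_mem hmem
      have hfix : (c : G) ^ k * k₀ * ((c : G) ^ k)⁻¹ = k₀ := by
        apply huniq
        · constructor
          · have ho : orderOf ((c : G) ^ k * k₀ * ((c : G) ^ k)⁻¹) = orderOf k₀ :=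
              (MulAut.conj ((c : G) ^ k)).orderOf_eq k₀
            rw [ho]; exact hk₀.1
          · have h1 := hk₀.2
            rw [hzi] at h1 ⊢
            have haz' : ((c : G) ^ k)⁻¹ * z = z * ((c : G) ^ k)⁻¹ := by
              calc ((c : G) ^ k)⁻¹ * z
                  = ((c : G) ^ k)⁻¹ * (z * (c : G) ^ k) * ((c : G) ^ k)⁻¹ := by group
                _ = ((c : G) ^ k)⁻¹ * ((c : G) ^ k * z) * ((c : G) ^ k)⁻¹ := by rw [haz]
                _ = z * ((c : G) ^ k)⁻¹ := by group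
            calc z * ((c : G) ^ k * k₀ * ((c : G) ^ k)⁻¹) * z
                = (z * (c : G) ^ k) * k₀ * (((c : G) ^ k)⁻¹ * z) := by group
              _ = ((c : G) ^ k * z) * k₀ * (z * ((c : G) ^ k)⁻¹) := by rw [← haz, haz']
              _ = (c : G) ^ k * (z * k₀ * z) * ((c : G) ^ k)⁻¹ := by group
              _ = (c : G) ^ k * k₀⁻¹ * ((c : G) ^ k)⁻¹ := by rw [h1]
              _ = ((c : G) ^ k * k₀ * ((c : G) ^ k)⁻¹)⁻¹ := by group
        · have e : g₀⁻¹ * ((c : G) ^ k * k₀ * ((c : G) ^ k)⁻¹)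
              = (g₀⁻¹ * (c : G) ^ k * g₀) * (g₀⁻¹ * k₀) * ((c : G) ^ k)⁻¹ := by group
          rw [e]
          exact C.mul_mem (C.mul_mem hk hmem) (C.inv_mem ha)
      have e1 : g₀⁻¹ * (c : G) ^ k * g₀ = (k₀⁻¹ * g₀)⁻¹ * (c : G) ^ k * (k₀⁻¹ * g₀) := by
        have e2 : k₀⁻¹ * (c : G) ^ k * k₀ = (c : G) ^ k := by
          calc k₀⁻¹ * (c : G) ^ k * k₀
              = k₀⁻¹ * ((c : G) ^ k * k₀ * ((c : G) ^ k)⁻¹) * (c : G) ^ k := by group
            _ = (c : G) ^ k := by rw [hfix]; group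
        calc g₀⁻¹ * (c : G) ^ k * g₀ = (k₀⁻¹ * g₀)⁻¹ * (k₀⁻¹ * (c : G) ^ k * k₀) * (k₀⁻¹ * g₀) := by
              group
          _ = (k₀⁻¹ * g₀)⁻¹ * (c : G) ^ k * (k₀⁻¹ * g₀) := by rw [e2]
      have e3 : (⟨g₀⁻¹ * (c : G) ^ k * g₀, hk⟩ : C)
          = (⟨k₀⁻¹ * g₀, hc₀⟩ : C)⁻¹ * (⟨(c : G), c.2⟩ : C) ^ k * ⟨k₀⁻¹ * g₀, hc₀⟩ :=
        Subtype.ext e1
      rw [e3, map_mul, map_mul, map_inv, map_pow, mul_comm, ← mul_assoc, mul_inv_cancel, one_mul]
    have hV := h8_transfer_eq_pow_of_congr ψ (c : G) c.2 hkey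
    have hker := Cfsg.Agent.Lib.Helper2.pResidual_le_ker (MonoidHom.transfer ψ) hA
    have h1 : MonoidHom.transfer ψ (c : G) = 1 := by
      have h2 : (c : G) ∈ Cfsg.pResidual 2 G := by rw [hG]; exact Subgroup.mem_top _
      exact hker h2
    rw [hV] at h1
    have hcc : (⟨(c : G), c.2⟩ : C) = c := Subtype.ext rfl
    rw [hcc] at h1
    obtain ⟨j, hj⟩ := hA (ψ c)
    have hd1 : orderOf (ψ c) ∣ C.index := orderOf_dvd_of_pow_eq_one h1
    have hd2 : orderOf (ψ c) ∣ 2 ^ j := orderOf_dvd_of_pow_eq_one hj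
    have hcop : Nat.Coprime (2 ^ j) C.index :=
      Nat.Coprime.pow_left j (Nat.coprime_two_left.2 hidx)
    have h3 : orderOf (ψ c) = 1 := Nat.eq_one_of_dvd_coprimes hcop hd2 hd1
    exact hψc (orderOf_eq_one_iff.1 h3)
  · intro hCtop
    have hmap : (Cfsg.pResidual 2 ↥C).map C.subtype ≤ Cfsg.pResidual 2 G := by
      unfold Cfsg.pResidual
      rw [MonoidHom.map_closure, Subgroup.closure_le]
      rintro _ ⟨c, hc, rfl⟩
      apply Subgroup.subset_closure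
      exact Nat.Coprime.coprime_dvd_left (orderOf_map_dvd C.subtype c) hc
    rw [eq_top_iff]
    intro g _
    obtain ⟨k, hk, hmem, -⟩ := hKC g
    have hc : k⁻¹ * g ∈ C := by
      have e : k⁻¹ * g = (g⁻¹ * k)⁻¹ := by group
      rw [e]; exact C.inv_mem hmem
    have h1 : k ∈ Cfsg.pResidual 2 G :=
      Cfsg.Agent.Lib.Helper2.mem_pResidual_of_coprime hk.1.coprime_two_right
    have h2 : k⁻¹ * g ∈ Cfsg.pResidual 2 G := by
      apply hmap
      refine ⟨⟨k⁻¹ * g, hc⟩, ?_, rfl⟩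
      rw [hCtop]; exact Subgroup.mem_top _
    have e : g = k * (k⁻¹ * g) := by group
    rw [e]
    exact Subgroup.mul_mem _ h1 h2

theorem h8_s1183 {G : Type u} [Group G] [Finite G] (z : G) (hz : Cfsg.IsIsolatedInvolution z) :
    Cfsg.pResidual 2 G = ⊤ ↔
      Cfsg.pResidual 2 ↥(Subgroup.centralizer ({z} : Set G)) = ⊤ :=
  h8_s1183_aux z hz _ rfl

end Cfsg.Agent.Lib.Helper8
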