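import Mathlib.Tactic
import Cfsg.Agent.Lib.Helper8.Subnormal

/-! Minimal `A`-invariant subgroups (ambient form). -/

set_option autoImplicit false

namespace Cfsg.Agent.Lib.Helper8

variable {G : Type*} [Group G]

theorem h8_le_normalizer_sup {K A B : Subgroup G} (hA : K ≤ Subgroup.normalizer (A : Set G))
    (hB : K ≤ Subgroup.normalizer (B : Set G)) :
    K ≤ Subgroup.normalizer ((A ⊔ B : Subgroup G) : Set G) := by
  apply h8_le_normalizer_of_map_conj_le
  intro k hk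
  rw [Subgroup.map_sup, h8_map_conj_eq_of_mem_normalizer (hA hk),
    h8_map_conj_eq_of_mem_normalizer (hB hk)]

/-- `X` is a minimal nontrivial `A`-invariant subgroup. -/
def h8_MinInv (A X : Subgroup G) : Prop :=
  X ≠ ⊥ ∧ A ≤ Subgroup.normalizer (X : Set G) ∧
    ∀ Y : Subgroup G, Y ≤ X → A ≤ Subgroup.normalizer (Y : Set G) → Y = ⊥ ∨ Y = X

theorem h8_MinInv_map_conj {A X : Subgroup G} {k : G}
    (hk : k ∈ Subgroup.normalizer (A : Set G)) (h : h8_MinInv A X) :
    h8_MinInv A (X.map (MulAut.conj k).toMonoidHom) := by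
  obtain ⟨hne, hAX, hmin⟩ := h
  refine ⟨?_, h8_normalizer_map_conj hk hAX, ?_⟩
  · intro hbot
    exact hne ((Subgroup.map_eq_bot_iff_of_injective _ (MulAut.conj k).injective).1 hbot)
  · intro Y hY hAY
    have hk' : k⁻¹ ∈ Subgroup.normalizer (A : Set G) := Subgroup.inv_mem _ hk
    have hY' : Y.map (MulAut.conj k⁻¹).toMonoidHom ≤ X := by
      have := Subgroup.map_mono (f := (MulAut.conj k⁻¹).toMonoidHom) hY
      rwa [← h8_map_conj_mul, inv_mul_cancel, h8_map_conj_one] at this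
    have hback : (Y.map (MulAut.conj k⁻¹).toMonoidHom).map (MulAut.conj k).toMonoidHom = Y := by
      rw [← h8_map_conj_mul, mul_inv_cancel, h8_map_conj_one]
    rcases hmin _ hY' (h8_normalizer_map_conj hk' hAY) with h1 | h1
    · left
      rw [← hback, h1, Subgroup.map_bot]
    · right
      rw [← hback, h1]

theorem h8_exists_MinInv_le [Finite G] {A Y : Subgroup G} (hY : Y ≠ ⊥)
    (hAY : A ≤ Subgroup.normalizer (Y : Set G)) : ∃ X : Subgroup G, X ≤ Y ∧ h8_MinInv A X := by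
  let S : Set (Subgroup G) := {X | X ≤ Y ∧ X ≠ ⊥ ∧ A ≤ Subgroup.normalizer (X : Set G)}
  have hS : S.Nonempty := ⟨Y, le_rfl, hY, hAY⟩
  obtain ⟨X, ⟨hXY, hXne, hAX⟩, hXmin⟩ := (wellFounded_lt (α := Subgroup G)).has_min S hS
  refine ⟨X, hXY, hXne, hAX, ?_⟩
  intro Z hZX hAZ
  by_cases hZ : Z = ⊥
  · exact Or.inl hZ
  · right
    by_contra hne
    exact hXmin Z ⟨hZX.trans hXY, hZ, hAZ⟩ (lt_of_le_of_ne hZX hne)

end Cfsg.Agent.Lib.Helper8
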