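import Mathlib
import Cfsg.Prelude.Def_Local
import Cfsg.Prelude.Def_CaseTheorems
import Cfsg.Agent.Lib.Helper8.Basic
import Cfsg.Agent.Lib.Helper8.CyclicIndexTwo
import Cfsg.Agent.Lib.Helper8.CyclicMax
import Cfsg.Agent.Lib.Helper8.MaxClass2
import Cfsg.Agent.Lib.Helper1.UniqueInv
import Cfsg.Agent.Lib.Helper1.CycMax

set_option autoImplicit false
set_option linter.style.haveILetI false
universe u

namespace Cfsg.Agent.Lib.Helper8

theorem h8_zpow_two_cases {G : Type u} [Group G] (z : G) (hz : z ^ 2 = 1) (i : ℤ) :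
    z ^ i = 1 ∨ z ^ i = z := by
  rcases Int.emod_two_eq_zero_or_one i with h | h
  · left
    have : i = 2 * (i / 2) := by omega
    rw [this, zpow_mul, zpow_ofNat, hz, one_zpow]
  · right
    have : i = 2 * (i / 2) + 1 := by omega
    rw [this, zpow_add, zpow_mul, zpow_ofNat, hz, one_zpow, one_mul, zpow_one]

theorem h8_even_of_zpow_eq_one {G : Type u} [Group G] (z : G) (hz : z ^ 2 = 1) (hz1 : z ≠ 1)
    (i : ℤ) (h : z ^ i = 1) : ∃ j : ℤ, i = 2 * j := by
  rcases Int.emod_two_eq_zero_or_one i with h' | h'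
  · exact ⟨i / 2, by omega⟩
  · exfalso
    have : i = 2 * (i / 2) + 1 := by omega
    rw [this, zpow_add, zpow_mul, zpow_ofNat, hz, one_zpow, one_mul, zpow_one] at h
    exact hz1 h

theorem h8_cyc_normal_facts {P : Type u} [Group P] [Finite P] (A : Subgroup P) [hAn : A.Normal]
    (a : P) (hAa : A = Subgroup.zpowers a) (M : ℕ) (hM : 2 ≤ M) (ha : orderOf a = 2 ^ M) :
    orderOf (a ^ 2 ^ (M - 2)) = 4 ∧ (a ^ 2 ^ (M - 2)) ^ 2 ≠ 1 ∧
    ((a ^ 2 ^ (M - 2)) ^ 2) ^ 2 = 1 ∧
    (∀ g : P, g * (a ^ 2 ^ (M - 2)) ^ 2 = (a ^ 2 ^ (M - 2)) ^ 2 * g) ∧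
    (∀ u ∈ A, u ^ 2 = 1 → u = 1 ∨ u = (a ^ 2 ^ (M - 2)) ^ 2) ∧
    (∀ u ∈ A, ∀ v ∈ A, u * v = v * u) := by
  obtain ⟨y, hy⟩ : ∃ y : P, y = a ^ 2 ^ (M - 2) := ⟨_, rfl⟩
  obtain ⟨z, hz⟩ : ∃ z : P, z = y ^ 2 := ⟨_, rfl⟩
  rw [← hy, ← hz]
  have haA : a ∈ A := by rw [hAa]; exact Subgroup.mem_zpowers a
  have hyA : y ∈ A := by rw [hy]; exact A.pow_mem haA _
  have hzA : z ∈ A := by rw [hz]; exact A.pow_mem hyA _
  have hMe : 2 ^ M = 2 ^ (M - 2) * 4 := by
    have : M = (M - 2) + 2 := by omega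
    conv_lhs => rw [this]
    rw [pow_add]
    norm_num
  have hyo : orderOf y = 4 := by
    rw [hy, orderOf_pow_of_dvd (by positivity) (by rw [ha, hMe]; exact dvd_mul_right _ _), ha,
      hMe]
    exact Nat.mul_div_cancel_left 4 (by positivity)
  have hzo : orderOf z = 2 := by
    rw [hz, orderOf_pow_of_dvd (by norm_num) (by rw [hyo]; norm_num), hyo]
  have hz2 : z ^ 2 = 1 := by rw [← hzo]; exact pow_orderOf_eq_one z
  have hz1 : z ≠ 1 := by
    intro h; rw [h, orderOf_one] at hzo; norm_num at hzo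
  have hAcomm : ∀ u ∈ A, ∀ v ∈ A, u * v = v * u := by
    intro u hu v hv
    rw [hAa] at hu hv
    obtain ⟨i, rfl⟩ := Subgroup.mem_zpowers_iff.1 hu
    obtain ⟨j, rfl⟩ := Subgroup.mem_zpowers_iff.1 hv
    rw [← zpow_add, ← zpow_add, add_comm]
  have hinv : ∀ u ∈ A, u ^ 2 = 1 → u = 1 ∨ u = z := by
    intro u hu hu2
    by_cases hu1 : u = 1
    · left; exact hu1
    · right
      exact h8_cyclic_involution_unique a u z (hAa ▸ hu) (hAa ▸ hzA) hu2 hz2 hu1 hz1
  have hzc : ∀ g : P, g * z = z * g := by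
    intro g
    have h1 : g * z * g⁻¹ ∈ A := hAn.conj_mem z hzA g
    have h2 : (g * z * g⁻¹) ^ 2 = 1 := by rw [conj_pow, hz2]; group
    rcases hinv _ h1 h2 with h | h
    · exfalso; apply hz1
      have : z = g⁻¹ * (g * z * g⁻¹) * g := by group
      rw [this, h]; group
    · calc g * z = (g * z * g⁻¹) * g := by group
        _ = z * g := by rw [h]
  exact ⟨hyo, hz1, hz2, hzc, hinv, hAcomm⟩

theorem h8_modular_four {P : Type u} [Group P] [Finite P] (A : Subgroup P) [hAn : A.Normal]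
    (a : P) (hAa : A = Subgroup.zpowers a) (M : ℕ) (hM : 2 ≤ M) (ha : orderOf a = 2 ^ M)
    (hCA : Subgroup.centralizer (A : Set P) ≤ A)
    (x : P) (hxA : x ∉ A) (hx2 : x ^ 2 ∈ A)
    (hxy : x * a ^ 2 ^ (M - 2) = a ^ 2 ^ (M - 2) * x)
    (hxc : ∀ g : P, g * x * g⁻¹ * x⁻¹ ∈ A) :
    ∃ V : Subgroup P, V.Normal ∧ IsMulCommutative V ∧ ¬ IsCyclic V := by
  obtain ⟨hyo, hz1, hz2, hzc, hinv, hAcomm⟩ := h8_cyc_normal_facts A a hAa M hM ha
  obtain ⟨y, hy⟩ : ∃ y : P, y = a ^ 2 ^ (M - 2) := ⟨_, rfl⟩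
  obtain ⟨z, hz⟩ : ∃ z : P, z = y ^ 2 := ⟨_, rfl⟩
  rw [← hy] at hxy hyo hz1 hz2 hzc hinv
  rw [← hz] at hz1 hz2 hzc hinv
  have haA : a ∈ A := by rw [hAa]; exact Subgroup.mem_zpowers a
  have hyA : y ∈ A := by rw [hy]; exact A.pow_mem haA _
  have hzA : z ∈ A := by rw [hz]; exact A.pow_mem hyA _
  have hκA : ∀ u ∈ A, x * u * x⁻¹ * u⁻¹ ∈ A := fun u hu =>
    A.mul_mem (hAn.conj_mem u hu x) (A.inv_mem hu)
  have hxa : x * a * x⁻¹ ∈ A := hAn.conj_mem a haA x
  obtain ⟨k, hk⟩ : ∃ k : ℤ, a ^ k = x * a * x⁻¹ := by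
    rw [hAa] at hxa; exact Subgroup.mem_zpowers_iff.1 hxa
  have hxpow : ∀ i : ℤ, x * a ^ i * x⁻¹ = (a ^ i) ^ k := by
    intro i
    rw [← conj_zpow, ← hk, ← zpow_mul, ← zpow_mul, mul_comm]
  have hk4 : (4 : ℤ) ∣ k - 1 := by
    have h1 : y ^ k = y := by
      have h2 := hxpow ((2 ^ (M - 2) : ℕ) : ℤ)
      rw [zpow_natCast, ← hy] at h2
      rw [← h2]
      calc x * y * x⁻¹ = y * x * x⁻¹ := by rw [hxy]
        _ = y := by group
    have h3 : y ^ (k - 1) = 1 := by rw [zpow_sub, zpow_one, h1, mul_inv_cancel]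
    have h4 := orderOf_dvd_iff_zpow_eq_one.2 h3
    rw [hyo] at h4
    exact_mod_cast h4
  obtain ⟨w, hw⟩ : ∃ w : P, w = x * a * x⁻¹ * a⁻¹ := ⟨_, rfl⟩
  have hwA : w ∈ A := by rw [hw]; exact hκA a haA
  have hxx : x * x ∈ A := by rw [← pow_two]; exact hx2
  have hx2a : x * x * a = a * (x * x) := hAcomm _ hxx _ haA
  have hwinv : x * w * x⁻¹ = w⁻¹ := by
    rw [hw]
    calc x * (x * a * x⁻¹ * a⁻¹) * x⁻¹ = (x * x * a) * (x * x)⁻¹ * (x * a⁻¹ * x⁻¹) := by group
      _ = (a * (x * x)) * (x * x)⁻¹ * (x * a⁻¹ * x⁻¹) := by rw [hx2a]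
      _ = (x * a * x⁻¹ * a⁻¹)⁻¹ := by group
  obtain ⟨iw, hiw⟩ : ∃ i : ℤ, a ^ i = w := by
    rw [hAa] at hwA; exact Subgroup.mem_zpowers_iff.1 hwA
  have hwk : w ^ (k + 1) = 1 := by
    have h1 := hxpow iw
    rw [hiw, hwinv] at h1
    rw [zpow_add, zpow_one, ← h1, inv_mul_cancel]
  have hw2 : w ^ 2 = 1 := by
    have h1 : (orderOf w : ℤ) ∣ k + 1 := orderOf_dvd_iff_zpow_eq_one.2 hwk
    have h2 : orderOf w ∣ 2 ^ M := by
      apply orderOf_dvd_of_pow_eq_one
      rw [← hiw, ← zpow_natCast, ← zpow_mul, mul_comm, zpow_mul, zpow_natCast, ← ha,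
        pow_orderOf_eq_one, one_zpow]
    obtain ⟨i, hiM, hi⟩ := (Nat.dvd_prime_pow Nat.prime_two).1 h2
    have hi1 : i ≤ 1 := by
      by_contra hcon
      push_neg at hcon
      have h3 : (4 : ℤ) ∣ k + 1 := by
        refine dvd_trans ?_ h1
        rw [hi]
        have : (4 : ℕ) ∣ 2 ^ i := by
          have : (2 : ℕ) ^ 2 ∣ 2 ^ i := pow_dvd_pow 2 hcon
          simpa using this
        exact_mod_cast this
      omega
    apply orderOf_dvd_iff_pow_eq_one.1
    rw [hi]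
    exact (pow_dvd_pow 2 hi1).trans (by norm_num)
  have hw1 : w ≠ 1 := by
    intro h
    apply hxA
    apply hCA
    rw [Subgroup.mem_centralizer_iff]
    intro u hu
    have hxa' : x * a = a * x := by
      have : x * a * x⁻¹ * a⁻¹ = 1 := by rw [← hw]; exact h
      calc x * a = (x * a * x⁻¹ * a⁻¹) * (a * x) := by group
        _ = a * x := by rw [this, one_mul]
    have hu' : u ∈ Subgroup.zpowers a := by rw [← hAa]; exact hu
    obtain ⟨i, rfl⟩ := Subgroup.mem_zpowers_iff.1 hu'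
    exact ((Commute.zpow_right hxa' i).eq).symm
  have hwz : w = z := by
    rcases hinv w hwA hw2 with h | h
    · exact absurd h hw1
    · exact h
  have hxaz : x * a * x⁻¹ = z * a := by
    have : x * a * x⁻¹ = (x * a * x⁻¹ * a⁻¹) * a := by group
    rw [this, ← hw, hwz]
  have hκpow : ∀ i : ℤ, x * a ^ i * x⁻¹ * (a ^ i)⁻¹ = z ^ i := by
    intro i
    rw [← conj_zpow, hxaz]
    have hc : Commute z a := (hzc a).symm
    rw [hc.mul_zpow, mul_assoc, mul_inv_cancel, mul_one]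
  have hκ : ∀ u ∈ A, x * u * x⁻¹ * u⁻¹ = 1 ∨ x * u * x⁻¹ * u⁻¹ = z := by
    intro u hu
    rw [hAa] at hu
    obtain ⟨i, rfl⟩ := Subgroup.mem_zpowers_iff.1 hu
    rw [hκpow]
    exact h8_zpow_two_cases z hz2 i
  obtain ⟨b, hbA, hb⟩ : ∃ b ∈ A, x ^ 2 = b ^ 2 := by
    have h1 := hx2
    rw [hAa] at h1
    obtain ⟨i, hi⟩ := Subgroup.mem_zpowers_iff.1 h1
    have h2 := hκpow i
    rw [hi] at h2
    have h3 : x * x ^ 2 * x⁻¹ * (x ^ 2)⁻¹ = 1 := by rw [pow_two]; group
    rw [h3] at h2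
    obtain ⟨j, hj⟩ := h8_even_of_zpow_eq_one z hz2 hz1 i h2.symm
    refine ⟨a ^ j, A.zpow_mem haA j, ?_⟩
    have : (a ^ j) ^ 2 = a ^ (2 * j) := by
      rw [← zpow_natCast, ← zpow_mul]; congr 1; push_cast; ring
    rw [this, ← hj, hi]
  have hxb : x * b⁻¹ * x⁻¹ * b = 1 ∨ x * b⁻¹ * x⁻¹ * b = z := by
    have := hκ b⁻¹ (A.inv_mem hbA)
    rwa [inv_inv] at this
  have hy2z : y ^ 2 = z := hz.symm
  obtain ⟨t, v, hvA, htv, ht2⟩ : ∃ t v : P, v ∈ A ∧ t = x * v ∧ t ^ 2 = 1 := by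
    have hb' : x * x = b * b := by rw [← pow_two, ← pow_two]; exact hb
    have hsq : (x * b⁻¹) ^ 2 = x * b⁻¹ * x⁻¹ * b := by
      rw [pow_two]
      calc (x * b⁻¹) * (x * b⁻¹) = (x * b⁻¹ * x⁻¹) * (x * x) * b⁻¹ := by group
        _ = (x * b⁻¹ * x⁻¹) * (b * b) * b⁻¹ := by rw [hb']
        _ = x * b⁻¹ * x⁻¹ * b := by group
    rcases hxb with h | h
    · exact ⟨x * b⁻¹, b⁻¹, A.inv_mem hbA, rfl, by rw [hsq, h]⟩
    · refine ⟨x * (b⁻¹ * y), b⁻¹ * y, A.mul_mem (A.inv_mem hbA) hyA, rfl, ?_⟩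
      have hby : b⁻¹ * y = y * b⁻¹ := hAcomm _ (A.inv_mem hbA) _ hyA
      have hc : Commute (x * b⁻¹) y := by
        show x * b⁻¹ * y = y * (x * b⁻¹)
        rw [mul_assoc, hby, ← mul_assoc, hxy, mul_assoc]
      have e1 : x * (b⁻¹ * y) = (x * b⁻¹) * y := by rw [mul_assoc]
      rw [e1, hc.mul_pow, hsq, h, hy2z, ← pow_two]
      exact hz2
  have htA : t ∉ A := by
    intro h
    apply hxA
    have : x = t * v⁻¹ := by rw [htv]; group
    rw [this]; exact A.mul_mem h (A.inv_mem hvA)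
  have htt : t * t = 1 := by rw [← pow_two]; exact ht2
  have htinv : t⁻¹ = t := inv_eq_of_mul_eq_one_left htt
  have htκ : ∀ u ∈ A, t * u * t⁻¹ = x * u * x⁻¹ := by
    intro u hu
    have huv : v * u = u * v := hAcomm v hvA u hu
    rw [htv]
    calc x * v * u * (x * v)⁻¹ = x * (v * u) * v⁻¹ * x⁻¹ := by group
      _ = x * (u * v) * v⁻¹ * x⁻¹ := by rw [huv]
      _ = x * u * x⁻¹ := by group
  have htc : ∀ g : P, g * t * g⁻¹ * t⁻¹ ∈ A := by
    intro g
    have h1 : g * t * g⁻¹ * t⁻¹ =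
        (g * x * g⁻¹ * x⁻¹) * (x * (g * v * g⁻¹ * v⁻¹) * x⁻¹) := by
      rw [htv]; group
    rw [h1]
    exact A.mul_mem (hxc g)
      (hAn.conj_mem _ (A.mul_mem (hAn.conj_mem v hvA g) (A.inv_mem hvA)) x)
  have hconj : ∀ g : P, g * t * g⁻¹ = t ∨ g * t * g⁻¹ = z * t := by
    intro g
    obtain ⟨u, hu⟩ : ∃ u : P, u = g * t * g⁻¹ * t⁻¹ := ⟨_, rfl⟩
    have huA : u ∈ A := by rw [hu]; exact htc g
    have hgt : g * t * g⁻¹ = u * t := by rw [hu]; group
    have h1 : (u * t) * (u * t) = 1 := by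
      rw [← hgt]
      calc g * t * g⁻¹ * (g * t * g⁻¹) = g * (t * t) * g⁻¹ := by group
        _ = 1 := by rw [htt]; group
    have h2 : u * (x * u * x⁻¹) = 1 := by
      rw [← htκ u huA, htinv]
      calc u * (t * u * t) = (u * t) * (u * t) := by group
        _ = 1 := h1
    rw [hgt]
    rcases hκ u huA with h | h
    · have h3 : x * u * x⁻¹ = u := by
        calc x * u * x⁻¹ = (x * u * x⁻¹ * u⁻¹) * u := by group
          _ = u := by rw [h, one_mul]
      rw [h3] at h2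
      rcases hinv u huA (by rw [pow_two]; exact h2) with h4 | h4
      · left; rw [h4, one_mul]
      · right; rw [h4]
    · exfalso
      have h3 : x * u * x⁻¹ = z * u := by
        calc x * u * x⁻¹ = (x * u * x⁻¹ * u⁻¹) * u := by group
          _ = z * u := by rw [h]
      rw [h3] at h2
      have h5 : z * (u * u) = 1 := by
        rw [← h2, ← mul_assoc, ← mul_assoc, hzc u]
      have h6 : u * u = z := by
        calc u * u = z * (z * (u * u)) := by rw [← mul_assoc, ← pow_two z, hz2, one_mul]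
          _ = z := by rw [h5, mul_one]
      have hc : Commute u y⁻¹ := hAcomm u huA y⁻¹ (A.inv_mem hyA)
      have h7 : (u * y⁻¹) ^ 2 = 1 := by
        rw [hc.mul_pow, pow_two u, h6, inv_pow, hy2z, mul_inv_cancel]
      rcases hinv _ (A.mul_mem huA (A.inv_mem hyA)) h7 with h8 | h8
      · have hu_y : u = y := by
          calc u = (u * y⁻¹) * y := by group
            _ = y := by rw [h8, one_mul]
        rw [hu_y] at h
        have : x * y * x⁻¹ * y⁻¹ = 1 := by rw [hxy]; group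
        rw [this] at h; exact hz1 h.symm
      · have hu_y : u = z * y := by
          calc u = (u * y⁻¹) * y := by group
            _ = z * y := by rw [h8]
        rw [hu_y] at h
        have : x * (z * y) * x⁻¹ * (z * y)⁻¹ = 1 := by
          rw [← mul_assoc, hzc x, mul_assoc z, hxy]
          group
        rw [this] at h; exact hz1 h.symm
  have hzV : z ∈ Subgroup.closure ({z, t} : Set P) := Subgroup.subset_closure (by simp)
  have htV : t ∈ Subgroup.closure ({z, t} : Set P) := Subgroup.subset_closure (by simp)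
  refine ⟨Subgroup.closure {z, t}, ?_, ?_, ?_⟩
  · constructor
    intro n hn g
    have hle : Subgroup.closure ({z, t} : Set P) ≤
        (Subgroup.closure ({z, t} : Set P)).comap (MulAut.conj g).toMonoidHom := by
      rw [Subgroup.closure_le]
      intro s hs
      rw [SetLike.mem_coe, Subgroup.mem_comap]
      show g * s * g⁻¹ ∈ _
      rcases hs with hs | hs
      · have : g * s * g⁻¹ = z := by rw [hs, hzc g]; group
        rw [this]; exact hzV
      · have hs' : s = t := hs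
        rw [hs']
        rcases hconj g with h | h
        · rw [h]; exact htV
        · rw [h]; exact Subgroup.mul_mem _ hzV htV
    exact hle hn
  · apply Subgroup.isMulCommutative_closure
    intro u hu v hv
    rcases hu with hu | hu <;> rcases hv with hv | hv
    · rw [hu, hv]
    · have hv' : v = t := hv
      rw [hu, hv']; exact (hzc t).symm
    · have hu' : u = t := hu
      rw [hu', hv]; exact hzc t
    · have hu' : u = t := hu
      have hv' : v = t := hv
      rw [hu', hv']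
  · intro hcyc
    obtain ⟨⟨c, hc⟩, hgen⟩ := hcyc.exists_generator
    have hmem : ∀ s ∈ Subgroup.closure ({z, t} : Set P), s ∈ Subgroup.zpowers c := by
      intro s hs
      obtain ⟨i, hi⟩ := Subgroup.mem_zpowers_iff.1 (hgen ⟨s, hs⟩)
      rw [Subgroup.mem_zpowers_iff]
      refine ⟨i, ?_⟩
      have := congrArg Subtype.val hi
      simpa using this
    have hzt : z = t := h8_cyclic_involution_unique c z t (hmem z hzV) (hmem t htV) hz2 ht2 hz1
      (fun h => htA (h ▸ A.one_mem))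
    exact htA (hzt ▸ hzA)

theorem h8_order8_no_four {P : Type u} [Group P] [Finite P] (hcard : Nat.card P = 8)
    (hn : ∀ A : Subgroup P, A.Normal → IsMulCommutative A → IsCyclic A) (z t : P)
    (hzc : ∀ g : P, g * z = z * g) (hz2 : z * z = 1) (ht2 : t * t = 1) (hz1 : z ≠ 1)
    (ht1 : t ≠ 1) (htz : t ≠ z) : False := by
  obtain ⟨V, hVcard, hVe⟩ := h8_four_subgroup z t hzc hz2 ht2 hz1 ht1 htz
  have hidx : V.index = 2 := by
    have h1 := Subgroup.card_mul_index V
    rw [hVcard, hcard] at h1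
    omega
  have hVn : V.Normal := Subgroup.normal_of_index_eq_two hidx
  have hVc : IsMulCommutative V := by
    refine ⟨⟨fun a b => Subtype.ext ?_⟩⟩
    show (a : P) * (b : P) = (b : P) * (a : P)
    have h1 := hVe _ a.2
    have h2 := hVe _ b.2
    have h3 := hVe _ (V.mul_mem a.2 b.2)
    have ha' : (a : P)⁻¹ = a := inv_eq_of_mul_eq_one_left h1
    have hb' : (b : P)⁻¹ = b := inv_eq_of_mul_eq_one_left h2
    have hab : ((a : P) * (b : P))⁻¹ = (a : P) * (b : P) := inv_eq_of_mul_eq_one_left h3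
    rw [← hab, mul_inv_rev, ha', hb']
  have hcyc := hn V hVn hVc
  obtain ⟨g, hg⟩ := hcyc.exists_generator
  have h1 : orderOf g = Nat.card V := orderOf_eq_card_of_forall_mem_zpowers hg
  have h2 : g ^ 2 = 1 := by
    apply Subtype.ext
    rw [pow_two]
    exact hVe _ g.2
  have h3 : orderOf g ∣ 2 := orderOf_dvd_of_pow_eq_one h2
  rw [h1, hVcard] at h3
  norm_num at h3

theorem h8_s0519 {P : Type u} [Group P] [Finite P] (p : ℕ) [Fact p.Prime]
    (hP : IsPGroup p P) (hn : ∀ A : Subgroup P, A.Normal → IsMulCommutative A → IsCyclic A)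
    (hm : ∃ B : Subgroup P, IsMulCommutative B ∧ ¬ IsCyclic B) :
    p = 2 ∧ ((∃ n : ℕ, Nonempty (P ≃* QuaternionGroup n)) ∨
      (∃ n : ℕ, 8 ≤ n ∧ Nonempty (P ≃* DihedralGroup n)) ∨ Cfsg.IsQuasiDihedral P) := by
  have hPnc : ¬ IsCyclic P := by
    intro h
    obtain ⟨B, -, hB⟩ := hm
    haveI := h
    exact hB inferInstance
  have hp2 : p = 2 := by
    by_contra hne
    have hS : ¬ IsCyclic (⊤ : Subgroup P) := fun h => hPnc (Subgroup.topEquiv.isCyclic.1 h)
    obtain ⟨A, -, hAn, hAc, hAe, hAcard⟩ := h8_exists_normal_elab hne hP ⊤ hS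
    have hcyc := hn A hAn ⟨⟨fun a b => Subtype.ext (hAc a a.2 b b.2)⟩⟩
    obtain ⟨g, hg⟩ := hcyc.exists_generator
    have h1 : orderOf g = Nat.card A := orderOf_eq_card_of_forall_mem_zpowers hg
    have h2 : g ^ p = 1 := by
      apply Subtype.ext
      rw [Subgroup.coe_pow]
      exact hAe g g.2
    have h3 : orderOf g ∣ p := orderOf_dvd_of_pow_eq_one h2
    rw [h1, hAcard] at h3
    have hpp := (Fact.out : p.Prime)
    have : p ^ 2 ≤ p := Nat.le_of_dvd hpp.pos h3
    nlinarith [hpp.two_le]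
  subst hp2
  refine ⟨rfl, ?_⟩
  obtain ⟨A, hAn, hAc, hCA⟩ := Cfsg.Agent.Lib.Helper1.ui_exists_max_abelian hP
  haveI := hAn
  have hAcyc : IsCyclic A := hn A hAn ⟨⟨fun a b => Subtype.ext (hAc a a.2 b b.2)⟩⟩
  obtain ⟨a₀, ha₀⟩ := isCyclic_iff_exists_zpowers_eq_top.1 hAcyc
  obtain ⟨a, haa⟩ : ∃ a : P, a = (a₀ : P) := ⟨_, rfl⟩
  have hAa : A = Subgroup.zpowers a := by
    have := congrArg (Subgroup.map A.subtype) ha₀
    rw [MonoidHom.map_zpowers, ← MonoidHom.range_eq_map, Subgroup.range_subtype] at this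
    rw [haa]; exact this.symm
  have haA : a ∈ A := by rw [hAa]; exact Subgroup.mem_zpowers a
  obtain ⟨M, hMcard⟩ := IsPGroup.iff_card.1 (hP.to_subgroup A)
  have ha : orderOf a = 2 ^ M := by rw [← Nat.card_zpowers, ← hAa, hMcard]
  have hAtop : A ≠ ⊤ := by
    intro h
    apply hPnc
    rw [h] at hAcyc
    exact Subgroup.topEquiv.isCyclic.1 hAcyc
  have hinvA : ∀ u ∈ A, u ^ 2 = 1 → u ≠ 1 → ∀ v ∈ A, v ^ 2 = 1 → v ≠ 1 → u = v := by
    intro u hu hu2 hu1 v hv hv2 hv1
    exact h8_cyclic_involution_unique a u v (hAa ▸ hu) (hAa ▸ hv) hu2 hv2 hu1 hv1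
  have hM : 2 ≤ M := by
    by_contra hcon
    push_neg at hcon
    apply hAtop
    have ha2 : a ^ 2 = 1 := by
      apply orderOf_dvd_iff_pow_eq_one.1
      rw [ha]
      exact (pow_dvd_pow 2 (by omega : M ≤ 1)).trans (by norm_num)
    have hac : ∀ g : P, g * a * g⁻¹ = a := by
      intro g
      by_cases ha1 : a = 1
      · rw [ha1]; group
      · apply hinvA _ (hAn.conj_mem a haA g) (by rw [conj_pow, ha2]; group) _ a haA ha2 ha1
        intro h
        apply ha1
        have : a = g⁻¹ * (g * a * g⁻¹) * g := by group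
        rw [this, h]; group
    rw [eq_top_iff]
    intro g _
    apply hCA
    rw [Subgroup.mem_centralizer_iff]
    intro u hu
    have hu' : u ∈ Subgroup.zpowers a := by rw [← hAa]; exact hu
    obtain ⟨i, rfl⟩ := Subgroup.mem_zpowers_iff.1 hu'
    have hga : g * a = a * g := by
      calc g * a = (g * a * g⁻¹) * g := by group
        _ = a * g := by rw [hac g]
    exact ((Commute.zpow_right hga i).eq).symm
  obtain ⟨hyo, hz1, hz2, hzc, hinv, hAcomm⟩ := h8_cyc_normal_facts A a hAa M hM ha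
  obtain ⟨y, hy⟩ : ∃ y : P, y = a ^ 2 ^ (M - 2) := ⟨_, rfl⟩
  rw [← hy] at hyo hz1 hz2 hzc hinv
  have hyA : y ∈ A := by rw [hy]; exact A.pow_mem haA _
  have hyconj : ∀ g : P, g * y * g⁻¹ = y ∨ g * y * g⁻¹ = y ^ 2 * y := by
    intro g
    have h1 : g * y * g⁻¹ ∈ A := hAn.conj_mem y hyA g
    have h2 : (g * y * g⁻¹ * y⁻¹) ^ 2 = 1 := by
      have hc : Commute (g * y * g⁻¹) y⁻¹ := hAcomm _ h1 _ (A.inv_mem hyA)
      rw [hc.mul_pow, conj_pow, inv_pow, hzc g]
      group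
    rcases hinv _ (A.mul_mem h1 (A.inv_mem hyA)) h2 with h | h
    · left
      calc g * y * g⁻¹ = (g * y * g⁻¹ * y⁻¹) * y := by group
        _ = y := by rw [h, one_mul]
    · right
      calc g * y * g⁻¹ = (g * y * g⁻¹ * y⁻¹) * y := by group
        _ = y ^ 2 * y := by rw [h]
  by_cases hC : ∃ x : P, x * y = y * x ∧ x ∉ A
  · exfalso
    obtain ⟨C, hCdef⟩ : ∃ C : Subgroup P, C = Subgroup.centralizer ({y} : Set P) := ⟨_, rfl⟩
    have hCmem : ∀ g, g ∈ C ↔ y * g = g * y := by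
      intro g; rw [hCdef, Subgroup.mem_centralizer_iff]
      constructor
      · intro h; exact h y rfl
      · intro h w hw
        rw [Set.mem_singleton_iff] at hw
        rw [hw]; exact h
    haveI hCn : C.Normal := by
      constructor
      intro c hc g
      rw [hCmem] at hc ⊢
      rcases hyconj g⁻¹ with h | h
      · rw [inv_inv] at h
        calc y * (g * c * g⁻¹) = g * ((g⁻¹ * y * g) * c) * g⁻¹ := by group
          _ = g * (c * (g⁻¹ * y * g)) * g⁻¹ := by rw [h, hc]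
          _ = g * c * g⁻¹ * y := by group
      · rw [inv_inv] at h
        have hc2 : y ^ 2 * y * c = c * (y ^ 2 * y) := by
          rw [mul_assoc, hc, ← mul_assoc, ← hzc c, mul_assoc]
        calc y * (g * c * g⁻¹) = g * ((g⁻¹ * y * g) * c) * g⁻¹ := by group
          _ = g * (c * (g⁻¹ * y * g)) * g⁻¹ := by rw [h, hc2]
          _ = g * c * g⁻¹ * y := by group
    have hCA' : ¬ C ≤ A := by
      intro hle
      obtain ⟨x, hx, hxA⟩ := hC
      exact hxA (hle ((hCmem x).2 hx.symm))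
    obtain ⟨e, heC, heA, he2, hec⟩ := h8_exists_central_mod_prime hP A C hCA'
    obtain ⟨V, hVn, hVc, hVnc⟩ := h8_modular_four A a hAa M hM ha hCA e heA he2
      (by rw [← hy]; exact ((hCmem e).1 heC).symm) hec
    exact hVnc (hn V hVn hVc)
  · push_neg at hC
    obtain ⟨g₀, hg₀⟩ : ∃ g₀ : P, g₀ ∉ A := by
      by_contra hcon
      push_neg at hcon
      exact hAtop (eq_top_iff.2 (fun g _ => hcon g))
    have hnotA : ∀ g : P, g ∉ A → g * y * g⁻¹ = y ^ 2 * y := by
      intro g hg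
      rcases hyconj g with h | h
      · exfalso; apply hg; apply hC
        calc g * y = (g * y * g⁻¹) * g := by group
          _ = y * g := by rw [h]
      · exact h
    have hidx : A.index = 2 := by
      rw [Subgroup.index_eq_two_iff]
      refine ⟨g₀, fun b => ?_⟩
      by_cases hb : b ∈ A
      · refine Or.inr ⟨hb, fun h => hg₀ ?_⟩
        have : g₀ = b⁻¹ * (b * g₀) := by group
        rw [this]; exact A.mul_mem (A.inv_mem hb) h
      · refine Or.inl ⟨?_, hb⟩
        apply hC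
        have h1 := hnotA b hb
        have h2 := hnotA g₀ hg₀
        have h3 : b * g₀ * y * (b * g₀)⁻¹ = y := by
          calc b * g₀ * y * (b * g₀)⁻¹ = b * (g₀ * y * g₀⁻¹) * b⁻¹ := by group
            _ = b * (y ^ 2 * y) * b⁻¹ := by rw [h2]
            _ = (b * y ^ 2) * y * b⁻¹ := by group
            _ = (y ^ 2 * b) * y * b⁻¹ := by rw [hzc b]
            _ = y ^ 2 * (b * y * b⁻¹) := by group
            _ = y ^ 2 * (y ^ 2 * y) := by rw [h1]
            _ = (y ^ 2) ^ 2 * y := by group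
            _ = y := by rw [hz2, one_mul]
        calc b * g₀ * y = (b * g₀ * y * (b * g₀)⁻¹) * (b * g₀) := by group
          _ = y * (b * g₀) := by rw [h3]
    have hcardP : Nat.card P = 2 ^ (M + 1) := by
      rw [← Subgroup.card_mul_index A, hMcard, hidx, pow_succ]
    have hZ : ¬ ∀ g : P, g * a ^ 2 ^ (M - 2) = a ^ 2 ^ (M - 2) * g := by
      intro h
      apply hg₀; apply hC
      rw [hy]; exact h g₀
    rcases Cfsg.Agent.Lib.Helper1.cyc_max_classify M hM hcardP a ha hZ with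
      ⟨⟨e⟩⟩ | ⟨hM3, b, hb, hbc⟩ | ⟨⟨e⟩⟩
    · by_cases hM3 : 3 ≤ M
      · right; left
        refine ⟨2 ^ M, ?_, ⟨e⟩⟩
        calc 8 = 2 ^ 3 := by norm_num
          _ ≤ 2 ^ M := Nat.pow_le_pow_right (by norm_num) hM3
      · exfalso
        have hM2 : M = 2 := by omega
        subst hM2
        have hcard8 : Nat.card P = 8 := by rw [hcardP]; norm_num
        have hzz : y ^ 2 * y ^ 2 = 1 := by rw [← pow_two]; exact hz2
        have hs : ∀ i : ZMod (2 ^ 2), e.symm (DihedralGroup.sr i) * e.symm (DihedralGroup.sr i) = 1 := by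
          intro i
          rw [← map_mul, DihedralGroup.sr_mul_self, map_one]
        have hs1 : ∀ i : ZMod (2 ^ 2), e.symm (DihedralGroup.sr i) ≠ 1 := by
          intro i h
          have h1 : DihedralGroup.sr i = (1 : DihedralGroup (2 ^ 2)) := by
            rw [← e.apply_symm_apply (DihedralGroup.sr i), h, map_one]
          rw [DihedralGroup.one_def] at h1
          cases h1
        by_cases h0 : e.symm (DihedralGroup.sr 0) = y ^ 2
        · have h1 : e.symm (DihedralGroup.sr 1) ≠ y ^ 2 := by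
            intro h
            have h2 := e.symm.injective (h0.trans h.symm)
            have h3 : (0 : ZMod (2 ^ 2)) = 1 := DihedralGroup.sr.inj h2
            revert h3; decide
          exact h8_order8_no_four hcard8 hn (y ^ 2) _ hzc hzz (hs 1) hz1 (hs1 1) h1
        · exact h8_order8_no_four hcard8 hn (y ^ 2) _ hzc hzz (hs 0) hz1 (hs1 0) h0
    · right; right
      exact ⟨M, hM3, hcardP, a, b, ha, hb, hbc⟩
    · left
      exact ⟨_, ⟨e⟩⟩

end Cfsg.Agent.Lib.Helper8
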