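import Mathlib
import Cfsg.Prelude.Def_Transfer
import Cfsg.Agent.Lib.Lead.CharBurnside
import Cfsg.Agent.Lib.Helper8.PSolvOfSolv
import Cfsg.Agent.Lib.Helper8.PElem
import Cfsg.Agent.Lib.Helper8.Rank
import Cfsg.Agent.Lib.Helper8.Invol

set_option autoImplicit false

namespace Cfsg.Agent.Lib.Helper8

universe u

/-- a group whose element orders are exactly `1, 2, 3` -/
theorem h8_orders_123 {G : Type u} [Group G] [Finite G]
    (h : Set.range (orderOf : G → ℕ) = {k : ℕ | 1 ≤ k ∧ k ≤ 3}) :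
    (∃ N : Subgroup G, N.Normal ∧ Cfsg.IsElementaryAbelian 3 N ∧ N.index = 2) ∨
      (∃ N : Subgroup G, N.Normal ∧ Cfsg.IsElementaryAbelian 2 N ∧ N.index = 3) := by
  classical
  have hf2 : Fact (Nat.Prime 2) := ⟨Nat.prime_two⟩
  have hf3 : Fact (Nat.Prime 3) := ⟨Nat.prime_three⟩
  have hord : ∀ g : G, orderOf g = 1 ∨ orderOf g = 2 ∨ orderOf g = 3 := by
    intro g
    have hmem : orderOf g ∈ Set.range (orderOf : G → ℕ) := Set.mem_range_self g
    rw [h] at hmem
    obtain ⟨h1, h2⟩ := hmem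
    omega
  obtain ⟨t₀, ht₀⟩ : ∃ t : G, orderOf t = 2 := by
    have hmem : (2 : ℕ) ∈ Set.range (orderOf : G → ℕ) := by
      rw [h]; exact ⟨by norm_num, by norm_num⟩
    exact hmem
  obtain ⟨x₀, hx₀⟩ : ∃ x : G, orderOf x = 3 := by
    have hmem : (3 : ℕ) ∈ Set.range (orderOf : G → ℕ) := by
      rw [h]; exact ⟨by norm_num, by norm_num⟩
    exact hmem
  have hno6 : ∀ a b : G, a * b = b * a → orderOf a = 2 → orderOf b = 3 → False := by
    intro a b hab ha hb
    have hc : Commute a b := hab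
    have h6 := hc.orderOf_mul_eq_mul_orderOf_of_coprime (by rw [ha, hb]; norm_num)
    rw [ha, hb] at h6
    rcases hord (a * b) with h' | h' | h' <;> omega
  have hprimes : ∀ q : ℕ, q.Prime → q ∣ Nat.card G → q = 2 ∨ q = 3 := by
    intro q hq hqG
    have : Fact q.Prime := ⟨hq⟩
    obtain ⟨g, hg⟩ := exists_prime_orderOf_dvd_card' (G := G) q hqG
    have hq1 := hq.one_lt
    rcases hord g with h' | h' | h'
    · omega
    · left; omega
    · right; omega
  obtain ⟨a, m, hm2, hGm⟩ :=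
    Nat.exists_eq_pow_mul_and_not_dvd (Nat.card_pos (α := G)).ne' 2 (by norm_num)
  have hm0 : m ≠ 0 := by
    rintro rfl
    rw [mul_zero] at hGm
    exact (Nat.card_pos (α := G)).ne' hGm
  obtain ⟨b, m', hm3, hmm⟩ := Nat.exists_eq_pow_mul_and_not_dvd hm0 3 (by norm_num)
  have hm'1 : m' = 1 := by
    rw [Nat.eq_one_iff_not_exists_prime_dvd]
    intro q hq hqm'
    have hqm : q ∣ m := hmm ▸ Dvd.dvd.mul_left hqm' _
    have hqG : q ∣ Nat.card G := hGm ▸ Dvd.dvd.mul_left hqm _
    rcases hprimes q hq hqG with rfl | rfl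
    · exact hm2 hqm
    · exact hm3 hqm'
  have hcard : Nat.card G = 2 ^ a * 3 ^ b := by rw [hGm, hmm, hm'1, mul_one]
  have hsolv : Group.IsSolvable G :=
    Cfsg.Agent.Lib.Lead.burnside_paqb 2 3 a b Nat.prime_two Nat.prime_three hcard
  have hnt : Nontrivial G := by
    refine ⟨⟨t₀, 1, ?_⟩⟩
    rintro rfl
    rw [orderOf_one] at ht₀
    omega
  have hT2 : ∀ T : Sylow 2 G, Nat.card (T : Subgroup G) = 2 ^ a := by
    intro T
    rw [Sylow.card_eq_multiplicity, hcard, Nat.factorization_mul (by positivity) (by positivity),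
      Nat.factorization_pow, Nat.factorization_pow, Nat.prime_two.factorization,
      Nat.prime_three.factorization]
    simp
  have hP3 : ∀ P : Sylow 3 G, Nat.card (P : Subgroup G) = 3 ^ b := by
    intro P
    rw [Sylow.card_eq_multiplicity, hcard, Nat.factorization_mul (by positivity) (by positivity),
      Nat.factorization_pow, Nat.factorization_pow, Nat.prime_two.factorization,
      Nat.prime_three.factorization]
    simp
  have h32 : ∀ k : ℕ, 3 ≠ 2 ^ k := by
    intro k hk
    rcases k with _ | k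
    · simp at hk
    · rw [pow_succ] at hk; omega
  have h23 : ∀ k : ℕ, 2 ≠ 3 ^ k := by
    intro k hk
    rcases k with _ | k
    · simp at hk
    · rw [pow_succ] at hk; omega
  have hexp2 : ∀ (T : Sylow 2 G), ∀ u ∈ (T : Subgroup G), u ^ 2 = 1 := by
    intro T u hu
    obtain ⟨k, hk⟩ := h8_exists_orderOf_eq_pow T.2 hu
    rcases hord u with h' | h' | h'
    · rw [orderOf_eq_one_iff] at h'; rw [h']; exact one_pow 2
    · rw [← h']; exact pow_orderOf_eq_one u
    · exfalso
      rw [h'] at hk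
      exact h32 k hk
  have hexp3 : ∀ (P : Sylow 3 G), ∀ u ∈ (P : Subgroup G), u ^ 3 = 1 := by
    intro P u hu
    obtain ⟨k, hk⟩ := h8_exists_orderOf_eq_pow P.2 hu
    rcases hord u with h' | h' | h'
    · rw [orderOf_eq_one_iff] at h'; rw [h']; exact one_pow 3
    · exfalso
      rw [h'] at hk
      exact h23 k hk
    · rw [← h']; exact pow_orderOf_eq_one u
  have hcomm_of_conj : ∀ a b : G, a * b * a⁻¹ = b → b * a = a * b := by
    intro a b hab
    calc b * a = (a * b * a⁻¹) * a := by rw [hab]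
      _ = a * b := by group
  have hinv2 : ∀ u : G, u ^ 2 = 1 → u⁻¹ = u := by
    intro u hu
    rw [inv_eq_iff_mul_eq_one, ← pow_two]; exact hu
  have hab2 : ∀ (T : Sylow 2 G), ∀ u ∈ (T : Subgroup G), ∀ v ∈ (T : Subgroup G),
      u * v = v * u := by
    intro T u hu v hv
    have h3 := hexp2 T (u * v) (Subgroup.mul_mem _ hu hv)
    calc u * v = (u * v)⁻¹ := (hinv2 _ h3).symm
      _ = v⁻¹ * u⁻¹ := mul_inv_rev u v
      _ = v * u := by rw [hinv2 u (hexp2 T u hu), hinv2 v (hexp2 T v hv)]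
  obtain ⟨M, hMn, hMne, hM⟩ := h8_exists_normal_of_isSolvable hsolv 2
  obtain ⟨T⟩ := (Sylow.nonempty : Nonempty (Sylow 2 G))
  obtain ⟨P⟩ := (Sylow.nonempty : Nonempty (Sylow 3 G))
  obtain ⟨m₀, hm₀M, hm₀1⟩ : ∃ m₀ ∈ M, m₀ ≠ 1 := by
    by_contra hcon
    push Not at hcon
    exact hMne ((Subgroup.eq_bot_iff_forall M).2 hcon)
  rcases hM with ⟨k, hk⟩ | hcop
  · right
    have hMp : IsPGroup 2 M := IsPGroup.of_card hk
    have hm₀2 : orderOf m₀ = 2 := by
      obtain ⟨j, hj⟩ := h8_exists_orderOf_eq_pow hMp hm₀M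
      rcases hord m₀ with h' | h' | h'
      · exact absurd (orderOf_eq_one_iff.1 h') hm₀1
      · exact h'
      · exfalso
        rw [h'] at hj
        exact h32 j hj
    have hCexp : ∀ g ∈ Subgroup.centralizer (M : Set G), g ^ 2 = 1 := by
      intro g hg
      have hcomm : m₀ * g = g * m₀ := Subgroup.mem_centralizer_iff.1 hg m₀ hm₀M
      rcases hord g with h' | h' | h'
      · rw [orderOf_eq_one_iff] at h'; rw [h']; exact one_pow 2
      · rw [← h']; exact pow_orderOf_eq_one g
      · exact (hno6 m₀ g hcomm hm₀2 h').elim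
    have hCp : IsPGroup 2 (Subgroup.centralizer (M : Set G)) :=
      h8_isPGroup_of_exp (fun g hg => hCexp g hg)
    have hMT : M ≤ (T : Subgroup G) := by
      have hpg : IsPGroup 2 (M ⊔ (T : Subgroup G) : Subgroup G) :=
        IsPGroup.to_sup_of_normal_left hMp T.2
      have hmax := T.is_maximal' hpg le_sup_right
      exact le_sup_left.trans (le_of_eq hmax)
    have hTC : (T : Subgroup G) ≤ Subgroup.centralizer (M : Set G) := by
      intro u hu
      rw [Subgroup.mem_centralizer_iff]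
      intro m hm
      exact hab2 T m (hMT hm) u hu
    have hCT : Subgroup.centralizer (M : Set G) = (T : Subgroup G) := T.is_maximal' hCp hTC
    have hTn : (T : Subgroup G).Normal := by
      rw [← hCT]; exact Subgroup.normal_centralizer
    have hm₀T : m₀ ∈ (T : Subgroup G) := hMT hm₀M
    -- the key relation for elements of order three
    have hL1 : ∀ g : G, g ^ 3 = 1 → g ≠ 1 → ∀ u ∈ (T : Subgroup G),
        g ^ 2 * u * (g ^ 2)⁻¹ = u * (g * u * g⁻¹) := by
      intro g hg3 hg1 u hu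
      have hgo : orderOf g = 3 := orderOf_eq_prime hg3 hg1
      have ha : g * u * g⁻¹ ∈ (T : Subgroup G) := hTn.conj_mem u hu g
      have hb : g ^ 2 * u * (g ^ 2)⁻¹ ∈ (T : Subgroup G) := hTn.conj_mem u hu (g ^ 2)
      have hw : u * (g * u * g⁻¹) * (g ^ 2 * u * (g ^ 2)⁻¹) ∈ (T : Subgroup G) :=
        Subgroup.mul_mem _ (Subgroup.mul_mem _ hu ha) hb
      have hfix : g * (u * (g * u * g⁻¹) * (g ^ 2 * u * (g ^ 2)⁻¹)) * g⁻¹ =
          u * (g * u * g⁻¹) * (g ^ 2 * u * (g ^ 2)⁻¹) := by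
        have e1 : g * (u * (g * u * g⁻¹) * (g ^ 2 * u * (g ^ 2)⁻¹)) * g⁻¹ =
            (g * u * g⁻¹) * (g ^ 2 * u * (g ^ 2)⁻¹) * (g ^ 3 * u * (g ^ 3)⁻¹) := by group
        rw [e1, hg3, one_mul, inv_one, mul_one]
        rw [hab2 T _ (Subgroup.mul_mem _ ha hb) u hu]
        simp only [mul_assoc]
      have hw1 : u * (g * u * g⁻¹) * (g ^ 2 * u * (g ^ 2)⁻¹) = 1 := by
        by_contra hne
        have hw2 : orderOf (u * (g * u * g⁻¹) * (g ^ 2 * u * (g ^ 2)⁻¹)) = 2 :=
          orderOf_eq_prime (hexp2 T _ hw) hne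
        exact hno6 _ g (hcomm_of_conj g _ hfix) hw2 hgo
      have hb' : g ^ 2 * u * (g ^ 2)⁻¹ = (u * (g * u * g⁻¹))⁻¹ :=
        eq_inv_of_mul_eq_one_right hw1
      rw [hb', hinv2 _ (hexp2 T _ (Subgroup.mul_mem _ hu ha))]
    refine ⟨(T : Subgroup G), hTn,
      ⟨⟨⟨fun u v => Subtype.ext (hab2 T u u.2 v v.2)⟩⟩, hexp2 T⟩, ?_⟩
    -- the index
    have hidx : (T : Subgroup G).index = 3 ^ b := by
      have h1 := (T : Subgroup G).card_mul_index
      rw [hT2 T, hcard] at h1
      exact Nat.eq_of_mul_eq_mul_left (by positivity) h1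
    have hb1 : b ≠ 0 := by
      rintro rfl
      rw [pow_zero, Subgroup.index_eq_one] at hidx
      have hx₀T : x₀ ∈ (T : Subgroup G) := by rw [hidx]; exact Subgroup.mem_top _
      have := hexp2 T x₀ hx₀T
      have hdvd := orderOf_dvd_of_pow_eq_one this
      rw [hx₀] at hdvd
      omega
    have hb2 : b < 2 := by
      by_contra hcon
      have h9 : 3 ^ 2 ∣ Nat.card G := by
        rw [hcard]
        exact Dvd.dvd.mul_left (pow_dvd_pow 3 (by omega)) _
      obtain ⟨A, hA⟩ := Sylow.exists_subgroup_card_pow_prime 3 h9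
      have hAcomm : IsMulCommutative A := IsPGroup.isMulCommutative_of_card_eq_prime_sq hA
      have hA3 : ∀ y ∈ A, y ^ 3 = 1 := by
        intro y hy
        rcases hord y with h' | h' | h'
        · rw [orderOf_eq_one_iff] at h'; rw [h']; exact one_pow 3
        · exfalso
          have hdvd : orderOf y ∣ Nat.card A := by
            have := orderOf_dvd_natCard (⟨y, hy⟩ : A)
            rwa [Subgroup.orderOf_mk] at this
          rw [h', hA] at hdvd
          omega
        · rw [← h']; exact pow_orderOf_eq_one y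
      obtain ⟨x, hxA, hx1⟩ : ∃ x ∈ A, x ≠ 1 := by
        by_contra hcon'
        push Not at hcon'
        have hbot : A = ⊥ := (Subgroup.eq_bot_iff_forall A).2 hcon'
        rw [hbot, Subgroup.card_bot] at hA
        omega
      have hxo : orderOf x = 3 := orderOf_eq_prime (hA3 x hxA) hx1
      obtain ⟨y, hyA, hyx⟩ : ∃ y ∈ A, y ∉ Subgroup.zpowers x := by
        by_contra hcon'
        push Not at hcon'
        have hle : A ≤ Subgroup.zpowers x := hcon'
        have := Subgroup.card_le_of_le hle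
        rw [hA, Nat.card_zpowers, hxo] at this
        omega
      have hxy : x * y = y * x := by
        have := hAcomm.is_comm.comm (⟨x, hxA⟩ : A) ⟨y, hyA⟩
        exact congrArg Subtype.val this
      have hy1 : y ≠ 1 := by
        rintro rfl
        exact hyx (Subgroup.one_mem _)
      have hxy1 : x * y ≠ 1 := by
        intro h1
        apply hyx
        have : y = x⁻¹ := (eq_inv_of_mul_eq_one_right h1)
        rw [this]
        exact Subgroup.inv_mem _ (Subgroup.mem_zpowers x)
      have hz1 : y⁻¹ * x ≠ 1 := by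
        intro h1
        apply hyx
        have : y = x := by
          have h2 : y * (y⁻¹ * x) = y * 1 := by rw [h1]
          simpa using h2.symm
        rw [this]
        exact Subgroup.mem_zpowers x
      have hzA : y⁻¹ * x ∈ A := A.mul_mem (A.inv_mem hyA) hxA
      have hzo : orderOf (y⁻¹ * x) = 3 := orderOf_eq_prime (hA3 _ hzA) hz1
      -- `x` and `y` act in the same way on `T`
      have hsame : ∀ v ∈ (T : Subgroup G), x * v * x⁻¹ = y * v * y⁻¹ := by
        intro v hv
        have hyv : y * v * y⁻¹ ∈ (T : Subgroup G) := hTn.conj_mem v hv y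
        have E1 := hL1 x (hA3 x hxA) hx1 v hv
        have E2 := hL1 x (hA3 x hxA) hx1 (y * v * y⁻¹) hyv
        have E3 := hL1 y (hA3 y hyA) hy1 v hv
        have E4 := hL1 (x * y) (hA3 _ (A.mul_mem hxA hyA)) hxy1 v hv
        have hpow : (x * y) ^ 2 = x ^ 2 * y ^ 2 := (show Commute x y from hxy).mul_pow 2
        have e5 : (x * y) ^ 2 * v * ((x * y) ^ 2)⁻¹ =
            x ^ 2 * (y ^ 2 * v * (y ^ 2)⁻¹) * (x ^ 2)⁻¹ := by
          rw [hpow]; group
        have e6 : x ^ 2 * (v * (y * v * y⁻¹)) * (x ^ 2)⁻¹ =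
            (x ^ 2 * v * (x ^ 2)⁻¹) * (x ^ 2 * (y * v * y⁻¹) * (x ^ 2)⁻¹) := by group
        have e7 : x * (y * v * y⁻¹) * x⁻¹ = x * y * v * (x * y)⁻¹ := by group
        rw [e5, E3, e6, E1, E2, e7] at E4
        -- E4 : v * q * (r * s) = v * s
        have e8 : (x * v * x⁻¹) * (y * v * y⁻¹) = 1 := by
          have h1 : v * (x * v * x⁻¹) * (y * v * y⁻¹ * (x * y * v * (x * y)⁻¹)) =
              v * ((x * v * x⁻¹) * (y * v * y⁻¹) * (x * y * v * (x * y)⁻¹)) := by
            simp only [mul_assoc]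
          rw [h1] at E4
          have h2 := mul_left_cancel E4
          have h3 : (x * v * x⁻¹) * (y * v * y⁻¹) * (x * y * v * (x * y)⁻¹) =
              1 * (x * y * v * (x * y)⁻¹) := by rw [one_mul]; exact h2
          exact mul_right_cancel h3
        have e9 : x * v * x⁻¹ = (y * v * y⁻¹)⁻¹ := eq_inv_of_mul_eq_one_left e8
        rw [e9, hinv2 _ (hexp2 T _ hyv)]
      have hcent : (y⁻¹ * x) * m₀ = m₀ * (y⁻¹ * x) := by
        have h1 := hsame m₀ hm₀T
        calc (y⁻¹ * x) * m₀ = y⁻¹ * (x * m₀ * x⁻¹) * x := by group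
          _ = y⁻¹ * (y * m₀ * y⁻¹) * x := by rw [h1]
          _ = m₀ * (y⁻¹ * x) := by group
      exact hno6 m₀ (y⁻¹ * x) hcent.symm hm₀2 hzo
    have hb_eq : b = 1 := by omega
    rw [hidx, hb_eq, pow_one]
  · left
    have hM3 : ∀ m ∈ M, m ^ 3 = 1 := by
      intro m hm
      rcases hord m with h' | h' | h'
      · rw [orderOf_eq_one_iff] at h'; rw [h']; exact one_pow 3
      · exfalso
        have hdvd : orderOf m ∣ Nat.card M := by
          have := orderOf_dvd_natCard (⟨m, hm⟩ : M)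
          rwa [Subgroup.orderOf_mk] at this
        rw [h'] at hdvd
        exact (Nat.Prime.coprime_iff_not_dvd Nat.prime_two).1 hcop.symm hdvd
      · rw [← h']; exact pow_orderOf_eq_one m
    have hm₀3 : orderOf m₀ = 3 := orderOf_eq_prime (hM3 m₀ hm₀M) hm₀1
    have hinv : ∀ t : G, orderOf t = 2 → ∀ m ∈ M, t * m * t⁻¹ = m⁻¹ := by
      intro t ht
      apply h8_inverts_of_fixedPointFree (by rw [← pow_two, ← ht]; exact pow_orderOf_eq_one t)
      · rw [Subgroup.normalizer_eq_top M]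
        exact Subgroup.mem_top t
      · intro s hs hts
        by_contra hs1
        exact hno6 t s hts ht (orderOf_eq_prime (hM3 s hs) hs1)
    have hTuniq : ∀ s ∈ (T : Subgroup G), ∀ t ∈ (T : Subgroup G), s ≠ 1 → t ≠ 1 → s = t := by
      intro s hs t ht hs1 ht1
      have hs2 : orderOf s = 2 := orderOf_eq_prime (hexp2 T s hs) hs1
      have ht2 : orderOf t = 2 := orderOf_eq_prime (hexp2 T t ht) ht1
      have h1 : (s * t) * m₀ * (s * t)⁻¹ = m₀ := by
        have e : (s * t) * m₀ * (s * t)⁻¹ = s * (t * m₀ * t⁻¹) * s⁻¹ := by group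
        rw [e, hinv t ht2 m₀ hm₀M, hinv s hs2 m₀⁻¹ (M.inv_mem hm₀M), inv_inv]
      by_contra hne
      have hst1 : s * t ≠ 1 := by
        intro h1'
        apply hne
        have e : s = t⁻¹ := eq_inv_of_mul_eq_one_left h1'
        rw [e, hinv2 t (hexp2 T t ht)]
      have hst2 : orderOf (s * t) = 2 :=
        orderOf_eq_prime (hexp2 T _ (Subgroup.mul_mem _ hs ht)) hst1
      apply hno6 (s * t) m₀ ?_ hst2 hm₀3
      calc (s * t) * m₀ = ((s * t) * m₀ * (s * t)⁻¹) * (s * t) := by group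
        _ = m₀ * (s * t) := by rw [h1]
    have hTcard : Nat.card (T : Subgroup G) = 2 := by
      have h2T : 2 ∣ Nat.card (T : Subgroup G) :=
        T.dvd_card_of_dvd_card (ht₀ ▸ orderOf_dvd_natCard t₀)
      obtain ⟨t₁, ht₁⟩ := exists_prime_orderOf_dvd_card' (G := (T : Subgroup G)) 2 h2T
      have ht₁1 : (t₁ : G) ≠ 1 := by
        intro h1
        have e : t₁ = 1 := Subtype.ext h1
        rw [e, orderOf_one] at ht₁
        omega
      have hle : ∀ u : (T : Subgroup G), u ∈ Subgroup.zpowers t₁ := by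
        intro u
        by_cases hu1 : u = 1
        · rw [hu1]; exact Subgroup.one_mem _
        · have e1 : (u : G) = (t₁ : G) :=
            hTuniq u u.2 t₁ t₁.2 (fun h => hu1 (Subtype.ext h)) ht₁1
          have e2 : u = t₁ := Subtype.ext e1
          rw [e2]; exact Subgroup.mem_zpowers t₁
      rw [← orderOf_eq_card_of_forall_mem_zpowers hle, ht₁]
    have ha1 : a = 1 := by
      have h1 := hT2 T
      rw [hTcard] at h1
      have h2 : (2 : ℕ) ^ 1 = 2 ^ a := by rw [pow_one]; exact h1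
      exact (Nat.pow_right_injective (le_refl 2) h2).symm
    have hPidx : (P : Subgroup G).index = 2 := by
      have h1 := (P : Subgroup G).card_mul_index
      rw [hP3 P, hcard, ha1, pow_one, mul_comm 2] at h1
      exact Nat.eq_of_mul_eq_mul_left (by positivity) h1
    have hPn : (P : Subgroup G).Normal := Subgroup.normal_of_index_eq_two hPidx
    have hinvP : ∀ u ∈ (P : Subgroup G), t₀ * u * t₀⁻¹ = u⁻¹ := by
      apply h8_inverts_of_fixedPointFree (by rw [← pow_two, ← ht₀]; exact pow_orderOf_eq_one t₀)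
      · rw [Subgroup.normalizer_eq_top (P : Subgroup G)]
        exact Subgroup.mem_top _
      · intro s hs hts
        by_contra hs1
        exact hno6 t₀ s hts ht₀ (orderOf_eq_prime (hexp3 P s hs) hs1)
    refine ⟨(P : Subgroup G), hPn, ⟨⟨⟨fun u v => Subtype.ext ?_⟩⟩, hexp3 P⟩, hPidx⟩
    have h1 := hinvP ((u : G) * (v : G)) (Subgroup.mul_mem _ u.2 v.2)
    have h2 := hinvP u u.2
    have h3 := hinvP v v.2
    have h4 : (u : G)⁻¹ * (v : G)⁻¹ = (v : G)⁻¹ * (u : G)⁻¹ := by
      calc (u : G)⁻¹ * (v : G)⁻¹ = (t₀ * u * t₀⁻¹) * (t₀ * v * t₀⁻¹) := by rw [h2, h3]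
        _ = t₀ * ((u : G) * (v : G)) * t₀⁻¹ := by group
        _ = ((u : G) * (v : G))⁻¹ := h1
        _ = (v : G)⁻¹ * (u : G)⁻¹ := mul_inv_rev _ _
    have h5 := congrArg Inv.inv h4
    simp only [mul_inv_rev, inv_inv] at h5
    exact h5.symm

end Cfsg.Agent.Lib.Helper8
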