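import Mathlib
import Cfsg.Agent.Lib.Helper8.ThreePrimesSolv

set_option autoImplicit false

universe u

namespace Cfsg.Agent.Lib.Helper8

/-- Three primes `p < q < r ≤ n` with `p * q > n`, for `n ≥ 7`. -/
theorem h8_three_primes_le (n : ℕ) (hn : 7 ≤ n) :
    ∃ p q r : ℕ, p.Prime ∧ q.Prime ∧ r.Prime ∧ p < q ∧ q < r ∧ r ≤ n ∧ n < p * q := by
  by_cases h1 : n ≤ 14
  · exact ⟨3, 5, 7, by norm_num, by norm_num, by norm_num, by norm_num, by norm_num, hn, by omega⟩
  by_cases h2 : n ≤ 34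
  · exact ⟨5, 7, 11, by norm_num, by norm_num, by norm_num, by norm_num, by norm_num, by omega,
      by omega⟩
  obtain ⟨r, hr, hr1, hr2⟩ := Nat.exists_prime_lt_and_le_two_mul (n / 2) (by omega)
  obtain ⟨q, hq, hq1, hq2⟩ := Nat.exists_prime_lt_and_le_two_mul (n / 2 / 2) (by omega)
  obtain ⟨p, hp, hp1, hp2⟩ := Nat.exists_prime_lt_and_le_two_mul (n / 2 / 2 / 2) (by omega)
  refine ⟨p, q, r, hp, hq, hr, by omega, by omega, by omega, ?_⟩
  have h3 : n + 1 ≤ 8 * p := by omega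
  have h4 : n + 1 ≤ 4 * q := by omega
  have h5 : (n + 1) * (n + 1) ≤ (8 * p) * (4 * q) := Nat.mul_le_mul h3 h4
  nlinarith

theorem h8_s4002 {G : Type u} [Group G] [Finite G] (n : ℕ) (hn : 7 ≤ n)
    (h : Set.range (orderOf : G → ℕ) = {k : ℕ | 1 ≤ k ∧ k ≤ n}) : ¬ Group.IsSolvable G := by
  intro hG
  obtain ⟨p, q, r, hp, hq, hr, hpq, hqr, hrn, hnpq⟩ := h8_three_primes_le n hn
  have hmem : ∀ s : ℕ, 1 ≤ s → s ≤ n → ∃ g : G, orderOf g = s := by
    intro s hs1 hsn
    have : s ∈ Set.range (orderOf : G → ℕ) := by rw [h]; exact ⟨hs1, hsn⟩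
    exact this
  have hdvd : ∀ s : ℕ, 1 ≤ s → s ≤ n → s ∣ Nat.card G := by
    intro s hs1 hsn
    obtain ⟨g, hg⟩ := hmem s hs1 hsn
    rw [← hg]; exact orderOf_dvd_natCard g
  have hle : ∀ g : G, orderOf g ≤ n := by
    intro g
    have : orderOf g ∈ Set.range (orderOf : G → ℕ) := ⟨g, rfl⟩
    rw [h] at this
    exact this.2
  have hT : Group.IsSolvable (⊤ : Subgroup G) := inferInstance
  have hcard : Nat.card (⊤ : Subgroup G) = Nat.card G := Subgroup.card_top
  have hp1 := hp.one_lt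
  have hq1 := hq.one_lt
  rcases h8_three_solv _ rfl (⊤ : Subgroup G) hT p q r hp hq hr (by omega) (by omega) (by omega)
    (by rw [hcard]; exact hdvd p (by omega) (by omega))
    (by rw [hcard]; exact hdvd q (by omega) (by omega)) (hdvd r (by omega) hrn) with
    ⟨x, hx⟩ | ⟨x, hx⟩ | ⟨x, hx⟩
  · have := hle x; rw [hx] at this; omega
  · have := hle x; rw [hx] at this
    have h6 : p * q < p * r := Nat.mul_lt_mul_of_pos_left hqr (by omega)
    omega
  · have := hle x; rw [hx] at this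
    have h6 : p * q < q * r := by
      calc p * q = q * p := mul_comm p q
        _ < q * r := Nat.mul_lt_mul_of_pos_left (by omega) (by omega)
    omega

end Cfsg.Agent.Lib.Helper8
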