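import Mathlib
import Cfsg.Prelude.Def_Local
import Cfsg.Prelude.Def_Transfer
import Cfsg.Agent.Lib.Helper8.Basic
import Cfsg.Agent.Lib.Helper8.Invol
import Cfsg.Agent.Lib.Helper8.CNMax
import Cfsg.Agent.Lib.Helper8.CoprimeOmega
import Cfsg.Agent.Lib.Helper8.PSolvOfSolv
import Cfsg.Agent.Lib.Helper7.PQ
import Cfsg.Agent.Lib.Helper7.PCore
import Cfsg.Agent.Lib.Helper7.Coprime
import Cfsg.Agent.Lib.Helper1.UpperP

set_option autoImplicit false
set_option linter.style.haveILetI false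
universe u

namespace Cfsg.Agent.Lib.Helper8

/-- `p` odd, `P` a normal `p`-subgroup containing its centraliser, `E ≤ P` containing every
element of order dividing `p` of its centraliser: a `p'`-subgroup centralising `E` is trivial -/
theorem h8_pprime_trivial_of_omega {Γ : Type u} [Group Γ] [Finite Γ] (p : ℕ) [Fact p.Prime]
    (hp2 : p ≠ 2) (P : Subgroup Γ) [hPn : P.Normal] (hPp : IsPGroup p P)
    (hCP : Subgroup.centralizer (P : Set Γ) ≤ P) (E : Subgroup Γ) (hEP : E ≤ P)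
    (hOmega : ∀ x : Γ, x ^ p = 1 → (∀ e ∈ E, x * e = e * x) → x ∈ E)
    (L : Subgroup Γ) (hL : (Nat.card L).Coprime p)
    (hLE : ∀ l ∈ L, ∀ e ∈ E, l * e = e * l) : L = ⊥ := by
  have hp := (Fact.out : p.Prime)
  obtain ⟨C, hC⟩ : ∃ C : Subgroup Γ, C = P ⊓ Subgroup.centralizer (E : Set Γ) := ⟨_, rfl⟩
  have hCp : IsPGroup p C := by rw [hC]; exact hPp.to_le inf_le_left
  have hCmem : ∀ x, x ∈ C ↔ x ∈ P ∧ ∀ e ∈ E, e * x = x * e := by
    intro x; rw [hC, Subgroup.mem_inf, Subgroup.mem_centralizer_iff]; rfl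
  have hLC : ∀ l ∈ L, ∀ x ∈ C, l * x = x * l := by
    intro l hl
    have hln : l ^ Nat.card L = 1 := by
      have h1 := pow_card_eq_one' (G := L) (x := ⟨l, hl⟩)
      exact congrArg Subtype.val h1
    apply h8_coprime_aut_omega p p dvd_rfl
      (hp.dvd_choose_self (by norm_num) (by have := hp.two_le; omega)) l (Nat.card L) hL hln
      (Nat.card C) C rfl hCp
    · intro x hx
      rw [hCmem] at hx ⊢
      refine ⟨hPn.conj_mem x hx.1 l, fun e he => ?_⟩
      have h1 := hLE l hl e he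
      have h2 := hx.2 e he
      calc e * (l * x * l⁻¹) = (e * l) * x * l⁻¹ := by group
        _ = (l * e) * x * l⁻¹ := by rw [h1]
        _ = l * (e * x) * l⁻¹ := by group
        _ = l * (x * e) * l⁻¹ := by rw [h2]
        _ = l * x * l⁻¹ * (l * e) * l⁻¹ := by group
        _ = l * x * l⁻¹ * (e * l) * l⁻¹ := by rw [h1]
        _ = l * x * l⁻¹ * e := by group
    · intro x hx hxp
      rw [hCmem] at hx
      have hxE : x ∈ E := hOmega x hxp (fun e he => (hx.2 e he).symm)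
      exact hLE l hl x hxE
  have hQ : L ≤ Subgroup.centralizer (P : Set Γ) := by
    apply Cfsg.Agent.Lib.Helper7.pxq_lemma p E L P (hPp.to_le hEP) hL hPp
    · intro e he
      rw [Subgroup.mem_centralizer_iff]
      intro l hl
      exact hLE l hl e he
    · rw [Subgroup.normalizer_eq_top]; exact le_top
    · rw [Subgroup.normalizer_eq_top]; exact le_top
    · intro x hx
      rw [Subgroup.mem_centralizer_iff]
      intro l hl
      exact hLC l hl x (by rw [hC]; exact hx)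
  rw [Subgroup.eq_bot_iff_forall]
  intro l hl
  have hlP : l ∈ P := hCP (hQ hl)
  obtain ⟨k, hk⟩ := hPp ⟨l, hlP⟩
  have hk' : l ^ (p ^ k) = 1 := by simpa using congrArg Subtype.val hk
  have h1 : orderOf l ∣ p ^ k := orderOf_dvd_of_pow_eq_one hk'
  have h2 : orderOf l ∣ Nat.card L := by
    have := orderOf_dvd_natCard (⟨l, hl⟩ : L)
    rwa [Subgroup.orderOf_mk] at this
  have h3 : orderOf l = 1 :=
    Nat.Coprime.eq_one_of_dvd (Nat.Coprime.coprime_dvd_left h2 (Nat.Coprime.pow_right k hL)) h1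
  exact orderOf_eq_one_iff.1 h3

theorem h8_plength_one_aux {G : Type u} [Group G] [Finite G] [Group.IsSolvable G] (p : ℕ)
    [Fact p.Prime] (hp2 : p ≠ 2) (U : Subgroup G) [hUn : U.Normal]
    (hUp : (Nat.card U).Coprime p) (hO : Cfsg.pPrimeCore p (G ⧸ U) = ⊥)
    (hpl : ∀ x : G ⧸ U, x ^ p = 1 → x ∈ Cfsg.pCore p (G ⧸ U))
    (E L : Subgroup G) (hE : Cfsg.IsElementaryAbelian p E)
    (hEmax : ∀ B : Subgroup G, Cfsg.IsElementaryAbelian p B → E ≤ B → B = E)
    (hL : (Nat.card L).Coprime p) (hEL : E ≤ Subgroup.normalizer (L : Set G)) : L ≤ U := by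
  have hp := (Fact.out : p.Prime)
  obtain ⟨Pb, hPb⟩ : ∃ Pb : Subgroup (G ⧸ U), Pb = Cfsg.pCore p (G ⧸ U) := ⟨_, rfl⟩
  haveI hPbn : Pb.Normal := by rw [hPb]; exact Cfsg.Agent.Lib.Helper7.pCore_normal p _
  have hPbp : IsPGroup p Pb := by rw [hPb]; exact Cfsg.Agent.Lib.Helper7.pCore_isPGroup p _
  have hCP : Subgroup.centralizer (Pb : Set (G ⧸ U)) ≤ Pb := by
    rw [hPb]
    apply Cfsg.Agent.Lib.Helper1.centralizer_pCore_le_of_isPSolvable p (G ⧸ U) _ hO
    exact h8_isPSolvable_of_isSolvable p inferInstance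
  have hpl' : ∀ x : G ⧸ U, x ^ p = 1 → x ∈ Pb := by rw [hPb]; exact hpl
  obtain ⟨Eb, hEb⟩ : ∃ Eb : Subgroup (G ⧸ U), Eb = E.map (QuotientGroup.mk' U) := ⟨_, rfl⟩
  obtain ⟨Lb, hLb⟩ : ∃ Lb : Subgroup (G ⧸ U), Lb = L.map (QuotientGroup.mk' U) := ⟨_, rfl⟩
  have hEb_mem : ∀ e ∈ E, (QuotientGroup.mk' U) e ∈ Eb := fun e he => by
    rw [hEb]; exact ⟨e, he, rfl⟩
  have hEcomm : ∀ a ∈ E, ∀ b ∈ E, a * b = b * a := by
    intro a ha b hb
    have h1 : (⟨a, ha⟩ : E) * ⟨b, hb⟩ = ⟨b, hb⟩ * ⟨a, ha⟩ := hE.1.is_comm.comm _ _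
    exact congrArg Subtype.val h1
  have hEbp : ∀ x ∈ Eb, x ^ p = 1 := by
    intro x hx
    rw [hEb] at hx
    obtain ⟨e, he, rfl⟩ := hx
    rw [← map_pow, hE.2 e he, map_one]
  have hEbcomm : ∀ a ∈ Eb, ∀ b ∈ Eb, a * b = b * a := by
    intro a ha b hb
    rw [hEb] at ha hb
    obtain ⟨a', ha', rfl⟩ := ha
    obtain ⟨b', hb', rfl⟩ := hb
    rw [← map_mul, ← map_mul, hEcomm a' ha' b' hb']
  have hEbP : Eb ≤ Pb := fun x hx => hpl' x (hEbp x hx)
  have hLbp : (Nat.card Lb).Coprime p := by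
    rw [hLb]
    exact Nat.Coprime.coprime_dvd_left (Subgroup.card_map_dvd L (QuotientGroup.mk' U)) hL
  have hLP : ∀ x, x ∈ Lb → x ∈ Pb → x = 1 := by
    intro x hxL hxP
    obtain ⟨k, hk⟩ := hPbp ⟨x, hxP⟩
    have hk' : x ^ (p ^ k) = 1 := by simpa using congrArg Subtype.val hk
    have h1 : orderOf x ∣ p ^ k := orderOf_dvd_of_pow_eq_one hk'
    have h2 : orderOf x ∣ Nat.card Lb := by
      have := orderOf_dvd_natCard (⟨x, hxL⟩ : Lb)
      rwa [Subgroup.orderOf_mk] at this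
    have h3 : orderOf x = 1 :=
      Nat.Coprime.eq_one_of_dvd
        (Nat.Coprime.coprime_dvd_left h2 (Nat.Coprime.pow_right k hLbp)) h1
    exact orderOf_eq_one_iff.1 h3
  have hLE : ∀ l ∈ Lb, ∀ e ∈ Eb, l * e = e * l := by
    intro l hl e he
    rw [hLb] at hl
    rw [hEb] at he
    obtain ⟨l', hl', rfl⟩ := hl
    obtain ⟨e', he', rfl⟩ := he
    have h1 : l' * e' * l'⁻¹ * e'⁻¹ ∈ L := by
      have h2 : e' * l'⁻¹ * e'⁻¹ ∈ L :=
        (Subgroup.mem_normalizer_iff.1 (hEL he') l'⁻¹).1 (L.inv_mem hl')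
      have e3 : l' * e' * l'⁻¹ * e'⁻¹ = l' * (e' * l'⁻¹ * e'⁻¹) := by group
      rw [e3]; exact L.mul_mem hl' h2
    have h4 : (QuotientGroup.mk' U) (l' * e' * l'⁻¹ * e'⁻¹) ∈ Lb := by
      rw [hLb]; exact ⟨_, h1, rfl⟩
    have h5 : (QuotientGroup.mk' U) (l' * e' * l'⁻¹ * e'⁻¹) ∈ Pb := by
      rw [map_mul, map_mul, map_mul, map_inv, map_inv]
      exact Pb.mul_mem (hPbn.conj_mem _ (hEbP (hEb_mem e' he')) _)
        (Pb.inv_mem (hEbP (hEb_mem e' he')))
    have h6 := hLP _ h4 h5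
    rw [map_mul, map_mul, map_mul, map_inv, map_inv] at h6
    calc (QuotientGroup.mk' U) l' * (QuotientGroup.mk' U) e'
        = ((QuotientGroup.mk' U) l' * (QuotientGroup.mk' U) e' * ((QuotientGroup.mk' U) l')⁻¹ *
            ((QuotientGroup.mk' U) e')⁻¹) * ((QuotientGroup.mk' U) e' * (QuotientGroup.mk' U) l') := by
          group
      _ = (QuotientGroup.mk' U) e' * (QuotientGroup.mk' U) l' := by rw [h6, one_mul]
  have hOmega : ∀ x : G ⧸ U, x ^ p = 1 → (∀ e ∈ Eb, x * e = e * x) → x ∈ Eb := by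
    intro x hxp hxE
    obtain ⟨Bb, hBb⟩ : ∃ Bb : Subgroup (G ⧸ U), Bb = Eb ⊔ Subgroup.zpowers x := ⟨_, rfl⟩
    have hxN : Subgroup.zpowers x ≤ Subgroup.normalizer (Eb : Set (G ⧸ U)) := by
      rw [Subgroup.zpowers_le]
      apply h8_mem_normalizer_of_conj_mem
      intro e he
      have h1 : x * e * x⁻¹ = e := by rw [hxE e he]; group
      rw [h1]; exact he
    have hBmem : ∀ b ∈ Bb, ∃ e ∈ Eb, ∃ i : ℤ, b = e * x ^ i := by
      intro b hb
      rw [hBb] at hb
      obtain ⟨e, he, a, ha, rfl⟩ := Cfsg.Agent.Lib.Helper7.exists_mul_of_mem_sup hxN hb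
      obtain ⟨i, rfl⟩ := Subgroup.mem_zpowers_iff.1 ha
      exact ⟨e, he, i, rfl⟩
    have hxi : ∀ (i : ℤ), ∀ e ∈ Eb, x ^ i * e = e * x ^ i := by
      intro i e he
      have hc : Commute x e := hxE e he
      exact (hc.zpow_left i).eq
    have hBcomm : ∀ a ∈ Bb, ∀ b ∈ Bb, a * b = b * a := by
      intro a ha b hb
      obtain ⟨e, he, i, rfl⟩ := hBmem a ha
      obtain ⟨f, hf, j, rfl⟩ := hBmem b hb
      have h1 := hxi i f hf
      have h2 := hxi j e he
      have h3 := hEbcomm e he f hf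
      have h4 : x ^ i * x ^ j = x ^ j * x ^ i := by rw [← zpow_add, ← zpow_add, add_comm]
      calc e * x ^ i * (f * x ^ j) = e * (x ^ i * f) * x ^ j := by simp only [mul_assoc]
        _ = e * (f * x ^ i) * x ^ j := by rw [h1]
        _ = (e * f) * (x ^ i * x ^ j) := by simp only [mul_assoc]
        _ = (f * e) * (x ^ j * x ^ i) := by rw [h3, h4]
        _ = f * (e * x ^ j) * x ^ i := by simp only [mul_assoc]
        _ = f * (x ^ j * e) * x ^ i := by rw [h2]
        _ = f * x ^ j * (e * x ^ i) := by simp only [mul_assoc]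
    have hBp : ∀ b ∈ Bb, b ^ p = 1 := by
      intro b hb
      obtain ⟨e, he, i, rfl⟩ := hBmem b hb
      have hc : Commute e (x ^ i) := (hxi i e he).symm
      have h1 : (x ^ i) ^ p = 1 := by
        rw [← zpow_natCast, ← zpow_mul, mul_comm, zpow_mul, zpow_natCast, hxp, one_zpow]
      rw [hc.mul_pow, hEbp e he, h1, one_mul]
    obtain ⟨X, hX⟩ : ∃ X : Subgroup G, X = Bb.comap (QuotientGroup.mk' U) := ⟨_, rfl⟩
    have hXmem : ∀ g : G, g ∈ X ↔ (QuotientGroup.mk' U) g ∈ Bb := by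
      intro g; rw [hX]; exact Subgroup.mem_comap
    have hEX : E ≤ X := by
      intro e he
      rw [hXmem, hBb]; exact Subgroup.mem_sup_left (hEb_mem e he)
    have hEpg : IsPGroup p E := by
      intro ⟨e, he⟩
      refine ⟨1, Subtype.ext ?_⟩
      show e ^ (p ^ 1) = 1
      rw [pow_one]; exact hE.2 e he
    obtain ⟨T, hT⟩ := (hEpg.comap_of_injective X.subtype X.subtype_injective).exists_le_sylow
    obtain ⟨TG, hTG⟩ : ∃ TG : Subgroup G, TG = (T : Subgroup X).map X.subtype := ⟨_, rfl⟩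
    have hTGp : IsPGroup p TG := by rw [hTG]; exact T.isPGroup'.map _
    have hTGX : TG ≤ X := by
      rw [hTG]; rintro _ ⟨w, -, rfl⟩; exact w.2
    have hETG : E ≤ TG := by
      intro e he
      rw [hTG]; exact ⟨⟨e, hEX he⟩, hT (Subgroup.mem_comap.2 he), rfl⟩
    have hTU : ∀ t, t ∈ TG → t ∈ U → t = 1 := by
      intro t ht hu
      obtain ⟨k, hk⟩ := hTGp ⟨t, ht⟩
      have hk' : t ^ (p ^ k) = 1 := by simpa using congrArg Subtype.val hk
      have h1 : orderOf t ∣ p ^ k := orderOf_dvd_of_pow_eq_one hk'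
      have h2 : orderOf t ∣ Nat.card U := by
        have := orderOf_dvd_natCard (⟨t, hu⟩ : U)
        rwa [Subgroup.orderOf_mk] at this
      have h3 : orderOf t = 1 :=
        Nat.Coprime.eq_one_of_dvd
          (Nat.Coprime.coprime_dvd_left h2 (Nat.Coprime.pow_right k hUp)) h1
      exact orderOf_eq_one_iff.1 h3
    have hTGel : Cfsg.IsElementaryAbelian p TG := by
      refine ⟨⟨⟨fun a b => ?_⟩⟩, ?_⟩
      · apply Subtype.ext
        show (a : G) * (b : G) = (b : G) * (a : G)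
        have ha : (QuotientGroup.mk' U) (a : G) ∈ Bb := (hXmem _).1 (hTGX a.2)
        have hb : (QuotientGroup.mk' U) (b : G) ∈ Bb := (hXmem _).1 (hTGX b.2)
        have h1 := hBcomm _ ha _ hb
        have h2 : (a : G) * b * ((b : G) * a)⁻¹ ∈ U := by
          rw [← QuotientGroup.eq_one_iff]
          show (QuotientGroup.mk' U) ((a : G) * b * ((b : G) * a)⁻¹) = 1
          rw [map_mul, map_mul, map_inv, map_mul, h1, mul_inv_cancel]
        have h3 := hTU _ (TG.mul_mem (TG.mul_mem a.2 b.2) (TG.inv_mem (TG.mul_mem b.2 a.2))) h2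
        exact mul_inv_eq_one.1 h3
      · intro t ht
        have h1 : (QuotientGroup.mk' U) t ∈ Bb := (hXmem _).1 (hTGX ht)
        have h2 : t ^ p ∈ U := by
          rw [← QuotientGroup.eq_one_iff]
          show (QuotientGroup.mk' U) (t ^ p) = 1
          rw [map_pow]; exact hBp _ h1
        exact hTU _ (TG.pow_mem ht p) h2
    have hTGE : TG = E := hEmax TG hTGel hETG
    have hXle : X ≤ TG ⊔ U := by
      have htop : (TG ⊔ U).subgroupOf X = ⊤ := by
        apply h8_eq_top_of_sylows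
        intro q hqf
        by_cases hqp : q = p
        · subst hqp
          refine ⟨T, fun t ht => ?_⟩
          rw [Subgroup.mem_subgroupOf]
          exact Subgroup.mem_sup_left (by rw [hTG]; exact ⟨t, ht, rfl⟩)
        · obtain ⟨Q⟩ := (inferInstance : Nonempty (Sylow q X))
          refine ⟨Q, fun y hy => ?_⟩
          rw [Subgroup.mem_subgroupOf]
          apply Subgroup.mem_sup_right
          rw [← QuotientGroup.eq_one_iff]
          have h1 : (QuotientGroup.mk' U) (y : G) ∈ Bb := (hXmem _).1 y.2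
          have h2 := hBp _ h1
          obtain ⟨j, hj⟩ := Q.isPGroup' ⟨y, hy⟩
          have hj' : (y : G) ^ (q ^ j) = 1 := by
            have := congrArg (fun w : (Q : Subgroup X) => ((w : X) : G)) hj
            simpa using this
          have h3 : ((QuotientGroup.mk' U) (y : G)) ^ (q ^ j) = 1 := by
            rw [← map_pow, hj', map_one]
          have h4 : orderOf ((QuotientGroup.mk' U) (y : G)) ∣ p := orderOf_dvd_of_pow_eq_one h2
          have h5 : orderOf ((QuotientGroup.mk' U) (y : G)) ∣ q ^ j :=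
            orderOf_dvd_of_pow_eq_one h3
          have h6 : Nat.Coprime p (q ^ j) :=
            Nat.Coprime.pow_right j ((Nat.coprime_primes hp hqf.out).2 (Ne.symm hqp))
          have h7 : orderOf ((QuotientGroup.mk' U) (y : G)) = 1 :=
            Nat.Coprime.eq_one_of_dvd (Nat.Coprime.coprime_dvd_left h4 h6) h5
          exact orderOf_eq_one_iff.1 h7
      intro g hg
      have h1 : (⟨g, hg⟩ : X) ∈ (TG ⊔ U).subgroupOf X := by rw [htop]; exact Subgroup.mem_top _
      exact Subgroup.mem_subgroupOf.1 h1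
    have hxB : x ∈ Bb := by
      rw [hBb]; exact Subgroup.mem_sup_right (Subgroup.mem_zpowers x)
    obtain ⟨g, hgx⟩ := QuotientGroup.mk_surjective x
    have hgX : g ∈ X := by
      rw [hXmem]
      have : (QuotientGroup.mk' U) g = x := hgx
      rw [this]; exact hxB
    have hg2 := hXle hgX
    rw [hTGE, sup_comm] at hg2
    obtain ⟨u, hu, e, he, hgue⟩ := Cfsg.Agent.Lib.Helper7.exists_mul_of_mem_sup (N := U) (A := E)
      (by rw [Subgroup.normalizer_eq_top]; exact le_top) hg2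
    have h9 : x = (QuotientGroup.mk' U) e := by
      rw [← hgx, hgue, QuotientGroup.mk_mul, (QuotientGroup.eq_one_iff u).2 hu, one_mul]; rfl
    rw [h9]; exact hEb_mem e he
  have hLbot : Lb = ⊥ :=
    h8_pprime_trivial_of_omega p hp2 Pb hPbp hCP Eb hEbP hOmega Lb hLbp hLE
  intro l hl
  rw [← QuotientGroup.eq_one_iff]
  have h1 : (QuotientGroup.mk' U) l ∈ Lb := by rw [hLb]; exact ⟨l, hl, rfl⟩
  rw [hLbot, Subgroup.mem_bot] at h1
  exact h1

theorem h8_s1462 {G : Type u} [Group G] [Finite G] [Group.IsSolvable G] (p : ℕ) [Fact p.Prime]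
    (hp2 : p ≠ 2) (hpl : Cfsg.PLengthLE p 1 G) (E L : Subgroup G)
    (hE : Cfsg.IsElementaryAbelian p E)
    (hEmax : ∀ B : Subgroup G, Cfsg.IsElementaryAbelian p B → E ≤ B → B = E)
    (hL : (Nat.card L).Coprime p) (hEL : E ≤ Subgroup.normalizer (L : Set G)) :
    L ≤ Cfsg.pPrimeCore p G := by
  have hp := (Fact.out : p.Prime)
  have hU₁eq : (Cfsg.upperPSeries p G 1).1 =
      (Cfsg.pPrimeCore p (G ⧸ (⊥ : Subgroup G))).comap (QuotientGroup.mk' ⊥) :=
    Cfsg.Agent.Lib.Helper1.upperPSeries_succ_even p G 0 ⟨0, rfl⟩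
  have hU₂eq : (Cfsg.upperPSeries p G 2).1 =
      (Cfsg.pCore p (G ⧸ (Cfsg.upperPSeries p G 1).1)).comap (QuotientGroup.mk' _) :=
    Cfsg.Agent.Lib.Helper1.upperPSeries_succ_odd p G 1 (by decide)
  have hU₃eq : (Cfsg.upperPSeries p G 3).1 =
      (Cfsg.pPrimeCore p (G ⧸ (Cfsg.upperPSeries p G 2).1)).comap (QuotientGroup.mk' _) :=
    Cfsg.Agent.Lib.Helper1.upperPSeries_succ_even p G 2 ⟨1, rfl⟩
  have hpl' : (Cfsg.upperPSeries p G 3).1 = ⊤ := hpl
  -- |U₁| is prime to p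
  have hU₁p : (Nat.card (Cfsg.upperPSeries p G 1).1).Coprime p := by
    rw [hU₁eq]
    have hinj : Function.Injective (QuotientGroup.mk' (⊥ : Subgroup G)) := by
      rw [← MonoidHom.ker_eq_bot_iff, QuotientGroup.ker_mk']
    rw [← Subgroup.card_map_of_injective hinj,
      Subgroup.map_comap_eq_self_of_surjective (QuotientGroup.mk'_surjective _)]
    exact Cfsg.Agent.Lib.Helper7.pPrimeCore_coprime p _
  have hO : Cfsg.pPrimeCore p (G ⧸ (Cfsg.upperPSeries p G 1).1) = ⊥ :=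
    Cfsg.Agent.Lib.Helper1.pPrimeCore_quotient_eq_bot_of_eq_comap p ⊥ _ hU₁eq
  -- G / U₂ is a p'-group
  have hU₂p : (Nat.card (G ⧸ (Cfsg.upperPSeries p G 2).1)).Coprime p := by
    have h1 : Cfsg.pPrimeCore p (G ⧸ (Cfsg.upperPSeries p G 2).1) = ⊤ := by
      rw [eq_top_iff]
      intro y _
      obtain ⟨g, rfl⟩ := QuotientGroup.mk_surjective y
      have h2 : g ∈ (Cfsg.upperPSeries p G 3).1 := by rw [hpl']; exact Subgroup.mem_top g
      rw [hU₃eq] at h2
      exact h2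
    have h3 := Cfsg.Agent.Lib.Helper7.pPrimeCore_coprime p (G ⧸ (Cfsg.upperPSeries p G 2).1)
    rw [h1, Subgroup.card_top] at h3
    exact h3
  have hU₁U₂ : (Cfsg.upperPSeries p G 1).1 ≤ (Cfsg.upperPSeries p G 2).1 := by
    intro u hu
    rw [hU₂eq, Subgroup.mem_comap]
    have : (QuotientGroup.mk' (Cfsg.upperPSeries p G 1).1) u = 1 :=
      (QuotientGroup.eq_one_iff u).2 hu
    rw [this]; exact Subgroup.one_mem _
  have hplx : ∀ x : G ⧸ (Cfsg.upperPSeries p G 1).1, x ^ p = 1 →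
      x ∈ Cfsg.pCore p (G ⧸ (Cfsg.upperPSeries p G 1).1) := by
    intro x hx
    obtain ⟨g, rfl⟩ := QuotientGroup.mk_surjective x
    have h1 : g ^ p ∈ (Cfsg.upperPSeries p G 1).1 := by
      rw [← QuotientGroup.eq_one_iff, QuotientGroup.mk_pow]; exact hx
    have h2 : (QuotientGroup.mk g : G ⧸ (Cfsg.upperPSeries p G 2).1) ^ p = 1 := by
      rw [← QuotientGroup.mk_pow]; exact (QuotientGroup.eq_one_iff _).2 (hU₁U₂ h1)
    have h3 : orderOf (QuotientGroup.mk g : G ⧸ (Cfsg.upperPSeries p G 2).1) ∣ p :=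
      orderOf_dvd_of_pow_eq_one h2
    have h4 : orderOf (QuotientGroup.mk g : G ⧸ (Cfsg.upperPSeries p G 2).1) ∣
        Nat.card (G ⧸ (Cfsg.upperPSeries p G 2).1) := orderOf_dvd_natCard _
    have h5 : orderOf (QuotientGroup.mk g : G ⧸ (Cfsg.upperPSeries p G 2).1) = 1 :=
      Nat.Coprime.eq_one_of_dvd (Nat.Coprime.coprime_dvd_left h4 hU₂p) h3
    have h6 : g ∈ (Cfsg.upperPSeries p G 2).1 :=
      (QuotientGroup.eq_one_iff g).1 (orderOf_eq_one_iff.1 h5)
    rw [hU₂eq] at h6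
    exact h6
  have hLU := h8_plength_one_aux p hp2 (Cfsg.upperPSeries p G 1).1 hU₁p hO hplx E L hE hEmax hL hEL
  exact hLU.trans (Cfsg.Agent.Lib.Helper7.le_pPrimeCore inferInstance hU₁p)

end Cfsg.Agent.Lib.Helper8
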