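import Mathlib
import Cfsg.Prelude.Def_Local
import Cfsg.Prelude.Def_Transfer
import Cfsg.Agent.Lib.Helper8.Basic
import Cfsg.Agent.Lib.Helper8.CNMax
import Cfsg.Agent.Lib.Helper8.FocalCtl
import Cfsg.Agent.Lib.Helper7.PCore
import Cfsg.Agent.Lib.Helper7.Coprime
import Cfsg.Agent.Lib.Helper1.UpperP

set_option autoImplicit false
set_option linter.style.haveILetI false
universe u

namespace Cfsg.Agent.Lib.Helper8

theorem h8_s1461_aux {G : Type u} [Group G] [Finite G] (p : ℕ) [Fact p.Prime]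
    (N K : Subgroup G) [hNn : N.Normal] [hKn : K.Normal] (hNp : (Nat.card N).Coprime p)
    (hKp : (Nat.card (G ⧸ K)).Coprime p)
    (hKN : ∀ k ∈ K, ∃ j : ℕ, k ^ (p ^ j) ∈ N) (S : Sylow p G) :
    ((S : Subgroup G) ≤ commutator G → (S : Subgroup G) ≤
        ⁅Subgroup.normalizer ((S : Subgroup G) : Set G),
          Subgroup.normalizer ((S : Subgroup G) : Set G)⁆) ∧
      (∀ (Y : Set G) (x : G), Y ⊆ (S : Subgroup G) →
        (fun y => x * y * x⁻¹) '' Y ⊆ (S : Subgroup G) →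
        ∃ g ∈ Subgroup.normalizer ((S : Subgroup G) : Set G),
          ∃ c ∈ Subgroup.centralizer Y, g * c = x) ∧
      ∀ Q : Subgroup G, IsPGroup p Q →
        ∃ x ∈ Subgroup.centralizer ((Q ⊓ (S : Subgroup G) : Subgroup G) : Set G),
          Q.map (MulAut.conj x).toMonoidHom ≤ (S : Subgroup G) := by
  have hp := (Fact.out : p.Prime)
  have hSK : (S : Subgroup G) ≤ K := by
    intro s hs
    obtain ⟨j, hj⟩ := S.isPGroup' ⟨s, hs⟩
    have hj' : s ^ (p ^ j) = 1 := by simpa using congrArg Subtype.val hj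
    have h2 : (QuotientGroup.mk s : G ⧸ K) ^ (p ^ j) = 1 := by
      rw [← QuotientGroup.mk_pow, hj']; rfl
    have h3 := orderOf_dvd_of_pow_eq_one h2
    have h4 : orderOf (QuotientGroup.mk s : G ⧸ K) ∣ Nat.card (G ⧸ K) := orderOf_dvd_natCard _
    have h5 : orderOf (QuotientGroup.mk s : G ⧸ K) = 1 :=
      Nat.Coprime.eq_one_of_dvd (Nat.Coprime.coprime_dvd_left h4 (Nat.Coprime.pow_right j hKp)) h3
    exact (QuotientGroup.eq_one_iff s).1 (orderOf_eq_one_iff.1 h5)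
  have hSN : ∀ t, t ∈ (S : Subgroup G) → t ∈ N → t = 1 := by
    intro t ht hu
    obtain ⟨k, hk⟩ := S.isPGroup' ⟨t, ht⟩
    have hk' : t ^ (p ^ k) = 1 := by simpa using congrArg Subtype.val hk
    have h1 : orderOf t ∣ p ^ k := orderOf_dvd_of_pow_eq_one hk'
    have h2 : orderOf t ∣ Nat.card N := by
      have := orderOf_dvd_natCard (⟨t, hu⟩ : N)
      rwa [Subgroup.orderOf_mk] at this
    have h3 : orderOf t = 1 :=
      Nat.Coprime.eq_one_of_dvd
        (Nat.Coprime.coprime_dvd_left h2 (Nat.Coprime.pow_right k hNp)) h1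
    exact orderOf_eq_one_iff.1 h3
  have hKle : K ≤ N ⊔ (S : Subgroup G) := by
    have htop : (N ⊔ (S : Subgroup G)).subgroupOf K = ⊤ := by
      apply h8_eq_top_of_sylows
      intro q hqf
      by_cases hqp : q = p
      · subst hqp
        refine ⟨S.subtype hSK, fun t ht => ?_⟩
        rw [Subgroup.mem_subgroupOf]
        rw [Sylow.coe_subtype, Subgroup.mem_subgroupOf] at ht
        exact Subgroup.mem_sup_right ht
      · obtain ⟨Q⟩ := (inferInstance : Nonempty (Sylow q K))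
        refine ⟨Q, fun y hy => ?_⟩
        rw [Subgroup.mem_subgroupOf]
        apply Subgroup.mem_sup_left
        rw [← QuotientGroup.eq_one_iff]
        obtain ⟨j, hj⟩ := Q.isPGroup' ⟨y, hy⟩
        have hj' : (y : G) ^ (q ^ j) = 1 := by
          have := congrArg (fun w : (Q : Subgroup K) => ((w : K) : G)) hj
          simpa using this
        obtain ⟨i, hi⟩ := hKN (y : G) y.2
        have h2 : ((QuotientGroup.mk (y : G) : G ⧸ N)) ^ (p ^ i) = 1 := by
          rw [← QuotientGroup.mk_pow]; exact (QuotientGroup.eq_one_iff _).2 hi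
        have h3 : ((QuotientGroup.mk (y : G) : G ⧸ N)) ^ (q ^ j) = 1 := by
          rw [← QuotientGroup.mk_pow, hj']; rfl
        have h4 := orderOf_dvd_of_pow_eq_one h2
        have h5 := orderOf_dvd_of_pow_eq_one h3
        have h6 : Nat.Coprime (p ^ i) (q ^ j) :=
          Nat.Coprime.pow _ _ ((Nat.coprime_primes hp hqf.out).2 (Ne.symm hqp))
        have h7 : orderOf (QuotientGroup.mk (y : G) : G ⧸ N) = 1 :=
          Nat.Coprime.eq_one_of_dvd (Nat.Coprime.coprime_dvd_left h4 h6) h5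
        exact orderOf_eq_one_iff.1 h7
    intro g hg
    have h1 : (⟨g, hg⟩ : K) ∈ (N ⊔ (S : Subgroup G)).subgroupOf K := by
      rw [htop]; exact Subgroup.mem_top _
    exact Subgroup.mem_subgroupOf.1 h1
  have hfact : ∀ x : G, ∃ g ∈ Subgroup.normalizer ((S : Subgroup G) : Set G), ∃ n ∈ N,
      x = g * n := by
    intro x
    have h1 : x ∈ K ⊔ Subgroup.normalizer ((S : Subgroup G) : Set G) := by
      have h0 : Subgroup.normalizer ((S : Subgroup G) : Set G) ⊔ K = ⊤ :=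
        Sylow.normalizer_sup_eq_top' S hSK
      rw [sup_comm, h0]; exact Subgroup.mem_top x
    obtain ⟨k, hk, g, hg, rfl⟩ := Cfsg.Agent.Lib.Helper7.exists_mul_of_mem_sup (N := K)
      (A := Subgroup.normalizer ((S : Subgroup G) : Set G))
      (le_top.trans_eq (Subgroup.normalizer_eq_top (H := K)).symm) h1
    obtain ⟨n, hn, s, hs, rfl⟩ := Cfsg.Agent.Lib.Helper7.exists_mul_of_mem_sup (N := N)
      (A := (S : Subgroup G)) (by rw [Subgroup.normalizer_eq_top]; exact le_top) (hKle hk)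
    refine ⟨s * g, mul_mem (Subgroup.le_normalizer hs) hg, (s * g)⁻¹ * n * (s * g), ?_,
      by group⟩
    have := hNn.conj_mem n hn (s * g)⁻¹
    rwa [inv_inv] at this
  have hkey : ∀ n ∈ N, ∀ y ∈ (S : Subgroup G), n * y * n⁻¹ ∈ (S : Subgroup G) →
      n * y = y * n := by
    intro n hn y hy hc
    have h1 : n * y * n⁻¹ * y⁻¹ ∈ (S : Subgroup G) := mul_mem hc (inv_mem hy)
    have h2 : n * y * n⁻¹ * y⁻¹ ∈ N := by
      have := hNn.conj_mem n⁻¹ (N.inv_mem hn) y
      have e : n * y * n⁻¹ * y⁻¹ = n * (y * n⁻¹ * y⁻¹) := by group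
      rw [e]; exact N.mul_mem hn this
    have h3 := hSN _ h1 h2
    calc n * y = (n * y * n⁻¹ * y⁻¹) * (y * n) := by group
      _ = y * n := by rw [h3, one_mul]
  have hnorm : ∀ g ∈ Subgroup.normalizer ((S : Subgroup G) : Set G), ∀ z,
      g * z * g⁻¹ ∈ (S : Subgroup G) → z ∈ (S : Subgroup G) :=
    fun g hg z hz => (Subgroup.mem_normalizer_iff.1 hg z).2 hz
  have hb : ∀ (Y : Set G) (x : G), Y ⊆ (S : Subgroup G) →
      (fun y => x * y * x⁻¹) '' Y ⊆ (S : Subgroup G) →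
      ∃ g ∈ Subgroup.normalizer ((S : Subgroup G) : Set G),
        ∃ c ∈ Subgroup.centralizer Y, g * c = x := by
    intro Y x hY hxY
    obtain ⟨g, hg, n, hn, rfl⟩ := hfact x
    refine ⟨g, hg, n, ?_, rfl⟩
    rw [Subgroup.mem_centralizer_iff]
    intro y hy
    have h1 : g * n * y * (g * n)⁻¹ ∈ (S : Subgroup G) := hxY ⟨y, hy, rfl⟩
    have h2 : n * y * n⁻¹ ∈ (S : Subgroup G) := by
      apply hnorm g hg
      have e : g * (n * y * n⁻¹) * g⁻¹ = g * n * y * (g * n)⁻¹ := by group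
      rw [e]; exact h1
    exact (hkey n hn y (hY hy) h2).symm
  have hc : ∀ Q : Subgroup G, IsPGroup p Q →
      ∃ x ∈ Subgroup.centralizer ((Q ⊓ (S : Subgroup G) : Subgroup G) : Set G),
        Q.map (MulAut.conj x).toMonoidHom ≤ (S : Subgroup G) := by
    intro Q hQ
    obtain ⟨h, hh⟩ := h8_exists_conj_sylow_ge S hQ
    obtain ⟨g, hg, n, hn, hgn⟩ := hfact h⁻¹
    have hQn : ∀ y ∈ Q, n * y * n⁻¹ ∈ (S : Subgroup G) := by
      intro y hy
      apply hnorm g hg
      have e : g * (n * y * n⁻¹) * g⁻¹ = (g * n) * y * (g * n)⁻¹ := by group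
      rw [e, ← hgn, inv_inv]; exact hh y hy
    refine ⟨n, ?_, ?_⟩
    · rw [Subgroup.mem_centralizer_iff]
      intro y hy
      have hy' : y ∈ Q ⊓ (S : Subgroup G) := hy
      exact (hkey n hn y hy'.2 (hQn y hy'.1)).symm
    · rintro _ ⟨y, hy, rfl⟩
      exact hQn y hy
  refine ⟨?_, hb, hc⟩
  intro hSG
  obtain ⟨H, hH⟩ : ∃ H : Subgroup G, H = Subgroup.normalizer ((S : Subgroup G) : Set G) :=
    ⟨_, rfl⟩
  rw [← hH]
  have hSH : (S : Subgroup G) ≤ H := by rw [hH]; exact Subgroup.le_normalizer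
  have hidx : Nat.Coprime p H.index := by
    have h1 : H.index ∣ (S : Subgroup G).index := Subgroup.index_dvd_of_le hSH
    have h2 : ¬ p ∣ (S : Subgroup G).index := S.not_dvd_index
    exact (Nat.Prime.coprime_iff_not_dvd hp).2 (fun h => h2 (h.trans h1))
  have hpelt : ∀ g ∈ H, (∃ k : ℕ, orderOf g = p ^ k) → g ∈ (S : Subgroup G) := by
    intro g hg ⟨k, hk⟩
    apply h8_mem_sylow_of_mem_normalizer S (by rw [← hH]; exact hg)
    exact IsPGroup.of_card (n := k) (by rw [Nat.card_zpowers, hk])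
  have hfus : ∀ g ∈ H, (∃ k : ℕ, orderOf g = p ^ k) → ∀ a : G, a * g * a⁻¹ ∈ H →
      ∃ h ∈ H, h * g * h⁻¹ = a * g * a⁻¹ := by
    intro g hg hgp a ha
    have hgS := hpelt g hg hgp
    have haS : a * g * a⁻¹ ∈ (S : Subgroup G) :=
      hpelt _ ha (by obtain ⟨k, hk⟩ := hgp; exact ⟨k, by rw [h8_orderOf_conj]; exact hk⟩)
    obtain ⟨h, hh, c, hc', rfl⟩ := hb {g} a
      (by intro y hy; rw [Set.mem_singleton_iff] at hy; rw [hy]; exact hgS)
      (by rintro _ ⟨y, hy, rfl⟩; rw [Set.mem_singleton_iff] at hy; rw [hy]; exact haS)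
    refine ⟨h, by rw [hH]; exact hh, ?_⟩
    rw [Subgroup.mem_centralizer_iff] at hc'
    have h9 := hc' g (Set.mem_singleton g)
    calc h * g * h⁻¹ = h * (g * c) * c⁻¹ * h⁻¹ := by group
      _ = h * (c * g) * c⁻¹ * h⁻¹ := by rw [h9]
      _ = h * c * g * (h * c)⁻¹ := by group
  have hfoc := h8_s1242 (p := p) H hidx hfus
  intro s hs
  have h1 : s ∈ (Cfsg.pResidual p G ⊔ commutator G) ⊓ H :=
    ⟨Subgroup.mem_sup_right (hSG hs), hSH hs⟩
  rw [hfoc] at h1
  obtain ⟨s', hs', rfl⟩ := h1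
  obtain ⟨j, hj⟩ := S.isPGroup' ⟨H.subtype s', hs⟩
  have hj' : s' ^ (p ^ j) = 1 := by
    apply Subtype.ext
    have := congrArg Subtype.val hj
    simpa using this
  have h2 := h8_pelt_mem_commutator s' j hj' hs'
  rw [← Subgroup.map_subtype_commutator]
  exact ⟨s', h2, rfl⟩

theorem h8_s1461 {G : Type u} [Group G] [Finite G] [Group.IsSolvable G] (p : ℕ) [Fact p.Prime]
    (hpl : Cfsg.PLengthLE p 1 G) (S : Sylow p G) :
    ((S : Subgroup G) ≤ commutator G → (S : Subgroup G) ≤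
        ⁅Subgroup.normalizer ((S : Subgroup G) : Set G),
          Subgroup.normalizer ((S : Subgroup G) : Set G)⁆) ∧
      (∀ (Y : Set G) (x : G), Y ⊆ (S : Subgroup G) →
        (fun y => x * y * x⁻¹) '' Y ⊆ (S : Subgroup G) →
        ∃ g ∈ Subgroup.normalizer ((S : Subgroup G) : Set G),
          ∃ c ∈ Subgroup.centralizer Y, g * c = x) ∧
      ∀ Q : Subgroup G, IsPGroup p Q →
        ∃ x ∈ Subgroup.centralizer ((Q ⊓ (S : Subgroup G) : Subgroup G) : Set G),
          Q.map (MulAut.conj x).toMonoidHom ≤ (S : Subgroup G) := by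
  have hp := (Fact.out : p.Prime)
  have hU₁eq : (Cfsg.upperPSeries p G 1).1 =
      (Cfsg.pPrimeCore p (G ⧸ (⊥ : Subgroup G))).comap (QuotientGroup.mk' ⊥) :=
    Cfsg.Agent.Lib.Helper1.upperPSeries_succ_even p G 0 ⟨0, rfl⟩
  have hU₂eq : (Cfsg.upperPSeries p G 2).1 =
      (Cfsg.pCore p (G ⧸ (Cfsg.upperPSeries p G 1).1)).comap (QuotientGroup.mk' _) :=
    Cfsg.Agent.Lib.Helper1.upperPSeries_succ_odd p G 1 (by decide)
  have hU₃eq : (Cfsg.upperPSeries p G 3).1 =
      (Cfsg.pPrimeCore p (G ⧸ (Cfsg.upperPSeries p G 2).1)).comap (QuotientGroup.mk' _) :=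
    Cfsg.Agent.Lib.Helper1.upperPSeries_succ_even p G 2 ⟨1, rfl⟩
  have hpl' : (Cfsg.upperPSeries p G 3).1 = ⊤ := hpl
  have hU₁p : (Nat.card (Cfsg.upperPSeries p G 1).1).Coprime p := by
    rw [hU₁eq]
    have hinj : Function.Injective (QuotientGroup.mk' (⊥ : Subgroup G)) := by
      rw [← MonoidHom.ker_eq_bot_iff, QuotientGroup.ker_mk']
    rw [← Subgroup.card_map_of_injective hinj,
      Subgroup.map_comap_eq_self_of_surjective (QuotientGroup.mk'_surjective _)]
    exact Cfsg.Agent.Lib.Helper7.pPrimeCore_coprime p _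
  have hU₂p : (Nat.card (G ⧸ (Cfsg.upperPSeries p G 2).1)).Coprime p := by
    have h1 : Cfsg.pPrimeCore p (G ⧸ (Cfsg.upperPSeries p G 2).1) = ⊤ := by
      rw [eq_top_iff]
      intro y _
      obtain ⟨g, rfl⟩ := QuotientGroup.mk_surjective y
      have h2 : g ∈ (Cfsg.upperPSeries p G 3).1 := by rw [hpl']; exact Subgroup.mem_top g
      rw [hU₃eq] at h2
      exact h2
    have h3 := Cfsg.Agent.Lib.Helper7.pPrimeCore_coprime p (G ⧸ (Cfsg.upperPSeries p G 2).1)
    rw [h1, Subgroup.card_top] at h3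
    exact h3
  have hKN : ∀ k ∈ (Cfsg.upperPSeries p G 2).1, ∃ j : ℕ,
      k ^ (p ^ j) ∈ (Cfsg.upperPSeries p G 1).1 := by
    intro k hk
    rw [hU₂eq, Subgroup.mem_comap] at hk
    obtain ⟨j, hj⟩ := Cfsg.Agent.Lib.Helper7.pCore_isPGroup p _ ⟨_, hk⟩
    have hj' : ((QuotientGroup.mk' (Cfsg.upperPSeries p G 1).1) k) ^ (p ^ j) = 1 := by
      simpa using congrArg Subtype.val hj
    refine ⟨j, ?_⟩
    rw [← QuotientGroup.eq_one_iff, QuotientGroup.mk_pow]
    exact hj'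
  exact h8_s1461_aux p (Cfsg.upperPSeries p G 1).1 (Cfsg.upperPSeries p G 2).1 hU₁p hU₂p hKN S

end Cfsg.Agent.Lib.Helper8
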