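import Mathlib
import Cfsg.Prelude.Def_Transfer
import Cfsg.Agent.Lib.Helper2.PResidual
import Cfsg.Agent.Lib.Helper7.SZ
import Cfsg.Agent.Lib.Helper8.Invol

set_option autoImplicit false

namespace Cfsg.Agent.Lib.Helper8

open scoped Pointwise

universe u

/-- a homomorphism from `O^p(G)` to a `p`-group is trivial -/
theorem h8_pres_hom_trivial {G : Type u} [Group G] {Q : Type u} [Group Q] (p : ℕ)
    (f : ↥(Cfsg.pResidual p G) →* Q) (hQ : IsPGroup p Q) (x : ↥(Cfsg.pResidual p G)) :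
    f x = 1 := by
  have hle : Cfsg.pResidual p G ≤ f.ker.map (Cfsg.pResidual p G).subtype := by
    have : Cfsg.pResidual p G = Subgroup.closure {g : G | Nat.Coprime (orderOf g) p} := rfl
    conv_lhs => rw [this]
    rw [Subgroup.closure_le]
    intro g hg
    have hg' : Nat.Coprime (orderOf g) p := hg
    have hgN : g ∈ Cfsg.pResidual p G := Cfsg.Agent.Lib.Helper2.mem_pResidual_of_coprime hg'
    refine ⟨⟨g, hgN⟩, ?_, rfl⟩
    show (⟨g, hgN⟩ : ↥(Cfsg.pResidual p G)) ∈ f.ker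
    rw [MonoidHom.mem_ker]
    obtain ⟨k, hk⟩ := hQ (f ⟨g, hgN⟩)
    have h1 : orderOf (f ⟨g, hgN⟩) ∣ p ^ k := orderOf_dvd_of_pow_eq_one hk
    have h2 : orderOf (f ⟨g, hgN⟩) ∣ orderOf (⟨g, hgN⟩ : ↥(Cfsg.pResidual p G)) :=
      orderOf_map_dvd f _
    have h2' : orderOf (⟨g, hgN⟩ : ↥(Cfsg.pResidual p G)) = orderOf g := by
      rw [← Subgroup.orderOf_coe]
    rw [h2'] at h2
    have h3 : orderOf (f ⟨g, hgN⟩) = 1 :=
      Nat.eq_one_of_dvd_coprimes (Nat.Coprime.pow_right k hg') h2 h1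
    exact orderOf_eq_one_iff.mp h3
  obtain ⟨y, hy, hyx⟩ := hle x.2
  have : y = x := Subtype.ext hyx
  rw [← this]
  exact MonoidHom.mem_ker.1 hy

/-- `C_D(N_N(D)) = 1` for an abelian Sylow `p`-subgroup `D` of `N = O^p(G)` -/
theorem h8_pres_fix {G : Type u} [Group G] [Finite G] (p : ℕ) [Fact p.Prime]
    (D : Sylow p ↥(Cfsg.pResidual p G))
    (hD : IsMulCommutative (D : Subgroup ↥(Cfsg.pResidual p G)))
    (z : ↥(Cfsg.pResidual p G)) (hz : z ∈ (D : Subgroup ↥(Cfsg.pResidual p G)))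
    (hzc : ∀ m ∈ Subgroup.normalizer ((D : Subgroup ↥(Cfsg.pResidual p G)) : Set _),
      m * z = z * m) : z = 1 := by
  have hp : p.Prime := Fact.out
  have key : ∀ (k : ℕ) (g₀ : ↥(Cfsg.pResidual p G)),
      g₀⁻¹ * z ^ k * g₀ ∈ (D : Subgroup ↥(Cfsg.pResidual p G)) → g₀⁻¹ * z ^ k * g₀ = z ^ k := by
    intro k g₀ hy
    obtain ⟨n, hn, hn2⟩ := Sylow.conj_eq_normalizer_conj_of_mem D (z ^ k) g₀ (pow_mem hz k) hy
    rw [hn2]
    have h1 : n * z = z * n := hzc n hn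
    have h2 : n * z ^ k = z ^ k * n := ((Commute.pow_right (show Commute n z from h1) k)).eq
    rw [mul_assoc, ← h2, ← mul_assoc, inv_mul_cancel, one_mul]
  let _ : CommGroup (D : Subgroup ↥(Cfsg.pResidual p G)) :=
    { (inferInstance : Group (D : Subgroup ↥(Cfsg.pResidual p G))) with
      mul_comm := hD.is_comm.comm }
  have h1 := MonoidHom.transfer_eq_pow (MonoidHom.id (D : Subgroup ↥(Cfsg.pResidual p G))) z key
  have h2 := h8_pres_hom_trivial p
    (MonoidHom.transfer (MonoidHom.id (D : Subgroup ↥(Cfsg.pResidual p G)))) D.2 z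
  rw [h2] at h1
  have h3 : z ^ (D : Subgroup ↥(Cfsg.pResidual p G)).index = 1 := by
    have := congrArg Subtype.val h1
    simpa using this.symm
  obtain ⟨k, hk⟩ := D.2 ⟨z, hz⟩
  have hk' : z ^ p ^ k = 1 := by
    have := congrArg Subtype.val hk
    simpa using this
  have h4 : orderOf z ∣ (D : Subgroup ↥(Cfsg.pResidual p G)).index := orderOf_dvd_of_pow_eq_one h3
  have h5 : orderOf z ∣ p ^ k := orderOf_dvd_of_pow_eq_one hk'
  have hcop : Nat.Coprime ((D : Subgroup ↥(Cfsg.pResidual p G)).index) (p ^ k) :=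
    Nat.Coprime.pow_right k (Nat.Coprime.symm ((Nat.Prime.coprime_iff_not_dvd hp).2 D.not_dvd_index))
  exact orderOf_eq_one_iff.mp (Nat.eq_one_of_dvd_coprimes hcop h4 h5)

/-- cardinality of a factorised subgroup -/
theorem h8_card_of_factor {G : Type u} [Group G] [Finite G] (A B C : Subgroup G)
    (hA : A ≤ C) (hB : B ≤ C) (hdisj : ∀ x ∈ A, x ∈ B → x = 1)
    (hgen : ∀ c ∈ C, ∃ a ∈ A, ∃ b ∈ B, c = a * b) :
    Nat.card A * Nat.card B = Nat.card C := by
  rw [← Nat.card_prod]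
  refine Nat.card_congr (Equiv.ofBijective
    (fun x : A × B => (⟨x.1.1 * x.2.1, C.mul_mem (hA x.1.2) (hB x.2.2)⟩ : C)) ⟨?_, ?_⟩)
  · rintro ⟨⟨a, ha⟩, ⟨b, hb⟩⟩ ⟨⟨a', ha'⟩, ⟨b', hb'⟩⟩ h
    have h1 : a * b = a' * b' := congrArg Subtype.val h
    have h2 : a'⁻¹ * a = b' * b⁻¹ := by
      calc a'⁻¹ * a = a'⁻¹ * (a * b) * b⁻¹ := by group
        _ = a'⁻¹ * (a' * b') * b⁻¹ := by rw [h1]
        _ = b' * b⁻¹ := by group
    have h3 : a'⁻¹ * a = 1 :=
      hdisj _ (A.mul_mem (A.inv_mem ha') ha) (h2 ▸ B.mul_mem hb' (B.inv_mem hb))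
    have h4 : a = a' := by
      calc a = a' * (a'⁻¹ * a) := by group
        _ = a' := by rw [h3, mul_one]
    have h5 : b = b' := by
      have : b' * b⁻¹ = 1 := by rw [← h2, h3]
      calc b = (b' * b⁻¹)⁻¹ * b' := by group
        _ = b' := by rw [this]; group
    subst h4; subst h5; rfl
  · rintro ⟨c, hc⟩
    obtain ⟨a, ha, b, hb, rfl⟩ := hgen c hc
    exact ⟨(⟨a, ha⟩, ⟨b, hb⟩), rfl⟩

/-- key lemma: a normal subgroup `M` of `H` of `p`-power index with a normal abelian Sylow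
`p`-subgroup `D` such that `C_D(M) = 1` has a complement in `H` -/
theorem h8_compl_normal_sylow {G : Type u} [Group G] [Finite G] (p : ℕ) [Fact p.Prime]
    (H M D : Subgroup G) (hDM : D ≤ M) (hMH : M ≤ H)
    (hHM : H ≤ Subgroup.normalizer (M : Set G)) (hHD : H ≤ Subgroup.normalizer (D : Set G))
    (hDab : ∀ a ∈ D, ∀ b ∈ D, a * b = b * a) (hDp : IsPGroup p D)
    (hMD : ¬ p ∣ D.relIndex M) (a : ℕ) (hHMp : Nat.card H = Nat.card M * p ^ a)
    (hfix : ∀ z ∈ D, (∀ m ∈ M, m * z = z * m) → z = 1) :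
    ∃ K : Subgroup G, K ≤ H ∧ K ⊓ M = ⊥ ∧ Nat.card K * Nat.card M = Nat.card H := by
  classical
  have hp : p.Prime := Fact.out
  -- Schur–Zassenhaus in `M`
  have hD₀n : (D.subgroupOf M).Normal :=
    Subgroup.normal_subgroupOf_of_le_normalizer (hMH.trans hHD)
  have hcardD₀ : Nat.card (D.subgroupOf M) = Nat.card D :=
    Nat.card_congr (Subgroup.subgroupOfEquivOfLe hDM).toEquiv
  obtain ⟨k, hk⟩ := IsPGroup.iff_card.mp hDp
  have hcop : Nat.Coprime (Nat.card (D.subgroupOf M)) (D.subgroupOf M).index := by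
    rw [hcardD₀, hk]
    exact Nat.Coprime.pow_left k ((Nat.Prime.coprime_iff_not_dvd hp).2 hMD)
  obtain ⟨L₀, hc⟩ := Subgroup.exists_right_complement'_of_coprime hcop
  obtain ⟨L, hL⟩ : ∃ L : Subgroup G, L = L₀.map M.subtype := ⟨_, rfl⟩
  have hLM : L ≤ M := by rw [hL]; exact Subgroup.map_subtype_le L₀
  have hL₀mem : ∀ x : M, x ∈ L₀ ↔ (x : G) ∈ L := by
    intro x
    rw [hL]
    constructor
    · intro hx; exact ⟨x, hx, rfl⟩
    · rintro ⟨y, hy, hyx⟩
      have : y = x := Subtype.ext hyx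
      rwa [← this]
  have hLD : ∀ x, x ∈ L → x ∈ D → x = 1 := by
    intro x hxL hxD
    have hxM : x ∈ M := hLM hxL
    have h1 : (⟨x, hxM⟩ : M) ∈ L₀ := (hL₀mem _).2 hxL
    have h2 : (⟨x, hxM⟩ : M) ∈ D.subgroupOf M := Subgroup.mem_subgroupOf.2 hxD
    have h3 : (⟨x, hxM⟩ : M) ∈ (D.subgroupOf M) ⊓ L₀ := ⟨h2, h1⟩
    rw [hc.disjoint.eq_bot, Subgroup.mem_bot] at h3
    exact congrArg Subtype.val h3
  have hMDL : ∀ m ∈ M, ∃ d ∈ D, ∃ l ∈ L, m = d * l := by
    intro m hm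
    obtain ⟨x, hx⟩ := (Subgroup.isComplement_iff_existsUnique.1 hc ⟨m, hm⟩).exists
    refine ⟨(x.1.1 : G), Subgroup.mem_subgroupOf.1 x.1.2, (x.2.1 : G), (hL₀mem _).1 x.2.2, ?_⟩
    have := congrArg Subtype.val hx
    simpa using this.symm
  have hcardL : Nat.card L = Nat.card L₀ := by
    rw [hL]; exact Subgroup.card_map_of_injective M.subtype_injective
  have hcardDL : Nat.card D * Nat.card L = Nat.card M := by
    rw [hcardL, ← hcardD₀]; exact hc.card_mul_card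
  have hLp : ¬ p ∣ Nat.card L := by
    have h1 : (D.subgroupOf M).index = Nat.card L₀ := hc.symm.index_eq_card
    rw [hcardL, ← h1]; exact hMD
  -- conjugacy of complements
  have hsolv : Group.IsSolvable ↥(D.subgroupOf M) := by
    apply Group.isSolvable_of_comm
    intro x y
    apply Subtype.ext
    apply Subtype.ext
    exact hDab _ (Subgroup.mem_subgroupOf.1 x.2) _ (Subgroup.mem_subgroupOf.1 y.2)
  have hconj : ∀ h ∈ H, ∃ m ∈ M, m⁻¹ * h ∈ Subgroup.normalizer (L : Set G) := by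
    intro h hh
    have hhM : ∀ x, x ∈ M → h * x * h⁻¹ ∈ M := fun x hx =>
      (Subgroup.mem_normalizer_iff.1 (hHM hh) x).1 hx
    obtain ⟨Lh, hLh⟩ : ∃ Lh : Subgroup G, Lh = L.map (MulAut.conj h).toMonoidHom := ⟨_, rfl⟩
    have hLhM : Lh ≤ M := by
      rw [hLh]
      rintro _ ⟨l, hl, rfl⟩
      simpa using hhM l (hLM hl)
    have hcardLh : Nat.card (Lh.subgroupOf M) = Nat.card L₀ := by
      rw [Nat.card_congr (Subgroup.subgroupOfEquivOfLe hLhM).toEquiv, hLh,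
        Subgroup.card_map_of_injective (MulAut.conj h).injective, hcardL]
    have hdisj : Disjoint (D.subgroupOf M) (Lh.subgroupOf M) := by
      rw [Subgroup.disjoint_def]
      intro x hxD hxL
      have hxD' : (x : G) ∈ D := Subgroup.mem_subgroupOf.1 hxD
      have hxL' : (x : G) ∈ Lh := Subgroup.mem_subgroupOf.1 hxL
      rw [hLh] at hxL'
      obtain ⟨l, hl, hlx⟩ := hxL'
      have hlx' : h * l * h⁻¹ = (x : G) := by simpa using hlx
      have hlD : l ∈ D := by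
        have h1 : h⁻¹ ∈ Subgroup.normalizer (D : Set G) := inv_mem (hHD hh)
        have h2 := (Subgroup.mem_normalizer_iff.1 h1 (x : G)).1 hxD'
        have h3 : h⁻¹ * (x : G) * h⁻¹⁻¹ = l := by rw [← hlx']; group
        rwa [h3] at h2
      have hl1 : l = 1 := hLD l hl hlD
      apply Subtype.ext
      rw [← hlx', hl1]; simp
    have hc' : Subgroup.IsComplement' (D.subgroupOf M) (Lh.subgroupOf M) :=
      Subgroup.isComplement'_of_card_mul_and_disjoint (by rw [hcardLh]; exact hc.card_mul_card)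
        hdisj
    obtain ⟨g, hg⟩ := Cfsg.Agent.Lib.Helper7.sz_conj (D.subgroupOf M) hcop (Or.inl hsolv)
      L₀ (Lh.subgroupOf M) hc hc'
    refine ⟨(g : G), g.2, ?_⟩
    have hx : ((g : G)⁻¹ * h)⁻¹ ∈ Subgroup.normalizer (L : Set G) := by
      apply h8_mem_normalizer_of_conj_mem
      intro l hl
      have hlM : l ∈ M := hLM hl
      have h1 : (⟨l, hlM⟩ : M) ∈ L₀ := (hL₀mem _).2 hl
      have h2 : MulAut.conj g • (⟨l, hlM⟩ : M) ∈ MulAut.conj g • L₀ :=
        Subgroup.smul_mem_pointwise_smul _ _ _ h1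
      rw [hg] at h2
      have h3 : ((MulAut.conj g • (⟨l, hlM⟩ : M) : M) : G) ∈ Lh := Subgroup.mem_subgroupOf.1 h2
      have h4 : ((MulAut.conj g • (⟨l, hlM⟩ : M) : M) : G) = (g : G) * l * (g : G)⁻¹ := by
        simp [MulAut.smul_def]
      rw [h4, hLh] at h3
      obtain ⟨l', hl', hl'x⟩ := h3
      have hl'x' : h * l' * h⁻¹ = (g : G) * l * (g : G)⁻¹ := by simpa using hl'x
      have h5 : ((g : G)⁻¹ * h)⁻¹ * l * ((g : G)⁻¹ * h)⁻¹⁻¹ = l' := by
        calc ((g : G)⁻¹ * h)⁻¹ * l * ((g : G)⁻¹ * h)⁻¹⁻¹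
            = h⁻¹ * ((g : G) * l * (g : G)⁻¹) * h := by group
          _ = h⁻¹ * (h * l' * h⁻¹) * h := by rw [hl'x']
          _ = l' := by group
      rw [h5]; exact hl'
    have := inv_mem hx
    rwa [inv_inv] at this
  -- the normalizer `X` of `L` in `H`
  obtain ⟨X, hX⟩ : ∃ X : Subgroup G, X = Subgroup.normalizer (L : Set G) ⊓ H := ⟨_, rfl⟩
  have hXH : X ≤ H := by rw [hX]; exact inf_le_right
  have hLX : L ≤ X := by
    rw [hX]; exact le_inf Subgroup.le_normalizer (hLM.trans hMH)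
  have hHDX : ∀ h ∈ H, ∃ d ∈ D, ∃ x ∈ X, h = d * x := by
    intro h hh
    obtain ⟨m, hm, hmh⟩ := hconj h hh
    obtain ⟨d, hd, l, hl, hml⟩ := hMDL m hm
    refine ⟨d, hd, l * (m⁻¹ * h), X.mul_mem (hLX hl) ?_, ?_⟩
    · rw [hX]; exact ⟨hmh, H.mul_mem (H.inv_mem (hMH hm)) hh⟩
    · rw [hml]; group
  have hDX : ∀ d ∈ D, d ∈ X → d = 1 := by
    intro d hd hdX
    apply hfix d hd
    intro m hm
    obtain ⟨d', hd', l, hl, hml⟩ := hMDL m hm
    have hdN : d ∈ Subgroup.normalizer (L : Set G) := by rw [hX] at hdX; exact hdX.1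
    have h1 : d * l * d⁻¹ * l⁻¹ ∈ L :=
      L.mul_mem ((Subgroup.mem_normalizer_iff.1 hdN l).1 hl) (L.inv_mem hl)
    have h2 : d * l * d⁻¹ * l⁻¹ ∈ D := by
      have hlN : l ∈ Subgroup.normalizer (D : Set G) := hHD (hMH (hLM hl))
      have h3 : l * d⁻¹ * l⁻¹ ∈ D := (Subgroup.mem_normalizer_iff.1 hlN d⁻¹).1 (D.inv_mem hd)
      have h4 : d * l * d⁻¹ * l⁻¹ = d * (l * d⁻¹ * l⁻¹) := by group
      rw [h4]; exact D.mul_mem hd h3
    have h3 : d * l * d⁻¹ * l⁻¹ = 1 := hLD _ h1 h2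
    have h4 : d * l = l * d := by
      calc d * l = (d * l * d⁻¹ * l⁻¹) * (l * d) := by group
        _ = l * d := by rw [h3, one_mul]
    have h5 : d' * d = d * d' := hDab d' hd' d hd
    rw [hml]
    calc d' * l * d = d' * (l * d) := by group
      _ = d' * (d * l) := by rw [h4]
      _ = (d' * d) * l := by group
      _ = (d * d') * l := by rw [h5]
      _ = d * (d' * l) := by group
  have hXM : ∀ m ∈ M, m ∈ X → m ∈ L := by
    intro m hm hmX
    obtain ⟨d, hd, l, hl, hml⟩ := hMDL m hm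
    have h1 : d = m * l⁻¹ := by rw [hml]; group
    have h2 : d ∈ X := by rw [h1]; exact X.mul_mem hmX (X.inv_mem (hLX hl))
    have h3 : d = 1 := hDX d hd h2
    rw [hml, h3, one_mul]; exact hl
  have hcardDX : Nat.card D * Nat.card X = Nat.card H :=
    h8_card_of_factor D X H (hDM.trans hMH) hXH hDX hHDX
  have hcardX : Nat.card X = Nat.card L * p ^ a := by
    have h1 : Nat.card D * Nat.card X = Nat.card D * (Nat.card L * p ^ a) := by
      rw [hcardDX, hHMp, ← hcardDL, mul_assoc]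
    exact Nat.eq_of_mul_eq_mul_left Nat.card_pos h1
  -- a Sylow `p`-subgroup of `X`
  obtain ⟨K₀⟩ : Nonempty (Sylow p X) := inferInstance
  obtain ⟨K, hK⟩ : ∃ K : Subgroup G, K = (K₀ : Subgroup X).map X.subtype := ⟨_, rfl⟩
  have hKX : K ≤ X := by rw [hK]; exact Subgroup.map_subtype_le _
  have hcardK : Nat.card K = p ^ a := by
    rw [hK, Subgroup.card_map_of_injective X.subtype_injective, K₀.card_eq_multiplicity, hcardX,
      Nat.factorization_mul (Nat.card_pos.ne') (pow_pos hp.pos a).ne',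
      Nat.Prime.factorization_pow hp]
    simp [Nat.factorization_eq_zero_of_not_dvd hLp]
  refine ⟨K, hKX.trans hXH, ?_, ?_⟩
  · rw [eq_bot_iff]
    rintro x ⟨hxK, hxM⟩
    rw [Subgroup.mem_bot]
    have hxL : x ∈ L := hXM x hxM (hKX hxK)
    have h1 : orderOf x ∣ Nat.card L := by
      have h2 : orderOf (⟨x, hxL⟩ : L) ∣ Nat.card L := orderOf_dvd_natCard _
      rwa [← Subgroup.orderOf_coe] at h2
    have h2 : orderOf x ∣ p ^ a := by
      have h3 : orderOf (⟨x, hxK⟩ : K) ∣ Nat.card K := orderOf_dvd_natCard _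
      rwa [← Subgroup.orderOf_coe, hcardK] at h3
    have hcop' : Nat.Coprime (Nat.card L) (p ^ a) :=
      Nat.Coprime.pow_right a (Nat.Coprime.symm ((Nat.Prime.coprime_iff_not_dvd hp).2 hLp))
    exact orderOf_eq_one_iff.mp (Nat.eq_one_of_dvd_coprimes hcop' h1 h2)
  · rw [hcardK, hHMp, mul_comm]

theorem h8_s0092 {G : Type u} [Group G] [Finite G] {p : ℕ} [Fact p.Prime]
    (h : ∀ Q : Sylow p (Cfsg.pResidual p G), IsMulCommutative Q) :
    ∃ K : Subgroup G, K.IsComplement' (Cfsg.pResidual p G) := by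
  classical
  have hp : p.Prime := Fact.out
  have hNn : (Cfsg.pResidual p G).Normal := Cfsg.Agent.Lib.Helper2.pResidual_normal p G
  obtain ⟨D₀⟩ : Nonempty (Sylow p ↥(Cfsg.pResidual p G)) := inferInstance
  have hfr := Sylow.normalizer_sup_eq_top D₀
  have hD₀ab : IsMulCommutative (D₀ : Subgroup ↥(Cfsg.pResidual p G)) := h D₀
  obtain ⟨D, hD⟩ : ∃ D : Subgroup G,
      D = (D₀ : Subgroup ↥(Cfsg.pResidual p G)).map (Cfsg.pResidual p G).subtype := ⟨_, rfl⟩
  rw [← hD] at hfr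
  obtain ⟨H, hH⟩ : ∃ H : Subgroup G, H = Subgroup.normalizer (D : Set G) := ⟨_, rfl⟩
  rw [← hH] at hfr
  obtain ⟨M, hM⟩ : ∃ M : Subgroup G, M = Cfsg.pResidual p G ⊓ H := ⟨_, rfl⟩
  have hDN : D ≤ Cfsg.pResidual p G := by rw [hD]; exact Subgroup.map_subtype_le _
  have hDH : D ≤ H := by rw [hH]; exact Subgroup.le_normalizer
  have hDM : D ≤ M := by rw [hM]; exact le_inf hDN hDH
  have hMH : M ≤ H := by rw [hM]; exact inf_le_right
  have hMN : M ≤ Cfsg.pResidual p G := by rw [hM]; exact inf_le_left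
  have hHM : H ≤ Subgroup.normalizer (M : Set G) := by
    intro x hx
    apply h8_mem_normalizer_of_conj_mem
    intro m hm
    rw [hM] at hm ⊢
    exact ⟨hNn.conj_mem m hm.1 x, H.mul_mem (H.mul_mem hx hm.2) (H.inv_mem hx)⟩
  have hHD : H ≤ Subgroup.normalizer (D : Set G) := by rw [hH]
  have hD₀mem : ∀ x : ↥(Cfsg.pResidual p G),
      x ∈ (D₀ : Subgroup ↥(Cfsg.pResidual p G)) ↔ (x : G) ∈ D := by
    intro x
    rw [hD]
    constructor
    · intro hx; exact ⟨x, hx, rfl⟩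
    · rintro ⟨y, hy, hyx⟩
      have : y = x := Subtype.ext hyx
      rwa [← this]
  have hDab : ∀ a ∈ D, ∀ b ∈ D, a * b = b * a := by
    intro a ha b hb
    have haN : a ∈ Cfsg.pResidual p G := hDN ha
    have hbN : b ∈ Cfsg.pResidual p G := hDN hb
    have ha' : (⟨a, haN⟩ : ↥(Cfsg.pResidual p G)) ∈ (D₀ : Subgroup ↥(Cfsg.pResidual p G)) :=
      (hD₀mem _).2 ha
    have hb' : (⟨b, hbN⟩ : ↥(Cfsg.pResidual p G)) ∈ (D₀ : Subgroup ↥(Cfsg.pResidual p G)) :=
      (hD₀mem _).2 hb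
    have := hD₀ab.is_comm.comm
      (⟨⟨a, haN⟩, ha'⟩ : (D₀ : Subgroup ↥(Cfsg.pResidual p G))) ⟨⟨b, hbN⟩, hb'⟩
    exact congrArg (fun x : (D₀ : Subgroup ↥(Cfsg.pResidual p G)) => ((x : ↥(Cfsg.pResidual p G)) : G))
      this
  have hDp : IsPGroup p D := by rw [hD]; exact D₀.2.map _
  have hsub : D.subgroupOf (Cfsg.pResidual p G) = (D₀ : Subgroup ↥(Cfsg.pResidual p G)) := by
    ext x
    rw [Subgroup.mem_subgroupOf]
    exact (hD₀mem x).symm
  have hMD : ¬ p ∣ D.relIndex M := by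
    intro hdvd
    have h1 : D.relIndex M * M.relIndex (Cfsg.pResidual p G) = D.relIndex (Cfsg.pResidual p G) :=
      Subgroup.relIndex_mul_relIndex D M _ hDM hMN
    have h2 : D.relIndex (Cfsg.pResidual p G) = (D₀ : Subgroup ↥(Cfsg.pResidual p G)).index := by
      unfold Subgroup.relIndex; rw [hsub]
    have h3 : p ∣ (D₀ : Subgroup ↥(Cfsg.pResidual p G)).index := by
      rw [← h2, ← h1]; exact Dvd.dvd.mul_right hdvd _
    exact D₀.not_dvd_index h3
  have hQ : IsPGroup p (G ⧸ Cfsg.pResidual p G) :=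
    Cfsg.Agent.Lib.Helper2.isPGroup_quotient_pResidual p G
  obtain ⟨a, ha⟩ := IsPGroup.iff_card.mp hQ
  rw [← Subgroup.index_eq_card] at ha
  have hrel : M.relIndex H = p ^ a := by
    rw [hM, Subgroup.inf_relIndex_right, ← Subgroup.relIndex_sup_right, hfr,
      Subgroup.relIndex_top_right, ha]
  have hHMp : Nat.card H = Nat.card M * p ^ a := by
    have h1 : Nat.card (M.subgroupOf H) * (M.subgroupOf H).index = Nat.card H :=
      Subgroup.card_mul_index _
    have h2 : Nat.card (M.subgroupOf H) = Nat.card M :=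
      Nat.card_congr (Subgroup.subgroupOfEquivOfLe hMH).toEquiv
    have h3 : (M.subgroupOf H).index = p ^ a := hrel
    rw [h2, h3] at h1
    exact h1.symm
  have hfix : ∀ z ∈ D, (∀ m ∈ M, m * z = z * m) → z = 1 := by
    intro z hz hzc
    have hzN : z ∈ Cfsg.pResidual p G := hDN hz
    have hz' : (⟨z, hzN⟩ : ↥(Cfsg.pResidual p G)) ∈ (D₀ : Subgroup ↥(Cfsg.pResidual p G)) :=
      (hD₀mem _).2 hz
    have h1 := h8_pres_fix p D₀ hD₀ab ⟨z, hzN⟩ hz' (by
      intro m hm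
      have hmH : (m : G) ∈ H := by
        rw [hH]
        apply h8_mem_normalizer_of_conj_mem
        intro d hd
        have hdN : d ∈ Cfsg.pResidual p G := hDN hd
        have hd' : (⟨d, hdN⟩ : ↥(Cfsg.pResidual p G)) ∈ (D₀ : Subgroup ↥(Cfsg.pResidual p G)) :=
          (hD₀mem _).2 hd
        have h2 := (Subgroup.mem_normalizer_iff.1 hm ⟨d, hdN⟩).1 hd'
        exact (hD₀mem _).1 h2
      have hmM : (m : G) ∈ M := by rw [hM]; exact ⟨m.2, hmH⟩
      apply Subtype.ext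
      exact hzc (m : G) hmM)
    exact congrArg Subtype.val h1
  obtain ⟨K, hKH, hKM, hKcard⟩ :=
    h8_compl_normal_sylow p H M D hDM hMH hHM hHD hDab hDp hMD a hHMp hfix
  refine ⟨K, Subgroup.isComplement'_of_card_mul_and_disjoint ?_ ?_⟩
  · have h1 : Nat.card K = p ^ a := by
      have h2 : Nat.card M * Nat.card K = Nat.card M * p ^ a := by
        rw [mul_comm, hKcard, hHMp]
      exact Nat.eq_of_mul_eq_mul_left Nat.card_pos h2
    rw [h1, ← ha, mul_comm]
    exact Subgroup.card_mul_index _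
  · rw [disjoint_iff, eq_bot_iff]
    rintro x ⟨hxK, hxN⟩
    have hxM : x ∈ M := by rw [hM]; exact ⟨hxN, hKH hxK⟩
    have : x ∈ K ⊓ M := ⟨hxK, hxM⟩
    rwa [hKM] at this

end Cfsg.Agent.Lib.Helper8
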