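import Mathlib

set_option autoImplicit false
set_option linter.style.haveILetI false
set_option linter.unusedSectionVars false
universe u v w

namespace Cfsg.Agent.Lib.Helper8

open Matrix OnePoint

section
variable {F : Type v} [Field F] [DecidableEq F]

def h8U (b : F) : SpecialLinearGroup (Fin 2) F := ⟨!![1, b; 0, 1], by simp [det_fin_two]⟩

def h8Hd (a : F) (ha : a ≠ 0) : SpecialLinearGroup (Fin 2) F :=
  ⟨!![a, 0; 0, a⁻¹], by simp [det_fin_two, ha]⟩

def h8Wm : SpecialLinearGroup (Fin 2) F := ⟨!![0, -1; 1, 0], by simp [det_fin_two]⟩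

/-- the Moebius action of `SL₂(F)` on the projective line -/
def h8Mob (M : SpecialLinearGroup (Fin 2) F) (p : OnePoint F) : OnePoint F :=
  (SpecialLinearGroup.toGL M) • p

theorem h8Mob_infty (M : SpecialLinearGroup (Fin 2) F) :
    h8Mob M ∞ = if M.1 1 0 = 0 then ∞ else ((M.1 0 0 / M.1 1 0 : F) : OnePoint F) :=
  smul_infty_eq_ite _

theorem h8Mob_some (M : SpecialLinearGroup (Fin 2) F) (k : F) :
    h8Mob M (k : OnePoint F) = if M.1 1 0 * k + M.1 1 1 = 0 then ∞ else
      (((M.1 0 0 * k + M.1 0 1) / (M.1 1 0 * k + M.1 1 1) : F) : OnePoint F) :=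
  smul_some_eq_ite

theorem h8Mob_mul (M N : SpecialLinearGroup (Fin 2) F) (p : OnePoint F) :
    h8Mob (M * N) p = h8Mob M (h8Mob N p) := by
  unfold h8Mob
  rw [map_mul, mul_smul]

theorem h8Mob_one (p : OnePoint F) : h8Mob (1 : SpecialLinearGroup (Fin 2) F) p = p := by
  unfold h8Mob
  rw [map_one, one_smul]

theorem h8Mob_U_infty (b : F) : h8Mob (h8U b) ∞ = ∞ := by
  rw [h8Mob_infty]; simp [h8U]

theorem h8Mob_U_some (b x : F) : h8Mob (h8U b) (x : OnePoint F) = ((x + b : F) : OnePoint F) := by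
  rw [h8Mob_some]; simp [h8U]

theorem h8Mob_Hd_infty (a : F) (ha : a ≠ 0) : h8Mob (h8Hd a ha) ∞ = ∞ := by
  rw [h8Mob_infty]; simp [h8Hd]

theorem h8Mob_Hd_some (a : F) (ha : a ≠ 0) (x : F) :
    h8Mob (h8Hd a ha) (x : OnePoint F) = ((a * (a * x) : F) : OnePoint F) := by
  rw [h8Mob_some]
  simp [h8Hd, ha]
  field_simp

theorem h8Mob_W_infty : h8Mob (h8Wm (F := F)) ∞ = ((0 : F) : OnePoint F) := by
  rw [h8Mob_infty]; simp [h8Wm]

theorem h8Mob_W_zero : h8Mob (h8Wm (F := F)) ((0 : F) : OnePoint F) = ∞ := by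
  rw [h8Mob_some]; simp [h8Wm]

theorem h8Mob_W_some (x : F) (hx : x ≠ 0) :
    h8Mob (h8Wm (F := F)) (x : OnePoint F) = ((-x⁻¹ : F) : OnePoint F) := by
  rw [h8Mob_some]
  simp [h8Wm, hx]
  field_simp

theorem h8_bruhat0 (M : SpecialLinearGroup (Fin 2) F) (h : M.1 1 0 = 0) :
    ∃ (a : F) (ha : a ≠ 0) (b : F), M = h8Hd a ha * h8U b := by
  have hdet := M.2
  rw [det_fin_two, h] at hdet
  have ha : M.1 0 0 ≠ 0 := by rintro h0; rw [h0] at hdet; simp at hdet
  refine ⟨M.1 0 0, ha, M.1 0 1 / M.1 0 0, ?_⟩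
  apply Subtype.ext
  show M.1 = (h8Hd (M.1 0 0) ha).1 * (h8U (M.1 0 1 / M.1 0 0)).1
  ext i j
  fin_cases i <;> fin_cases j <;> simp [h8Hd, h8U, h, Matrix.mul_apply, Fin.sum_univ_two]
  · field_simp
  · field_simp
    linear_combination hdet

theorem h8_bruhat1 (M : SpecialLinearGroup (Fin 2) F) (h : M.1 1 0 ≠ 0) :
    ∃ (a : F) (ha : a ≠ 0) (b b' : F), M = h8U b * h8Hd a ha * h8Wm * h8U b' := by
  have hdet := M.2
  rw [det_fin_two] at hdet
  refine ⟨(M.1 1 0)⁻¹, inv_ne_zero h, M.1 0 0 / M.1 1 0, M.1 1 1 / M.1 1 0, ?_⟩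
  apply Subtype.ext
  show M.1 = (h8U (M.1 0 0 / M.1 1 0)).1 * (h8Hd (M.1 1 0)⁻¹ (inv_ne_zero h)).1 * (h8Wm).1 *
    (h8U (M.1 1 1 / M.1 1 0)).1
  ext i j
  fin_cases i <;> fin_cases j <;> simp [h8Hd, h8U, h8Wm, h, Matrix.mul_apply, Fin.sum_univ_two]
  · field_simp
    linear_combination (-1 : F) * hdet
  · field_simp

theorem h8_bruhat (P : SpecialLinearGroup (Fin 2) F → Prop)
    (hmul : ∀ A B, P A → P B → P (A * B)) (hU : ∀ b, P (h8U b))
    (hH : ∀ a ha, P (h8Hd a ha)) (hW : P h8Wm) : ∀ M, P M := by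
  intro M
  by_cases h : M.1 1 0 = 0
  · obtain ⟨a, ha, b, rfl⟩ := h8_bruhat0 M h
    exact hmul _ _ (hH a ha) (hU b)
  · obtain ⟨a, ha, b, b', rfl⟩ := h8_bruhat1 M h
    exact hmul _ _ (hmul _ _ (hmul _ _ (hU b) (hH a ha)) hW) (hU b')

/-- the kernel of the Moebius action is the centre -/
theorem h8Mob_ker (M : SpecialLinearGroup (Fin 2) F) :
    (∀ p, h8Mob M p = p) ↔ M ∈ Subgroup.center (SpecialLinearGroup (Fin 2) F) := by
  rw [Matrix.SpecialLinearGroup.mem_center_iff]
  have hdet := M.2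
  rw [det_fin_two] at hdet
  constructor
  · intro h
    have h10 : M.1 1 0 = 0 := by
      have hinf := h ∞
      rw [h8Mob_infty] at hinf
      by_contra hne
      rw [if_neg hne] at hinf
      exact OnePoint.coe_ne_infty _ hinf
    rw [h10] at hdet
    have h11 : M.1 1 1 ≠ 0 := by rintro h0; rw [h0] at hdet; simp at hdet
    have h01 : M.1 0 1 = 0 := by
      have h0 := h ((0 : F) : OnePoint F)
      rw [h8Mob_some, h10] at h0
      simp only [mul_zero, zero_add] at h0
      rw [if_neg h11] at h0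
      have := OnePoint.coe_injective h0
      rcases div_eq_zero_iff.mp this with h | h
      · exact h
      · exact absurd h h11
    have h00 : M.1 0 0 = M.1 1 1 := by
      have h1 := h ((1 : F) : OnePoint F)
      rw [h8Mob_some, h10, h01] at h1
      simp only [mul_one, zero_add, add_zero] at h1
      rw [if_neg h11] at h1
      have := OnePoint.coe_injective h1
      exact (div_eq_one_iff_eq h11).mp this
    refine ⟨M.1 0 0, ?_, ?_⟩
    · rw [Fintype.card_fin, pow_two]
      nth_rewrite 2 [h00]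
      linear_combination hdet
    · ext i j
      fin_cases i <;> fin_cases j <;> simp [h10, h01, h00]
  · rintro ⟨r, hr, hM⟩
    rw [Fintype.card_fin] at hr
    have hr0 : r ≠ 0 := by rintro rfl; simp at hr
    have e00 : M.1 0 0 = r := by rw [← hM]; simp
    have e01 : M.1 0 1 = 0 := by rw [← hM]; simp
    have e10 : M.1 1 0 = 0 := by rw [← hM]; simp
    have e11 : M.1 1 1 = r := by rw [← hM]; simp
    intro p
    cases p using OnePoint.rec with
    | infty => rw [h8Mob_infty, if_pos e10]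
    | coe x =>
      rw [h8Mob_some, e00, e01, e10, e11]
      simp only [zero_mul, zero_add, add_zero]
      rw [if_neg hr0]
      congr 1
      field_simp

/-- recognition of `PSL₂(F)` from a faithful action on the projective line in which
every Moebius transformation is realized and every group element is Moebius -/
theorem h8_psl2_rec {G : Type u} [Group G] {Ω : Type w} [MulAction G Ω]
    (hfaith : ∀ g : G, (∀ x : Ω, g • x = x) → g = 1)
    (β : OnePoint F ≃ Ω)
    (hreal : ∀ M : SpecialLinearGroup (Fin 2) F, ∃ g : G, ∀ p, g • β p = β (h8Mob M p))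
    (hall : ∀ g : G, ∃ M : SpecialLinearGroup (Fin 2) F, ∀ p, g • β p = β (h8Mob M p)) :
    Nonempty (G ≃* Matrix.ProjectiveSpecialLinearGroup (Fin 2) F) := by
  let Φ : SpecialLinearGroup (Fin 2) F →* Equiv.Perm (OnePoint F) :=
    (MulAction.toPermHom (GL (Fin 2) F) (OnePoint F)).comp SpecialLinearGroup.toGL
  have hΦ : ∀ M p, Φ M p = h8Mob M p := fun M p => rfl
  let φ : G →* Equiv.Perm (OnePoint F) :=
    (β.symm.permCongrHom.toMonoidHom).comp (MulAction.toPermHom G Ω)
  have hφ : ∀ g p, φ g p = β.symm (g • β p) := fun g p => rfl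
  have hinj : Function.Injective φ := by
    rw [injective_iff_map_eq_one]
    intro g hg
    apply hfaith
    intro x
    have h1 : φ g (β.symm x) = β.symm x := by rw [hg]; rfl
    rw [hφ, Equiv.apply_symm_apply] at h1
    exact β.symm.injective h1
  have hrange : φ.range = Φ.range := by
    apply le_antisymm
    · rintro _ ⟨g, rfl⟩
      obtain ⟨M, hM⟩ := hall g
      refine ⟨M, ?_⟩
      ext p
      rw [hΦ, hφ, hM, Equiv.symm_apply_apply]
    · rintro _ ⟨M, rfl⟩
      obtain ⟨g, hg⟩ := hreal M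
      refine ⟨g, ?_⟩
      ext p
      rw [hΦ, hφ, hg, Equiv.symm_apply_apply]
  have hker : Φ.ker = Subgroup.center (SpecialLinearGroup (Fin 2) F) := by
    ext M
    rw [MonoidHom.mem_ker, ← h8Mob_ker]
    constructor
    · intro h p; rw [← hΦ, h]; rfl
    · intro h; ext p; rw [hΦ, h]; rfl
  exact ⟨(MonoidHom.ofInjective hinj).trans ((MulEquiv.subgroupCongr hrange).trans
    ((QuotientGroup.quotientKerEquivRange Φ).symm.trans
      (QuotientGroup.quotientMulEquivOfEq hker)))⟩

end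

/-- a field structure from a "near-field" datum on a commutative group `A`:
`c a b` is the conjugate of `b` by the element of the point stabilizer attached to `a` -/
theorem h8_field_of_group {A : Type u} [Group A] (e : A)
    (he : e ≠ 1) (c : A → A → A)
    (c1 : ∀ a b b', c a (b * b') = c a b * c a b')
    (c3 : ∀ b, c e b = b)
    (c4 : ∀ a b x, a ≠ 1 → b ≠ 1 → c (c a b) x = c a (c b x))
    (c5 : ∀ a b, a ≠ 1 → b ≠ 1 → c a b = c b a)
    (c6 : ∀ a b, a ≠ 1 → b ≠ 1 → c a b ≠ 1)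
    (c7 : ∀ a, a ≠ 1 → ∃ b, c a b = e)
    {K : Type v} (τ : K ≃ A) :
    ∃ (_ : Field K), (∀ x y : K, τ (x + y) = τ x * τ y) ∧ τ 0 = 1 ∧ τ 1 = e ∧
      (∀ x y : K, x ≠ 0 → τ (x * y) = c (τ x) (τ y)) := by
  classical
  have c0 : ∀ a, c a 1 = 1 := by
    intro a
    have h := c1 a 1 1
    rw [mul_one] at h
    exact (mul_eq_left.mp h.symm)
  letI iAdd : Add K := ⟨fun x y => τ.symm (τ x * τ y)⟩
  letI iZero : Zero K := ⟨τ.symm 1⟩
  letI iNeg : Neg K := ⟨fun x => τ.symm (τ x)⁻¹⟩
  letI iOne : One K := ⟨τ.symm e⟩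
  letI iMul : Mul K := ⟨fun x y => if τ x = 1 then τ.symm 1 else τ.symm (c (τ x) (τ y))⟩
  letI iInv : Inv K := ⟨fun x => if h : τ x = 1 then τ.symm 1 else
    τ.symm (Classical.choose (c7 (τ x) h))⟩
  have hadd : ∀ x y : K, x + y = τ.symm (τ x * τ y) := fun _ _ => rfl
  have hzero : (0 : K) = τ.symm 1 := rfl
  have hneg : ∀ x : K, -x = τ.symm (τ x)⁻¹ := fun _ => rfl
  have hone : (1 : K) = τ.symm e := rfl
  have hmul : ∀ x y : K, x * y = if τ x = 1 then τ.symm 1 else τ.symm (c (τ x) (τ y)) :=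
    fun _ _ => rfl
  have hinv : ∀ x : K, x⁻¹ = if h : τ x = 1 then τ.symm 1 else
      τ.symm (Classical.choose (c7 (τ x) h)) := fun _ => rfl
  have hmul0 : ∀ x y : K, τ x = 1 → x * y = τ.symm 1 := by
    intro x y h; rw [hmul, if_pos h]
  have hmul1 : ∀ x y : K, τ x ≠ 1 → x * y = τ.symm (c (τ x) (τ y)) := by
    intro x y h; rw [hmul, if_neg h]
  letI hfield : Field K := by
    refine Field.ofMinimalAxioms K ?_ ?_ ?_ ?_ ?_ ?_ ?_ ?_ ?_ ?_
    · intro a b d
      simp only [hadd, Equiv.apply_symm_apply, mul_assoc]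
    · intro a
      simp only [hadd, hzero, Equiv.apply_symm_apply, one_mul, Equiv.symm_apply_apply]
    · intro a
      simp only [hadd, hzero, hneg, Equiv.apply_symm_apply, inv_mul_cancel]
    · intro a b d
      by_cases ha : τ a = 1
      · rw [hmul0 a b ha, hmul0 _ d (by rw [Equiv.apply_symm_apply]), hmul0 a _ ha]
      · by_cases hb : τ b = 1
        · rw [hmul1 a b ha, hb, c0, hmul0 _ d (by rw [Equiv.apply_symm_apply]),
            hmul0 b d hb, hmul1 a _ ha, Equiv.apply_symm_apply, c0]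
        · rw [hmul1 a b ha, hmul1 _ d (by rw [Equiv.apply_symm_apply]; exact c6 _ _ ha hb),
            hmul1 b d hb, hmul1 a _ ha, Equiv.apply_symm_apply, Equiv.apply_symm_apply,
            c4 _ _ _ ha hb]
    · intro a b
      by_cases ha : τ a = 1
      · by_cases hb : τ b = 1
        · rw [hmul0 a b ha, hmul0 b a hb]
        · rw [hmul0 a b ha, hmul1 b a hb, ha, c0]
      · by_cases hb : τ b = 1
        · rw [hmul1 a b ha, hmul0 b a hb, hb, c0]
        · rw [hmul1 a b ha, hmul1 b a hb, c5 _ _ ha hb]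
    · intro a
      rw [hmul1 1 a (by rw [hone, Equiv.apply_symm_apply]; exact he), hone,
        Equiv.apply_symm_apply, c3, Equiv.symm_apply_apply]
    · intro a ha
      have ha' : τ a ≠ 1 := by
        intro h
        apply ha
        rw [hzero, ← h, Equiv.symm_apply_apply]
      rw [hmul1 a _ ha', hinv, dif_neg ha', Equiv.apply_symm_apply,
        Classical.choose_spec (c7 (τ a) ha'), hone]
    · rw [hinv, dif_pos (by rw [hzero, Equiv.apply_symm_apply])]
      rfl
    · intro a b d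
      by_cases ha : τ a = 1
      · rw [hmul0 a _ ha, hmul0 a b ha, hmul0 a d ha, hadd, Equiv.apply_symm_apply, one_mul]
      · rw [hmul1 a _ ha, hmul1 a b ha, hmul1 a d ha, hadd, hadd, Equiv.apply_symm_apply,
          Equiv.apply_symm_apply, Equiv.apply_symm_apply, c1]
    · refine ⟨0, 1, ?_⟩
      rw [hzero, hone]
      intro h
      exact he (τ.symm.injective h).symm
  refine ⟨hfield, ?_, ?_, ?_, ?_⟩
  · intro x y
    show τ (τ.symm (τ x * τ y)) = _
    rw [Equiv.apply_symm_apply]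
  · show τ (τ.symm 1) = 1
    rw [Equiv.apply_symm_apply]
  · show τ (τ.symm e) = e
    rw [Equiv.apply_symm_apply]
  · intro x y hx
    have hx' : τ x ≠ 1 := by
      intro h
      apply hx
      show x = τ.symm 1
      rw [← h, Equiv.symm_apply_apply]
    show τ (if τ x = 1 then τ.symm 1 else τ.symm (c (τ x) (τ y))) = _
    rw [if_neg hx', Equiv.apply_symm_apply]

end Cfsg.Agent.Lib.Helper8
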