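import Mathlib
import Cfsg.Agent.Lib.Helper8.InvCent
import Cfsg.Agent.Lib.Helper8.PSL2Rec

set_option autoImplicit false
set_option linter.style.haveILetI false
set_option linter.unusedSectionVars false
set_option maxHeartbeats 1600000
universe u

namespace Cfsg.Agent.Lib.Helper8

open Matrix OnePoint

theorem h8_exists_type0 (A : Type u) [Finite A] :
    ∃ (K : Type) (_ : Fintype K), Fintype.card K = Nat.card A ∧ Nonempty (K ≃ A) :=
  ⟨Fin (Nat.card A), inferInstance, Fintype.card_fin _, ⟨(Finite.equivFin A).symm⟩⟩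

section
variable {G : Type u} [Group G] [Finite G]

abbrev h8Inf (T : Sylow 2 G) : G ⧸ h8N T := QuotientGroup.mk 1

theorem h8_s1230_aux {T : Sylow 2 G} (hT : h8ECT T) :
    ∃ (F : Type) (_ : Field F) (_ : Fintype F), Fintype.card F = Nat.card (T : Subgroup G) ∧
      Nonempty (G ≃* Matrix.ProjectiveSpecialLinearGroup (Fin 2) F) := by
  classical
  obtain ⟨w, hw⟩ : ∃ w : G, w ∉ h8N T := by
    by_contra h
    push Not at h
    exact hT.hH.1 (eq_top_iff.mpr fun g _ => h g)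
  obtain ⟨o, hoinf⟩ : ∃ o : G ⧸ h8N T, o ≠ h8Inf T :=
    ⟨w • h8Inf T, fun h => hw ((h8ect_N_iff T w).mp h)⟩
  have hinfo : h8Inf T ≠ o := Ne.symm hoinf
  obtain ⟨e, he2, heN⟩ := h8se_exists_invol hT.hH
  have heT : e ∈ (T : Subgroup G) := hT.inv_mem e heN he2
  have he1 : e ≠ 1 := by rintro rfl; rw [orderOf_one] at he2; omega
  have hTfix : ∀ t ∈ (T : Subgroup G), t • h8Inf T = h8Inf T := fun t ht => h8ect_T_fix ht
  have hDN : ∀ d : G, d • h8Inf T = h8Inf T → d ∈ h8N T := fun d h => (h8ect_N_iff T d).mp h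
  have hconj : ∀ d : G, d • h8Inf T = h8Inf T → ∀ t ∈ (T : Subgroup G),
      d * t * d⁻¹ ∈ (T : Subgroup G) :=
    fun d hd t ht => (Subgroup.mem_normalizer_iff.mp (hDN d hd) t).mp ht
  have hex : ∀ t : G, t ∈ (T : Subgroup G) → t ≠ 1 →
      ∃ d : G, d • h8Inf T = h8Inf T ∧ d • o = o ∧ d * e * d⁻¹ = t := by
    intro t ht ht1
    exact h8se_trans hT.hH hinfo he2 (hTfix e heT) (hT.invol t ht ht1) (hTfix t ht)
  have huniq : ∀ d d' : G, d • h8Inf T = h8Inf T → d • o = o → d' • h8Inf T = h8Inf T →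
      d' • o = o → d * e * d⁻¹ = d' * e * d'⁻¹ → d = d' :=
    fun d d' h1 h2 h3 h4 h => h8ec_inj hT.hH hT.hC hinfo he2 h1 h2 h3 h4 h
  let δ : G → G := fun t =>
    if h : t ∈ (T : Subgroup G) ∧ t ≠ 1 then Classical.choose (hex t h.1 h.2) else 1
  have hδ : ∀ t : G, t ∈ (T : Subgroup G) → t ≠ 1 →
      δ t • h8Inf T = h8Inf T ∧ δ t • o = o ∧ δ t * e * (δ t)⁻¹ = t := by
    intro t ht ht1
    have h : t ∈ (T : Subgroup G) ∧ t ≠ 1 := ⟨ht, ht1⟩
    have : δ t = Classical.choose (hex t h.1 h.2) := dif_pos h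
    rw [this]
    exact Classical.choose_spec (hex t h.1 h.2)
  have hδD : ∀ t : G, δ t • h8Inf T = h8Inf T ∧ δ t • o = o := by
    intro t
    by_cases h : t ∈ (T : Subgroup G) ∧ t ≠ 1
    · exact ⟨(hδ t h.1 h.2).1, (hδ t h.1 h.2).2.1⟩
    · have : δ t = 1 := dif_neg h
      rw [this]; exact ⟨one_smul _ _, one_smul _ _⟩
  have hδe : δ e = 1 := by
    apply huniq _ _ (hδD e).1 (hδD e).2 (one_smul _ _) (one_smul _ _)
    rw [(hδ e heT he1).2.2]; group
  have hδmul : ∀ a b : G, a ∈ (T : Subgroup G) → a ≠ 1 → b ∈ (T : Subgroup G) → b ≠ 1 →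
      δ (δ a * b * (δ a)⁻¹) = δ a * δ b := by
    intro a b ha ha1 hb hb1
    have hmem := hconj (δ a) (hδD a).1 b hb
    have hne : δ a * b * (δ a)⁻¹ ≠ 1 := by
      intro h
      apply hb1
      calc b = (δ a)⁻¹ * (δ a * b * (δ a)⁻¹) * δ a := by group
        _ = 1 := by rw [h]; group
    apply huniq _ _ (hδD _).1 (hδD _).2
    · rw [mul_smul, (hδD b).1, (hδD a).1]
    · rw [mul_smul, (hδD b).2, (hδD a).2]
    · rw [(hδ _ hmem hne).2.2]
      calc δ a * b * (δ a)⁻¹ = δ a * (δ b * e * (δ b)⁻¹) * (δ a)⁻¹ := by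
            rw [(hδ b hb hb1).2.2]
        _ = δ a * δ b * e * (δ a * δ b)⁻¹ := by group
  -- the field
  let c : ↥(T : Subgroup G) → ↥(T : Subgroup G) → ↥(T : Subgroup G) := fun a b =>
    ⟨δ a.1 * b.1 * (δ a.1)⁻¹, hconj (δ a.1) (hδD a.1).1 b.1 b.2⟩
  have hc : ∀ a b : (T : Subgroup G),
      ((c a b : (T : Subgroup G)) : G) = δ a.1 * b.1 * (δ a.1)⁻¹ := fun _ _ => rfl
  have hne1 : ∀ a : (T : Subgroup G), a ≠ 1 → (a : G) ≠ 1 := by
    intro a ha h; apply ha; exact Subtype.ext h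
  have c1 : ∀ a b b' : (T : Subgroup G), c a (b * b') = c a b * c a b' := by
    intro a b b'
    apply Subtype.ext
    rw [Subgroup.coe_mul, hc, hc, hc, Subgroup.coe_mul]
    group
  have c3 : ∀ b : (T : Subgroup G), c ⟨e, heT⟩ b = b := by
    intro b
    apply Subtype.ext
    rw [hc]
    show δ e * b.1 * (δ e)⁻¹ = b.1
    rw [hδe]; group
  have c6 : ∀ a b : (T : Subgroup G), a ≠ 1 → b ≠ 1 → c a b ≠ 1 := by
    intro a b ha hb h
    apply hne1 b hb
    have h' : δ a.1 * b.1 * (δ a.1)⁻¹ = 1 := by rw [← hc, h]; rfl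
    calc (b : G) = (δ a.1)⁻¹ * (δ a.1 * b.1 * (δ a.1)⁻¹) * δ a.1 := by group
      _ = 1 := by rw [h']; group
  have c4 : ∀ a b x : (T : Subgroup G), a ≠ 1 → b ≠ 1 → c (c a b) x = c a (c b x) := by
    intro a b x ha hb
    apply Subtype.ext
    rw [hc, hc, hc, hc, hδmul a.1 b.1 a.2 (hne1 a ha) b.2 (hne1 b hb)]
    group
  have c5 : ∀ a b : (T : Subgroup G), a ≠ 1 → b ≠ 1 → c a b = c b a := by
    intro a b ha hb
    apply Subtype.ext
    rw [hc, hc]
    have hcm := h8ec_comm_D hT.hH hT.hC hinfo (hδD a.1).1 (hδD a.1).2 (hδD b.1).1 (hδD b.1).2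
    calc δ a.1 * b.1 * (δ a.1)⁻¹ = δ a.1 * (δ b.1 * e * (δ b.1)⁻¹) * (δ a.1)⁻¹ := by
          rw [(hδ b.1 b.2 (hne1 b hb)).2.2]
      _ = (δ a.1 * δ b.1) * e * (δ a.1 * δ b.1)⁻¹ := by group
      _ = (δ b.1 * δ a.1) * e * (δ b.1 * δ a.1)⁻¹ := by rw [hcm]
      _ = δ b.1 * (δ a.1 * e * (δ a.1)⁻¹) * (δ b.1)⁻¹ := by group
      _ = δ b.1 * a.1 * (δ b.1)⁻¹ := by rw [(hδ a.1 a.2 (hne1 a ha)).2.2]
  have c7 : ∀ a : (T : Subgroup G), a ≠ 1 → ∃ b, c a b = ⟨e, heT⟩ := by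
    intro a _
    have hinvD : (δ a.1)⁻¹ • h8Inf T = h8Inf T := by rw [inv_smul_eq_iff, (hδD a.1).1]
    have hm := hconj (δ a.1)⁻¹ hinvD e heT
    rw [inv_inv] at hm
    refine ⟨⟨(δ a.1)⁻¹ * e * δ a.1, hm⟩, ?_⟩
    apply Subtype.ext
    rw [hc]
    show δ a.1 * ((δ a.1)⁻¹ * e * δ a.1) * (δ a.1)⁻¹ = e
    group
  obtain ⟨K, iFin, hKcard, ⟨τ⟩⟩ := h8_exists_type0 (T : Subgroup G)
  obtain ⟨iF, hτadd, hτ0, hτ1, hτmul⟩ := h8_field_of_group (⟨e, heT⟩ : (T : Subgroup G))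
    (fun h => he1 (congrArg Subtype.val h)) c c1 c3 c4 c5 c6 c7 τ
  refine ⟨K, iF, iFin, hKcard, ?_⟩
  have h2 : (1 : K) + 1 = 0 := by
    apply τ.injective
    rw [hτadd, hτ1, hτ0]
    apply Subtype.ext
    show e * e = 1
    exact h8_sq_of_orderOf_two he2
  have hneg : ∀ y : K, -y = y := by
    intro y
    have : y + y = 0 := by linear_combination y * h2
    exact neg_eq_of_add_eq_zero_left this
  -- the bijection with the projective line
  let βf : OnePoint K → G ⧸ h8N T := fun p =>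
    p.elim (h8Inf T) (fun x => ((τ x : (T : Subgroup G)) : G) • o)
  have hTo : ∀ t ∈ (T : Subgroup G), t • o = o → t = 1 :=
    fun t ht h => h8ect_T_free hT ht hoinf h
  have hβinj : Function.Injective βf := by
    intro p p' h
    cases p using OnePoint.rec with
    | infty =>
      cases p' using OnePoint.rec with
      | infty => rfl
      | coe y =>
        exfalso
        have h' : ((τ y : (T : Subgroup G)) : G) • o = h8Inf T := h.symm
        exact hoinf (smul_left_cancel _ (h'.trans (hTfix _ (τ y).2).symm))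
    | coe x =>
      cases p' using OnePoint.rec with
      | infty =>
        exfalso
        have h' : ((τ x : (T : Subgroup G)) : G) • o = h8Inf T := h
        exact hoinf (smul_left_cancel _ (h'.trans (hTfix _ (τ x).2).symm))
      | coe y =>
        have h' : ((τ x : (T : Subgroup G)) : G) • o = ((τ y : (T : Subgroup G)) : G) • o := h
        have h1 : (((τ y)⁻¹ * τ x : (T : Subgroup G)) : G) • o = o := by
          rw [Subgroup.coe_mul, Subgroup.coe_inv, mul_smul, h', ← mul_smul, inv_mul_cancel,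
            one_smul]
        have h2' := hTo _ ((τ y)⁻¹ * τ x).2 h1
        have h3 : (τ y)⁻¹ * τ x = 1 := Subtype.ext h2'
        have h4 : τ x = τ y := by
          have := congrArg (fun z => τ y * z) h3
          simpa using this
        rw [τ.injective h4]
  have hβsurj : Function.Surjective βf := by
    intro y
    by_cases hy : y = h8Inf T
    · exact ⟨∞, hy.symm⟩
    · obtain ⟨t, ht, hty⟩ := h8ect_reg hT hoinf hy
      refine ⟨((τ.symm ⟨t, ht⟩ : K) : OnePoint K), ?_⟩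
      show ((τ (τ.symm ⟨t, ht⟩) : (T : Subgroup G)) : G) • o = y
      rw [Equiv.apply_symm_apply]; exact hty
  let β : OnePoint K ≃ G ⧸ h8N T := Equiv.ofBijective βf ⟨hβinj, hβsurj⟩
  have hβinf : β ∞ = h8Inf T := rfl
  have hβsome : ∀ x : K, β (x : OnePoint K) = ((τ x : (T : Subgroup G)) : G) • o :=
    fun _ => rfl
  have hβ0 : β ((0 : K) : OnePoint K) = o := by
    rw [hβsome, hτ0]; exact one_smul _ _
  -- translations
  have hRT : ∀ b : K, ∀ p, ((τ b : (T : Subgroup G)) : G) • β p = β (h8Mob (h8U b) p) := by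
    intro b p
    cases p using OnePoint.rec with
    | infty => rw [h8Mob_U_infty, hβinf]; exact hTfix _ (τ b).2
    | coe x =>
      rw [h8Mob_U_some, hβsome, hβsome, hτadd, ← mul_smul, Subgroup.coe_mul]
      rw [hT.comm _ (τ b).2 _ (τ x).2]
  -- scalings
  have hS : ∀ a : K, a ≠ 0 → ∀ x : K,
      δ (τ a).1 • β (x : OnePoint K) = β ((a * x : K) : OnePoint K) := by
    intro a ha x
    have hio : (δ (τ a).1)⁻¹ • o = o := inv_smul_eq_iff.mpr (hδD _).2.symm
    rw [hβsome, hβsome, hτmul a x ha, hc, mul_smul, mul_smul, hio]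
  have hSinf : ∀ a : K, δ (τ a).1 • β ∞ = β ∞ := fun a => by rw [hβinf]; exact (hδD _).1
  have hRD : ∀ (a : K) (ha : a ≠ 0), ∀ p,
      (δ (τ a).1 * δ (τ a).1) • β p = β (h8Mob (h8Hd a ha) p) := by
    intro a ha p
    cases p using OnePoint.rec with
    | infty => rw [h8Mob_Hd_infty, mul_smul, hSinf, hSinf]
    | coe x => rw [h8Mob_Hd_some, mul_smul, hS a ha, hS a ha]
  -- the inversion
  obtain ⟨u, hu, hu1, hu2⟩ := h8se_exists_swap hT.hH hinfo
  obtain ⟨z, hz⟩ := h8se_exists_fix hT.hH hu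
  have hzinf : z ≠ h8Inf T := by rintro rfl; exact hinfo (hz.symm.trans hu1)
  have hzo : z ≠ o := by rintro rfl; exact hoinf (hz.symm.trans hu2)
  have hp1 : β ((1 : K) : OnePoint K) ≠ h8Inf T := by
    rw [← hβinf]; intro h; exact OnePoint.coe_ne_infty _ (β.injective h)
  have h10 : (1 : K) ≠ 0 := one_ne_zero
  have hp1o : β ((1 : K) : OnePoint K) ≠ o := by
    rw [← hβ0]; intro h; exact h10 (OnePoint.coe_injective (β.injective h))
  obtain ⟨d, hd1, hd2, hd3⟩ :=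
    h8ect_move2 hT (h8Inf T) o z (β ((1 : K) : OnePoint K)) hinfo hzinf hzo hp1 hp1o
  have hdi1 : d⁻¹ • h8Inf T = h8Inf T := inv_smul_eq_iff.mpr hd1.symm
  have hdi2 : d⁻¹ • o = o := inv_smul_eq_iff.mpr hd2.symm
  have hdi3 : d⁻¹ • β ((1 : K) : OnePoint K) = z := inv_smul_eq_iff.mpr hd3.symm
  have hw2 : orderOf (d * u * d⁻¹) = 2 := by rw [h8se_orderOf_conj, hu]
  have hw_inf : (d * u * d⁻¹) • h8Inf T = o := by rw [mul_smul, mul_smul, hdi1, hu1, hd2]
  have hw_o : (d * u * d⁻¹) • o = h8Inf T := by rw [mul_smul, mul_smul, hdi2, hu2, hd1]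
  have hw_1 : (d * u * d⁻¹) • β ((1 : K) : OnePoint K) = β ((1 : K) : OnePoint K) := by
    rw [mul_smul, mul_smul, hdi3, hz, hd3]
  generalize d * u * d⁻¹ = u₁ at hw2 hw_inf hw_o hw_1
  have hinvS : ∀ x : K, x ≠ 0 → u₁ • β (x : OnePoint K) = β ((x⁻¹ : K) : OnePoint K) := by
    intro x hx
    have hinv := h8ec_invert hT.hH hT.hC hinfo hw2 hw_inf (hδD (τ x).1).1 (hδD (τ x).1).2
    have e1 : β (x : OnePoint K) = δ (τ x).1 • β ((1 : K) : OnePoint K) := by
      rw [hS x hx, mul_one]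
    have e2 : (δ (τ x).1)⁻¹ • β ((1 : K) : OnePoint K) = β ((x⁻¹ : K) : OnePoint K) := by
      rw [inv_smul_eq_iff, hS x hx, mul_inv_cancel₀ hx]
    have e3 : u₁ * δ (τ x).1 = (δ (τ x).1)⁻¹ * u₁ := by
      calc u₁ * δ (τ x).1 = (u₁ * δ (τ x).1 * u₁⁻¹) * u₁ := by group
        _ = (δ (τ x).1)⁻¹ * u₁ := by rw [hinv]
    rw [e1, ← mul_smul, e3, mul_smul, hw_1, e2]
  have hRW : ∀ p, u₁ • β p = β (h8Mob (h8Wm (F := K)) p) := by
    intro p
    cases p using OnePoint.rec with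
    | infty => rw [h8Mob_W_infty, hβinf, hβ0]; exact hw_inf
    | coe x =>
      by_cases hx : x = 0
      · subst hx
        rw [h8Mob_W_zero, hβ0, hβinf]; exact hw_o
      · rw [h8Mob_W_some x hx, hneg, hinvS x hx]
  have hmulR : ∀ (g g' : G) (M M' : SpecialLinearGroup (Fin 2) K),
      (∀ p, g • β p = β (h8Mob M p)) → (∀ p, g' • β p = β (h8Mob M' p)) →
      ∀ p, (g * g') • β p = β (h8Mob (M * M') p) := by
    intro g g' M M' hg hg' p
    rw [mul_smul, hg', hg, h8Mob_mul]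
  have hreal : ∀ M : SpecialLinearGroup (Fin 2) K, ∃ g : G, ∀ p, g • β p = β (h8Mob M p) := by
    apply h8_bruhat
    · rintro A B ⟨g, hg⟩ ⟨g', hg'⟩
      exact ⟨g * g', hmulR _ _ _ _ hg hg'⟩
    · intro b; exact ⟨_, hRT b⟩
    · intro a ha; exact ⟨_, hRD a ha⟩
    · exact ⟨u₁, hRW⟩
  have hsq : ∀ a : K, ∃ s : K, s * s = a := by
    have hinj : Function.Injective (fun s : K => s * s) := by
      intro s r hsr
      have hsr' : s * s = r * r := hsr
      have h0 : (s + r) * (s + r) = 0 := by linear_combination hsr' + (r * r + s * r) * h2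
      have h1 : s + r = 0 := by simpa using h0
      have : s = -r := eq_neg_of_add_eq_zero_left h1
      rw [this, hneg]
    intro a
    exact (Finite.injective_iff_surjective.mp hinj) a
  have hallD : ∀ d : G, d • h8Inf T = h8Inf T → d • o = o →
      ∃ M : SpecialLinearGroup (Fin 2) K, ∀ p, d • β p = β (h8Mob M p) := by
    intro d hd1' hd2'
    have htT := hconj d hd1' e heT
    have ht1 : d * e * d⁻¹ ≠ 1 := by
      intro h
      apply he1
      calc e = d⁻¹ * (d * e * d⁻¹) * d := by group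
        _ = 1 := by rw [h]; group
    obtain ⟨s, hs⟩ := hsq (τ.symm ⟨d * e * d⁻¹, htT⟩)
    have ha : τ.symm ⟨d * e * d⁻¹, htT⟩ ≠ 0 := by
      intro h
      have := congrArg τ h
      rw [Equiv.apply_symm_apply, hτ0] at this
      exact ht1 (congrArg Subtype.val this)
    have hs0 : s ≠ 0 := by rintro rfl; rw [mul_zero] at hs; exact ha hs.symm
    have hdδ : δ (τ (τ.symm ⟨d * e * d⁻¹, htT⟩)).1 = d := by
      rw [Equiv.apply_symm_apply]
      show δ (d * e * d⁻¹) = d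
      exact huniq _ _ (hδD _).1 (hδD _).2 hd1' hd2' (hδ _ htT ht1).2.2
    refine ⟨h8Hd s hs0, ?_⟩
    intro p
    cases p using OnePoint.rec with
    | infty => rw [h8Mob_Hd_infty, hβinf]; exact hd1'
    | coe x =>
      rw [h8Mob_Hd_some, ← mul_assoc, hs, ← hS _ ha, hdδ]
  have hallH : ∀ h : G, h ∈ h8N T →
      ∃ M : SpecialLinearGroup (Fin 2) K, ∀ p, h • β p = β (h8Mob M p) := by
    intro h hh
    obtain ⟨d', t, hd1', hd2', ht, rfl⟩ := h8ect_dec hT hoinf hh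
    obtain ⟨M, hM⟩ := hallD d' hd1' hd2'
    refine ⟨M * h8U (τ.symm ⟨t, ht⟩), hmulR _ _ _ _ hM ?_⟩
    have := hRT (τ.symm ⟨t, ht⟩)
    rw [Equiv.apply_symm_apply] at this
    exact this
  have hall : ∀ g : G, ∃ M : SpecialLinearGroup (Fin 2) K, ∀ p, g • β p = β (h8Mob M p) := by
    intro g
    by_cases hg : g ∈ h8N T
    · exact hallH g hg
    · have hy : g • h8Inf T ≠ h8Inf T := fun h => hg ((h8ect_N_iff T g).mp h)
      obtain ⟨t, ht, hty⟩ := h8ect_reg hT hoinf hy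
      have hh : (t * u₁)⁻¹ * g ∈ h8N T := by
        apply (h8ect_N_iff T _).mp
        rw [mul_smul, inv_smul_eq_iff, mul_smul, hw_inf, hty]
      obtain ⟨M, hM⟩ := hallH _ hh
      have hRt := hRT (τ.symm ⟨t, ht⟩)
      rw [Equiv.apply_symm_apply] at hRt
      refine ⟨h8U (τ.symm ⟨t, ht⟩) * h8Wm * M, ?_⟩
      have hg' : g = (t * u₁) * ((t * u₁)⁻¹ * g) := by group
      rw [hg']
      exact hmulR _ _ _ _ (hmulR _ _ _ _ hRt hRW) hM
  have hfaith : ∀ g : G, (∀ x : G ⧸ h8N T, g • x = x) → g = 1 := by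
    intro g hg
    exact h8ec_three hT.hH hT.hC hT.hHc hinfo (Ne.symm hp1) (Ne.symm hp1o) (hg _) (hg _) (hg _)
  exact h8_psl2_rec hfaith β hreal hall

theorem h8_s1230 (T : Sylow 2 G) (hnc : ¬ IsCyclic (T : Subgroup G))
    (hnn : ¬ (T : Subgroup G).Normal) (hC : h8EC G) :
    ∃ (F : Type) (_ : Field F) (_ : Fintype F), Fintype.card F = Nat.card T ∧
      Nonempty (G ≃* Matrix.ProjectiveSpecialLinearGroup (Fin 2) F) :=
  h8_s1230_aux (h8ect_of T hnc hnn hC)

end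

end Cfsg.Agent.Lib.Helper8
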