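import Mathlib
import Cfsg.Agent.Lib.Helper8.PSL2App

set_option autoImplicit false
set_option linter.style.haveILetI false
set_option linter.unusedSectionVars false
set_option maxHeartbeats 1600000
universe u w

namespace Cfsg.Agent.Lib.Helper8

open Matrix OnePoint

/-- abstract recognition of `PSL₂(F)`, `F` of characteristic 2, from a sharply
3-transitive-like configuration -/
theorem h8_psl2_sharp {G : Type u} [Group G] {Ω : Type w} [MulAction G Ω] (T : Subgroup G)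
    [Finite T] (inf o : Ω) (hoinf : o ≠ inf) (e : G) (heT : e ∈ T) (he1 : e ≠ 1)
    (hee : e * e = 1)
    (hTfix : ∀ t ∈ T, t • inf = inf)
    (hTcomm : ∀ a ∈ T, ∀ b ∈ T, a * b = b * a)
    (hconj : ∀ d : G, d • inf = inf → ∀ t ∈ T, d * t * d⁻¹ ∈ T)
    (hex : ∀ t : G, t ∈ T → t ≠ 1 → ∃ d : G, d • inf = inf ∧ d • o = o ∧ d * e * d⁻¹ = t)
    (huniq : ∀ d d' : G, d • inf = inf → d • o = o → d' • inf = inf → d' • o = o →
      d * e * d⁻¹ = d' * e * d'⁻¹ → d = d')
    (hDcomm : ∀ d d' : G, d • inf = inf → d • o = o → d' • inf = inf → d' • o = o →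
      d * d' = d' * d)
    (hTo : ∀ t ∈ T, t • o = o → t = 1)
    (hreg : ∀ y : Ω, y ≠ inf → ∃ t ∈ T, t • o = y)
    (hdec : ∀ h : G, h • inf = inf → ∃ d t : G, d • inf = inf ∧ d • o = o ∧ t ∈ T ∧ h = d * t)
    (hswap : ∀ z : Ω, z ≠ inf → z ≠ o → ∃ u : G, u • inf = o ∧ u • o = inf ∧ u • z = z ∧
      ∀ d : G, d • inf = inf → d • o = o → u * d * u⁻¹ = d⁻¹)
    (hfaith : ∀ g : G, (∀ x : Ω, g • x = x) → g = 1) :
    ∃ (F : Type) (_ : Field F) (_ : Fintype F), Fintype.card F = Nat.card T ∧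
      (1 : F) + 1 = 0 ∧ Nonempty (G ≃* Matrix.ProjectiveSpecialLinearGroup (Fin 2) F) := by
  classical
  have hinfo : inf ≠ o := Ne.symm hoinf
  let δ : G → G := fun t =>
    if h : t ∈ T ∧ t ≠ 1 then Classical.choose (hex t h.1 h.2) else 1
  have hδ : ∀ t : G, t ∈ T → t ≠ 1 →
      δ t • inf = inf ∧ δ t • o = o ∧ δ t * e * (δ t)⁻¹ = t := by
    intro t ht ht1
    have h : t ∈ T ∧ t ≠ 1 := ⟨ht, ht1⟩
    have : δ t = Classical.choose (hex t h.1 h.2) := dif_pos h
    rw [this]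
    exact Classical.choose_spec (hex t h.1 h.2)
  have hδD : ∀ t : G, δ t • inf = inf ∧ δ t • o = o := by
    intro t
    by_cases h : t ∈ T ∧ t ≠ 1
    · exact ⟨(hδ t h.1 h.2).1, (hδ t h.1 h.2).2.1⟩
    · have : δ t = 1 := dif_neg h
      rw [this]; exact ⟨one_smul _ _, one_smul _ _⟩
  have hδe : δ e = 1 := by
    apply huniq _ _ (hδD e).1 (hδD e).2 (one_smul _ _) (one_smul _ _)
    rw [(hδ e heT he1).2.2]; group
  have hδmul : ∀ a b : G, a ∈ T → a ≠ 1 → b ∈ T → b ≠ 1 →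
      δ (δ a * b * (δ a)⁻¹) = δ a * δ b := by
    intro a b ha ha1 hb hb1
    have hmem := hconj (δ a) (hδD a).1 b hb
    have hne : δ a * b * (δ a)⁻¹ ≠ 1 := by
      intro h
      apply hb1
      calc b = (δ a)⁻¹ * (δ a * b * (δ a)⁻¹) * δ a := by group
        _ = 1 := by rw [h]; group
    apply huniq _ _ (hδD _).1 (hδD _).2
    · rw [mul_smul, (hδD b).1, (hδD a).1]
    · rw [mul_smul, (hδD b).2, (hδD a).2]
    · rw [(hδ _ hmem hne).2.2]
      calc δ a * b * (δ a)⁻¹ = δ a * (δ b * e * (δ b)⁻¹) * (δ a)⁻¹ := by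
            rw [(hδ b hb hb1).2.2]
        _ = δ a * δ b * e * (δ a * δ b)⁻¹ := by group
  -- the field
  let c : ↥T → ↥T → ↥T := fun a b =>
    ⟨δ a.1 * b.1 * (δ a.1)⁻¹, hconj (δ a.1) (hδD a.1).1 b.1 b.2⟩
  have hc : ∀ a b : T,
      ((c a b : T) : G) = δ a.1 * b.1 * (δ a.1)⁻¹ := fun _ _ => rfl
  have hne1 : ∀ a : T, a ≠ 1 → (a : G) ≠ 1 := by
    intro a ha h; apply ha; exact Subtype.ext h
  have c1 : ∀ a b b' : T, c a (b * b') = c a b * c a b' := by
    intro a b b'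
    apply Subtype.ext
    rw [Subgroup.coe_mul, hc, hc, hc, Subgroup.coe_mul]
    group
  have c3 : ∀ b : T, c ⟨e, heT⟩ b = b := by
    intro b
    apply Subtype.ext
    rw [hc]
    show δ e * b.1 * (δ e)⁻¹ = b.1
    rw [hδe]; group
  have c6 : ∀ a b : T, a ≠ 1 → b ≠ 1 → c a b ≠ 1 := by
    intro a b ha hb h
    apply hne1 b hb
    have h' : δ a.1 * b.1 * (δ a.1)⁻¹ = 1 := by rw [← hc, h]; rfl
    calc (b : G) = (δ a.1)⁻¹ * (δ a.1 * b.1 * (δ a.1)⁻¹) * δ a.1 := by group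
      _ = 1 := by rw [h']; group
  have c4 : ∀ a b x : T, a ≠ 1 → b ≠ 1 → c (c a b) x = c a (c b x) := by
    intro a b x ha hb
    apply Subtype.ext
    rw [hc, hc, hc, hc, hδmul a.1 b.1 a.2 (hne1 a ha) b.2 (hne1 b hb)]
    group
  have c5 : ∀ a b : T, a ≠ 1 → b ≠ 1 → c a b = c b a := by
    intro a b ha hb
    apply Subtype.ext
    rw [hc, hc]
    have hcm := hDcomm _ _ (hδD a.1).1 (hδD a.1).2 (hδD b.1).1 (hδD b.1).2
    calc δ a.1 * b.1 * (δ a.1)⁻¹ = δ a.1 * (δ b.1 * e * (δ b.1)⁻¹) * (δ a.1)⁻¹ := by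
          rw [(hδ b.1 b.2 (hne1 b hb)).2.2]
      _ = (δ a.1 * δ b.1) * e * (δ a.1 * δ b.1)⁻¹ := by group
      _ = (δ b.1 * δ a.1) * e * (δ b.1 * δ a.1)⁻¹ := by rw [hcm]
      _ = δ b.1 * (δ a.1 * e * (δ a.1)⁻¹) * (δ b.1)⁻¹ := by group
      _ = δ b.1 * a.1 * (δ b.1)⁻¹ := by rw [(hδ a.1 a.2 (hne1 a ha)).2.2]
  have c7 : ∀ a : T, a ≠ 1 → ∃ b, c a b = ⟨e, heT⟩ := by
    intro a _
    have hinvD : (δ a.1)⁻¹ • inf = inf := by rw [inv_smul_eq_iff, (hδD a.1).1]
    have hm := hconj (δ a.1)⁻¹ hinvD e heT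
    rw [inv_inv] at hm
    refine ⟨⟨(δ a.1)⁻¹ * e * δ a.1, hm⟩, ?_⟩
    apply Subtype.ext
    rw [hc]
    show δ a.1 * ((δ a.1)⁻¹ * e * δ a.1) * (δ a.1)⁻¹ = e
    group
  obtain ⟨K, iFin, hKcard, ⟨τ⟩⟩ := h8_exists_type0 T
  obtain ⟨iF, hτadd, hτ0, hτ1, hτmul⟩ := h8_field_of_group (⟨e, heT⟩ : T)
    (fun h => he1 (congrArg Subtype.val h)) c c1 c3 c4 c5 c6 c7 τ
  have h2 : (1 : K) + 1 = 0 := by
    apply τ.injective
    rw [hτadd, hτ1, hτ0]
    apply Subtype.ext
    show e * e = 1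
    exact hee
  have hneg : ∀ y : K, -y = y := by
    intro y
    have : y + y = 0 := by linear_combination y * h2
    exact neg_eq_of_add_eq_zero_left this
  -- the bijection with the projective line
  let βf : OnePoint K → Ω := fun p =>
    p.elim (inf) (fun x => ((τ x : T) : G) • o)
  have hβinj : Function.Injective βf := by
    intro p p' h
    cases p using OnePoint.rec with
    | infty =>
      cases p' using OnePoint.rec with
      | infty => rfl
      | coe y =>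
        exfalso
        have h' : ((τ y : T) : G) • o = inf := h.symm
        exact hoinf (smul_left_cancel _ (h'.trans (hTfix _ (τ y).2).symm))
    | coe x =>
      cases p' using OnePoint.rec with
      | infty =>
        exfalso
        have h' : ((τ x : T) : G) • o = inf := h
        exact hoinf (smul_left_cancel _ (h'.trans (hTfix _ (τ x).2).symm))
      | coe y =>
        have h' : ((τ x : T) : G) • o = ((τ y : T) : G) • o := h
        have h1 : (((τ y)⁻¹ * τ x : T) : G) • o = o := by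
          rw [Subgroup.coe_mul, Subgroup.coe_inv, mul_smul, h', ← mul_smul, inv_mul_cancel,
            one_smul]
        have h2' := hTo _ ((τ y)⁻¹ * τ x).2 h1
        have h3 : (τ y)⁻¹ * τ x = 1 := Subtype.ext h2'
        have h4 : τ x = τ y := by
          have := congrArg (fun z => τ y * z) h3
          simpa using this
        rw [τ.injective h4]
  have hβsurj : Function.Surjective βf := by
    intro y
    by_cases hy : y = inf
    · exact ⟨∞, hy.symm⟩
    · obtain ⟨t, ht, hty⟩ := hreg _ hy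
      refine ⟨((τ.symm ⟨t, ht⟩ : K) : OnePoint K), ?_⟩
      show ((τ (τ.symm ⟨t, ht⟩) : T) : G) • o = y
      rw [Equiv.apply_symm_apply]; exact hty
  let β : OnePoint K ≃ Ω := Equiv.ofBijective βf ⟨hβinj, hβsurj⟩
  have hβinf : β ∞ = inf := rfl
  have hβsome : ∀ x : K, β (x : OnePoint K) = ((τ x : T) : G) • o :=
    fun _ => rfl
  have hβ0 : β ((0 : K) : OnePoint K) = o := by
    rw [hβsome, hτ0]; exact one_smul _ _
  -- translations
  have hRT : ∀ b : K, ∀ p, ((τ b : T) : G) • β p = β (h8Mob (h8U b) p) := by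
    intro b p
    cases p using OnePoint.rec with
    | infty => rw [h8Mob_U_infty, hβinf]; exact hTfix _ (τ b).2
    | coe x =>
      rw [h8Mob_U_some, hβsome, hβsome, hτadd, ← mul_smul, Subgroup.coe_mul]
      rw [hTcomm _ (τ b).2 _ (τ x).2]
  -- scalings
  have hS : ∀ a : K, a ≠ 0 → ∀ x : K,
      δ (τ a).1 • β (x : OnePoint K) = β ((a * x : K) : OnePoint K) := by
    intro a ha x
    have hio : (δ (τ a).1)⁻¹ • o = o := inv_smul_eq_iff.mpr (hδD _).2.symm
    rw [hβsome, hβsome, hτmul a x ha, hc, mul_smul, mul_smul, hio]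
  have hSinf : ∀ a : K, δ (τ a).1 • β ∞ = β ∞ := fun a => by rw [hβinf]; exact (hδD _).1
  have hRD : ∀ (a : K) (ha : a ≠ 0), ∀ p,
      (δ (τ a).1 * δ (τ a).1) • β p = β (h8Mob (h8Hd a ha) p) := by
    intro a ha p
    cases p using OnePoint.rec with
    | infty => rw [h8Mob_Hd_infty, mul_smul, hSinf, hSinf]
    | coe x => rw [h8Mob_Hd_some, mul_smul, hS a ha, hS a ha]
  -- the inversion
  have hp1 : β ((1 : K) : OnePoint K) ≠ inf := by
    rw [← hβinf]; intro h; exact OnePoint.coe_ne_infty _ (β.injective h)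
  have h10 : (1 : K) ≠ 0 := one_ne_zero
  have hp1o : β ((1 : K) : OnePoint K) ≠ o := by
    rw [← hβ0]; intro h; exact h10 (OnePoint.coe_injective (β.injective h))
  obtain ⟨u₁, hw_inf, hw_o, hw_1, hinvD⟩ := hswap _ hp1 hp1o
  have hinvS : ∀ x : K, x ≠ 0 → u₁ • β (x : OnePoint K) = β ((x⁻¹ : K) : OnePoint K) := by
    intro x hx
    have hinv := hinvD _ (hδD (τ x).1).1 (hδD (τ x).1).2
    have e1 : β (x : OnePoint K) = δ (τ x).1 • β ((1 : K) : OnePoint K) := by
      rw [hS x hx, mul_one]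
    have e2 : (δ (τ x).1)⁻¹ • β ((1 : K) : OnePoint K) = β ((x⁻¹ : K) : OnePoint K) := by
      rw [inv_smul_eq_iff, hS x hx, mul_inv_cancel₀ hx]
    have e3 : u₁ * δ (τ x).1 = (δ (τ x).1)⁻¹ * u₁ := by
      calc u₁ * δ (τ x).1 = (u₁ * δ (τ x).1 * u₁⁻¹) * u₁ := by group
        _ = (δ (τ x).1)⁻¹ * u₁ := by rw [hinv]
    rw [e1, ← mul_smul, e3, mul_smul, hw_1, e2]
  have hRW : ∀ p, u₁ • β p = β (h8Mob (h8Wm (F := K)) p) := by
    intro p
    cases p using OnePoint.rec with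
    | infty => rw [h8Mob_W_infty, hβinf, hβ0]; exact hw_inf
    | coe x =>
      by_cases hx : x = 0
      · subst hx
        rw [h8Mob_W_zero, hβ0, hβinf]; exact hw_o
      · rw [h8Mob_W_some x hx, hneg, hinvS x hx]
  have hmulR : ∀ (g g' : G) (M M' : SpecialLinearGroup (Fin 2) K),
      (∀ p, g • β p = β (h8Mob M p)) → (∀ p, g' • β p = β (h8Mob M' p)) →
      ∀ p, (g * g') • β p = β (h8Mob (M * M') p) := by
    intro g g' M M' hg hg' p
    rw [mul_smul, hg', hg, h8Mob_mul]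
  have hreal : ∀ M : SpecialLinearGroup (Fin 2) K, ∃ g : G, ∀ p, g • β p = β (h8Mob M p) := by
    apply h8_bruhat
    · rintro A B ⟨g, hg⟩ ⟨g', hg'⟩
      exact ⟨g * g', hmulR _ _ _ _ hg hg'⟩
    · intro b; exact ⟨_, hRT b⟩
    · intro a ha; exact ⟨_, hRD a ha⟩
    · exact ⟨u₁, hRW⟩
  have hsq : ∀ a : K, ∃ s : K, s * s = a := by
    have hinj : Function.Injective (fun s : K => s * s) := by
      intro s r hsr
      have hsr' : s * s = r * r := hsr
      have h0 : (s + r) * (s + r) = 0 := by linear_combination hsr' + (r * r + s * r) * h2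
      have h1 : s + r = 0 := by simpa using h0
      have : s = -r := eq_neg_of_add_eq_zero_left h1
      rw [this, hneg]
    intro a
    exact (Finite.injective_iff_surjective.mp hinj) a
  have hallD : ∀ d : G, d • inf = inf → d • o = o →
      ∃ M : SpecialLinearGroup (Fin 2) K, ∀ p, d • β p = β (h8Mob M p) := by
    intro d hd1' hd2'
    have htT := hconj d hd1' e heT
    have ht1 : d * e * d⁻¹ ≠ 1 := by
      intro h
      apply he1
      calc e = d⁻¹ * (d * e * d⁻¹) * d := by group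
        _ = 1 := by rw [h]; group
    obtain ⟨s, hs⟩ := hsq (τ.symm ⟨d * e * d⁻¹, htT⟩)
    have ha : τ.symm ⟨d * e * d⁻¹, htT⟩ ≠ 0 := by
      intro h
      have := congrArg τ h
      rw [Equiv.apply_symm_apply, hτ0] at this
      exact ht1 (congrArg Subtype.val this)
    have hs0 : s ≠ 0 := by rintro rfl; rw [mul_zero] at hs; exact ha hs.symm
    have hdδ : δ (τ (τ.symm ⟨d * e * d⁻¹, htT⟩)).1 = d := by
      rw [Equiv.apply_symm_apply]
      show δ (d * e * d⁻¹) = d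
      exact huniq _ _ (hδD _).1 (hδD _).2 hd1' hd2' (hδ _ htT ht1).2.2
    refine ⟨h8Hd s hs0, ?_⟩
    intro p
    cases p using OnePoint.rec with
    | infty => rw [h8Mob_Hd_infty, hβinf]; exact hd1'
    | coe x =>
      rw [h8Mob_Hd_some, ← mul_assoc, hs, ← hS _ ha, hdδ]
  have hallH : ∀ h : G, h • inf = inf →
      ∃ M : SpecialLinearGroup (Fin 2) K, ∀ p, h • β p = β (h8Mob M p) := by
    intro h hh
    obtain ⟨d', t, hd1', hd2', ht, rfl⟩ := hdec h hh
    obtain ⟨M, hM⟩ := hallD d' hd1' hd2'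
    refine ⟨M * h8U (τ.symm ⟨t, ht⟩), hmulR _ _ _ _ hM ?_⟩
    have := hRT (τ.symm ⟨t, ht⟩)
    rw [Equiv.apply_symm_apply] at this
    exact this
  have hall : ∀ g : G, ∃ M : SpecialLinearGroup (Fin 2) K, ∀ p, g • β p = β (h8Mob M p) := by
    intro g
    by_cases hg : g • inf = inf
    · exact hallH g hg
    · have hy : g • inf ≠ inf := hg
      obtain ⟨t, ht, hty⟩ := hreg _ hy
      have hh : ((t * u₁)⁻¹ * g) • inf = inf := by
        rw [mul_smul, inv_smul_eq_iff, mul_smul, hw_inf, hty]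
      obtain ⟨M, hM⟩ := hallH _ hh
      have hRt := hRT (τ.symm ⟨t, ht⟩)
      rw [Equiv.apply_symm_apply] at hRt
      refine ⟨h8U (τ.symm ⟨t, ht⟩) * h8Wm * M, ?_⟩
      have hg' : g = (t * u₁) * ((t * u₁)⁻¹ * g) := by group
      rw [hg']
      exact hmulR _ _ _ _ (hmulR _ _ _ _ hRt hRW) hM
  exact ⟨K, iF, iFin, hKcard, h2, h8_psl2_rec hfaith β hreal hall⟩

end Cfsg.Agent.Lib.Helper8
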