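import Mathlib
import Cfsg.Prelude.Def_KGroupFacts
import Cfsg.Agent.Lib.Helper8.Schur
import Cfsg.Agent.Lib.Helper8.DihedralSchur

set_option autoImplicit false

namespace Cfsg.Agent.Lib.Helper8

open QuaternionGroup

theorem h8_q_inv_a {n : ℕ} (i : ZMod (2 * n)) : (a i : QuaternionGroup n)⁻¹ = a (-i) := by
  apply inv_eq_of_mul_eq_one_right
  rw [a_mul_a, add_neg_cancel, a_zero]

theorem h8_q_nn (n : ℕ) : (n : ZMod (2 * n)) + (n : ZMod (2 * n)) = 0 := by
  rw [← Nat.cast_add, ← two_mul, ZMod.natCast_self]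

theorem h8_q_inv_xa {n : ℕ} (i : ZMod (2 * n)) :
    (xa i : QuaternionGroup n)⁻¹ = xa ((n : ZMod (2 * n)) + i) := by
  apply inv_eq_of_mul_eq_one_right
  rw [xa_mul_xa, ← a_zero]
  congr 1
  linear_combination h8_q_nn n

/-- the cyclic subgroup of index two of the dicyclic group -/
def h8_qrot (n : ℕ) : Subgroup (QuaternionGroup n) where
  carrier := Set.range QuaternionGroup.a
  mul_mem' := by
    rintro _ _ ⟨i, rfl⟩ ⟨j, rfl⟩
    exact ⟨i + j, (a_mul_a i j).symm⟩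
  one_mem' := ⟨0, a_zero⟩
  inv_mem' := by
    rintro _ ⟨i, rfl⟩
    exact ⟨-i, (h8_q_inv_a i).symm⟩

instance h8_qrot_normal (n : ℕ) : (h8_qrot n).Normal := by
  constructor
  rintro _ ⟨i, rfl⟩ g
  rcases g with j | j
  · rw [h8_q_inv_a, a_mul_a, a_mul_a]; exact ⟨_, rfl⟩
  · rw [h8_q_inv_xa, xa_mul_a, xa_mul_xa]; exact ⟨_, rfl⟩

theorem h8_card_qrot (n : ℕ) [NeZero n] : Nat.card (h8_qrot n) = 2 * n := by
  have hinj : Function.Injective (QuaternionGroup.a : ZMod (2 * n) → QuaternionGroup n) := by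
    intro x y hxy
    injection hxy
  have h1 : Nat.card (Set.range (QuaternionGroup.a : ZMod (2 * n) → QuaternionGroup n)) =
      Nat.card (ZMod (2 * n)) :=
    (Nat.card_congr (Equiv.ofInjective _ hinj)).symm
  rw [Nat.card_zmod] at h1
  exact h1

/-- A finite stem extension of the dicyclic group of order `4n` has trivial kernel. -/
theorem h8_dicyclic_stem_ker (n : ℕ) [NeZero n] {Γ : Type*} [Group Γ] [Finite Γ]
    (σ : Γ →* QuaternionGroup n) (hσ : Cfsg.IsStemExtension σ) : σ.ker = ⊥ := by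
  have hn2 : NeZero (2 * n) := ⟨by have := NeZero.ne n; omega⟩
  obtain ⟨hsurj, hcen, hder⟩ := hσ
  set C := (h8_qrot n).comap σ with hC
  have hCn : C.Normal := inferInstance
  have hmemC : ∀ g : Γ, g ∈ C ↔ ∃ i, a i = σ g := fun g => Iff.rfl
  obtain ⟨s, hs⟩ := hsurj (xa 0)
  obtain ⟨ρ, hρ⟩ := hsurj (a 1)
  have hZC : σ.ker ≤ C := by
    intro z hz
    rw [hmemC, MonoidHom.mem_ker.1 hz]
    exact ⟨0, a_zero⟩
  -- C is abelian
  have hCab : ∀ x ∈ C, ∀ y ∈ C, x * y = y * x := by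
    intro x hx y hy
    obtain ⟨i, hi⟩ := hx
    obtain ⟨j, hj⟩ := hy
    have h1 : x * (ρ ^ i.val)⁻¹ ∈ σ.ker := by
      rw [MonoidHom.mem_ker, map_mul, map_inv, map_pow, hρ, a_one_pow, ZMod.natCast_zmod_val, ← hi,
        mul_inv_cancel]
    have h2 : y * (ρ ^ j.val)⁻¹ ∈ σ.ker := by
      rw [MonoidHom.mem_ker, map_mul, map_inv, map_pow, hρ, a_one_pow, ZMod.natCast_zmod_val, ← hj,
        mul_inv_cancel]
    have c1 : ∀ g : Γ, Commute (x * (ρ ^ i.val)⁻¹) g := fun g =>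
      (Subgroup.mem_center_iff.1 (hcen h1) g).symm
    have c2 : ∀ g : Γ, Commute (y * (ρ ^ j.val)⁻¹) g := fun g =>
      (Subgroup.mem_center_iff.1 (hcen h2) g).symm
    have ea : x = (x * (ρ ^ i.val)⁻¹) * ρ ^ i.val := by group
    have eb : y = (y * (ρ ^ j.val)⁻¹) * ρ ^ j.val := by group
    have hcomm : Commute ((x * (ρ ^ i.val)⁻¹) * ρ ^ i.val) ((y * (ρ ^ j.val)⁻¹) * ρ ^ j.val) := by
      apply Commute.mul_left (c1 _)
      apply Commute.mul_right (c2 _).symm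
      exact Commute.pow_pow_self ρ _ _
    rw [ea, eb]
    exact hcomm.eq
  have hsC : ∀ c ∈ C, s * c * s⁻¹ ∈ C := fun c hc => hCn.conj_mem c hc s
  have hδC : ∀ c ∈ C, s * c * s⁻¹ * c⁻¹ ∈ C := fun c hc => C.mul_mem (hsC c hc) (C.inv_mem hc)
  -- the commutator map
  let δ : ↥C →* Γ :=
    { toFun := fun c => s * (c : Γ) * s⁻¹ * (c : Γ)⁻¹
      map_one' := by simp
      map_mul' := by
        intro x y
        have h1 := hCab _ (hδC y y.2) _ (C.inv_mem x.2)
        have e1 : s * ((x : Γ) * (y : Γ)) * s⁻¹ * ((x : Γ) * (y : Γ))⁻¹ =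
            (s * (x : Γ) * s⁻¹) * ((s * (y : Γ) * s⁻¹ * (y : Γ)⁻¹) * (x : Γ)⁻¹) := by group
        have e2 : s * (x : Γ) * s⁻¹ * (x : Γ)⁻¹ * (s * (y : Γ) * s⁻¹ * (y : Γ)⁻¹) =
            (s * (x : Γ) * s⁻¹) * ((x : Γ)⁻¹ * (s * (y : Γ) * s⁻¹ * (y : Γ)⁻¹)) := by group
        show s * ((x : Γ) * (y : Γ)) * s⁻¹ * ((x : Γ) * (y : Γ))⁻¹ =
          s * (x : Γ) * s⁻¹ * (x : Γ)⁻¹ * (s * (y : Γ) * s⁻¹ * (y : Γ)⁻¹)
        rw [e1, e2, h1] }
  have hδ : ∀ c : ↥C, δ c = s * (c : Γ) * s⁻¹ * (c : Γ)⁻¹ := fun c => rfl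
  -- every element is c or c * s
  have hΓ : ∀ g : Γ, g ∈ C ∨ g * s⁻¹ ∈ C := by
    intro g
    rcases h : σ g with i | i
    · exact Or.inl ⟨i, h.symm⟩
    · right
      rw [hmemC, map_mul, map_inv, hs, h, h8_q_inv_xa, xa_mul_xa]
      exact ⟨_, rfl⟩
  -- the commutator subgroup lies in the range of δ
  have hA : commutator Γ ≤ δ.range := by
    rw [commutator_def, Subgroup.commutator_le]
    intro x _ y _
    rw [commutatorElement_def]
    rcases hΓ x with ha | ha <;> rcases hΓ y with hb | hb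
    · rw [hCab x ha y hb]
      have : y * x * x⁻¹ * y⁻¹ = 1 := by group
      rw [this]; exact Subgroup.one_mem _
    · set c₂ := y * s⁻¹ with hc₂
      have hW : s * x⁻¹ * s⁻¹ ∈ C := hsC _ (C.inv_mem ha)
      have e1 : x * y * x⁻¹ * y⁻¹ = x * (c₂ * (s * x⁻¹ * s⁻¹)) * c₂⁻¹ := by rw [hc₂]; group
      have e2 : c₂ * (s * x⁻¹ * s⁻¹) = (s * x⁻¹ * s⁻¹) * c₂ := hCab _ hb _ hW
      have e3 : x * (s * x⁻¹ * s⁻¹) = (s * x⁻¹ * s⁻¹) * x := hCab _ ha _ hW
      refine ⟨⟨x⁻¹, C.inv_mem ha⟩, ?_⟩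
      rw [hδ]
      show s * x⁻¹ * s⁻¹ * (x⁻¹)⁻¹ = x * y * x⁻¹ * y⁻¹
      rw [e1, e2, inv_inv, ← e3]; group
    · set c₁ := x * s⁻¹ with hc₁
      have hY : s * y * s⁻¹ ∈ C := hsC _ hb
      have e1 : x * y * x⁻¹ * y⁻¹ = c₁ * (s * y * s⁻¹) * c₁⁻¹ * y⁻¹ := by rw [hc₁]; group
      have e2 : c₁ * (s * y * s⁻¹) = (s * y * s⁻¹) * c₁ := hCab _ ha _ hY
      refine ⟨⟨y, hb⟩, ?_⟩
      rw [hδ]
      show s * y * s⁻¹ * y⁻¹ = x * y * x⁻¹ * y⁻¹
      rw [e1, e2]; group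
    · set c₁ := x * s⁻¹ with hc₁
      set c₂ := y * s⁻¹ with hc₂
      have hX : s * (c₂ * c₁⁻¹) * s⁻¹ ∈ C := hsC _ (C.mul_mem hb (C.inv_mem ha))
      have e1 : x * y * x⁻¹ * y⁻¹ = c₁ * (s * (c₂ * c₁⁻¹) * s⁻¹) * c₂⁻¹ := by
        rw [hc₁, hc₂]; group
      have e2 : c₁ * (s * (c₂ * c₁⁻¹) * s⁻¹) = (s * (c₂ * c₁⁻¹) * s⁻¹) * c₁ := hCab _ ha _ hX
      refine ⟨⟨c₂ * c₁⁻¹, C.mul_mem hb (C.inv_mem ha)⟩, ?_⟩
      rw [hδ]
      show s * (c₂ * c₁⁻¹) * s⁻¹ * (c₂ * c₁⁻¹)⁻¹ = x * y * x⁻¹ * y⁻¹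
      rw [e1, e2]; group
  have hZI : σ.ker ≤ δ.range := hder.trans hA
  -- doubles lie in T = σ(I)
  have hT : ∀ j : ZMod (2 * n), a (j + j) ∈ δ.range.map σ := by
    intro j
    obtain ⟨c, hc⟩ := hsurj (a (-j))
    have hcC : c ∈ C := ⟨-j, hc.symm⟩
    refine ⟨δ ⟨c, hcC⟩, ⟨⟨c, hcC⟩, rfl⟩, ?_⟩
    rw [hδ]
    show σ (s * c * s⁻¹ * c⁻¹) = a (j + j)
    rw [map_mul, map_mul, map_mul, map_inv, map_inv, hs, hc, h8_q_inv_xa, h8_q_inv_a, xa_mul_a,
      xa_mul_xa, a_mul_a]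
    congr 1
    linear_combination h8_q_nn n
  -- cardinalities
  have hcardI : Nat.card δ.range * Nat.card δ.ker = Nat.card C := by
    have := δ.ker.card_mul_index
    rw [Subgroup.index_ker] at this
    rw [mul_comm]; exact this
  have hcardT : Nat.card (δ.range.map σ) * Nat.card σ.ker = Nat.card δ.range :=
    h8_card_map_mul_card_ker σ _ hZI
  have hcardC : 2 * n * Nat.card σ.ker = Nat.card C := by
    have := h8_card_map_mul_card_ker σ C hZC
    rw [hC, Subgroup.map_comap_eq_self_of_surjective hsurj, h8_card_qrot] at this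
    exact this
  have hZle : (σ.ker).subgroupOf C ≤ δ.ker := by
    intro z hz
    rw [Subgroup.mem_subgroupOf] at hz
    rw [MonoidHom.mem_ker, hδ]
    have := Subgroup.mem_center_iff.1 (hcen hz) s
    rw [this]; group
  have hZcard : Nat.card ((σ.ker).subgroupOf C) = Nat.card σ.ker :=
    Nat.card_congr (Subgroup.subgroupOfEquivOfLe hZC).toEquiv
  have hZker : Nat.card σ.ker ∣ Nat.card δ.ker := by
    have h2 := Subgroup.card_dvd_of_le hZle
    rwa [hZcard] at h2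
  have hZpos : 0 < Nat.card σ.ker := Nat.card_pos
  have hTpos : 0 < Nat.card (δ.range.map σ) := Nat.card_pos
  have hkpos : 0 < Nat.card δ.ker := Nat.card_pos
  have hmain : Nat.card (δ.range.map σ) * Nat.card δ.ker = 2 * n := by
    have h1 : (Nat.card (δ.range.map σ) * Nat.card δ.ker) * Nat.card σ.ker =
        2 * n * Nat.card σ.ker := by
      rw [hcardC, ← hcardI, ← hcardT]; ring
    exact Nat.eq_of_mul_eq_mul_right hZpos h1
  have h2T : 2 * n ≤ 2 * Nat.card (δ.range.map σ) := by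
    have hsub : ((h8_qrot n : Subgroup (QuaternionGroup n)) : Set (QuaternionGroup n)) ⊆
        ((δ.range.map σ : Subgroup (QuaternionGroup n)) : Set (QuaternionGroup n)) ∪
        (fun x => a 1 * x) '' ((δ.range.map σ : Subgroup (QuaternionGroup n)) :
          Set (QuaternionGroup n)) := by
      rintro _ ⟨i, rfl⟩
      obtain ⟨k, hk | hk⟩ := Nat.even_or_odd' i.val
      · left
        have : i = (k : ZMod (2 * n)) + (k : ZMod (2 * n)) := by
          rw [← ZMod.natCast_zmod_val i, hk]; push_cast; ring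
        rw [this]
        exact hT _
      · right
        refine ⟨a ((k : ZMod (2 * n)) + (k : ZMod (2 * n))), hT _, ?_⟩
        have : i = 1 + ((k : ZMod (2 * n)) + (k : ZMod (2 * n))) := by
          rw [← ZMod.natCast_zmod_val i, hk]; push_cast; ring
        show a 1 * a ((k : ZMod (2 * n)) + (k : ZMod (2 * n))) = a i
        rw [a_mul_a, ← this]
    calc 2 * n = Nat.card (h8_qrot n) := (h8_card_qrot n).symm
      _ = ((h8_qrot n : Subgroup (QuaternionGroup n)) : Set (QuaternionGroup n)).ncard :=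
          (Nat.card_coe_set_eq _).symm ▸ rfl
      _ ≤ _ := Set.ncard_le_ncard hsub (Set.toFinite _)
      _ ≤ ((δ.range.map σ : Subgroup (QuaternionGroup n)) : Set (QuaternionGroup n)).ncard +
          ((fun x => a 1 * x) '' ((δ.range.map σ : Subgroup (QuaternionGroup n)) :
            Set (QuaternionGroup n))).ncard := Set.ncard_union_le _ _
      _ ≤ ((δ.range.map σ : Subgroup (QuaternionGroup n)) : Set (QuaternionGroup n)).ncard +
          ((δ.range.map σ : Subgroup (QuaternionGroup n)) : Set (QuaternionGroup n)).ncard :=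
          Nat.add_le_add_left (Set.ncard_image_le (Set.toFinite _)) _
      _ = 2 * Nat.card (δ.range.map σ) := by
          rw [← Nat.card_coe_set_eq]
          show Nat.card (δ.range.map σ) + Nat.card (δ.range.map σ) = _
          ring
  have hk2 : Nat.card δ.ker ≤ 2 := by
    by_contra hcon
    rw [not_le] at hcon
    have : 3 * Nat.card (δ.range.map σ) ≤ Nat.card (δ.range.map σ) * Nat.card δ.ker := by
      rw [mul_comm]; exact Nat.mul_le_mul_left _ hcon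
    omega
  -- s * s lies in the kernel of δ but not in the kernel of σ
  have hssC : s * s ∈ C := by
    rw [hmemC, map_mul, hs, xa_mul_xa]
    exact ⟨_, rfl⟩
  have hssδ : (⟨s * s, hssC⟩ : ↥C) ∈ δ.ker := by
    rw [MonoidHom.mem_ker, hδ]
    show s * (s * s) * s⁻¹ * (s * s)⁻¹ = 1
    group
  have hssσ : s * s ∉ σ.ker := by
    rw [MonoidHom.mem_ker, map_mul, hs, xa_mul_xa, ← a_zero]
    intro h
    have h1 : (n : ZMod (2 * n)) + 0 - 0 = 0 := by injection h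
    rw [add_zero, sub_zero, ZMod.natCast_eq_zero_iff] at h1
    have hn0 : 0 < n := Nat.pos_of_ne_zero (NeZero.ne n)
    have := Nat.le_of_dvd hn0 h1
    omega
  by_contra hZ
  have hZ2 : 2 ≤ Nat.card σ.ker := by
    by_contra hlt
    have : Nat.card σ.ker = 1 := by omega
    exact hZ ((Subgroup.card_eq_one).1 this)
  have hkZ : Nat.card δ.ker ≤ Nat.card ((σ.ker).subgroupOf C) := by
    rw [hZcard]; omega
  have heq : (σ.ker).subgroupOf C = δ.ker := Subgroup.eq_of_le_of_card_ge hZle hkZ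
  rw [← heq, Subgroup.mem_subgroupOf] at hssδ
  exact hssσ hssδ

end Cfsg.Agent.Lib.Helper8
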