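import Mathlib
import Cfsg.Agent.Lib.Helper8.AbelianSylowNPC
import Cfsg.Agent.Lib.Lead.CharBurnside

set_option autoImplicit false

namespace Cfsg.Agent.Lib.Helper8

universe u

theorem h8_solvable_rank2_aux : ∀ (n : ℕ) (G : Type u) [Group G] [Finite G], Nat.card G = n →
    (∀ p : ℕ, p.Prime → p ∣ Nat.card G → (∃ q : ℕ, q.Prime ∧ q ∣ Nat.card G ∧ p < q) →
      ∀ P : Sylow p G, IsMulCommutative (P : Subgroup G) ∧ Group.rank (P : Subgroup G) ≤ 2) →
    ¬ 12 ∣ Nat.card G → Group.IsSolvable G := by
  intro n
  induction n using Nat.strong_induction_on with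
  | _ n ih =>
  intro G _ _ hn h h12
  by_cases h1 : Nat.card G = 1
  · have : Subsingleton G := (Nat.card_eq_one_iff_unique.1 h1).1
    infer_instance
  have hp : ((Nat.card G).minFac).Prime := Nat.minFac_prime h1
  have hpG : (Nat.card G).minFac ∣ Nat.card G := Nat.minFac_dvd _
  have hmin : ∀ q : ℕ, q.Prime → q ∣ Nat.card G → (Nat.card G).minFac ≤ q :=
    fun q hq hqG => Nat.minFac_le_of_dvd hq.two_le hqG
  generalize (Nat.card G).minFac = p at hp hpG hmin
  have : Fact p.Prime := ⟨hp⟩
  by_cases hlarge : ∃ q : ℕ, q.Prime ∧ q ∣ Nat.card G ∧ p < q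
  · obtain ⟨P⟩ := (Sylow.nonempty : Nonempty (Sylow p G))
    obtain ⟨hab, hrank⟩ := h p hp hpG hlarge P
    have hcop : Nat.Coprime (Nat.card G)
        (∏ i ∈ Finset.Icc 1 (Group.rank (P : Subgroup G)), (p ^ i - 1)) := by
      apply Nat.coprime_of_dvd
      intro q hq hqG hqprod
      obtain ⟨i, hi, hqi⟩ := (Prime.dvd_finsetProd_iff hq.prime _).1 hqprod
      rw [Finset.mem_Icc] at hi
      have hpq : p ≤ q := hmin q hq hqG
      have hp2le := hp.two_le
      have hno1 : ¬ q ∣ p - 1 := by
        intro hd
        have := Nat.le_of_dvd (by omega) hd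
        omega
      have hi2 : i = 1 ∨ i = 2 := by omega
      rcases hi2 with rfl | rfl
      · rw [pow_one] at hqi; exact hno1 hqi
      · have hfac : p ^ 2 - 1 = (p + 1) * (p - 1) := by
          have := Nat.sq_sub_sq p 1
          simpa using this
        rw [hfac] at hqi
        rcases (Nat.Prime.dvd_mul hq).1 hqi with hd | hd
        · have hle := Nat.le_of_dvd (by omega) hd
          have hq_eq : q = p + 1 := by
            rcases Nat.lt_or_ge p q with h' | h'
            · omega
            · exfalso
              have hqp : q = p := by omega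
              rw [hqp] at hd
              have h1' : p ∣ 1 := (Nat.dvd_add_right (dvd_refl p)).1 hd
              exact hp.one_lt.ne' (Nat.dvd_one.1 h1')
          have hp2 : p = 2 := by
            rcases hp.eq_two_or_odd with h2 | hodd
            · exact h2
            · exfalso
              have heven : 2 ∣ q := by rw [hq_eq]; omega
              have := (Nat.prime_dvd_prime_iff_eq Nat.prime_two hq).1 heven
              omega
          have hq3 : q = 3 := by omega
          have h4 : ¬ 4 ∣ Nat.card G := by
            intro h4
            apply h12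
            have h3 : 3 ∣ Nat.card G := hq3 ▸ hqG
            exact Nat.Coprime.mul_dvd_of_dvd_of_dvd (by norm_num : Nat.Coprime 4 3) h4 h3
          obtain ⟨k, hk⟩ := P.2.exists_card_eq
          have hk1 : k = 1 := by
            have hpP : p ∣ Nat.card (P : Subgroup G) := P.dvd_card_of_dvd_card hpG
            have hk0 : k ≠ 0 := by
              rintro rfl
              rw [pow_zero] at hk
              rw [hk] at hpP
              exact hp.one_lt.ne' (Nat.dvd_one.1 hpP)
            by_contra hk1
            apply h4
            have h2k : 4 ∣ p ^ k := by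
              rw [hp2]
              exact pow_dvd_pow 2 (show 2 ≤ k by omega)
            rw [← hk] at h2k
            exact h2k.trans (Subgroup.card_subgroup_dvd_card _)
          rw [hk1, pow_one] at hk
          have hcyc : IsCyclic (P : Subgroup G) := isCyclic_of_prime_card hk
          obtain ⟨g, hg⟩ := hcyc.exists_generator
          have hcl : Subgroup.closure ((({g} : Finset (P : Subgroup G)) : Set (P : Subgroup G))) =
              ⊤ := by
            rw [Finset.coe_singleton, ← Subgroup.zpowers_eq_closure, Subgroup.eq_top_iff']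
            exact hg
          have hr1 := Group.rank_le hcl
          rw [Finset.card_singleton] at hr1
          omega
        · exact hno1 hd
    obtain ⟨P', N, hN, hNP⟩ := h8_npc_of_abelian_sylow p P hab hcop
    have hcardN := hNP.card_mul_card
    obtain ⟨k, hk⟩ := P'.2.exists_card_eq
    have hk0 : k ≠ 0 := by
      rintro rfl
      rw [pow_zero] at hk
      have hpP : p ∣ Nat.card (P' : Subgroup G) := P'.dvd_card_of_dvd_card hpG
      rw [hk] at hpP
      exact hp.one_lt.ne' (Nat.dvd_one.1 hpP)
    have hNlt : Nat.card N < Nat.card G := by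
      rw [← hcardN, hk]
      have h2 : 2 ≤ p ^ k := by
        calc 2 ≤ p := hp.two_le
          _ = p ^ 1 := (pow_one p).symm
          _ ≤ p ^ k := Nat.pow_le_pow_right hp.pos (by omega)
      have h3 : 0 < Nat.card N := Nat.card_pos
      nlinarith
    have hNsolv : Group.IsSolvable N := by
      apply ih (Nat.card N) (hn ▸ hNlt) N rfl
      · intro p' hp' hp'N hex P''
        have : Fact p'.Prime := ⟨hp'⟩
        have hp'G : p' ∣ Nat.card G := hp'N.trans (Subgroup.card_subgroup_dvd_card N)
        have hne : p' ≠ p := by
          rintro rfl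
          apply P'.not_dvd_index
          rw [hNP.index_eq_card]
          exact hp'N
        have hQcard : Nat.card ((P'' : Subgroup N).map N.subtype) =
            p' ^ (Nat.card G).factorization p' := by
          rw [Subgroup.card_map_of_injective (Subgroup.subtype_injective N),
            Sylow.card_eq_multiplicity, ← hcardN,
            Nat.factorization_mul Nat.card_pos.ne' Nat.card_pos.ne', hk,
            Nat.factorization_pow, hp.factorization]
          simp [hne.symm]
        obtain ⟨habQ, hrQ⟩ := h p' hp' hp'G (by
          obtain ⟨q, hq, hqN, hlt⟩ := hex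
          exact ⟨q, hq, hqN.trans (Subgroup.card_subgroup_dvd_card N), hlt⟩)
          (Sylow.ofCard _ hQcard)
        refine ⟨⟨⟨fun a b => ?_⟩⟩, ?_⟩
        · apply ((P'' : Subgroup N).equivMapOfInjective N.subtype
            (Subgroup.subtype_injective N)).injective
          rw [map_mul, map_mul]
          exact habQ.is_comm.comm _ _
        · rw [Group.rank_congr ((P'' : Subgroup N).equivMapOfInjective N.subtype
            (Subgroup.subtype_injective N))]
          exact hrQ
      · intro hd
        exact h12 (hd.trans (Subgroup.card_subgroup_dvd_card N))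
    have hQsolv : Group.IsSolvable (G ⧸ N) := by
      apply Cfsg.Agent.Lib.Lead.isSolvable_of_card_prime_pow hp (n := k)
      rw [← Subgroup.index_eq_card, hNP.symm.index_eq_card, hk]
    exact Group.isSolvable_of_ker_le_range N.subtype (QuotientGroup.mk' N)
      (by rw [QuotientGroup.ker_mk', Subgroup.range_subtype])
  · have hpow : Nat.card G = p ^ (Nat.card G).primeFactorsList.length := by
      apply Nat.eq_prime_pow_of_unique_prime_dvd Nat.card_pos.ne'
      intro d hd hdG
      by_contra hne
      exact hlarge ⟨d, hd, hdG, lt_of_le_of_ne (hmin d hd hdG) (Ne.symm hne)⟩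
    exact Cfsg.Agent.Lib.Lead.isSolvable_of_card_prime_pow hp hpow

theorem h8_solvable_rank2 {G : Type u} [Group G] [Finite G]
    (h : ∀ p : ℕ, p.Prime → p ∣ Nat.card G → (∃ q : ℕ, q.Prime ∧ q ∣ Nat.card G ∧ p < q) →
      ∀ P : Sylow p G, IsMulCommutative (P : Subgroup G) ∧ Group.rank (P : Subgroup G) ≤ 2)
    (h12 : ¬ 12 ∣ Nat.card G) : Group.IsSolvable G :=
  h8_solvable_rank2_aux (Nat.card G) G rfl h h12

end Cfsg.Agent.Lib.Helper8
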