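import Mathlib
import Cfsg.Prelude.Def_Characters
import Cfsg.Agent.Lib.Helper8.SL2CuspSum

set_option autoImplicit false
set_option linter.style.haveILetI false
set_option linter.unusedSectionVars false
set_option linter.unusedVariables false

universe u

namespace Cfsg.Agent.Lib.Helper8

open Matrix
open scoped ComplexConjugate

section
variable {F : Type u} [Field F]

local notation "SLF" => Matrix.SpecialLinearGroup (Fin 2) F
local notation "MF" => Matrix (Fin 2) (Fin 2) F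

theorem h8_sum_uni [Fintype F] [DecidableEq F] (χ : SLF → ℂ) :
    (∑ g : SLF, if (g : MF) 1 0 = 0 ∧ (g : MF) 0 0 = 1 ∧ (g : MF) 1 1 = 1 then χ g else 0)
      = ∑ b : F, χ (h8uni b) := by
  have hinj : Function.Injective (fun b : F => (h8uni b : SLF)) := by
    intro b b' h
    have h1 : ((h8uni b : SLF) : MF) = ((h8uni b' : SLF) : MF) :=
      congrArg (fun g : SLF => (g : MF)) h
    rw [h8uni_val, h8uni_val] at h1
    exact (h8_fin_two_inj h1).2.1
  have hf : ∀ g : SLF, (∀ b : F, (fun b : F => (h8uni b : SLF)) b ≠ g) →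
      (fun g : SLF => if (g : MF) 1 0 = 0 ∧ (g : MF) 0 0 = 1 ∧ (g : MF) 1 1 = 1
        then χ g else 0) g = 0 := by
    intro g hg
    apply if_neg
    rintro ⟨h10, h00, h11⟩
    obtain ⟨a, b, c, d, hgm⟩ : ∃ a b c d : F, (g : MF) = !![a, b; c, d] :=
      ⟨_, _, _, _, Matrix.eta_fin_two _⟩
    rw [hgm] at h10 h00 h11
    apply hg b
    apply Subtype.ext
    show ((h8uni b : SLF) : MF) = (g : MF)
    have hc : c = 0 := h10
    have ha : a = 1 := h00
    have hd : d = 1 := h11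
    rw [h8uni_val, hgm, hc, ha, hd]
  rw [h8_sum_of_support_range (fun b : F => (h8uni b : SLF)) hinj _ hf]
  exact Finset.sum_congr rfl (fun b _ =>
    if_pos (show ((h8uni b : SLF) : MF) 1 0 = 0 ∧ ((h8uni b : SLF) : MF) 0 0 = 1 ∧
      ((h8uni b : SLF) : MF) 1 1 = 1 from ⟨rfl, rfl, rfl⟩))

theorem h8_s2438_aux [Fintype F] [DecidableEq F] (hodd : Odd (Fintype.card F)) (χ : SLF → ℂ)
    (hχ : Cfsg.IsIrrCharacter SLF χ) :
    ∃ m₀ h n M s Sn : ℕ, Fintype.card F = 2 * h + 1 ∧ χ 1 = (n : ℂ) ∧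
      ∑ b : F, χ (h8uni b) = (Fintype.card F : ℂ) * m₀ ∧ n = m₀ + M ∧ M = h * s ∧
      m₀ ^ 2 + M ≤ Sn ∧ M ^ 2 + 2 * h * m₀ ^ 2 ≤ 2 * h * Sn ∧
      4 * (h + 1) * Sn ≤ 4 * h * (h + 1) + 2 * n ^ 2 := by
  classical
  have hchar := Cfsg.Agent.Lib.Lead.isCharacter_of_isIrrCharacter hχ
  have hcf := Cfsg.Agent.Lib.Lead.isClassFunction_of_isCharacter hchar
  obtain ⟨n, hn⟩ := Cfsg.Agent.Lib.Lead.isCharacter_one_eq_natCast hchar
  obtain ⟨m₀, s, hm₀, hs⟩ := h8_sl2_mult hodd hchar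
  have hnorm := h8_sl2_norm hodd hχ
  obtain ⟨h, hh⟩ := hodd
  have hQ0 : (Fintype.card F : ℂ) ≠ 0 := by
    have : Fintype.card F ≠ 0 := Fintype.card_ne_zero
    exact_mod_cast this
  obtain ⟨η, hη⟩ : ∃ η : Multiplicative F → ℂ,
      η = χ ∘ (h8uniHom : Multiplicative F →* SLF) := ⟨_, rfl⟩
  have hηchar : Cfsg.IsCharacter (Multiplicative F) η := by
    rw [hη]
    exact Cfsg.Agent.Lib.Lead.isCharacter_comp h8uniHom hchar
  have hηcf := Cfsg.Agent.Lib.Lead.isClassFunction_of_isCharacter hηchar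
  have hηx : ∀ x : Multiplicative F, η x = χ (h8uni (Multiplicative.toAdd x)) := by
    intro x
    rw [hη]
    rfl
  haveI : Finite (Cfsg.IrrCharacter (Multiplicative F)) := Cfsg.Agent.Lib.Lead.irr_finite
  letI : Fintype (Cfsg.IrrCharacter (Multiplicative F)) := Fintype.ofFinite _
  have hmex : ∀ φ : Cfsg.IrrCharacter (Multiplicative F), ∃ k : ℕ,
      Cfsg.classInner η φ = (k : ℂ) := fun φ =>
    Cfsg.Agent.Lib.Lead.classInner_isCharacter_nat hηchar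
      (Cfsg.Agent.Lib.Lead.isCharacter_of_isIrrCharacter φ.2)
  choose m hm using hmex
  have hcardA : (Nat.card (Multiplicative F) : ℂ) = (Fintype.card F : ℂ) := by
    rw [Nat.card_eq_fintype_card, Fintype.card_multiplicative]
  obtain ⟨φ₁, hφ₁⟩ : ∃ φ₁ : Cfsg.IrrCharacter (Multiplicative F),
      ∀ x, (φ₁ : Multiplicative F → ℂ) x = 1 :=
    ⟨⟨fun x => (((1 : Multiplicative F →* ℂˣ) x : ℂˣ) : ℂ),
      Cfsg.Agent.Lib.Lead.isIrrCharacter_of_hom 1⟩, fun x => rfl⟩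
  have hmφ₁ : m φ₁ = m₀ := by
    have h1 : Cfsg.classInner η (φ₁ : Multiplicative F → ℂ) = (m₀ : ℂ) := by
      unfold Cfsg.classInner
      rw [hcardA]
      have h2 : ∑ x : Multiplicative F, η x * conj ((φ₁ : Multiplicative F → ℂ) x)
          = ∑ b : F, χ (h8uni b) :=
        Fintype.sum_equiv Multiplicative.toAdd _ _ (fun x => by
          rw [hφ₁, map_one, mul_one, hηx])
      rw [h2, ← hm₀, inv_mul_cancel_left₀ hQ0]
    have h3 : ((m φ₁ : ℕ) : ℂ) = (m₀ : ℂ) := by rw [← hm φ₁, h1]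
    exact_mod_cast h3
  have hS := Cfsg.Agent.Lib.Lead.classInner_self_eq_sum_sq hηchar m hm
  obtain ⟨Sn, hSn⟩ : ∃ Sn : ℕ,
      Sn = ∑ φ : Cfsg.IrrCharacter (Multiplicative F), m φ ^ 2 := ⟨_, rfl⟩
  rw [← hSn] at hS
  have hW : ∑ b : F, ‖χ (h8uni b)‖ ^ 2 = (Fintype.card F : ℝ) * (Sn : ℝ) := by
    have h2 : Cfsg.classInner η η
        = (Fintype.card F : ℂ)⁻¹ * ((∑ b : F, ‖χ (h8uni b)‖ ^ 2 : ℝ) : ℂ) := by
      unfold Cfsg.classInner
      rw [hcardA]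
      congr 1
      rw [Complex.ofReal_sum]
      exact Fintype.sum_equiv Multiplicative.toAdd _ _ (fun x => by
        rw [Complex.mul_conj', Complex.ofReal_pow, hηx])
    have h3 : ((∑ b : F, ‖χ (h8uni b)‖ ^ 2 : ℝ) : ℂ)
        = (((Fintype.card F : ℝ) * (Sn : ℝ) : ℝ) : ℂ) := by
      rw [Complex.ofReal_mul, Complex.ofReal_natCast, Complex.ofReal_natCast, ← hS, h2,
        mul_inv_cancel_left₀ hQ0]
    exact Complex.ofReal_injective h3
  have hd : ∀ φ : Cfsg.IrrCharacter (Multiplicative F), (φ : Multiplicative F → ℂ) 1 = 1 :=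
    Cfsg.Agent.Lib.Lead.comm_iff_all_degree_one.mp (fun a b => mul_comm a b)
  have hnsum : n = ∑ φ : Cfsg.IrrCharacter (Multiplicative F), m φ := by
    have h1 := congrFun (Cfsg.Agent.Lib.Lead.expansion η hηcf) 1
    rw [Finset.sum_apply] at h1
    simp only [Pi.smul_apply, smul_eq_mul, hm, hd, mul_one] at h1
    have h4 : η 1 = (n : ℂ) := by
      rw [hη]
      show χ (h8uniHom 1) = _
      rw [map_one, hn]
    have h5 : ((n : ℕ) : ℂ)
        = ((∑ φ : Cfsg.IrrCharacter (Multiplicative F), m φ : ℕ) : ℂ) := by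
      push_cast
      rw [← h4, h1]
    exact_mod_cast h5
  have hcardIrr : Fintype.card (Cfsg.IrrCharacter (Multiplicative F)) = 2 * h + 1 := by
    have h5 := Cfsg.Agent.Lib.Lead.sum_sq_degree (G := Multiplicative F)
    simp only [hd, one_pow, Finset.sum_const, Finset.card_univ, nsmul_eq_mul, mul_one] at h5
    rw [hcardA] at h5
    have h6 : Fintype.card (Cfsg.IrrCharacter (Multiplicative F)) = Fintype.card F := by
      exact_mod_cast h5
    rw [h6, hh]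
  obtain ⟨M, hMdef⟩ : ∃ M : ℕ, M = ∑ φ ∈ Finset.univ.erase φ₁, m φ := ⟨_, rfl⟩
  have hnM : n = m₀ + M := by
    rw [hnsum, ← Finset.add_sum_erase Finset.univ _ (Finset.mem_univ φ₁), hmφ₁, hMdef]
  have hSn2 : Sn = m₀ ^ 2 + ∑ φ ∈ Finset.univ.erase φ₁, m φ ^ 2 := by
    rw [hSn, ← Finset.add_sum_erase Finset.univ _ (Finset.mem_univ φ₁), hmφ₁]
  have hS1 : m₀ ^ 2 + M ≤ Sn := by
    rw [hSn2, hMdef]
    exact Nat.add_le_add_left
      (Finset.sum_le_sum (fun φ _ => Nat.le_self_pow two_ne_zero (m φ))) _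
  have hS2 : M ^ 2 + 2 * h * m₀ ^ 2 ≤ 2 * h * Sn := by
    have hcs := sq_sum_le_card_mul_sum_sq (s := Finset.univ.erase φ₁) (f := m)
    rw [Nat.cast_id, Finset.card_erase_of_mem (Finset.mem_univ φ₁), Finset.card_univ, hcardIrr,
      ← hMdef] at hcs
    have h7 : 2 * h + 1 - 1 = 2 * h := by omega
    rw [h7] at hcs
    rw [hSn2]
    nlinarith [hcs]
  have hS3 : 4 * (h + 1) * Sn ≤ 4 * h * (h + 1) + 2 * n ^ 2 := by
    rw [hW, hn, Complex.norm_natCast, hh] at hnorm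
    push_cast at hnorm
    have hpos : (0 : ℝ) < 2 * (h : ℝ) + 1 := by positivity
    have h8 : (2 * (h : ℝ) + 1) * (4 * ((h : ℝ) + 1) * (Sn : ℝ))
        ≤ (2 * (h : ℝ) + 1) * (4 * (h : ℝ) * ((h : ℝ) + 1) + 2 * (n : ℝ) ^ 2) := by
      nlinarith [hnorm]
    have h9 := le_of_mul_le_mul_left h8 hpos
    exact_mod_cast h9
  have hMs : M = h * s := by
    have h1 : ((2 * M : ℕ) : ℂ) = ((2 * (h * s) : ℕ) : ℂ) := by
      rw [hn, hh, hnM] at hs
      push_cast at hs ⊢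
      linear_combination hs
    have h2 : 2 * M = 2 * (h * s) := by exact_mod_cast h1
    omega
  exact ⟨m₀, h, n, M, s, Sn, hh, hn, hm₀.symm, hnM, hMs, hS1, hS2, hS3⟩

theorem h8_s2438 [Fintype F] [DecidableEq F] (hodd : Odd (Fintype.card F))
    (hq : 5 ≤ Fintype.card F) (χ : SLF → ℂ) (hχ : Cfsg.IsIrrCharacter SLF χ) :
    (χ 1 = (Fintype.card F : ℂ) + 1 →
      (∑ g : SLF, if (g : MF) 1 0 = 0 ∧ (g : MF) 0 0 = 1 ∧ (g : MF) 1 1 = 1 then χ g else 0)
        = 2 * (Fintype.card F : ℂ)) ∧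
    (χ 1 = (Fintype.card F : ℂ) →
      (∑ g : SLF, if (g : MF) 1 0 = 0 ∧ (g : MF) 0 0 = 1 ∧ (g : MF) 1 1 = 1 then χ g else 0)
        = (Fintype.card F : ℂ)) ∧
    (χ 1 = (Fintype.card F : ℂ) - 1 →
      (∑ g : SLF, if (g : MF) 1 0 = 0 ∧ (g : MF) 0 0 = 1 ∧ (g : MF) 1 1 = 1 then χ g else 0)
        = 0) ∧
    (χ 1 = (((Fintype.card F + 1) / 2 : ℕ) : ℂ) →
      (∑ g : SLF, if (g : MF) 1 0 = 0 ∧ (g : MF) 0 0 = 1 ∧ (g : MF) 1 1 = 1 then χ g else 0)
        = (Fintype.card F : ℂ)) ∧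
    (χ 1 = (((Fintype.card F - 1) / 2 : ℕ) : ℂ) →
      (∑ g : SLF, if (g : MF) 1 0 = 0 ∧ (g : MF) 0 0 = 1 ∧ (g : MF) 1 1 = 1 then χ g else 0)
        = 0) := by
  obtain ⟨m₀, h, n, M, s, Sn, hh, hn, hsumU, hnM, hMs, hS1, hS2, hS3⟩ :=
    h8_s2438_aux hodd χ hχ
  have hh2 : 2 ≤ h := by omega
  obtain ⟨a1, a2, a3, a4, a5⟩ := h8_s2438_arith h n m₀ M s Sn hh2 hnM hMs hS1 hS2 hS3
  rw [h8_sum_uni χ, hsumU]
  refine ⟨?_, ?_, ?_, ?_, ?_⟩
  · intro hdeg
    have hn1 : n = 2 * h + 2 := by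
      have h1 : ((n : ℕ) : ℂ) = ((2 * h + 2 : ℕ) : ℂ) := by
        rw [← hn, hdeg, hh]; push_cast; ring
      exact_mod_cast h1
    rw [a1 hn1]; push_cast; ring
  · intro hdeg
    have hn1 : n = 2 * h + 1 := by
      have h1 : ((n : ℕ) : ℂ) = ((2 * h + 1 : ℕ) : ℂ) := by
        rw [← hn, hdeg, hh]
      exact_mod_cast h1
    rw [a2 hn1]; push_cast; ring
  · intro hdeg
    have hn1 : n = 2 * h := by
      have h1 : ((n : ℕ) : ℂ) = ((2 * h : ℕ) : ℂ) := by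
        rw [← hn, hdeg, hh]; push_cast; ring
      exact_mod_cast h1
    rw [a3 hn1]; push_cast; ring
  · intro hdeg
    have hn1 : n = h + 1 := by
      have h1 : n = (Fintype.card F + 1) / 2 := by
        rw [hn] at hdeg
        exact_mod_cast hdeg
      omega
    rw [a4 hn1]; push_cast; ring
  · intro hdeg
    have hn1 : n = h := by
      have h1 : n = (Fintype.card F - 1) / 2 := by
        rw [hn] at hdeg
        exact_mod_cast hdeg
      omega
    rw [a5 hn1]; push_cast; ring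

end

end Cfsg.Agent.Lib.Helper8
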