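import Mathlib
import Cfsg.Prelude.Def_Characters
import Cfsg.Agent.Lib.Helper8.SL2CuspSum2

set_option autoImplicit false
set_option linter.style.haveILetI false
set_option linter.unusedSectionVars false
set_option linter.unusedVariables false

universe u

namespace Cfsg.Agent.Lib.Helper8

open Matrix
open scoped ComplexConjugate

theorem h8_s2323_arith (h n m₀ kp km : ℕ) (hh : 2 ≤ h) (hn : n = m₀ + h * (kp + km))
    (hS : 4 * (h + 1) * (m₀ ^ 2 + h * (kp ^ 2 + km ^ 2)) ≤ 4 * h * (h + 1) + 2 * n ^ 2) :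
    (n = 2 * h + 2 → m₀ = 2 ∧ kp = 1 ∧ km = 1) ∧ (n = 2 * h → m₀ = 0 ∧ kp = 1 ∧ km = 1) := by
  have hkp : kp ≤ kp ^ 2 := Nat.le_self_pow two_ne_zero kp
  have hkm : km ≤ km ^ 2 := Nat.le_self_pow two_ne_zero km
  have hS1 : m₀ ^ 2 + h * (kp + km) ≤ m₀ ^ 2 + h * (kp ^ 2 + km ^ 2) :=
    Nat.add_le_add_left (Nat.mul_le_mul_left h (Nat.add_le_add hkp hkm)) _
  have h1 : (kp + km) ^ 2 ≤ 2 * (kp ^ 2 + km ^ 2) := by
    have h0 := sq_nonneg ((kp : ℤ) - km)
    zify
    nlinarith [h0]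
  have hS2 : (h * (kp + km)) ^ 2 + 2 * h * m₀ ^ 2
      ≤ 2 * h * (m₀ ^ 2 + h * (kp ^ 2 + km ^ 2)) := by
    have h2 := Nat.mul_le_mul_left (h ^ 2) h1
    nlinarith [h2]
  obtain ⟨a1, -, a3, -, -⟩ := h8_s2438_arith h n m₀ (h * (kp + km)) (kp + km)
    (m₀ ^ 2 + h * (kp ^ 2 + km ^ 2)) hh hn rfl hS1 hS2 hS
  have hpos : 0 < h := by omega
  have hhh : 0 ≤ h * h := Nat.zero_le _
  refine ⟨fun hn1 => ?_, fun hn2 => ?_⟩
  · have hm := a1 hn1
    have hsum : kp + km = 2 := by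
      have h2 : h * (kp + km) = h * 2 := by omega
      exact Nat.eq_of_mul_eq_mul_left hpos h2
    have hkp2 : kp ≤ 2 := by omega
    subst hm
    subst hn1
    interval_cases kp
    · have hkm2 : km = 2 := by omega
      subst hkm2
      exfalso
      nlinarith [hS, hh, hhh]
    · exact ⟨rfl, rfl, by omega⟩
    · have hkm2 : km = 0 := by omega
      subst hkm2
      exfalso
      nlinarith [hS, hh, hhh]
  · have hm := a3 hn2
    have hsum : kp + km = 2 := by
      have h2 : h * (kp + km) = h * 2 := by omega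
      exact Nat.eq_of_mul_eq_mul_left hpos h2
    have hkp2 : kp ≤ 2 := by omega
    subst hm
    subst hn2
    interval_cases kp
    · have hkm2 : km = 2 := by omega
      subst hkm2
      exfalso
      nlinarith [hS, hh, hhh]
    · exact ⟨rfl, rfl, by omega⟩
    · have hkm2 : km = 0 := by omega
      subst hkm2
      exfalso
      nlinarith [hS, hh, hhh]

section
variable {F : Type u} [Field F]

local notation "SLF" => Matrix.SpecialLinearGroup (Fin 2) F
local notation "MF" => Matrix (Fin 2) (Fin 2) F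

theorem h8_fourier_inv [Fintype F] [DecidableEq F] (ψ : AddChar F ℂ) (hψ1 : ψ ≠ 1) (f : F → ℂ)
    (b : F) :
    ∑ c : F, (∑ b' : F, f b' * conj (ψ (c * b'))) * ψ (c * b) = (Fintype.card F : ℂ) * f b := by
  have h1 : ∀ d : F, ∑ c : F, ψ (c * d) = if d = 0 then (Fintype.card F : ℂ) else 0 := by
    intro d
    by_cases hd : d = 0
    · rw [if_pos hd, hd]
      simp
    · rw [if_neg hd]
      have h2 : ∑ c : F, ψ (c * d) = ∑ x : F, ψ x :=
        Fintype.sum_equiv (Equiv.mulRight₀ d hd) (fun c => ψ (c * d)) (fun x => ψ x)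
          (fun c => rfl)
      rw [h2, AddChar.sum_eq_zero_of_ne_one hψ1]
  have h3 : ∀ c b' : F, f b' * conj (ψ (c * b')) * ψ (c * b) = f b' * ψ (c * (b - b')) := by
    intro c b'
    rw [← AddChar.map_neg_eq_conj, mul_assoc, ← AddChar.map_add_eq_mul]
    congr 2
    ring
  simp only [Finset.sum_mul]
  rw [Finset.sum_comm]
  have h4 : ∀ b' : F, ∑ c : F, f b' * conj (ψ (c * b')) * ψ (c * b)
      = if b' = b then (Fintype.card F : ℂ) * f b else 0 := by
    intro b'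
    rw [Finset.sum_congr rfl (fun c _ => h3 c b'), ← Finset.mul_sum, h1 (b - b')]
    by_cases hb : b' = b
    · rw [if_pos hb, if_pos (by rw [hb, sub_self]), hb, mul_comm]
    · rw [if_neg hb, if_neg (fun h => hb (sub_eq_zero.mp h).symm), mul_zero]
  rw [Finset.sum_congr rfl (fun b' _ => h4 b'), Finset.sum_ite_eq' Finset.univ b,
    if_pos (Finset.mem_univ _)]

theorem h8_sum_quad_class [Fintype F] [DecidableEq F] (hF : ringChar F ≠ 2) (G : F → ℂ)
    (A B : ℂ)
    (hG : ∀ c : F, c ≠ 0 → G c = (1 + ((quadraticChar F c : ℤ) : ℂ)) / 2 * A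
        + (1 - ((quadraticChar F c : ℤ) : ℂ)) / 2 * B) :
    ∑ c : F, G c = G 0 + ((Fintype.card F : ℂ) - 1) / 2 * (A + B) := by
  have hqsum : ∑ c : F, ((quadraticChar F c : ℤ) : ℂ) = 0 := by
    rw [← Int.cast_sum, quadraticChar_sum_zero hF, Int.cast_zero]
  have hall : ∀ c : F, G c
      = ((1 + ((quadraticChar F c : ℤ) : ℂ)) / 2 * A
        + (1 - ((quadraticChar F c : ℤ) : ℂ)) / 2 * B)
        + (if c = 0 then G 0 - (A + B) / 2 else 0) := by
    intro c
    by_cases hc : c = 0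
    · rw [if_pos hc, hc, quadraticChar_zero]
      push_cast
      ring
    · rw [if_neg hc, add_zero]
      exact hG c hc
  have hsum2 : ∑ c : F, G c
      = (Fintype.card F : ℂ) / 2 * (A + B) + (G 0 - (A + B) / 2) := by
    rw [Finset.sum_congr rfl (fun c _ => hall c), Finset.sum_add_distrib,
      Finset.sum_ite_eq' Finset.univ (0 : F), if_pos (Finset.mem_univ _)]
    congr 1
    have h7 : ∀ c : F, (1 + ((quadraticChar F c : ℤ) : ℂ)) / 2 * A
        + (1 - ((quadraticChar F c : ℤ) : ℂ)) / 2 * B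
        = (A + B) / 2 + ((quadraticChar F c : ℤ) : ℂ) * ((A - B) / 2) := by
      intro c
      ring
    rw [Finset.sum_congr rfl (fun c _ => h7 c), Finset.sum_add_distrib, ← Finset.sum_mul, hqsum,
      Finset.sum_const, Finset.card_univ, nsmul_eq_mul]
    ring
  rw [hsum2]
  ring

theorem h8_sl2_norm_weak [Fintype F] [DecidableEq F] {χ : SLF → ℂ}
    (hχ : Cfsg.IsIrrCharacter SLF χ) :
    ((Fintype.card F : ℝ) + 1) * ∑ b : F, ‖χ (h8uni b)‖ ^ 2
        - (Fintype.card F : ℝ) * ‖χ 1‖ ^ 2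
      ≤ (Fintype.card F : ℝ) * ((Fintype.card F : ℝ) ^ 2 - 1) := by
  classical
  have hcf := Cfsg.Agent.Lib.Lead.isClassFunction_of_isCharacter
    (Cfsg.Agent.Lib.Lead.isCharacter_of_isIrrCharacter hχ)
  have hsum := Cfsg.Agent.Lib.Lead.sum_norm_sq_irr hχ
  have hcard : (Nat.card SLF : ℝ)
      = (Fintype.card F : ℝ) * ((Fintype.card F : ℝ) ^ 2 - 1) := by
    rw [h8_card_SL2, Nat.cast_mul, Nat.cast_sub (Nat.one_le_pow _ _ Fintype.card_pos),
      Nat.cast_pow, Nat.cast_one]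
  obtain ⟨cu, hcu⟩ : ∃ cu : F → F → SLF, ∀ c b,
      (cu c b : MF) = !![1 - b * c, b; -(b * c * c), 1 + b * c] :=
    ⟨fun c b => ⟨!![1 - b * c, b; -(b * c * c), 1 + b * c], by
      rw [Matrix.det_fin_two_of]; ring⟩, fun c b => rfl⟩
  obtain ⟨lo, hlo⟩ : ∃ lo : F → SLF, ∀ b, (lo b : MF) = !![1, 0; b, 1] :=
    ⟨fun b => ⟨!![1, 0; b, 1], by rw [Matrix.det_fin_two_of]; ring⟩, fun b => rfl⟩
  obtain ⟨w, hw⟩ : ∃ w : SLF, (w : MF) = !![0, 1; -1, 0] :=
    ⟨⟨!![0, 1; -1, 0], by rw [Matrix.det_fin_two_of]; ring⟩, rfl⟩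
  have hχcu : ∀ c b, χ (cu c b) = χ (h8uni b) := by
    intro c b
    have h5 : cu c b = lo c * h8uni b * (lo c)⁻¹ := by
      apply eq_mul_inv_of_mul_eq
      apply Subtype.ext
      rw [Matrix.SpecialLinearGroup.coe_mul, Matrix.SpecialLinearGroup.coe_mul, hcu, hlo,
        h8uni_val, Matrix.mul_fin_two, Matrix.mul_fin_two]
      refine h8_fin_two_congr ?_ ?_ ?_ ?_ <;> ring
    rw [h5]
    exact hcf _ _
  have hχlo : ∀ b, χ (lo b) = χ (h8uni (-b)) := by
    intro b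
    have h5 : lo b = w * h8uni (-b) * w⁻¹ := by
      apply eq_mul_inv_of_mul_eq
      apply Subtype.ext
      rw [Matrix.SpecialLinearGroup.coe_mul, Matrix.SpecialLinearGroup.coe_mul, hlo, hw,
        h8uni_val, Matrix.mul_fin_two, Matrix.mul_fin_two]
      refine h8_fin_two_congr ?_ ?_ ?_ ?_ <;> ring
    rw [h5]
    exact hcf _ _
  obtain ⟨ι, hι₁, hι₂⟩ : ∃ ι : ((F × Fˣ) ⊕ F) → SLF,
      (∀ (p : F × Fˣ), ι (Sum.inl p) = cu p.1 (p.2 : F)) ∧
      (∀ (b : F), ι (Sum.inr b) = lo b) :=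
    ⟨fun s => Sum.elim (fun p : F × Fˣ => cu p.1 (p.2 : F))
      (fun b : F => lo b) s, fun p => rfl, fun b => rfl⟩
  have hinj : Function.Injective ι := by
    rintro (⟨c, b⟩ | b) (⟨c', b'⟩ | b') h
    · rw [hι₁, hι₁] at h
      have h1 : ((cu c (b : F) : SLF) : MF) = ((cu c' (b' : F) : SLF) : MF) := by
        rw [h]
      rw [hcu, hcu] at h1
      obtain ⟨e00, e01, -, e11⟩ := h8_fin_two_inj h1
      have hb' : b = b' := Units.ext e01
      subst hb'
      have hc : c = c' := by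
        have h4 : (b : F) * c = (b : F) * c' := by linear_combination -e00
        exact mul_left_cancel₀ (Units.ne_zero b) h4
      rw [hc]
    · rw [hι₁, hι₂] at h
      have h1 : ((cu c (b : F) : SLF) : MF) = ((lo b' : SLF) : MF) := by
        rw [h]
      rw [hcu, hlo] at h1
      obtain ⟨-, e01, -, -⟩ := h8_fin_two_inj h1
      exact absurd e01 (Units.ne_zero b)
    · rw [hι₂, hι₁] at h
      have h1 : ((lo b : SLF) : MF) = ((cu c' (b' : F) : SLF) : MF) := by
        rw [h]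
      rw [hlo, hcu] at h1
      obtain ⟨-, e01, -, -⟩ := h8_fin_two_inj h1
      exact absurd e01.symm (Units.ne_zero b')
    · rw [hι₂, hι₂] at h
      have h1 : ((lo b : SLF) : MF) = ((lo b' : SLF) : MF) := by
        rw [h]
      rw [hlo, hlo] at h1
      obtain ⟨-, -, e10, -⟩ := h8_fin_two_inj h1
      rw [e10]
  have hle : ∑ s, ‖χ (ι s)‖ ^ 2 ≤ ∑ g : SLF, ‖χ g‖ ^ 2 := by
    rw [← Finset.sum_image (s := Finset.univ) (g := ι) (f := fun g => ‖χ g‖ ^ 2)
      (fun a _ b _ h => hinj h)]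
    exact Finset.sum_le_sum_of_subset_of_nonneg (Finset.subset_univ _)
      (fun g _ _ => by positivity)
  have hU : ∑ b : Fˣ, ‖χ (h8uni (b : F))‖ ^ 2
      = ∑ b : F, ‖χ (h8uni b)‖ ^ 2 - ‖χ 1‖ ^ 2 := by
    have h5 := Finset.sum_image (s := (Finset.univ : Finset Fˣ)) (g := fun b : Fˣ => (b : F))
      (f := fun b : F => if b = 0 then (0 : ℝ) else ‖χ (h8uni b)‖ ^ 2)
      (fun a _ b _ h => Units.ext h)
    have hsub : ∑ x ∈ (Finset.univ : Finset Fˣ).image (fun b : Fˣ => (b : F)),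
        (if x = 0 then (0 : ℝ) else ‖χ (h8uni x)‖ ^ 2)
        = ∑ x : F, (if x = 0 then (0 : ℝ) else ‖χ (h8uni x)‖ ^ 2) := by
      apply Finset.sum_subset (Finset.subset_univ _)
      intro x _ hx
      have hx0 : x = 0 := by
        by_contra hne
        exact hx (Finset.mem_image.mpr ⟨Units.mk0 x hne, Finset.mem_univ _, rfl⟩)
      exact if_pos hx0
    have h1 : ∑ b : F, (if b = 0 then (0 : ℝ) else ‖χ (h8uni b)‖ ^ 2)
        = ∑ b : Fˣ, ‖χ (h8uni (b : F))‖ ^ 2 :=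
      hsub.symm.trans (h5.trans (Finset.sum_congr rfl (fun b _ => if_neg (Units.ne_zero b))))
    rw [← h1]
    have h4 : ∀ b : F, (if b = 0 then (0 : ℝ) else ‖χ (h8uni b)‖ ^ 2)
        = ‖χ (h8uni b)‖ ^ 2 - (if b = 0 then ‖χ 1‖ ^ 2 else 0) := by
      intro b
      by_cases hb : b = 0
      · rw [if_pos hb, if_pos hb, hb, h8uni_zero, sub_self]
      · rw [if_neg hb, if_neg hb, sub_zero]
    rw [Finset.sum_congr rfl (fun b _ => h4 b), Finset.sum_sub_distrib,
      Finset.sum_ite_eq' Finset.univ (0 : F), if_pos (Finset.mem_univ _)]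
  have hfam : ∑ s, ‖χ (ι s)‖ ^ 2
      = ((Fintype.card F : ℝ) + 1) * ∑ b : F, ‖χ (h8uni b)‖ ^ 2
        - (Fintype.card F : ℝ) * ‖χ 1‖ ^ 2 := by
    rw [Fintype.sum_sum_type, Fintype.sum_prod_type]
    have h2' : ∀ (c : F) (b : Fˣ), ‖χ (ι (Sum.inl (c, b)))‖ ^ 2
        = ‖χ (h8uni (b : F))‖ ^ 2 := by
      intro c b
      rw [hι₁, hχcu]
    have h3 : ∀ b : F, ‖χ (ι (Sum.inr b))‖ ^ 2 = ‖χ (h8uni (-b))‖ ^ 2 := by
      intro b
      rw [hι₂, hχlo]
    have h4 : ∑ b : F, ‖χ (h8uni (-b))‖ ^ 2 = ∑ b : F, ‖χ (h8uni b)‖ ^ 2 :=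
      Fintype.sum_equiv (Equiv.neg F) _ _ (fun b => rfl)
    rw [Finset.sum_congr rfl (fun c _ => Finset.sum_congr rfl (fun b _ => h2' c b)),
      Finset.sum_congr rfl (fun b _ => h3 b), Finset.sum_const, Finset.card_univ,
      nsmul_eq_mul, hU, h4]
    ring
  rw [← hfam, ← hcard, ← hsum]
  exact hle

theorem h8_s2323_even [Fintype F] [DecidableEq F] (heven : ¬ Odd (Fintype.card F))
    (hq : 4 ≤ Fintype.card F) (χ : SLF → ℂ) (hχ : Cfsg.IsIrrCharacter SLF χ) :
    (χ 1 = (Fintype.card F : ℂ) + 1 → χ (h8uni 1) = 1) ∧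
    (χ 1 = (Fintype.card F : ℂ) - 1 → χ (h8uni 1) = -1) := by
  classical
  have hchar := Cfsg.Agent.Lib.Lead.isCharacter_of_isIrrCharacter hχ
  have hcf := Cfsg.Agent.Lib.Lead.isClassFunction_of_isCharacter hchar
  obtain ⟨n, hn⟩ := Cfsg.Agent.Lib.Lead.isCharacter_one_eq_natCast hchar
  have hnorm := h8_sl2_norm_weak hχ
  have hQ0 : (Fintype.card F : ℂ) ≠ 0 := by
    have : Fintype.card F ≠ 0 := Fintype.card_ne_zero
    exact_mod_cast this
  have hF : ringChar F = 2 := by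
    apply FiniteField.even_card_iff_char_two.mpr
    exact Nat.even_iff.mp (Nat.not_odd_iff_even.mp heven)
  obtain ⟨x, hx⟩ : ∃ x : ℂ, x = χ (h8uni 1) := ⟨_, rfl⟩
  have hxb : ∀ b : F, b ≠ 0 → χ (h8uni b) = x := by
    intro b hb
    rw [hx]
    exact h8_chi_uni_sq hcf one_ne_zero hb (FiniteField.isSquare_of_char_two hF _)
  obtain ⟨ψ, hψ⟩ : ∃ ψ : AddChar F ℂ, ψ (1 : F) ≠ 1 :=
    AddChar.exists_apply_ne_zero.mpr one_ne_zero
  have hψ1 : ψ ≠ 1 := by
    rintro rfl
    exact hψ (AddChar.one_apply _)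
  obtain ⟨k, hk⟩ := h8_sl2_mult_key hchar ψ
  obtain ⟨m₀, hm₀⟩ := h8_sl2_mult_key hchar (1 : AddChar F ℂ)
  have hall : ∀ b : F, χ (h8uni b) = x + (if b = 0 then (n : ℂ) - x else 0) := by
    intro b
    by_cases hb : b = 0
    · rw [if_pos hb, hb, h8uni_zero, hn]
      ring
    · rw [if_neg hb, add_zero]
      exact hxb b hb
  have hK1 : (Fintype.card F : ℂ) * k = (n : ℂ) - x := by
    rw [hk]
    have h1 : ∀ b : F, χ (h8uni b) * conj (ψ b)
        = x * conj (ψ b) + (if b = 0 then (n : ℂ) - x else 0) := by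
      intro b
      by_cases hb : b = 0
      · rw [if_pos hb, hb, h8uni_zero, hn, AddChar.map_zero_eq_one, map_one]
        ring
      · rw [if_neg hb, add_zero, hxb b hb]
    rw [Finset.sum_congr rfl (fun b _ => h1 b), Finset.sum_add_distrib,
      Finset.sum_ite_eq' Finset.univ (0 : F), if_pos (Finset.mem_univ _), ← Finset.mul_sum,
      ← map_sum, AddChar.sum_eq_zero_of_ne_one hψ1, map_zero, mul_zero, zero_add]
  have hK0 : (Fintype.card F : ℂ) * m₀ = (Fintype.card F : ℂ) * x + (n : ℂ) - x := by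
    rw [hm₀]
    have h1 : ∀ b : F, χ (h8uni b) * conj ((1 : AddChar F ℂ) b)
        = x + (if b = 0 then (n : ℂ) - x else 0) := by
      intro b
      rw [AddChar.one_apply, map_one, mul_one]
      exact hall b
    rw [Finset.sum_congr rfl (fun b _ => h1 b), Finset.sum_add_distrib,
      Finset.sum_ite_eq' Finset.univ (0 : F), if_pos (Finset.mem_univ _), Finset.sum_const,
      Finset.card_univ, nsmul_eq_mul]
    ring
  have hxv : x = (n : ℂ) - (Fintype.card F : ℂ) * k := by linear_combination hK1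
  have hnk : n + k = m₀ + Fintype.card F * k := by
    have h1 : (Fintype.card F : ℂ) * ((n : ℂ) + k)
        = (Fintype.card F : ℂ) * (m₀ + (Fintype.card F : ℂ) * k) := by
      linear_combination -hK0 - ((Fintype.card F : ℂ) - 1) * hK1
    have h2 := mul_left_cancel₀ hQ0 h1
    exact_mod_cast h2
  have hk1 : k ≤ 1 → k ≠ 0 → x = (n : ℂ) - (Fintype.card F : ℂ) := by
    intro h1 h0
    have h2 : k = 1 := by omega
    rw [hxv, h2]
    push_cast
    ring
  have hk0 : k = 0 → Fintype.card F * n ^ 2 + 1 ≤ Fintype.card F ^ 2 := by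
    intro h0
    have hxn : x = (n : ℂ) := by
      rw [hxv, h0]
      push_cast
      ring
    have hsumU : ∑ b : F, ‖χ (h8uni b)‖ ^ 2 = (Fintype.card F : ℝ) * (n : ℝ) ^ 2 := by
      have h1 : ∀ b : F, ‖χ (h8uni b)‖ ^ 2 = (n : ℝ) ^ 2 := by
        intro b
        rw [hall b, hxn]
        by_cases hb : b = 0
        · rw [if_pos hb, sub_self, add_zero, Complex.norm_natCast]
        · rw [if_neg hb, add_zero, Complex.norm_natCast]
      rw [Finset.sum_congr rfl (fun b _ => h1 b), Finset.sum_const, Finset.card_univ,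
        nsmul_eq_mul]
    rw [hsumU, hn, Complex.norm_natCast] at hnorm
    have hQpos : (0 : ℝ) < (Fintype.card F : ℝ) := by exact_mod_cast Fintype.card_pos
    have h2 : (Fintype.card F : ℝ) * ((Fintype.card F : ℝ) * (n : ℝ) ^ 2 + 1)
        ≤ (Fintype.card F : ℝ) * ((Fintype.card F : ℝ) ^ 2) := by
      nlinarith [hnorm]
    have h3 := le_of_mul_le_mul_left h2 hQpos
    exact_mod_cast h3
  refine ⟨fun hdeg => ?_, fun hdeg => ?_⟩
  · have hn1 : n = Fintype.card F + 1 := by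
      have h1 : (n : ℂ) = (Fintype.card F : ℂ) + 1 := by rw [← hn, hdeg]
      exact_mod_cast h1
    have hkle : k ≤ 1 := by
      by_contra hcon
      have hk2 : 2 ≤ k := by omega
      have h1 := Nat.mul_le_mul_right k hq
      have h2 := Nat.mul_le_mul_left (Fintype.card F) hk2
      omega
    have hkne : k ≠ 0 := by
      intro h0
      have h1 := hk0 h0
      have h2 := Nat.mul_le_mul_left (Fintype.card F) (Nat.le_self_pow two_ne_zero n)
      rw [hn1] at h1 h2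
      nlinarith [h1, h2]
    rw [← hx, hk1 hkle hkne, ← hn, hdeg]
    ring
  · have hn1 : n + 1 = Fintype.card F := by
      have h1 : (n : ℂ) + 1 = (Fintype.card F : ℂ) := by
        rw [← hn, hdeg]
        ring
      exact_mod_cast h1
    have hkle : k ≤ 1 := by
      by_contra hcon
      have hk2 : 2 ≤ k := by omega
      have h1 := Nat.mul_le_mul_right k hq
      have h2 := Nat.mul_le_mul_left (Fintype.card F) hk2
      omega
    have hkne : k ≠ 0 := by
      intro h0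
      have h1 := hk0 h0
      have hn3 : 3 ≤ n := by omega
      have h4 : n + 1 ≤ n ^ 2 := by nlinarith [hn3]
      have h2 := Nat.mul_le_mul_left (Fintype.card F) h4
      rw [← hn1] at h1 h2
      nlinarith [h1, h2]
    rw [← hx, hk1 hkle hkne, ← hn, hdeg]
    ring

theorem h8_s2323_odd [Fintype F] [DecidableEq F] (hodd : Odd (Fintype.card F))
    (hq : 5 ≤ Fintype.card F) (χ : SLF → ℂ) (hχ : Cfsg.IsIrrCharacter SLF χ) :
    (χ 1 = (Fintype.card F : ℂ) + 1 → χ (h8uni 1) = 1) ∧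
    (χ 1 = (Fintype.card F : ℂ) - 1 → χ (h8uni 1) = -1) := by
  classical
  have hchar := Cfsg.Agent.Lib.Lead.isCharacter_of_isIrrCharacter hχ
  have hcf := Cfsg.Agent.Lib.Lead.isClassFunction_of_isCharacter hchar
  obtain ⟨n, hn⟩ := Cfsg.Agent.Lib.Lead.isCharacter_one_eq_natCast hchar
  have hnorm := h8_sl2_norm hodd hχ
  have hQ0 : (Fintype.card F : ℂ) ≠ 0 := by
    have : Fintype.card F ≠ 0 := Fintype.card_ne_zero
    exact_mod_cast this
  have hF : ringChar F ≠ 2 := by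
    intro h
    have h1 := FiniteField.even_card_iff_char_two.mp h
    obtain ⟨k, hk⟩ := hodd
    omega
  obtain ⟨r, hr⟩ := hodd
  have hr2 : 2 ≤ r := by omega
  obtain ⟨ψ, hψ⟩ : ∃ ψ : AddChar F ℂ, ψ (1 : F) ≠ 1 :=
    AddChar.exists_apply_ne_zero.mpr one_ne_zero
  have hψ1 : ψ ≠ 1 := by
    rintro rfl
    exact hψ (AddChar.one_apply _)
  obtain ⟨K, hKdef⟩ : ∃ K : F → ℂ, ∀ c : F,
      K c = ∑ b : F, χ (h8uni b) * conj (ψ (c * b)) := ⟨_, fun _ => rfl⟩
  have hKnat : ∀ c : F, ∃ k : ℕ, (Fintype.card F : ℂ) * k = K c := by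
    intro c
    obtain ⟨k, hk⟩ := h8_sl2_mult_key hchar (AddChar.mulShift ψ c)
    refine ⟨k, ?_⟩
    rw [hk, hKdef]
    exact Finset.sum_congr rfl (fun b _ => by rw [AddChar.mulShift_apply])
  have hKsq : ∀ c c' : F, c ≠ 0 → c' ≠ 0 → IsSquare (c * c') → K c' = K c := by
    intro c c' hc hc' hsq
    obtain ⟨r, hr⟩ := hsq
    have hr0 : r ≠ 0 := by
      rintro rfl
      rw [mul_zero] at hr
      exact mul_ne_zero hc hc' hr
    obtain ⟨a, ha⟩ : ∃ a : F, a * c = r := ⟨r / c, div_mul_cancel₀ r hc⟩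
    have ha0 : a ≠ 0 := by
      rintro rfl
      rw [zero_mul] at ha
      exact hr0 ha.symm
    have hc'eq : c' = c * (a * a) := by
      have h5 : c * c' = c * (c * (a * a)) := by rw [hr, ← ha]; ring
      exact mul_left_cancel₀ hc h5
    rw [hKdef, hKdef]
    refine Fintype.sum_equiv (Equiv.mulLeft₀ (a * a) (mul_ne_zero ha0 ha0))
      (fun b => χ (h8uni b) * conj (ψ (c' * b))) (fun b' => χ (h8uni b') * conj (ψ (c * b')))
      (fun b => ?_)
    show χ (h8uni b) * conj (ψ (c' * b)) = χ (h8uni (a * a * b)) * conj (ψ (c * (a * a * b)))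
    have h6 : c' * b = c * (a * a * b) := by rw [hc'eq]; ring
    rw [h6]
    congr 1
    by_cases hb : b = 0
    · rw [hb, mul_zero]
    · exact (h8_chi_uni_sq hcf hb (mul_ne_zero (mul_ne_zero ha0 ha0) hb)
        ⟨a * b, by ring⟩).symm
  obtain ⟨ε, hε⟩ := FiniteField.exists_nonsquare hF
  have hε0 : ε ≠ 0 := by
    rintro rfl
    exact hε ⟨0, by ring⟩
  have hKd : ∀ c : F, c ≠ 0 →
      (((quadraticChar F c : ℤ) : ℂ) = 1 ∧ K c = K 1)
        ∨ (((quadraticChar F c : ℤ) : ℂ) = -1 ∧ K c = K ε) := by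
    intro c hc
    rcases quadraticChar_dichotomy hc with h | h
    · left
      have hsq : IsSquare c := (quadraticChar_one_iff_isSquare hc).mp h
      refine ⟨by rw [h]; norm_num, hKsq 1 c one_ne_zero hc (by rwa [one_mul])⟩
    · right
      have hsq : IsSquare (ε * c) := by
        apply (quadraticChar_one_iff_isSquare (mul_ne_zero hε0 hc)).mp
        rw [map_mul, h, quadraticChar_neg_one_iff_not_isSquare.mpr hε]
        norm_num
      refine ⟨by rw [h]; norm_num, hKsq ε c hε0 hc hsq⟩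
  have hKg : ∀ (g : ℂ → ℂ) (c : F), c ≠ 0 → g (K c)
      = (1 + ((quadraticChar F c : ℤ) : ℂ)) / 2 * g (K 1)
        + (1 - ((quadraticChar F c : ℤ) : ℂ)) / 2 * g (K ε) := by
    intro g c hc
    rcases hKd c hc with ⟨h1, h2⟩ | ⟨h1, h2⟩
    · rw [h1, h2]
      ring
    · rw [h1, h2]
      ring
  have hFI : ∀ b : F, ∑ c : F, K c * ψ (c * b) = (Fintype.card F : ℂ) * χ (h8uni b) := by
    intro b
    have h1 := h8_fourier_inv ψ hψ1 (fun b => χ (h8uni b)) b
    rw [← h1]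
    exact Finset.sum_congr rfl (fun c _ => by rw [hKdef])
  have hPV : ∑ c : F, K c * conj (K c)
      = (Fintype.card F : ℂ) * ∑ b : F, χ (h8uni b) * conj (χ (h8uni b)) := by
    have h1 : ∀ c : F, conj (K c) = ∑ b : F, conj (χ (h8uni b)) * ψ (c * b) := by
      intro c
      rw [hKdef, map_sum]
      exact Finset.sum_congr rfl (fun b _ => by rw [map_mul, Complex.conj_conj])
    have h2 : ∀ c : F, K c * conj (K c)
        = ∑ b : F, conj (χ (h8uni b)) * (K c * ψ (c * b)) := by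
      intro c
      rw [h1 c, Finset.mul_sum]
      exact Finset.sum_congr rfl (fun b _ => by ring)
    rw [Finset.sum_congr rfl (fun c _ => h2 c), Finset.sum_comm, Finset.mul_sum]
    refine Finset.sum_congr rfl (fun b _ => ?_)
    rw [← Finset.mul_sum, hFI b]
    ring
  have hsumK := h8_sum_quad_class hF K (K 1) (K ε) (fun c hc => hKg id c hc)
  have hsumK2 := h8_sum_quad_class hF (fun c => K c * conj (K c)) (K 1 * conj (K 1))
    (K ε * conj (K ε)) (fun c hc => hKg (fun z => z * conj z) c hc)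
  obtain ⟨m₀, hm₀⟩ := hKnat 0
  obtain ⟨kp, hkp⟩ := hKnat 1
  obtain ⟨km, hkm⟩ := hKnat ε
  have hQ0' : ((2 * r + 1 : ℕ) : ℂ) ≠ 0 := by
    rw [← hr]
    exact hQ0
  have hsum0 : ∑ c : F, K c = (Fintype.card F : ℂ) * n := by
    have h1 := hFI 0
    rw [h8uni_zero, hn] at h1
    rw [← h1]
    exact Finset.sum_congr rfl (fun c _ => by rw [mul_zero, AddChar.map_zero_eq_one, mul_one])
  have hnM : n = m₀ + r * (kp + km) := by
    rw [hsum0, ← hm₀, ← hkp, ← hkm, hr] at hsumK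
    have h1 : ((2 * r + 1 : ℕ) : ℂ) * (n : ℂ)
        = ((2 * r + 1 : ℕ) : ℂ) * ((m₀ + r * (kp + km) : ℕ) : ℂ) := by
      push_cast at hsumK ⊢
      linear_combination hsumK
    have h2 := mul_left_cancel₀ hQ0' h1
    exact_mod_cast h2
  obtain ⟨Sn, hSn⟩ : ∃ Sn : ℕ, Sn = m₀ ^ 2 + r * (kp ^ 2 + km ^ 2) := ⟨_, rfl⟩
  have hW : ∑ b : F, ‖χ (h8uni b)‖ ^ 2 = (Fintype.card F : ℝ) * (Sn : ℝ) := by
    have h2 : ∑ b : F, χ (h8uni b) * conj (χ (h8uni b))
        = ((∑ b : F, ‖χ (h8uni b)‖ ^ 2 : ℝ) : ℂ) := by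
      rw [Complex.ofReal_sum]
      exact Finset.sum_congr rfl (fun b _ => by rw [Complex.mul_conj', Complex.ofReal_pow])
    have h4 : (Fintype.card F : ℂ) * ∑ b : F, χ (h8uni b) * conj (χ (h8uni b))
        = (Fintype.card F : ℂ) * ((Fintype.card F : ℂ) * (Sn : ℂ)) := by
      rw [← hPV]
      have h6 : ∑ c : F, K c * conj (K c) = K 0 * conj (K 0)
          + ((Fintype.card F : ℂ) - 1) / 2 * (K 1 * conj (K 1) + K ε * conj (K ε)) := hsumK2
      rw [h6, ← hm₀, ← hkp, ← hkm, hSn, hr]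
      simp only [map_mul, Complex.conj_natCast]
      push_cast
      ring
    have h5 := mul_left_cancel₀ hQ0 h4
    have h3 : ((∑ b : F, ‖χ (h8uni b)‖ ^ 2 : ℝ) : ℂ)
        = (((Fintype.card F : ℝ) * (Sn : ℝ) : ℝ) : ℂ) := by
      rw [← h2, h5, Complex.ofReal_mul, Complex.ofReal_natCast, Complex.ofReal_natCast]
    exact Complex.ofReal_injective h3
  have hS3 : 4 * (r + 1) * Sn ≤ 4 * r * (r + 1) + 2 * n ^ 2 := by
    rw [hW, hn, Complex.norm_natCast, hr] at hnorm
    push_cast at hnorm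
    have hpos : (0 : ℝ) < 2 * (r : ℝ) + 1 := by positivity
    have h8 : (2 * (r : ℝ) + 1) * (4 * ((r : ℝ) + 1) * (Sn : ℝ))
        ≤ (2 * (r : ℝ) + 1) * (4 * (r : ℝ) * ((r : ℝ) + 1) + 2 * (n : ℝ) ^ 2) := by
      nlinarith [hnorm]
    have h9 := le_of_mul_le_mul_left h8 hpos
    exact_mod_cast h9
  rw [hSn] at hS3
  obtain ⟨c1, c2⟩ := h8_s2323_arith r n m₀ kp km hr2 hnM hS3
  have hfinal : kp = 1 → km = 1 → χ (h8uni 1) = (m₀ : ℂ) - 1 := by
    intro h1 h2
    have hKe : K ε = K 1 := by rw [← hkm, ← hkp, h1, h2]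
    have hKall : ∀ c : F, K c * ψ (c * 1)
        = K 1 * ψ c + (if c = 0 then K 0 - K 1 else 0) := by
      intro c
      by_cases hc : c = 0
      · rw [if_pos hc, hc, mul_one, AddChar.map_zero_eq_one]
        ring
      · rw [if_neg hc, add_zero, mul_one]
        rcases hKd c hc with ⟨-, h3⟩ | ⟨-, h3⟩
        · rw [h3]
        · rw [h3, hKe]
    have h3 := hFI 1
    rw [Finset.sum_congr rfl (fun c _ => hKall c), Finset.sum_add_distrib,
      Finset.sum_ite_eq' Finset.univ (0 : F), if_pos (Finset.mem_univ _), ← Finset.mul_sum,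
      AddChar.sum_eq_zero_of_ne_one hψ1, mul_zero, zero_add, ← hm₀, ← hkp, h1] at h3
    have h4 : (Fintype.card F : ℂ) * χ (h8uni 1)
        = (Fintype.card F : ℂ) * ((m₀ : ℂ) - 1) := by
      rw [← h3]
      push_cast
      ring
    exact mul_left_cancel₀ hQ0 h4
  refine ⟨fun hdeg => ?_, fun hdeg => ?_⟩
  · have hn1 : n = 2 * r + 2 := by
      have h1 : (n : ℂ) = 2 * (r : ℂ) + 2 := by
        rw [← hn, hdeg, hr]
        push_cast
        ring
      exact_mod_cast h1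
    obtain ⟨e1, e2, e3⟩ := c1 hn1
    rw [hfinal e2 e3, e1]
    norm_num
  · have hn1 : n = 2 * r := by
      have h1 : (n : ℂ) + 1 = 2 * (r : ℂ) + 1 := by
        rw [← hn, hdeg, hr]
        push_cast
        ring
      have h2 : n + 1 = 2 * r + 1 := by exact_mod_cast h1
      omega
    obtain ⟨e1, e2, e3⟩ := c2 hn1
    rw [hfinal e2 e3, e1]
    norm_num

theorem h8_s2323 [Fintype F] (hq : 4 ≤ Fintype.card F) (χ : SLF → ℂ)
    (hχ : Cfsg.IsIrrCharacter SLF χ) (u : SLF) (hu : (u : MF) = !![1, 1; 0, 1]) :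
    (χ 1 = (Fintype.card F : ℂ) + 1 → χ u = 1) ∧
    (χ 1 = (Fintype.card F : ℂ) - 1 → χ u = -1) := by
  classical
  have hu1 : u = h8uni 1 := Subtype.ext (by rw [hu, h8uni_val])
  rw [hu1]
  by_cases hodd : Odd (Fintype.card F)
  · have hq5 : 5 ≤ Fintype.card F := by
      obtain ⟨k, hk⟩ := hodd
      omega
    exact h8_s2323_odd hodd hq5 χ hχ
  · exact h8_s2323_even hodd hq χ hχ

end

end Cfsg.Agent.Lib.Helper8
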