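import Mathlib
import Cfsg.Prelude.Def_Characters
import Cfsg.Agent.Lib.Helper8.SL2UnipVal

set_option autoImplicit false
set_option linter.style.haveILetI false
set_option linter.unusedSectionVars false
set_option linter.unusedVariables false

universe u

namespace Cfsg.Agent.Lib.Helper8

open Matrix
open scoped ComplexConjugate

section
variable {F : Type u} [Field F]

local notation "SLF" => Matrix.SpecialLinearGroup (Fin 2) F
local notation "MF" => Matrix (Fin 2) (Fin 2) F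

theorem h8_sl2_norm_v [Fintype F] [DecidableEq F] (hodd : Odd (Fintype.card F)) {χ : SLF → ℂ}
    (hcf : Cfsg.IsClassFunction SLF χ)
    (hcen : ∀ z : SLF, (z : MF) 0 1 = 0 → (z : MF) 1 0 = 0 → (z : MF) 0 0 = (z : MF) 1 1 →
      ∀ g : SLF, ‖χ (g * z)‖ = ‖χ g‖)
    (g₀ : SLF) (hg₀ : ∀ (c : F) (v : Fin 2 → F), v ≠ 0 → (g₀ : MF).mulVec v ≠ c • v) :
    2 * (((Fintype.card F : ℝ) + 1) * ∑ b : F, ‖χ (h8uni b)‖ ^ 2
        - (Fintype.card F : ℝ) * ‖χ 1‖ ^ 2) + ‖χ g₀‖ ^ 2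
      ≤ ∑ g : SLF, ‖χ g‖ ^ 2 := by
  classical
  have hF : ringChar F ≠ 2 := by
    intro h
    have h1 := FiniteField.even_card_iff_char_two.mp h
    obtain ⟨k, hk⟩ := hodd
    omega
  have h2 : (2 : F) ≠ 0 := Ring.two_ne_zero hF
  obtain ⟨e, he⟩ : ∃ e : Bool → F, e true = -1 ∧ e false = 1 :=
    ⟨fun σ => if σ then -1 else 1, rfl, rfl⟩
  have hee : ∀ σ, e σ * e σ = 1 := by
    intro σ
    cases σ
    · rw [he.2, mul_one]
    · rw [he.1]; ring
  have he0 : ∀ σ, e σ ≠ 0 := by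
    intro σ h
    have h3 := hee σ
    rw [h, mul_zero] at h3
    exact zero_ne_one h3
  have heinj : ∀ σ σ', e σ = e σ' → σ = σ' := by
    intro σ σ' h
    cases σ <;> cases σ'
    · rfl
    · exfalso
      rw [he.2, he.1] at h
      exact h2 (by linear_combination h)
    · exfalso
      rw [he.1, he.2] at h
      exact h2 (by linear_combination -h)
    · rfl
  obtain ⟨z, hz⟩ : ∃ z : Bool → SLF, ∀ σ, (z σ : MF) = !![e σ, 0; 0, e σ] :=
    ⟨fun σ => ⟨!![e σ, 0; 0, e σ], by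
      rw [Matrix.det_fin_two_of]; linear_combination hee σ⟩, fun σ => rfl⟩
  obtain ⟨cu, hcu⟩ : ∃ cu : F → F → SLF, ∀ c b,
      (cu c b : MF) = !![1 - b * c, b; -(b * c * c), 1 + b * c] :=
    ⟨fun c b => ⟨!![1 - b * c, b; -(b * c * c), 1 + b * c], by
      rw [Matrix.det_fin_two_of]; ring⟩, fun c b => rfl⟩
  obtain ⟨lo, hlo⟩ : ∃ lo : F → SLF, ∀ b, (lo b : MF) = !![1, 0; b, 1] :=
    ⟨fun b => ⟨!![1, 0; b, 1], by rw [Matrix.det_fin_two_of]; ring⟩, fun b => rfl⟩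
  obtain ⟨w, hw⟩ : ∃ w : SLF, (w : MF) = !![0, 1; -1, 0] :=
    ⟨⟨!![0, 1; -1, 0], by rw [Matrix.det_fin_two_of]; ring⟩, rfl⟩
  have hzc : ∀ σ, z σ ∈ Subgroup.center SLF := by
    intro σ
    rw [Subgroup.mem_center_iff]
    intro g
    obtain ⟨a, b, c, d, hg⟩ : ∃ a b c d : F, (g : MF) = !![a, b; c, d] :=
      ⟨_, _, _, _, Matrix.eta_fin_two _⟩
    apply Subtype.ext
    rw [Matrix.SpecialLinearGroup.coe_mul, Matrix.SpecialLinearGroup.coe_mul, hg, hz,
      Matrix.mul_fin_two, Matrix.mul_fin_two]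
    refine h8_fin_two_congr ?_ ?_ ?_ ?_ <;> ring
  have hχcu : ∀ c b, χ (cu c b) = χ (h8uni b) := by
    intro c b
    have h5 : cu c b = lo c * h8uni b * (lo c)⁻¹ := by
      apply eq_mul_inv_of_mul_eq
      apply Subtype.ext
      rw [Matrix.SpecialLinearGroup.coe_mul, Matrix.SpecialLinearGroup.coe_mul, hcu, hlo,
        h8uni_val, Matrix.mul_fin_two, Matrix.mul_fin_two]
      refine h8_fin_two_congr ?_ ?_ ?_ ?_ <;> ring
    rw [h5]
    exact hcf _ _
  have hχlo : ∀ b, χ (lo b) = χ (h8uni (-b)) := by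
    intro b
    have h5 : lo b = w * h8uni (-b) * w⁻¹ := by
      apply eq_mul_inv_of_mul_eq
      apply Subtype.ext
      rw [Matrix.SpecialLinearGroup.coe_mul, Matrix.SpecialLinearGroup.coe_mul, hlo, hw,
        h8uni_val, Matrix.mul_fin_two, Matrix.mul_fin_two]
      refine h8_fin_two_congr ?_ ?_ ?_ ?_ <;> ring
    rw [h5]
    exact hcf _ _
  have hzn : ∀ (σ : Bool) (g : SLF), ‖χ (g * z σ)‖ = ‖χ g‖ :=
    fun σ g => hcen (z σ) (by rw [hz σ]; rfl) (by rw [hz σ]; rfl) (by rw [hz σ]; rfl) g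
  have hv₁ : ∀ (σ : Bool) (c b : F), ((cu c b * z σ : SLF) : MF)
      = !![(1 - b * c) * e σ, b * e σ; -(b * c * c) * e σ, (1 + b * c) * e σ] := by
    intro σ c b
    rw [Matrix.SpecialLinearGroup.coe_mul, hcu, hz, Matrix.mul_fin_two]
    refine h8_fin_two_congr ?_ ?_ ?_ ?_ <;> ring
  have hv₂ : ∀ (σ : Bool) (b : F), ((lo b * z σ : SLF) : MF)
      = !![e σ, 0; b * e σ, e σ] := by
    intro σ b
    rw [Matrix.SpecialLinearGroup.coe_mul, hlo, hz, Matrix.mul_fin_two]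
    refine h8_fin_two_congr ?_ ?_ ?_ ?_ <;> ring
  obtain ⟨ι, hι₁, hι₂⟩ : ∃ ι : Bool × ((F × Fˣ) ⊕ F) → SLF,
      (∀ (σ : Bool) (p : F × Fˣ), ι (σ, Sum.inl p) = cu p.1 (p.2 : F) * z σ) ∧
      (∀ (σ : Bool) (b : F), ι (σ, Sum.inr b) = lo b * z σ) :=
    ⟨fun s => Sum.elim (fun p : F × Fˣ => cu p.1 (p.2 : F) * z s.1)
      (fun b : F => lo b * z s.1) s.2, fun σ p => rfl, fun σ b => rfl⟩
  have hinj : Function.Injective ι := by
    rintro ⟨σ, (⟨c, b⟩ | b)⟩ ⟨σ', (⟨c', b'⟩ | b')⟩ h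
    · rw [hι₁, hι₁] at h
      have h1 : ((cu c (b : F) * z σ : SLF) : MF) = ((cu c' (b' : F) * z σ' : SLF) : MF) := by
        rw [h]
      rw [hv₁, hv₁] at h1
      obtain ⟨e00, e01, -, e11⟩ := h8_fin_two_inj h1
      have hee' : e σ = e σ' := by
        have h3 : (2 : F) * e σ = 2 * e σ' := by linear_combination e00 + e11
        exact mul_left_cancel₀ h2 h3
      have hσ : σ = σ' := heinj σ σ' hee'
      subst hσ
      have hb : (b : F) = b' := mul_right_cancel₀ (he0 σ) e01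
      have hb' : b = b' := Units.ext hb
      subst hb'
      have hc : c = c' := by
        have h4 : (b : F) * c * e σ = (b : F) * c' * e σ := by linear_combination -e00
        exact mul_left_cancel₀ (Units.ne_zero b) (mul_right_cancel₀ (he0 σ) h4)
      rw [hc]
    · rw [hι₁, hι₂] at h
      have h1 : ((cu c (b : F) * z σ : SLF) : MF) = ((lo b' * z σ' : SLF) : MF) := by
        rw [h]
      rw [hv₁, hv₂] at h1
      obtain ⟨-, e01, -, -⟩ := h8_fin_two_inj h1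
      exact absurd e01 (mul_ne_zero (Units.ne_zero b) (he0 σ))
    · rw [hι₂, hι₁] at h
      have h1 : ((lo b * z σ : SLF) : MF) = ((cu c' (b' : F) * z σ' : SLF) : MF) := by
        rw [h]
      rw [hv₂, hv₁] at h1
      obtain ⟨-, e01, -, -⟩ := h8_fin_two_inj h1
      exact absurd e01.symm (mul_ne_zero (Units.ne_zero b') (he0 σ'))
    · rw [hι₂, hι₂] at h
      have h1 : ((lo b * z σ : SLF) : MF) = ((lo b' * z σ' : SLF) : MF) := by
        rw [h]
      rw [hv₂, hv₂] at h1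
      obtain ⟨e00, -, e10, -⟩ := h8_fin_two_inj h1
      have hσ : σ = σ' := heinj σ σ' e00
      subst hσ
      have hb : b = b' := mul_right_cancel₀ (he0 σ) e10
      rw [hb]
  have hle : ∑ s, ‖χ (ι s)‖ ^ 2 ≤ ∑ g : SLF, ‖χ g‖ ^ 2 := by
    rw [← Finset.sum_image (s := Finset.univ) (g := ι) (f := fun g => ‖χ g‖ ^ 2)
      (fun a _ b _ h => hinj h)]
    exact Finset.sum_le_sum_of_subset_of_nonneg (Finset.subset_univ _)
      (fun g _ _ => by positivity)
  have hU : ∑ b : Fˣ, ‖χ (h8uni (b : F))‖ ^ 2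
      = ∑ b : F, ‖χ (h8uni b)‖ ^ 2 - ‖χ 1‖ ^ 2 := by
    have h5 := Finset.sum_image (s := (Finset.univ : Finset Fˣ)) (g := fun b : Fˣ => (b : F))
      (f := fun b : F => if b = 0 then (0 : ℝ) else ‖χ (h8uni b)‖ ^ 2)
      (fun a _ b _ h => Units.ext h)
    have hsub : ∑ x ∈ (Finset.univ : Finset Fˣ).image (fun b : Fˣ => (b : F)),
        (if x = 0 then (0 : ℝ) else ‖χ (h8uni x)‖ ^ 2)
        = ∑ x : F, (if x = 0 then (0 : ℝ) else ‖χ (h8uni x)‖ ^ 2) := by
      apply Finset.sum_subset (Finset.subset_univ _)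
      intro x _ hx
      have hx0 : x = 0 := by
        by_contra hne
        exact hx (Finset.mem_image.mpr ⟨Units.mk0 x hne, Finset.mem_univ _, rfl⟩)
      exact if_pos hx0
    have h1 : ∑ b : F, (if b = 0 then (0 : ℝ) else ‖χ (h8uni b)‖ ^ 2)
        = ∑ b : Fˣ, ‖χ (h8uni (b : F))‖ ^ 2 :=
      hsub.symm.trans (h5.trans (Finset.sum_congr rfl (fun b _ => if_neg (Units.ne_zero b))))
    rw [← h1]
    have h4 : ∀ b : F, (if b = 0 then (0 : ℝ) else ‖χ (h8uni b)‖ ^ 2)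
        = ‖χ (h8uni b)‖ ^ 2 - (if b = 0 then ‖χ 1‖ ^ 2 else 0) := by
      intro b
      by_cases hb : b = 0
      · rw [if_pos hb, if_pos hb, hb, h8uni_zero, sub_self]
      · rw [if_neg hb, if_neg hb, sub_zero]
    rw [Finset.sum_congr rfl (fun b _ => h4 b), Finset.sum_sub_distrib,
      Finset.sum_ite_eq' Finset.univ (0 : F), if_pos (Finset.mem_univ _)]
  have hfam : ∑ s, ‖χ (ι s)‖ ^ 2
      = 2 * (((Fintype.card F : ℝ) + 1) * ∑ b : F, ‖χ (h8uni b)‖ ^ 2
        - (Fintype.card F : ℝ) * ‖χ 1‖ ^ 2) := by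
    rw [Fintype.sum_prod_type]
    have h1 : ∀ σ : Bool, ∑ x : (F × Fˣ) ⊕ F, ‖χ (ι (σ, x))‖ ^ 2
        = (Fintype.card F : ℝ) * (∑ b : F, ‖χ (h8uni b)‖ ^ 2 - ‖χ 1‖ ^ 2)
          + ∑ b : F, ‖χ (h8uni b)‖ ^ 2 := by
      intro σ
      rw [Fintype.sum_sum_type, Fintype.sum_prod_type]
      have h2' : ∀ (c : F) (b : Fˣ), ‖χ (ι (σ, Sum.inl (c, b)))‖ ^ 2
          = ‖χ (h8uni (b : F))‖ ^ 2 := by
        intro c b
        rw [hι₁, hzn, hχcu]
      have h3 : ∀ b : F, ‖χ (ι (σ, Sum.inr b))‖ ^ 2 = ‖χ (h8uni (-b))‖ ^ 2 := by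
        intro b
        rw [hι₂, hzn, hχlo]
      rw [Finset.sum_congr rfl (fun c _ => Finset.sum_congr rfl (fun b _ => h2' c b)),
        Finset.sum_congr rfl (fun b _ => h3 b), Finset.sum_const, Finset.card_univ,
        nsmul_eq_mul, hU]
      congr 1
      exact Fintype.sum_equiv (Equiv.neg F) _ _ (fun b => rfl)
    rw [Finset.sum_congr rfl (fun σ _ => h1 σ), Finset.sum_const, Finset.card_univ,
      Fintype.card_bool, nsmul_eq_mul]
    push_cast
    ring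
  have hnot : ∀ s, ι s ≠ g₀ := by
    rintro ⟨σ, (⟨c, b⟩ | b)⟩ h
    · rw [hι₁] at h
      apply hg₀ (e σ) ![1, c]
      · intro hv
        have h1 := congrFun hv 0
        simp at h1
      · rw [← h, hv₁]
        funext i
        fin_cases i
        · simp [Matrix.mulVec, dotProduct, Fin.sum_univ_two]
          ring
        · simp [Matrix.mulVec, dotProduct, Fin.sum_univ_two]
          ring
    · rw [hι₂] at h
      apply hg₀ (e σ) ![0, 1]
      · intro hv
        have h1 := congrFun hv 1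
        simp at h1
      · rw [← h, hv₂]
        funext i
        fin_cases i
        · simp [Matrix.mulVec, dotProduct, Fin.sum_univ_two]
        · simp [Matrix.mulVec, dotProduct, Fin.sum_univ_two]
  have hle2 : ‖χ g₀‖ ^ 2 + ∑ s, ‖χ (ι s)‖ ^ 2 ≤ ∑ g : SLF, ‖χ g‖ ^ 2 := by
    rw [← Finset.sum_image (s := Finset.univ) (g := ι) (f := fun g => ‖χ g‖ ^ 2)
      (fun a _ b _ h => hinj h)]
    have hg₀mem : g₀ ∉ Finset.univ.image ι := by
      intro h
      obtain ⟨s, -, hs⟩ := Finset.mem_image.mp h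
      exact hnot s hs
    rw [← Finset.sum_insert (f := fun g => ‖χ g‖ ^ 2) hg₀mem]
    exact Finset.sum_le_sum_of_subset_of_nonneg (Finset.subset_univ _)
      (fun g _ _ => by positivity)
  rw [← hfam]
  linarith [hle2]

end

end Cfsg.Agent.Lib.Helper8
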