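import Mathlib
import Cfsg.Prelude.Def_Characters
import Cfsg.Agent.Lib.Helper8.SL2NormV

set_option autoImplicit false
set_option linter.style.haveILetI false
set_option linter.unusedSectionVars false
set_option linter.unusedVariables false

universe u

namespace Cfsg.Agent.Lib.Helper8

open Matrix
open scoped ComplexConjugate

section
variable {F : Type u} [Field F]

local notation "SLF" => Matrix.SpecialLinearGroup (Fin 2) F
local notation "MF" => Matrix (Fin 2) (Fin 2) F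

theorem h8_sl2_unip_struct [Fintype F] [DecidableEq F] (hodd : Odd (Fintype.card F))
    (χ : SLF → ℂ) (hχ : Cfsg.IsIrrCharacter SLF χ) :
    ∃ r n m₀ kp km : ℕ, Fintype.card F = 2 * r + 1 ∧ χ 1 = (n : ℂ) ∧
      ∑ b : F, χ (h8uni b) = (Fintype.card F : ℂ) * m₀ ∧ n = m₀ + r * (kp + km) ∧
      ∑ b : F, ‖χ (h8uni b)‖ ^ 2
        = (Fintype.card F : ℝ) * ((m₀ ^ 2 + r * (kp ^ 2 + km ^ 2) : ℕ) : ℝ) := by
  classical
  have hchar := Cfsg.Agent.Lib.Lead.isCharacter_of_isIrrCharacter hχ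
  have hcf := Cfsg.Agent.Lib.Lead.isClassFunction_of_isCharacter hchar
  obtain ⟨n, hn⟩ := Cfsg.Agent.Lib.Lead.isCharacter_one_eq_natCast hchar
  have hnorm := h8_sl2_norm hodd hχ
  have hQ0 : (Fintype.card F : ℂ) ≠ 0 := by
    have : Fintype.card F ≠ 0 := Fintype.card_ne_zero
    exact_mod_cast this
  have hF : ringChar F ≠ 2 := by
    intro h
    have h1 := FiniteField.even_card_iff_char_two.mp h
    obtain ⟨k, hk⟩ := hodd
    omega
  obtain ⟨r, hr⟩ := hodd
  obtain ⟨ψ, hψ⟩ : ∃ ψ : AddChar F ℂ, ψ (1 : F) ≠ 1 :=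
    AddChar.exists_apply_ne_zero.mpr one_ne_zero
  have hψ1 : ψ ≠ 1 := by
    rintro rfl
    exact hψ (AddChar.one_apply _)
  obtain ⟨K, hKdef⟩ : ∃ K : F → ℂ, ∀ c : F,
      K c = ∑ b : F, χ (h8uni b) * conj (ψ (c * b)) := ⟨_, fun _ => rfl⟩
  have hKnat : ∀ c : F, ∃ k : ℕ, (Fintype.card F : ℂ) * k = K c := by
    intro c
    obtain ⟨k, hk⟩ := h8_sl2_mult_key hchar (AddChar.mulShift ψ c)
    refine ⟨k, ?_⟩
    rw [hk, hKdef]
    exact Finset.sum_congr rfl (fun b _ => by rw [AddChar.mulShift_apply])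
  have hKsq : ∀ c c' : F, c ≠ 0 → c' ≠ 0 → IsSquare (c * c') → K c' = K c := by
    intro c c' hc hc' hsq
    obtain ⟨r, hr⟩ := hsq
    have hr0 : r ≠ 0 := by
      rintro rfl
      rw [mul_zero] at hr
      exact mul_ne_zero hc hc' hr
    obtain ⟨a, ha⟩ : ∃ a : F, a * c = r := ⟨r / c, div_mul_cancel₀ r hc⟩
    have ha0 : a ≠ 0 := by
      rintro rfl
      rw [zero_mul] at ha
      exact hr0 ha.symm
    have hc'eq : c' = c * (a * a) := by
      have h5 : c * c' = c * (c * (a * a)) := by rw [hr, ← ha]; ring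
      exact mul_left_cancel₀ hc h5
    rw [hKdef, hKdef]
    refine Fintype.sum_equiv (Equiv.mulLeft₀ (a * a) (mul_ne_zero ha0 ha0))
      (fun b => χ (h8uni b) * conj (ψ (c' * b))) (fun b' => χ (h8uni b') * conj (ψ (c * b')))
      (fun b => ?_)
    show χ (h8uni b) * conj (ψ (c' * b)) = χ (h8uni (a * a * b)) * conj (ψ (c * (a * a * b)))
    have h6 : c' * b = c * (a * a * b) := by rw [hc'eq]; ring
    rw [h6]
    congr 1
    by_cases hb : b = 0
    · rw [hb, mul_zero]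
    · exact (h8_chi_uni_sq hcf hb (mul_ne_zero (mul_ne_zero ha0 ha0) hb)
        ⟨a * b, by ring⟩).symm
  obtain ⟨ε, hε⟩ := FiniteField.exists_nonsquare hF
  have hε0 : ε ≠ 0 := by
    rintro rfl
    exact hε ⟨0, by ring⟩
  have hKd : ∀ c : F, c ≠ 0 →
      (((quadraticChar F c : ℤ) : ℂ) = 1 ∧ K c = K 1)
        ∨ (((quadraticChar F c : ℤ) : ℂ) = -1 ∧ K c = K ε) := by
    intro c hc
    rcases quadraticChar_dichotomy hc with h | h
    · left
      have hsq : IsSquare c := (quadraticChar_one_iff_isSquare hc).mp h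
      refine ⟨by rw [h]; norm_num, hKsq 1 c one_ne_zero hc (by rwa [one_mul])⟩
    · right
      have hsq : IsSquare (ε * c) := by
        apply (quadraticChar_one_iff_isSquare (mul_ne_zero hε0 hc)).mp
        rw [map_mul, h, quadraticChar_neg_one_iff_not_isSquare.mpr hε]
        norm_num
      refine ⟨by rw [h]; norm_num, hKsq ε c hε0 hc hsq⟩
  have hKg : ∀ (g : ℂ → ℂ) (c : F), c ≠ 0 → g (K c)
      = (1 + ((quadraticChar F c : ℤ) : ℂ)) / 2 * g (K 1)
        + (1 - ((quadraticChar F c : ℤ) : ℂ)) / 2 * g (K ε) := by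
    intro g c hc
    rcases hKd c hc with ⟨h1, h2⟩ | ⟨h1, h2⟩
    · rw [h1, h2]
      ring
    · rw [h1, h2]
      ring
  have hFI : ∀ b : F, ∑ c : F, K c * ψ (c * b) = (Fintype.card F : ℂ) * χ (h8uni b) := by
    intro b
    have h1 := h8_fourier_inv ψ hψ1 (fun b => χ (h8uni b)) b
    rw [← h1]
    exact Finset.sum_congr rfl (fun c _ => by rw [hKdef])
  have hPV : ∑ c : F, K c * conj (K c)
      = (Fintype.card F : ℂ) * ∑ b : F, χ (h8uni b) * conj (χ (h8uni b)) := by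
    have h1 : ∀ c : F, conj (K c) = ∑ b : F, conj (χ (h8uni b)) * ψ (c * b) := by
      intro c
      rw [hKdef, map_sum]
      exact Finset.sum_congr rfl (fun b _ => by rw [map_mul, Complex.conj_conj])
    have h2 : ∀ c : F, K c * conj (K c)
        = ∑ b : F, conj (χ (h8uni b)) * (K c * ψ (c * b)) := by
      intro c
      rw [h1 c, Finset.mul_sum]
      exact Finset.sum_congr rfl (fun b _ => by ring)
    rw [Finset.sum_congr rfl (fun c _ => h2 c), Finset.sum_comm, Finset.mul_sum]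
    refine Finset.sum_congr rfl (fun b _ => ?_)
    rw [← Finset.mul_sum, hFI b]
    ring
  have hsumK := h8_sum_quad_class hF K (K 1) (K ε) (fun c hc => hKg id c hc)
  have hsumK2 := h8_sum_quad_class hF (fun c => K c * conj (K c)) (K 1 * conj (K 1))
    (K ε * conj (K ε)) (fun c hc => hKg (fun z => z * conj z) c hc)
  obtain ⟨m₀, hm₀⟩ := hKnat 0
  obtain ⟨kp, hkp⟩ := hKnat 1
  obtain ⟨km, hkm⟩ := hKnat ε
  have hQ0' : ((2 * r + 1 : ℕ) : ℂ) ≠ 0 := by
    rw [← hr]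
    exact hQ0
  have hsum0 : ∑ c : F, K c = (Fintype.card F : ℂ) * n := by
    have h1 := hFI 0
    rw [h8uni_zero, hn] at h1
    rw [← h1]
    exact Finset.sum_congr rfl (fun c _ => by rw [mul_zero, AddChar.map_zero_eq_one, mul_one])
  have hnM : n = m₀ + r * (kp + km) := by
    rw [hsum0, ← hm₀, ← hkp, ← hkm, hr] at hsumK
    have h1 : ((2 * r + 1 : ℕ) : ℂ) * (n : ℂ)
        = ((2 * r + 1 : ℕ) : ℂ) * ((m₀ + r * (kp + km) : ℕ) : ℂ) := by
      push_cast at hsumK ⊢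
      linear_combination hsumK
    have h2 := mul_left_cancel₀ hQ0' h1
    exact_mod_cast h2
  obtain ⟨Sn, hSn⟩ : ∃ Sn : ℕ, Sn = m₀ ^ 2 + r * (kp ^ 2 + km ^ 2) := ⟨_, rfl⟩
  have hW : ∑ b : F, ‖χ (h8uni b)‖ ^ 2 = (Fintype.card F : ℝ) * (Sn : ℝ) := by
    have h2 : ∑ b : F, χ (h8uni b) * conj (χ (h8uni b))
        = ((∑ b : F, ‖χ (h8uni b)‖ ^ 2 : ℝ) : ℂ) := by
      rw [Complex.ofReal_sum]
      exact Finset.sum_congr rfl (fun b _ => by rw [Complex.mul_conj', Complex.ofReal_pow])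
    have h4 : (Fintype.card F : ℂ) * ∑ b : F, χ (h8uni b) * conj (χ (h8uni b))
        = (Fintype.card F : ℂ) * ((Fintype.card F : ℂ) * (Sn : ℂ)) := by
      rw [← hPV]
      have h6 : ∑ c : F, K c * conj (K c) = K 0 * conj (K 0)
          + ((Fintype.card F : ℂ) - 1) / 2 * (K 1 * conj (K 1) + K ε * conj (K ε)) := hsumK2
      rw [h6, ← hm₀, ← hkp, ← hkm, hSn, hr]
      simp only [map_mul, Complex.conj_natCast]
      push_cast
      ring
    have h5 := mul_left_cancel₀ hQ0 h4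
    have h3 : ((∑ b : F, ‖χ (h8uni b)‖ ^ 2 : ℝ) : ℂ)
        = (((Fintype.card F : ℝ) * (Sn : ℝ) : ℝ) : ℂ) := by
      rw [← h2, h5, Complex.ofReal_mul, Complex.ofReal_natCast, Complex.ofReal_natCast]
    exact Complex.ofReal_injective h3
  have hK0 : K 0 = ∑ b : F, χ (h8uni b) := by
    rw [hKdef]
    exact Finset.sum_congr rfl (fun b _ => by
      rw [zero_mul, AddChar.map_zero_eq_one, map_one, mul_one])
  refine ⟨r, n, m₀, kp, km, hr, hn, ?_, hnM, ?_⟩
  · rw [hm₀, hK0]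
  · rw [hW, hSn]

end

end Cfsg.Agent.Lib.Helper8
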