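import Mathlib
import Cfsg.Prelude.Def_Characters
import Cfsg.Agent.Lib.Helper8.SL2UnipStruct
import Cfsg.Agent.Lib.Helper8.GL2St
import Cfsg.Agent.Lib.Lead.CharMGroup

set_option autoImplicit false
set_option linter.style.haveILetI false
set_option linter.unusedSectionVars false
set_option linter.unusedVariables false

universe u

namespace Cfsg.Agent.Lib.Helper8

open Matrix
open scoped ComplexConjugate

section
variable {F : Type u} [Field F]

local notation "SLF" => Matrix.SpecialLinearGroup (Fin 2) F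
local notation "MF" => Matrix (Fin 2) (Fin 2) F

theorem h8_sl2_borel_constituent [Fintype F] [DecidableEq F] (χ : SLF → ℂ)
    (hχ : Cfsg.IsIrrCharacter SLF χ) (hsumU0 : ∑ b : F, χ (h8uni b) ≠ 0)
    (B : Subgroup SLF) (hB : ∀ g : SLF, g ∈ B ↔ (g : MF) 1 0 = 0) :
    ∃ μ : MulChar F ℂ,
      Cfsg.classInner (Cfsg.indFun B (fun b : B => μ (((b : SLF) : MF) 0 0))) χ ≠ 0 := by
  classical
  have hchar := Cfsg.Agent.Lib.Lead.isCharacter_of_isIrrCharacter hχ
  have hcf := Cfsg.Agent.Lib.Lead.isClassFunction_of_isCharacter hchar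
  have hunit : ∀ b : B, ((b : SLF) : MF) 0 0 * ((b : SLF) : MF) 1 1 = 1 := by
    intro b
    have h0 := (b : SLF).det_coe
    rw [Matrix.det_fin_two, (hB _).mp b.2] at h0
    linear_combination h0
  obtain ⟨dd, hdd⟩ : ∃ dd : B →* Fˣ, ∀ b : B, ((dd b : Fˣ) : F) = ((b : SLF) : MF) 0 0 :=
    ⟨{ toFun := fun b => ⟨((b : SLF) : MF) 0 0, ((b : SLF) : MF) 1 1, hunit b,
          by rw [mul_comm]; exact hunit b⟩
       map_one' := by
         apply Units.ext
         show (((1 : B) : SLF) : MF) 0 0 = 1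
         simp
       map_mul' := by
         intro b b'
         apply Units.ext
         show (((b * b' : B) : SLF) : MF) 0 0 = ((b : SLF) : MF) 0 0 * ((b' : SLF) : MF) 0 0
         rw [Subgroup.coe_mul, Matrix.SpecialLinearGroup.coe_mul, Matrix.mul_apply,
           Fin.sum_univ_two, (hB _).mp b'.2, mul_zero, add_zero] }, fun b => rfl⟩
  obtain ⟨dg, hdg⟩ : ∃ dg : Fˣ →* B, ∀ a : Fˣ,
      (((dg a : B) : SLF) : MF) = !![(a : F), 0; 0, ((a⁻¹ : Fˣ) : F)] := by
    refine ⟨{ toFun := fun a => ⟨⟨!![(a : F), 0; 0, ((a⁻¹ : Fˣ) : F)], by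
                rw [Matrix.det_fin_two_of]; simp⟩, (hB _).mpr rfl⟩
              map_one' := ?_
              map_mul' := ?_ }, fun a => rfl⟩
    · apply Subtype.ext
      apply Subtype.ext
      show !![((1 : Fˣ) : F), 0; 0, (((1 : Fˣ)⁻¹ : Fˣ) : F)] = ((1 : SLF) : MF)
      rw [inv_one, Units.val_one, Matrix.SpecialLinearGroup.coe_one, Matrix.one_fin_two]
    · intro a a'
      apply Subtype.ext
      apply Subtype.ext
      show !![((a * a' : Fˣ) : F), 0; 0, (((a * a')⁻¹ : Fˣ) : F)]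
        = !![(a : F), 0; 0, ((a⁻¹ : Fˣ) : F)] * !![(a' : F), 0; 0, ((a'⁻¹ : Fˣ) : F)]
      rw [Matrix.mul_fin_two, mul_inv, Units.val_mul, Units.val_mul]
      refine h8_fin_two_congr ?_ ?_ ?_ ?_ <;> ring
  letI : Fintype (dd.ker) := Fintype.ofFinite _
  have hab : ∀ x y : B, x * y * x⁻¹ * y⁻¹ ∈ dd.ker := by
    intro x y
    rw [MonoidHom.mem_ker, map_mul, map_mul, map_mul, map_inv, map_inv,
      mul_comm (dd x) (dd y)]
    group
  obtain ⟨β, hβ⟩ : ∃ β : B → ℂ, β = fun b : B => χ (b : SLF) := ⟨_, rfl⟩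
  have hβchar : Cfsg.IsCharacter B β := by
    rw [hβ]
    exact Cfsg.Agent.Lib.Lead.isCharacter_res B hchar
  have hβcf := Cfsg.Agent.Lib.Lead.isClassFunction_of_isCharacter hβchar
  have hsumN : ∑ n : dd.ker, β (n : B) = ∑ b : F, χ (h8uni b) := by
    have hmemB : ∀ b : F, h8uni b ∈ B := fun b => (hB _).mpr (by rw [h8uni_val]; rfl)
    have hmemK : ∀ b : F, (⟨h8uni b, hmemB b⟩ : B) ∈ dd.ker := by
      intro b
      rw [MonoidHom.mem_ker]
      apply Units.ext
      rw [hdd]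
      show ((h8uni b : SLF) : MF) 0 0 = 1
      rw [h8uni_val]; rfl
    have hbij : Function.Bijective
        (fun b : F => (⟨⟨h8uni b, hmemB b⟩, hmemK b⟩ : dd.ker)) := by
      constructor
      · intro b b' h
        have h1 : ((h8uni b : SLF) : MF) = ((h8uni b' : SLF) : MF) :=
          congrArg (fun n : dd.ker => (((n : B) : SLF) : MF)) h
        rw [h8uni_val, h8uni_val] at h1
        exact (h8_fin_two_inj h1).2.1
      · rintro ⟨⟨x, hx⟩, hn⟩
        obtain ⟨a, b, c, d, hxm⟩ : ∃ a b c d : F, (x : MF) = !![a, b; c, d] :=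
          ⟨_, _, _, _, Matrix.eta_fin_two _⟩
        have hc : c = 0 := by
          have h1 := (hB x).mp hx
          rw [hxm] at h1
          exact h1
        rw [MonoidHom.mem_ker] at hn
        have ha : a = 1 := by
          have h1 := hdd ⟨x, hx⟩
          rw [hn] at h1
          have h2 : (((⟨x, hx⟩ : B) : SLF) : MF) 0 0 = a := by
            show (x : MF) 0 0 = a
            rw [hxm]; rfl
          rw [h2] at h1
          exact h1.symm
        have hd : d = 1 := by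
          have h0 := x.det_coe
          rw [hxm, Matrix.det_fin_two_of, ha, hc] at h0
          linear_combination h0
        refine ⟨b, ?_⟩
        apply Subtype.ext
        apply Subtype.ext
        apply Subtype.ext
        show ((h8uni b : SLF) : MF) = (x : MF)
        rw [h8uni_val, hxm, ha, hc, hd]
    rw [← hbij.sum_comp (fun n : dd.ker => β (n : B))]
    refine Finset.sum_congr rfl (fun b _ => ?_)
    show β ⟨h8uni b, hmemB b⟩ = χ (h8uni b)
    rw [hβ]
  haveI : Finite (Cfsg.IrrCharacter B) := Cfsg.Agent.Lib.Lead.irr_finite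
  letI : Fintype (Cfsg.IrrCharacter B) := Fintype.ofFinite _
  have hexp := Cfsg.Agent.Lib.Lead.expansion β hβcf
  have hs : ∀ b : B, β b
      = ∑ ξ : Cfsg.IrrCharacter B, Cfsg.classInner β ξ * (ξ : B → ℂ) b := by
    intro b
    have h1 := congrFun hexp b
    rw [Finset.sum_apply] at h1
    simp only [Pi.smul_apply, smul_eq_mul] at h1
    exact h1
  have hsumN' : ∑ n : dd.ker, β (n : B) = ∑ ξ : Cfsg.IrrCharacter B,
      Cfsg.classInner β ξ * ∑ n : dd.ker, (ξ : B → ℂ) (n : B) := by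
    have h9 : ∀ n : dd.ker, β (n : B)
        = ∑ ξ : Cfsg.IrrCharacter B, Cfsg.classInner β ξ * (ξ : B → ℂ) (n : B) :=
      fun n => hs n
    rw [Finset.sum_congr rfl (fun n _ => h9 n), Finset.sum_comm]
    refine Finset.sum_congr rfl (fun ξ _ => ?_)
    rw [Finset.mul_sum]
  obtain ⟨ξ, hξ1, hξ2⟩ : ∃ ξ : Cfsg.IrrCharacter B, Cfsg.classInner β ξ ≠ 0 ∧
      ∑ n : dd.ker, (ξ : B → ℂ) (n : B) ≠ 0 := by
    by_contra hcon
    push Not at hcon
    apply hsumU0
    rw [← hsumN, hsumN']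
    refine Finset.sum_eq_zero (fun ξ _ => ?_)
    by_cases h : Cfsg.classInner β ξ = 0
    · rw [h, zero_mul]
    · rw [hcon ξ h, mul_zero]
  have hnorm1 := Cfsg.Agent.Lib.Lead.norm_eq_one_of_over_one dd.ker hab ξ.2 hξ2 1
  obtain ⟨k, hk⟩ := Cfsg.Agent.Lib.Lead.irr_one_eq_natCast ξ
  have hk1 : k = 1 := by
    rw [hk, Complex.norm_natCast] at hnorm1
    exact_mod_cast hnorm1
  have hξone : (ξ : B → ℂ) 1 = 1 := by rw [hk, hk1, Nat.cast_one]
  obtain ⟨lam, hlam⟩ := Cfsg.Agent.Lib.Lead.exists_hom_of_linear ξ.2 hξone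
  have hker : ∀ n : dd.ker, lam (n : B) = 1 := by
    by_contra hcon
    push Not at hcon
    obtain ⟨n₀, hn₀⟩ := hcon
    apply hξ2
    have h2 : ∑ n : dd.ker, (ξ : B → ℂ) ((n₀ * n : dd.ker) : B)
        = ∑ n : dd.ker, (ξ : B → ℂ) (n : B) :=
      Fintype.sum_equiv (Equiv.mulLeft n₀)
        (fun n : dd.ker => (ξ : B → ℂ) ((n₀ * n : dd.ker) : B))
        (fun n : dd.ker => (ξ : B → ℂ) (n : B)) (fun n => rfl)
    have h3 : ∀ n : dd.ker, (ξ : B → ℂ) ((n₀ * n : dd.ker) : B)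
        = ((lam (n₀ : B) : ℂˣ) : ℂ) * (ξ : B → ℂ) (n : B) := by
      intro n
      rw [hlam, hlam, Subgroup.coe_mul, map_mul, Units.val_mul]
    rw [Finset.sum_congr rfl (fun n _ => h3 n), ← Finset.mul_sum] at h2
    have h4 : (((lam (n₀ : B) : ℂˣ) : ℂ) - 1) * ∑ n : dd.ker, (ξ : B → ℂ) (n : B) = 0 := by
      linear_combination h2
    rcases mul_eq_zero.mp h4 with h | h
    · exfalso
      apply hn₀
      apply Units.ext
      rw [Units.val_one]
      linear_combination h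
    · exact h
  have hddg : ∀ a : Fˣ, dd (dg a) = a := by
    intro a
    apply Units.ext
    rw [hdd, hdg]
    rfl
  have hlamb : ∀ b : B, lam b = lam (dg (dd b)) := by
    intro b
    have h1 : b * (dg (dd b))⁻¹ ∈ dd.ker := by
      rw [MonoidHom.mem_ker, map_mul, map_inv, hddg, mul_inv_cancel]
    have h3 : lam (b * (dg (dd b))⁻¹) = 1 := hker ⟨_, h1⟩
    rw [map_mul, map_inv, mul_inv_eq_one] at h3
    exact h3
  obtain ⟨μ, hμ⟩ : ∃ μ : MulChar F ℂ, ∀ a : Fˣ, μ (a : F) = ((lam (dg a) : ℂˣ) : ℂ) :=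
    ⟨MulChar.ofUnitHom (lam.comp dg), fun a => by rw [MulChar.ofUnitHom_coe]; rfl⟩
  have hξμ : (ξ : B → ℂ) = fun b : B => μ (((b : SLF) : MF) 0 0) := by
    funext b
    rw [hlam, hlamb b, ← hμ, hdd]
  refine ⟨μ, ?_⟩
  rw [← hξμ, Cfsg.Agent.Lib.Helper2.frobenius_reciprocity B (ξ : B → ℂ) χ hcf]
  have h1 : (fun h : B => χ (h : SLF)) = β := hβ.symm
  rw [h1, Cfsg.Agent.Lib.Lead.classInner_conj_symm β ξ]
  intro h
  exact hξ1 ((map_eq_zero _).mp h)

end

end Cfsg.Agent.Lib.Helper8
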