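import Mathlib
import Cfsg.Prelude.Def_Characters
import Cfsg.Agent.Lib.Helper8.SL2Const
import Cfsg.Agent.Lib.Helper8.SL2Irr
import Cfsg.Agent.Lib.Helper8.SL2Ind
import Cfsg.Agent.Lib.Helper8.SL2Mackey
import Cfsg.Agent.Lib.Helper8.GL2Res
import Cfsg.Agent.Lib.Helper8.GL2Cusp
import Cfsg.Agent.S0148

set_option autoImplicit false
set_option linter.style.haveILetI false
set_option linter.unusedSectionVars false
set_option linter.unusedVariables false

universe u

namespace Cfsg.Agent.Lib.Helper8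

open Matrix
open scoped ComplexConjugate

theorem h8_norm_sq_dbl (c : ℂ) : ‖c + c - 1‖ ^ 2 = 4 * ‖c‖ ^ 2 - 4 * c.re + 1 := by
  rw [Complex.sq_norm, Complex.sq_norm, Complex.normSq_apply, Complex.normSq_apply]
  simp only [Complex.add_re, Complex.add_im, Complex.sub_re, Complex.sub_im, Complex.one_re,
    Complex.one_im]
  ring

theorem h8_three_le_sq (x : ℕ) : 3 * x ≤ x ^ 2 + 2 := by
  rcases Nat.lt_or_ge x 2 with h | h
  · interval_cases x <;> norm_num
  · nlinarith [h]

section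
variable {F : Type u} [Field F]

local notation "SLF" => Matrix.SpecialLinearGroup (Fin 2) F
local notation "MF" => Matrix (Fin 2) (Fin 2) F

theorem h8_sl2_vanish_split [Fintype F] [DecidableEq F] {χ : SLF → ℂ}
    (hχ : Cfsg.IsIrrCharacter SLF χ) (hsumU : ∑ b : F, χ (h8uni b) = 0) (g : SLF)
    (h01 : (g : MF) 0 1 = 0) (h10 : (g : MF) 1 0 = 0) (hne : (g : MF) 0 0 ^ 2 ≠ 1) :
    χ g = 0 := by
  classical
  have hcf := Cfsg.Agent.Lib.Lead.isClassFunction_of_isCharacter
    (Cfsg.Agent.Lib.Lead.isCharacter_of_isIrrCharacter hχ)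
  have hQ0 : (Fintype.card F : ℂ) ≠ 0 := by
    have : Fintype.card F ≠ 0 := Fintype.card_ne_zero
    exact_mod_cast this
  obtain ⟨a, b₀, c₀, d, hg⟩ : ∃ a b c d : F, (g : MF) = !![a, b; c, d] :=
    ⟨_, _, _, _, Matrix.eta_fin_two _⟩
  have hb0 : b₀ = 0 := by rw [hg] at h01; exact h01
  have hc0 : c₀ = 0 := by rw [hg] at h10; exact h10
  subst hb0
  subst hc0
  have hdet : a * d = 1 := by
    have h0 := g.det_coe
    rw [hg, Matrix.det_fin_two_of] at h0
    linear_combination h0
  have had : d - a ≠ 0 := by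
    intro h
    apply hne
    rw [hg]
    show a ^ 2 = 1
    have hda : d = a := by linear_combination h
    rw [hda] at hdet
    rw [pow_two]
    exact hdet
  obtain ⟨l, hl⟩ : ∃ l : F, l * (d - a) = 1 := ⟨(d - a)⁻¹, inv_mul_cancel₀ had⟩
  have hconj : ∀ b : F, χ (g * h8uni b) = χ g := by
    intro b
    have h5 : g * h8uni b = h8uni (a * b * l) * g * (h8uni (a * b * l))⁻¹ := by
      apply eq_mul_inv_of_mul_eq
      apply Subtype.ext
      rw [Matrix.SpecialLinearGroup.coe_mul, Matrix.SpecialLinearGroup.coe_mul,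
        Matrix.SpecialLinearGroup.coe_mul, hg, h8uni_val, h8uni_val,
        Matrix.mul_fin_two, Matrix.mul_fin_two, Matrix.mul_fin_two]
      refine h8_fin_two_congr ?_ ?_ ?_ ?_
      · ring
      · linear_combination (-(a * b)) * hl
      · ring
      · ring
    rw [h5]
    exact hcf _ _
  obtain ⟨n, ρ, hirr, rfl⟩ := hχ
  haveI := hirr
  obtain ⟨A, hA⟩ : ∃ A : Module.End ℂ (Fin n → ℂ), A = ∑ b : F, ρ (h8uni b) := ⟨_, rfl⟩
  have hAA : A * A = (Fintype.card F : ℂ) • A := by
    rw [hA, Finset.sum_mul_sum]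
    have h6 : ∀ b : F, ∑ b' : F, ρ (h8uni b) * ρ (h8uni b') = ∑ c : F, ρ (h8uni c) := by
      intro b
      have h7 : ∀ b' : F, ρ (h8uni b) * ρ (h8uni b') = ρ (h8uni (b + b')) := by
        intro b'
        rw [← map_mul, h8uni_mul]
      rw [Finset.sum_congr rfl (fun b' _ => h7 b')]
      exact Fintype.sum_equiv (Equiv.addLeft b) _ _ (fun _ => rfl)
    rw [Finset.sum_congr rfl (fun b _ => h6 b), Finset.sum_const, Finset.card_univ,
      Nat.cast_smul_eq_nsmul]
  have htrA : LinearMap.trace ℂ (Fin n → ℂ) A = 0 := by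
    rw [hA, map_sum]
    exact hsumU
  have he : IsIdempotentElem ((Fintype.card F : ℂ)⁻¹ • A) := by
    show ((Fintype.card F : ℂ)⁻¹ • A) * ((Fintype.card F : ℂ)⁻¹ • A)
      = (Fintype.card F : ℂ)⁻¹ • A
    rw [smul_mul_assoc, mul_smul_comm, hAA, smul_smul, smul_smul]
    congr 1
    field_simp
  have htr : LinearMap.trace ℂ (Fin n → ℂ) ((Fintype.card F : ℂ)⁻¹ • A) = 0 := by
    rw [map_smul, htrA, smul_zero]
  have he0 := LinearMap.IsIdempotentElem.eq_zero_of_trace_eq_zero he htr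
  have hA0 : A = 0 := by
    rcases smul_eq_zero.mp he0 with h | h
    · exact absurd h (inv_ne_zero hQ0)
    · exact h
  have h8 : ∑ b : F, ρ.character (g * h8uni b)
      = LinearMap.trace ℂ (Fin n → ℂ) (ρ g * A) := by
    rw [hA, Finset.mul_sum, map_sum]
    refine Finset.sum_congr rfl (fun b _ => ?_)
    rw [← map_mul]
    rfl
  rw [hA0, mul_zero, map_zero, Finset.sum_congr rfl (fun b _ => hconj b), Finset.sum_const,
    Finset.card_univ, nsmul_eq_mul] at h8
  rcases mul_eq_zero.mp h8 with h | h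
  · exact absurd h hQ0
  · exact h

theorem h8_sl2_elliptic_zero [Fintype F] [DecidableEq F] (hodd : Odd (Fintype.card F))
    (χ : SLF → ℂ) (hχ : Cfsg.IsIrrCharacter SLF χ) (g₀ : SLF)
    (hg₀ : ∀ (c : F) (v : Fin 2 → F), v ≠ 0 → (g₀ : MF).mulVec v ≠ c • v) :
    (χ 1 = (Fintype.card F : ℂ) + 1 → χ g₀ = 0) ∧
    (χ 1 = (((Fintype.card F + 1) / 2 : ℕ) : ℂ) → χ g₀ = 0) := by
  classical
  have hchar := Cfsg.Agent.Lib.Lead.isCharacter_of_isIrrCharacter hχ
  have hcf := Cfsg.Agent.Lib.Lead.isClassFunction_of_isCharacter hchar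
  obtain ⟨B, hB⟩ : ∃ B : Subgroup SLF, ∀ g : SLF, g ∈ B ↔ (g : MF) 1 0 = 0 :=
    ⟨_, h8_mem_borel_iff⟩
  obtain ⟨r, n, m₀, kp, km, hr, hn, hsumU, hnM, hW⟩ := h8_sl2_unip_struct hodd χ hχ
  have hQ0 : (Fintype.card F : ℂ) ≠ 0 := by
    have : Fintype.card F ≠ 0 := Fintype.card_ne_zero
    exact_mod_cast this
  have hr1 : 1 ≤ r := by
    have h2 : 1 < Fintype.card F := Fintype.one_lt_card
    omega
  have hcenter : ∀ z : SLF, (z : MF) 0 1 = 0 → (z : MF) 1 0 = 0 →
      (z : MF) 0 0 = (z : MF) 1 1 → z ∈ Subgroup.center SLF := by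
    intro z h01 h10 h00
    obtain ⟨a, b, c, d, hzm⟩ : ∃ a b c d : F, (z : MF) = !![a, b; c, d] :=
      ⟨_, _, _, _, Matrix.eta_fin_two _⟩
    rw [hzm] at h01 h10 h00
    have hb : b = 0 := h01
    have hc : c = 0 := h10
    have hd : a = d := h00
    rw [Subgroup.mem_center_iff]
    intro g
    obtain ⟨a', b', c', d', hg⟩ : ∃ a b c d : F, (g : MF) = !![a, b; c, d] :=
      ⟨_, _, _, _, Matrix.eta_fin_two _⟩
    apply Subtype.ext
    rw [Matrix.SpecialLinearGroup.coe_mul, Matrix.SpecialLinearGroup.coe_mul, hg, hzm, hb, hc,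
      ← hd, Matrix.mul_fin_two, Matrix.mul_fin_two]
    refine h8_fin_two_congr ?_ ?_ ?_ ?_ <;> ring
  have hcenχ : ∀ z : SLF, (z : MF) 0 1 = 0 → (z : MF) 1 0 = 0 →
      (z : MF) 0 0 = (z : MF) 1 1 → ∀ g : SLF, ‖χ (g * z)‖ = ‖χ g‖ := by
    intro z h1 h2 h3 g
    obtain ⟨c, hc1, hc⟩ := Cfsg.Agent.Lib.Lead.irr_central_unit
      (⟨χ, hχ⟩ : Cfsg.IrrCharacter SLF) z (hcenter z h1 h2 h3)
    have h5 : χ (g * z) = c * χ g := hc g
    rw [h5, norm_mul, hc1, one_mul]
  have hV := h8_sl2_norm_v hodd hcf hcenχ g₀ hg₀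
  have hsumG := Cfsg.Agent.Lib.Lead.sum_norm_sq_irr hχ
  have hcard : (Nat.card SLF : ℝ)
      = (Fintype.card F : ℝ) * ((Fintype.card F : ℝ) ^ 2 - 1) := by
    rw [h8_card_SL2, Nat.cast_mul, Nat.cast_sub (Nat.one_le_pow _ _ Fintype.card_pos),
      Nat.cast_pow, Nat.cast_one]
  obtain ⟨Sn, hSn⟩ : ∃ Sn : ℕ, Sn = m₀ ^ 2 + r * (kp ^ 2 + km ^ 2) := ⟨_, rfl⟩
  rw [← hSn] at hW
  have hE0 : (0 : ℝ) ≤ ‖χ g₀‖ ^ 2 := by positivity
  have hVE : (2 * (r : ℝ) + 1) * (4 * ((r : ℝ) + 1) * (Sn : ℝ)) + ‖χ g₀‖ ^ 2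
      ≤ (2 * (r : ℝ) + 1) * (4 * (r : ℝ) * ((r : ℝ) + 1) + 2 * (n : ℝ) ^ 2) := by
    rw [hW, hn, Complex.norm_natCast, hsumG, hcard, hr] at hV
    push_cast at hV
    nlinarith [hV]
  have hS3 : 4 * (r + 1) * Sn ≤ 4 * r * (r + 1) + 2 * n ^ 2 := by
    have hpos : (0 : ℝ) < 2 * (r : ℝ) + 1 := by positivity
    have h8 : (2 * (r : ℝ) + 1) * (4 * ((r : ℝ) + 1) * (Sn : ℝ))
        ≤ (2 * (r : ℝ) + 1) * (4 * (r : ℝ) * ((r : ℝ) + 1) + 2 * (n : ℝ) ^ 2) := by
      linarith [hVE, hE0]
    have h9 := le_of_mul_le_mul_left h8 hpos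
    exact_mod_cast h9
  have hRchar : ∀ μ : MulChar F ℂ, Cfsg.IsCharacter SLF
      (Cfsg.indFun B (fun b : B => μ (((b : SLF) : MF) 0 0))) := fun μ =>
    Cfsg.Agent.S0148.result B _ (h8_borel_char_isCharacter μ B hB)
  have hR1 : ∀ μ : MulChar F ℂ, Cfsg.indFun B (fun b : B => μ (((b : SLF) : MF) 0 0)) 1
      = (Fintype.card F : ℂ) + 1 := by
    intro μ
    have h1 := (h8_s2433_aux μ B hB 1).2.2.2 (by simp) (by simp) (by simp)
    rw [h1, Matrix.SpecialLinearGroup.coe_one, Matrix.one_apply_eq, map_one, mul_one]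
  refine ⟨fun hdeg => ?_, fun hdeg => ?_⟩
  · have hn1 : n = 2 * r + 2 := by
      have h1 : (n : ℂ) = 2 * (r : ℂ) + 2 := by
        rw [← hn, hdeg, hr]
        push_cast
        ring
      exact_mod_cast h1
    by_cases hr' : r = 1
    · exfalso
      rw [hr', hn1, hr'] at hS3
      rw [hr'] at hSn
      rw [hn1, hr'] at hnM
      have e1 := h8_three_le_sq m₀
      have e2 := h8_three_le_sq kp
      have e3 := h8_three_le_sq km
      omega
    · have hr2 : 2 ≤ r := by omega
      rw [hSn] at hS3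
      obtain ⟨c1, -⟩ := h8_s2323_arith r n m₀ kp km hr2 hnM hS3
      obtain ⟨e1, -, -⟩ := c1 hn1
      have hsumU0 : ∑ b : F, χ (h8uni b) ≠ 0 := by
        rw [hsumU, e1]
        exact mul_ne_zero hQ0 (by norm_num)
      obtain ⟨μ, hμ⟩ := h8_sl2_borel_constituent χ hχ hsumU0 B hB
      have hRχ := h8_eq_of_constituent_degree (hRchar μ) hχ hμ ((hR1 μ).trans hdeg.symm)
      rw [← hRχ]
      exact (h8_s2433_aux μ B hB g₀).2.1 hg₀
  · have hn1 : n = r + 1 := by
      have h1 : (n : ℂ) = (((Fintype.card F + 1) / 2 : ℕ) : ℂ) := by rw [← hn, hdeg]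
      have h2 : n = (Fintype.card F + 1) / 2 := by exact_mod_cast h1
      rw [hr] at h2
      omega
    by_cases hm0 : m₀ = 0
    · have hr' : r = 1 := by
        have h1 : r ∣ r * (kp + km) := dvd_mul_right _ _
        have h2 : r * (kp + km) = r + 1 := by omega
        rw [h2] at h1
        exact Nat.dvd_one.mp ((Nat.dvd_add_right (dvd_refl r)).mp h1)
      have hn2 : n = 2 := by omega
      have hs2 : kp + km = 2 := by
        rw [hn2, hm0, hr'] at hnM
        omega
      have hSn2 : 2 ≤ Sn := by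
        have e2 := Nat.le_self_pow two_ne_zero kp
        have e3 := Nat.le_self_pow two_ne_zero km
        rw [hm0, hr'] at hSn
        omega
      have hSn2' : (2 : ℝ) ≤ (Sn : ℝ) := by exact_mod_cast hSn2
      rw [hn2, hr'] at hVE
      norm_num at hVE
      have hE : ‖χ g₀‖ ^ 2 = 0 := by linarith [hVE, hSn2', hE0]
      exact norm_eq_zero.mp (pow_eq_zero_iff two_ne_zero |>.mp hE)
    · have hm1 : m₀ = 1 ∧ kp + km = 1 := by
        by_cases hs0 : kp + km = 0
        · exfalso
          have hkp0 : kp = 0 := by omega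
          have hkm0 : km = 0 := by omega
          have hm : m₀ = r + 1 := by
            rw [hs0, mul_zero, add_zero, hn1] at hnM
            exact hnM.symm
          rw [hSn, hm, hkp0, hkm0, hn1] at hS3
          nlinarith [hS3, Nat.zero_le (r ^ 3), Nat.zero_le (r ^ 2)]
        · have h1 : r ≤ r * (kp + km) := Nat.le_mul_of_pos_right r (by omega)
          have hm : m₀ = 1 := by omega
          refine ⟨hm, ?_⟩
          have h2 : r * (kp + km) = r * 1 := by omega
          exact Nat.eq_of_mul_eq_mul_left (by omega) h2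
      obtain ⟨hm, hs1⟩ := hm1
      have hsq : kp ^ 2 + km ^ 2 = 1 := by
        have h1 : (kp = 1 ∧ km = 0) ∨ (kp = 0 ∧ km = 1) := by omega
        rcases h1 with ⟨h1, h2⟩ | ⟨h1, h2⟩ <;> rw [h1, h2] <;> norm_num
      have hSn1 : Sn = r + 1 := by
        rw [hSn, hm, hsq]
        ring
      have hsumU0 : ∑ b : F, χ (h8uni b) ≠ 0 := by
        rw [hsumU, hm]
        exact mul_ne_zero hQ0 (by norm_num)
      obtain ⟨μ, hμ⟩ := h8_sl2_borel_constituent χ hχ hsumU0 B hB
      obtain ⟨R, hRdef⟩ : ∃ R : SLF → ℂ,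
          R = Cfsg.indFun B (fun b : B => μ (((b : SLF) : MF) 0 0)) := ⟨_, rfl⟩
      have hRc : Cfsg.IsCharacter SLF R := by rw [hRdef]; exact hRchar μ
      have hRone : R 1 = (Fintype.card F : ℂ) + 1 := by rw [hRdef]; exact hR1 μ
      have hRχ : Cfsg.classInner R χ ≠ 0 := by rw [hRdef]; exact hμ
      have hχ1 : χ 1 = (r : ℂ) + 1 := by
        rw [hn, hn1]
        push_cast
        ring
      have hQr : (Fintype.card F : ℂ) = 2 * (r : ℂ) + 1 := by
        rw [hr]
        push_cast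
        ring
      have hμ2 : μ ^ 2 = 1 := by
        by_contra hcon
        have hirr : Cfsg.IsIrrCharacter SLF R := by
          rw [hRdef]
          exact (h8_s2306_aux μ B hB).mpr hcon
        have ho := Cfsg.Agent.Lib.Lead.irr_orthonormal hirr hχ
        by_cases hRe : R = χ
        · have h1 : R 1 = χ 1 := by rw [hRe]
          rw [hRone, hχ1, hQr] at h1
          have h2 : ((2 * r + 1 + 1 : ℕ) : ℂ) = ((r + 1 : ℕ) : ℂ) := by
            push_cast
            linear_combination h1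
          have h3 : 2 * r + 1 + 1 = r + 1 := by exact_mod_cast h2
          omega
        · rw [if_neg hRe] at ho
          exact hRχ ho
      have hμinv : μ = μ⁻¹ := eq_inv_of_mul_eq_one_left (by rw [← pow_two]; exact hμ2)
      have hinner := h8_s2432_aux μ μ B hB
      rw [if_pos rfl, if_pos hμinv, ← hRdef] at hinner
      have h2 : Cfsg.classInner R R = 2 := by
        rw [hinner]
        norm_num
      obtain ⟨θ₁, θ₂, hθ₁, hθ₂, hne12, hRdec⟩ := h8_norm_two_decomp hRc h2
      obtain ⟨χ', hχ', hneχ, hRsum⟩ : ∃ χ' : SLF → ℂ, Cfsg.IsIrrCharacter SLF χ' ∧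
          χ' ≠ χ ∧ R = χ + χ' := by
        have h3 : Cfsg.classInner R χ = Cfsg.classInner θ₁ χ + Cfsg.classInner θ₂ χ := by
          rw [hRdec]
          exact Cfsg.Agent.Lib.Lead.classInner_add_left θ₁ θ₂ χ
        rw [Cfsg.Agent.Lib.Lead.irr_orthonormal hθ₁ hχ,
          Cfsg.Agent.Lib.Lead.irr_orthonormal hθ₂ hχ] at h3
        by_cases h4 : θ₁ = χ
        · refine ⟨θ₂, hθ₂, ?_, ?_⟩
          · intro h5
            exact hne12 (h4.trans h5.symm)
          · rw [hRdec, h4]
        · by_cases h5 : θ₂ = χ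
          · refine ⟨θ₁, hθ₁, h4, ?_⟩
            rw [hRdec, h5, add_comm]
          · exfalso
            rw [if_neg h4, if_neg h5, add_zero] at h3
            exact hRχ h3
      have hR : ∀ g : SLF, R g = χ g + χ' g := by
        intro g
        rw [hRsum]
        rfl
      have hχ'1 : χ' 1 = χ 1 := by
        have h3 := hR 1
        rw [hRone, hχ1, hQr] at h3
        rw [hχ1]
        linear_combination -h3
      have hχ1ne : χ 1 ≠ 0 := by
        rw [hχ1]
        have h3 : ((r + 1 : ℕ) : ℂ) ≠ 0 := by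
          have : r + 1 ≠ 0 := by omega
          exact_mod_cast this
        intro h4
        apply h3
        push_cast
        exact h4
      have hcf' := Cfsg.Agent.Lib.Lead.isClassFunction_of_isCharacter
        (Cfsg.Agent.Lib.Lead.isCharacter_of_isIrrCharacter hχ')
      obtain ⟨Δ, hΔ⟩ : ∃ Δ : SLF → ℂ, ∀ g, Δ g = χ g - χ' g := ⟨fun g => χ g - χ' g, fun g => rfl⟩
      have hcfΔ : Cfsg.IsClassFunction SLF Δ := by
        intro g h
        rw [hΔ, hΔ, hcf g h, hcf' g h]
      have hcenΔ : ∀ z : SLF, (z : MF) 0 1 = 0 → (z : MF) 1 0 = 0 →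
          (z : MF) 0 0 = (z : MF) 1 1 → ∀ g : SLF, ‖Δ (g * z)‖ = ‖Δ g‖ := by
        intro z h1 h2 h3 g
        obtain ⟨c, hc1, hc⟩ := Cfsg.Agent.Lib.Lead.irr_central_unit
          (⟨χ, hχ⟩ : Cfsg.IrrCharacter SLF) z (hcenter z h1 h2 h3)
        obtain ⟨c', hc1', hc'⟩ := Cfsg.Agent.Lib.Lead.irr_central_unit
          (⟨χ', hχ'⟩ : Cfsg.IrrCharacter SLF) z (hcenter z h1 h2 h3)
        have hcg : ∀ g : SLF, χ (g * z) = c * χ g := hc
        have hcg' : ∀ g : SLF, χ' (g * z) = c' * χ' g := hc'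
        have e1 : χ z = c * χ 1 := by
          have h4 := hcg 1
          rwa [one_mul] at h4
        have e2 : χ' z = c' * χ' 1 := by
          have h4 := hcg' 1
          rwa [one_mul] at h4
        obtain ⟨m, hmdef⟩ : ∃ m : ℂ, m = μ ((z : MF) 0 0) := ⟨_, rfl⟩
        have e3 : R z = ((Fintype.card F : ℂ) + 1) * m := by
          rw [hRdef, hmdef]
          exact (h8_s2433_aux μ B hB z).2.2.2 h1 h2 h3
        have hz2 : (z : MF) 0 0 * (z : MF) 0 0 = 1 := by
          have h0 := z.det_coe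
          rw [Matrix.det_fin_two, h1, ← h3] at h0
          linear_combination h0
        have hmm : m * m = 1 := by rw [hmdef, ← map_mul, hz2, map_one]
        have hmn : ‖m‖ = 1 := by
          have h4 := congrArg norm hmm
          rw [norm_mul, norm_one] at h4
          rcases mul_self_eq_one_iff.mp h4 with h5 | h5
          · exact h5
          · exfalso
            have := norm_nonneg m
            linarith
        have hcc : c + c' = 2 * m := by
          have h5 : (c + c') * χ 1 = 2 * m * χ 1 := by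
            have h6 := hR z
            rw [e3, e1, e2, hχ'1, hQr] at h6
            rw [hχ1] at h6 ⊢
            linear_combination -h6
          exact mul_right_cancel₀ hχ1ne h5
        have hpl := parallelogram_law_with_norm ℝ m (c - m)
        have e5 : m + (c - m) = c := by ring
        have e6 : m - (c - m) = c' := by linear_combination (-1 : ℂ) * hcc
        rw [e5, e6, hc1, hc1', hmn] at hpl
        have hw0 : ‖c - m‖ = 0 := by
          have h9 : ‖c - m‖ * ‖c - m‖ = 0 := by linarith [hpl]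
          exact mul_self_eq_zero.mp h9
        have hcm : c = m := sub_eq_zero.mp (norm_eq_zero.mp hw0)
        have hcm' : c' = m := by
          rw [hcm] at hcc
          linear_combination hcc
        rw [hΔ, hΔ, hcg g, hcg' g, hcm, hcm', ← mul_sub, norm_mul, hmn, one_mul]
      have hVΔ := h8_sl2_norm_v hodd hcfΔ hcenΔ g₀ hg₀
      have hΔ1 : Δ 1 = 0 := by rw [hΔ, hχ'1, sub_self]
      have hΔu : ∀ b : F, ‖Δ (h8uni b)‖ ^ 2
          = 4 * ‖χ (h8uni b)‖ ^ 2 - 4 * (χ (h8uni b)).re + 1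
            - (if b = 0 then 4 * (n : ℝ) ^ 2 - 4 * (n : ℝ) + 1 else 0) := by
        intro b
        by_cases hb : b = 0
        · rw [if_pos hb, hb, h8uni_zero, hΔ1, hn, Complex.norm_natCast, Complex.natCast_re,
            norm_zero]
          ring
        · rw [if_neg hb, sub_zero, ← h8_norm_sq_dbl]
          have h3 : R (h8uni b) = 1 := by
            rw [hRdef]
            have h4 := (h8_s2433_aux μ B hB (h8uni b)).2.2.1 (by rw [h8uni_val]; rfl)
              (by rw [h8uni_val]; rfl) (by rw [h8uni_val]; exact hb)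
            rw [h4, h8uni_val]
            exact map_one μ
          have h5 := hR (h8uni b)
          rw [h3] at h5
          have h6 : Δ (h8uni b) = χ (h8uni b) + χ (h8uni b) - 1 := by
            rw [hΔ]
            linear_combination h5
          rw [h6]
      have hre : ∑ b : F, (χ (h8uni b)).re = (Fintype.card F : ℝ) := by
        rw [← Complex.re_sum, hsumU, hm]
        have h3 : (Fintype.card F : ℂ) * ((1 : ℕ) : ℂ) = ((Fintype.card F : ℕ) : ℂ) := by
          push_cast
          ring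
        rw [h3, Complex.natCast_re]
      have hΔU : ∑ b : F, ‖Δ (h8uni b)‖ ^ 2
          = (Fintype.card F : ℝ) * ((Fintype.card F : ℝ) - 1) := by
        rw [Finset.sum_congr rfl (fun b _ => hΔu b), Finset.sum_sub_distrib,
          Finset.sum_ite_eq' Finset.univ (0 : F), if_pos (Finset.mem_univ _),
          Finset.sum_add_distrib, Finset.sum_sub_distrib, ← Finset.mul_sum, ← Finset.mul_sum,
          hW, hre, hSn1, hn1, Finset.sum_const, Finset.card_univ, nsmul_eq_mul, hr]
        push_cast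
        ring
      have hsumG' := Cfsg.Agent.Lib.Lead.sum_norm_sq_irr hχ'
      have hortho : ∑ g : SLF, χ g * conj (χ' g) = 0 := by
        have ho := Cfsg.Agent.Lib.Lead.irr_orthonormal hχ hχ'
        rw [if_neg (fun h => hneχ h.symm)] at ho
        unfold Cfsg.classInner at ho
        rcases mul_eq_zero.mp ho with h3 | h3
        · exfalso
          have h4 : (Nat.card SLF : ℂ) ≠ 0 := by
            have : Nat.card SLF ≠ 0 := (Nat.card_pos (α := SLF)).ne'
            exact_mod_cast this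
          exact h4 (inv_eq_zero.mp h3)
        · exact h3
      have hΔG : ∑ g : SLF, ‖Δ g‖ ^ 2 = 2 * (Nat.card SLF : ℝ) := by
        have h3 : ∀ g : SLF, ‖Δ g‖ ^ 2
            = ‖χ g‖ ^ 2 + ‖χ' g‖ ^ 2 - 2 * (χ g * conj (χ' g)).re := by
          intro g
          rw [hΔ, Complex.sq_norm, Complex.sq_norm, Complex.sq_norm, Complex.normSq_sub]
        rw [Finset.sum_congr rfl (fun g _ => h3 g), Finset.sum_sub_distrib,
          Finset.sum_add_distrib, hsumG, hsumG', ← Finset.mul_sum, ← Complex.re_sum, hortho,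
          Complex.zero_re]
        ring
      rw [hΔU, hΔ1, norm_zero, hΔG, hcard, hr] at hVΔ
      push_cast at hVΔ
      have hE : ‖Δ g₀‖ ^ 2 = 0 := by
        have h3 : (0 : ℝ) ≤ ‖Δ g₀‖ ^ 2 := by positivity
        nlinarith [hVΔ, h3]
      have hΔ0 : Δ g₀ = 0 := norm_eq_zero.mp (pow_eq_zero_iff two_ne_zero |>.mp hE)
      have hR0 : R g₀ = 0 := by
        rw [hRdef]
        exact (h8_s2433_aux μ B hB g₀).2.1 hg₀
      have h7 := hR g₀
      rw [hR0] at h7
      rw [hΔ] at hΔ0
      have h8 : (2 : ℂ) * χ g₀ = 0 := by linear_combination hΔ0 - h7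
      rcases mul_eq_zero.mp h8 with h9 | h9
      · exact absurd h9 two_ne_zero
      · exact h9

theorem h8_s2322 [Fintype F] (hodd : Odd (Fintype.card F)) (χ : SLF → ℂ)
    (hχ : Cfsg.IsIrrCharacter SLF χ) (g : SLF) :
    ((χ 1 = (Fintype.card F : ℂ) - 1 ∨ χ 1 = (((Fintype.card F - 1) / 2 : ℕ) : ℂ)) →
      (g : MF) 0 1 = 0 → (g : MF) 1 0 = 0 → (g : MF) 0 0 ^ 2 ≠ 1 → χ g = 0) ∧
    ((χ 1 = (Fintype.card F : ℂ) + 1 ∨ χ 1 = (((Fintype.card F + 1) / 2 : ℕ) : ℂ)) →
      (∀ (c : F) (v : Fin 2 → F), v ≠ 0 → (g : MF).mulVec v ≠ c • v) → χ g = 0) := by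
  classical
  refine ⟨fun hdeg h01 h10 hne => ?_, fun hdeg hell => ?_⟩
  · by_cases hq : 5 ≤ Fintype.card F
    · have h38 := h8_s2438 hodd hq χ hχ
      rw [h8_sum_uni χ] at h38
      rcases hdeg with h | h
      · exact h8_sl2_vanish_split hχ (h38.2.2.1 h) g h01 h10 hne
      · exact h8_sl2_vanish_split hχ (h38.2.2.2.2 h) g h01 h10 hne
    · exfalso
      apply hne
      have hq3 : Fintype.card F = 3 := by
        obtain ⟨k, hk⟩ := hodd
        have h2 : 1 < Fintype.card F := Fintype.one_lt_card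
        omega
      have ha : (g : MF) 0 0 ≠ 0 := by
        intro h0
        have hd := g.det_coe
        rw [Matrix.det_fin_two, h0, h01] at hd
        simp at hd
      have h3 := FiniteField.pow_card_sub_one_eq_one ((g : MF) 0 0) ha
      rw [hq3] at h3
      exact h3
  · rcases hdeg with h | h
    · exact (h8_sl2_elliptic_zero hodd χ hχ g hell).1 h
    · exact (h8_sl2_elliptic_zero hodd χ hχ g hell).2 h

end

end Cfsg.Agent.Lib.Helper8
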