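import Mathlib
import Cfsg.Prelude.Def_Characters
import Cfsg.Prelude.Def_ParabolicCharacters
import Cfsg.Agent.Lib.Helper8.GL2Res

set_option autoImplicit false
set_option linter.style.haveILetI false
set_option linter.unusedSectionVars false
set_option linter.unusedVariables false

universe u

namespace Cfsg.Agent.Lib.Helper8

open Matrix
open scoped ComplexConjugate

section
variable {F : Type u} [Field F]

local notation "GLF" => Matrix.GeneralLinearGroup (Fin 2) F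
local notation "SLF" => Matrix.SpecialLinearGroup (Fin 2) F
local notation "MF" => Matrix (Fin 2) (Fin 2) F

theorem h8_s2307_aux [Fintype F] [DecidableEq F] (hodd : Odd (Fintype.card F))
    (α : MulChar F ℂ) (hα : α ^ 2 = 1) (hα1 : α ≠ 1) (B : Subgroup SLF)
    (hB : ∀ g : SLF, g ∈ B ↔ (g : MF) 1 0 = 0) :
    ∃ χ₁ χ₂ : SLF → ℂ, Cfsg.IsIrrCharacter SLF χ₁ ∧ Cfsg.IsIrrCharacter SLF χ₂ ∧ χ₁ ≠ χ₂ ∧
      Cfsg.indFun B (fun b : B => α (((b : SLF) : MF) 0 0)) = χ₁ + χ₂ ∧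
      χ₁ 1 = (((Fintype.card F + 1) / 2 : ℕ) : ℂ) ∧
      χ₂ 1 = (((Fintype.card F + 1) / 2 : ℕ) : ℂ) ∧
      ∃ x : GLF, ∀ g h : SLF,
        Matrix.SpecialLinearGroup.toGL h = x * Matrix.SpecialLinearGroup.toGL g * x⁻¹ →
          χ₂ h = χ₁ g := by
  classical
  have hchar : Cfsg.IsCharacter SLF (Cfsg.indFun B (fun b : B => α (((b : SLF) : MF) 0 0))) :=
    Cfsg.Agent.S0148.result B _ (h8_borel_char_isCharacter α B hB)
  have hinner := h8_s2432_aux α α B hB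
  have hαinv : α = α⁻¹ := eq_inv_of_mul_eq_one_left (by rw [← pow_two]; exact hα)
  rw [if_pos rfl, if_pos hαinv] at hinner
  have h2 : Cfsg.classInner (Cfsg.indFun B (fun b : B => α (((b : SLF) : MF) 0 0)))
      (Cfsg.indFun B (fun b : B => α (((b : SLF) : MF) 0 0))) = 2 := by
    rw [hinner]; norm_num
  obtain ⟨χ₁, χ₂, hirr₁, hirr₂, hne, hsum⟩ := h8_norm_two_decomp hchar h2
  obtain ⟨Bt, hBt⟩ : ∃ Bt : Subgroup GLF, ∀ g : GLF, g ∈ Bt ↔ (g : MF) 1 0 = 0 :=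
    ⟨Cfsg.upperTriangularGL 2 F, h8_mem_borelGL_iff⟩
  have hRt := h8_s2304_aux α 1 hα1 Bt hBt
  obtain ⟨Rt, hRtdef⟩ : ∃ Rt : GLF → ℂ, Rt = Cfsg.indFun Bt (fun b : Bt =>
      α (((b : GLF) : MF) 0 0) * (1 : MulChar F ℂ) (((b : GLF) : MF) 1 1)) := ⟨_, rfl⟩
  rw [← hRtdef] at hRt
  have hres : ∀ g : SLF, Rt (Matrix.SpecialLinearGroup.toGL g) = χ₁ g + χ₂ g := by
    intro g
    rw [hRtdef, h8_gl2_res α B hB Bt hBt g, hsum]
    rfl
  have hfinj : Function.Injective (Matrix.SpecialLinearGroup.toGL : SLF →* GLF) := by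
    intro y y' h
    apply Subtype.ext
    have h1 : ((Matrix.SpecialLinearGroup.toGL y : GLF) : MF)
        = ((Matrix.SpecialLinearGroup.toGL y' : GLF) : MF) := by rw [h]
    exact h1
  have hNnormal : ((Matrix.SpecialLinearGroup.toGL : SLF →* GLF).range).Normal := by
    constructor
    rintro n ⟨y, rfl⟩ x
    have hdet : ((x * Matrix.SpecialLinearGroup.toGL y * x⁻¹ : GLF) : MF).det = 1 := by
      rw [Units.val_mul, Units.val_mul, Matrix.det_mul, Matrix.det_mul, mul_right_comm,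
        ← Matrix.det_mul, ← Units.val_mul, mul_inv_cancel, Units.val_one, Matrix.det_one,
        one_mul]
      exact y.det_coe
    exact ⟨⟨((x * Matrix.SpecialLinearGroup.toGL y * x⁻¹ : GLF) : MF), hdet⟩, Units.ext rfl⟩
  obtain ⟨N, hNdef⟩ : ∃ N : Subgroup GLF,
      N = (Matrix.SpecialLinearGroup.toGL : SLF →* GLF).range := ⟨_, rfl⟩
  subst hNdef
  haveI : ((Matrix.SpecialLinearGroup.toGL : SLF →* GLF).range).Normal := hNnormal
  letI : Fintype ((Matrix.SpecialLinearGroup.toGL : SLF →* GLF).range) := Fintype.ofFinite _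
  obtain ⟨e, he⟩ : ∃ e : SLF ≃* (Matrix.SpecialLinearGroup.toGL : SLF →* GLF).range,
      ∀ y : SLF, ((e y : (Matrix.SpecialLinearGroup.toGL : SLF →* GLF).range) : GLF)
        = Matrix.SpecialLinearGroup.toGL y :=
    ⟨MonoidHom.ofInjective hfinj, fun y => MonoidHom.ofInjective_apply hfinj⟩
  have hirr₁' := Cfsg.Agent.Lib.Lead.isIrrCharacter_comp_of_surjective hirr₁
    e.symm.toMonoidHom e.symm.surjective
  have hirr₂' := Cfsg.Agent.Lib.Lead.isIrrCharacter_comp_of_surjective hirr₂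
    e.symm.toMonoidHom e.symm.surjective
  have hresN : (fun n : (Matrix.SpecialLinearGroup.toGL : SLF →* GLF).range => Rt (n : GLF))
      = χ₁ ∘ e.symm.toMonoidHom + χ₂ ∘ e.symm.toMonoidHom := by
    funext n
    obtain ⟨y, rfl⟩ := e.surjective n
    show Rt ((e y : (Matrix.SpecialLinearGroup.toGL : SLF →* GLF).range) : GLF)
      = χ₁ (e.symm (e y)) + χ₂ (e.symm (e y))
    rw [e.symm_apply_apply, he]
    exact hres y
  have h₁ : Cfsg.classInner
      (fun n : (Matrix.SpecialLinearGroup.toGL : SLF →* GLF).range => Rt (n : GLF))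
      (χ₁ ∘ e.symm.toMonoidHom) ≠ 0 := by
    rw [hresN, Cfsg.Agent.Lib.Lead.classInner_add_left,
      Cfsg.Agent.Lib.Lead.irr_orthonormal hirr₁' hirr₁',
      Cfsg.Agent.Lib.Lead.irr_orthonormal hirr₂' hirr₁', if_pos rfl]
    split_ifs <;> norm_num
  have h₂ : Cfsg.classInner
      (fun n : (Matrix.SpecialLinearGroup.toGL : SLF →* GLF).range => Rt (n : GLF))
      (χ₂ ∘ e.symm.toMonoidHom) ≠ 0 := by
    rw [hresN, Cfsg.Agent.Lib.Lead.classInner_add_left,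
      Cfsg.Agent.Lib.Lead.irr_orthonormal hirr₁' hirr₂',
      Cfsg.Agent.Lib.Lead.irr_orthonormal hirr₂' hirr₂', if_pos rfl]
    split_ifs <;> norm_num
  obtain ⟨x, hx⟩ := Cfsg.Agent.Lib.Lead.exists_twist_eq_of_constituents
    ((Matrix.SpecialLinearGroup.toGL : SLF →* GLF).range) hRt hirr₁' hirr₂' h₁ h₂
  have hconj : ∀ g h : SLF,
      Matrix.SpecialLinearGroup.toGL h = x⁻¹ * Matrix.SpecialLinearGroup.toGL g * x⁻¹⁻¹ →
        χ₂ h = χ₁ g := by
    intro g h hgh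
    have h5 := congrFun hx (e h)
    have h6 : (⟨x * ((e h : (Matrix.SpecialLinearGroup.toGL : SLF →* GLF).range) : GLF) * x⁻¹,
        hNnormal.conj_mem (e h) (e h).2 x⟩ : (Matrix.SpecialLinearGroup.toGL : SLF →* GLF).range)
        = e g := by
      apply Subtype.ext
      show x * ((e h : (Matrix.SpecialLinearGroup.toGL : SLF →* GLF).range) : GLF) * x⁻¹
        = ((e g : (Matrix.SpecialLinearGroup.toGL : SLF →* GLF).range) : GLF)
      rw [he, he, hgh, inv_inv]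
      group
    have h7 : (χ₂ ∘ e.symm.toMonoidHom) (e h) = χ₂ h := by
      show χ₂ (e.symm (e h)) = χ₂ h
      rw [e.symm_apply_apply]
    have h8 : Cfsg.Agent.Lib.Lead.twist ((Matrix.SpecialLinearGroup.toGL : SLF →* GLF).range) x
        (χ₁ ∘ e.symm.toMonoidHom) (e h) = χ₁ g := by
      show χ₁ (e.symm ⟨x * ((e h : (Matrix.SpecialLinearGroup.toGL : SLF →* GLF).range) : GLF)
        * x⁻¹, _⟩) = χ₁ g
      rw [h6, e.symm_apply_apply]
    rw [← h7, h5, h8]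
  have heq : χ₂ 1 = χ₁ 1 := by
    apply hconj 1 1
    rw [map_one]
    group
  have hdeg : χ₁ 1 + χ₂ 1 = (Fintype.card F : ℂ) + 1 := by
    have h9 := (h8_s2433_aux α B hB 1).2.2.2 (by simp) (by simp) (by simp)
    rw [hsum] at h9
    have h10 : ((1 : SLF) : MF) 0 0 = 1 := by simp
    rw [h10, map_one, mul_one] at h9
    exact h9
  obtain ⟨k, hk⟩ := hodd
  have hm : (Fintype.card F + 1) / 2 = k + 1 := by omega
  have hQ : (Fintype.card F : ℂ) = 2 * (k : ℂ) + 1 := by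
    rw [hk]; push_cast; ring
  have hd1 : χ₁ 1 = (((Fintype.card F + 1) / 2 : ℕ) : ℂ) := by
    rw [hm]
    push_cast
    linear_combination (1 / 2 : ℂ) * hdeg - (1 / 2 : ℂ) * heq + (1 / 2 : ℂ) * hQ
  refine ⟨χ₁, χ₂, hirr₁, hirr₂, hne, hsum, hd1, ?_, x⁻¹, hconj⟩
  rw [heq]
  exact hd1

theorem h8_s2307 [Fintype F] [DecidableEq F] (hodd : Odd (Fintype.card F))
    (α : MulChar F ℂ) (hα : α ^ 2 = 1) (hα1 : α ≠ 1) :
    ∃ χ₁ χ₂ : SLF → ℂ, Cfsg.IsIrrCharacter SLF χ₁ ∧ Cfsg.IsIrrCharacter SLF χ₂ ∧ χ₁ ≠ χ₂ ∧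
      Cfsg.indFun ((Cfsg.upperTriangularGL 2 F).comap Matrix.SpecialLinearGroup.toGL)
        (fun b => α (((b : SLF) : MF) 0 0)) = χ₁ + χ₂ ∧
      χ₁ 1 = (((Fintype.card F + 1) / 2 : ℕ) : ℂ) ∧
      χ₂ 1 = (((Fintype.card F + 1) / 2 : ℕ) : ℂ) ∧
      ∃ x : GLF, ∀ g h : SLF,
        Matrix.SpecialLinearGroup.toGL h = x * Matrix.SpecialLinearGroup.toGL g * x⁻¹ →
          χ₂ h = χ₁ g :=
  h8_s2307_aux hodd α hα hα1 _ h8_mem_borel_iff

end

end Cfsg.Agent.Lib.Helper8
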