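import Mathlib
import Cfsg.Prelude.Def_Characters
import Cfsg.Agent.Lib.Helper8.SL2Ell
import Cfsg.Agent.Lib.Helper8.SL2Split
import Cfsg.Agent.Lib.Helper8.GL2St

set_option autoImplicit false
set_option linter.style.haveILetI false
set_option linter.unusedSectionVars false
set_option linter.unusedVariables false

universe u

namespace Cfsg.Agent.Lib.Helper8

open Matrix
open scoped ComplexConjugate

section
variable {F : Type u} [Field F]

local notation "SLF" => Matrix.SpecialLinearGroup (Fin 2) F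
local notation "MF" => Matrix (Fin 2) (Fin 2) F

theorem h8_sl2_sumU_ne_zero_even [Fintype F] [DecidableEq F] (heven : ¬ Odd (Fintype.card F))
    (χ : SLF → ℂ) (hχ : Cfsg.IsIrrCharacter SLF χ) (hdeg : χ 1 = (Fintype.card F : ℂ)) :
    ∑ b : F, χ (h8uni b) ≠ 0 := by
  classical
  have hchar := Cfsg.Agent.Lib.Lead.isCharacter_of_isIrrCharacter hχ
  have hcf := Cfsg.Agent.Lib.Lead.isClassFunction_of_isCharacter hchar
  obtain ⟨n, hn⟩ := Cfsg.Agent.Lib.Lead.isCharacter_one_eq_natCast hchar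
  have hnorm := h8_sl2_norm_weak hχ
  have hQ0 : (Fintype.card F : ℂ) ≠ 0 := by
    have : Fintype.card F ≠ 0 := Fintype.card_ne_zero
    exact_mod_cast this
  have hF : ringChar F = 2 := by
    apply FiniteField.even_card_iff_char_two.mpr
    exact Nat.even_iff.mp (Nat.not_odd_iff_even.mp heven)
  obtain ⟨x, hx⟩ : ∃ x : ℂ, x = χ (h8uni 1) := ⟨_, rfl⟩
  have hxb : ∀ b : F, b ≠ 0 → χ (h8uni b) = x := by
    intro b hb
    rw [hx]
    exact h8_chi_uni_sq hcf one_ne_zero hb (FiniteField.isSquare_of_char_two hF _)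
  obtain ⟨ψ, hψ⟩ : ∃ ψ : AddChar F ℂ, ψ (1 : F) ≠ 1 :=
    AddChar.exists_apply_ne_zero.mpr one_ne_zero
  have hψ1 : ψ ≠ 1 := by
    rintro rfl
    exact hψ (AddChar.one_apply _)
  obtain ⟨k, hk⟩ := h8_sl2_mult_key hchar ψ
  obtain ⟨m₀, hm₀⟩ := h8_sl2_mult_key hchar (1 : AddChar F ℂ)
  have hall : ∀ b : F, χ (h8uni b) = x + (if b = 0 then (n : ℂ) - x else 0) := by
    intro b
    by_cases hb : b = 0
    · rw [if_pos hb, hb, h8uni_zero, hn]
      ring
    · rw [if_neg hb, add_zero]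
      exact hxb b hb
  have hK1 : (Fintype.card F : ℂ) * k = (n : ℂ) - x := by
    rw [hk]
    have h1 : ∀ b : F, χ (h8uni b) * conj (ψ b)
        = x * conj (ψ b) + (if b = 0 then (n : ℂ) - x else 0) := by
      intro b
      by_cases hb : b = 0
      · rw [if_pos hb, hb, h8uni_zero, hn, AddChar.map_zero_eq_one, map_one]
        ring
      · rw [if_neg hb, add_zero, hxb b hb]
    rw [Finset.sum_congr rfl (fun b _ => h1 b), Finset.sum_add_distrib,
      Finset.sum_ite_eq' Finset.univ (0 : F), if_pos (Finset.mem_univ _), ← Finset.mul_sum,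
      ← map_sum, AddChar.sum_eq_zero_of_ne_one hψ1, map_zero, mul_zero, zero_add]
  have hK0 : (Fintype.card F : ℂ) * m₀ = (Fintype.card F : ℂ) * x + (n : ℂ) - x := by
    rw [hm₀]
    have h1 : ∀ b : F, χ (h8uni b) * conj ((1 : AddChar F ℂ) b)
        = x + (if b = 0 then (n : ℂ) - x else 0) := by
      intro b
      rw [AddChar.one_apply, map_one, mul_one]
      exact hall b
    rw [Finset.sum_congr rfl (fun b _ => h1 b), Finset.sum_add_distrib,
      Finset.sum_ite_eq' Finset.univ (0 : F), if_pos (Finset.mem_univ _), Finset.sum_const,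
      Finset.card_univ, nsmul_eq_mul]
    ring
  have hxv : x = (n : ℂ) - (Fintype.card F : ℂ) * k := by linear_combination hK1
  have hnk : n + k = m₀ + Fintype.card F * k := by
    have h1 : (Fintype.card F : ℂ) * ((n : ℂ) + k)
        = (Fintype.card F : ℂ) * (m₀ + (Fintype.card F : ℂ) * k) := by
      linear_combination -hK0 - ((Fintype.card F : ℂ) - 1) * hK1
    have h2 := mul_left_cancel₀ hQ0 h1
    exact_mod_cast h2
  have hq1 : 1 < Fintype.card F := Fintype.one_lt_card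
  have hsumU : ∑ b : F, χ (h8uni b) = (Fintype.card F : ℂ) * m₀ := by
    rw [hK0, Finset.sum_congr rfl (fun b _ => hall b), Finset.sum_add_distrib,
      Finset.sum_ite_eq' Finset.univ (0 : F), if_pos (Finset.mem_univ _), Finset.sum_const,
      Finset.card_univ, nsmul_eq_mul]
    ring
  have hn1 : n = Fintype.card F := by
    have h1 : (n : ℂ) = (Fintype.card F : ℂ) := by rw [← hn, hdeg]
    exact_mod_cast h1
  rw [hsumU]
  intro h0
  have hm0 : m₀ = 0 := by
    rcases mul_eq_zero.mp h0 with h | h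
    · exact absurd h hQ0
    · exact_mod_cast h
  rw [hm0, zero_add, hn1] at hnk
  have hk2 : 2 ≤ k := by
    by_contra hcon
    have hk01 : k = 0 ∨ k = 1 := by omega
    rcases hk01 with h | h
    · rw [h] at hnk
      omega
    · rw [h] at hnk
      omega
  have hq2 : Fintype.card F = 2 := by
    by_contra hcon
    have hq3 : 3 ≤ Fintype.card F := by omega
    have h1 := Nat.mul_le_mul_right k hq3
    have h2 := Nat.mul_le_mul_left (Fintype.card F) hk2
    omega
  have hk2' : k = 2 := by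
    rw [hq2] at hnk
    omega
  have hxi : x = (((-2 : ℤ) : ℤ) : ℂ) := by
    rw [hxv, hn1, hq2, hk2']
    push_cast
    ring
  have hxn : ‖x‖ ^ 2 = 4 := by
    rw [hxi, Complex.norm_intCast, sq_abs]
    norm_num
  have hsumU2 : ∑ b : F, ‖χ (h8uni b)‖ ^ 2 = 8 := by
    have h1 : ∀ b : F, ‖χ (h8uni b)‖ ^ 2 = 4 := by
      intro b
      by_cases hb : b = 0
      · rw [hb, h8uni_zero, hn, hn1, hq2, Complex.norm_natCast]
        norm_num
      · rw [hxb b hb, hxn]
    rw [Finset.sum_congr rfl (fun b _ => h1 b), Finset.sum_const, Finset.card_univ, hq2]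
    norm_num
  rw [hsumU2, hn, hn1, hq2, Complex.norm_natCast] at hnorm
  norm_num at hnorm

theorem h8_sl2_sumU_ne_zero_odd [Fintype F] [DecidableEq F] (hodd : Odd (Fintype.card F))
    (χ : SLF → ℂ) (hχ : Cfsg.IsIrrCharacter SLF χ) (hdeg : χ 1 = (Fintype.card F : ℂ)) :
    ∑ b : F, χ (h8uni b) ≠ 0 := by
  classical
  obtain ⟨r, n, m₀, kp, km, hr, hn, hsumU, hnM, hW⟩ := h8_sl2_unip_struct hodd χ hχ
  have hnorm := h8_sl2_norm hodd hχ
  have hQ0 : (Fintype.card F : ℂ) ≠ 0 := by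
    have : Fintype.card F ≠ 0 := Fintype.card_ne_zero
    exact_mod_cast this
  have hr1 : 1 ≤ r := by
    have h2 : 1 < Fintype.card F := Fintype.one_lt_card
    omega
  obtain ⟨Sn, hSn⟩ : ∃ Sn : ℕ, Sn = m₀ ^ 2 + r * (kp ^ 2 + km ^ 2) := ⟨_, rfl⟩
  rw [← hSn] at hW
  have hS3 : 4 * (r + 1) * Sn ≤ 4 * r * (r + 1) + 2 * n ^ 2 := by
    rw [hW, hn, Complex.norm_natCast, hr] at hnorm
    push_cast at hnorm
    have hpos : (0 : ℝ) < 2 * (r : ℝ) + 1 := by positivity
    have h8 : (2 * (r : ℝ) + 1) * (4 * ((r : ℝ) + 1) * (Sn : ℝ))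
        ≤ (2 * (r : ℝ) + 1) * (4 * (r : ℝ) * ((r : ℝ) + 1) + 2 * (n : ℝ) ^ 2) := by
      nlinarith [hnorm]
    have h9 := le_of_mul_le_mul_left h8 hpos
    exact_mod_cast h9
  have hn1 : n = 2 * r + 1 := by
    have h1 : (n : ℂ) = (Fintype.card F : ℂ) := by rw [← hn, hdeg]
    have h2 : n = Fintype.card F := by exact_mod_cast h1
    rw [h2, hr]
  rw [hsumU]
  intro h0
  have hm0 : m₀ = 0 := by
    rcases mul_eq_zero.mp h0 with h | h
    · exact absurd h hQ0
    · exact_mod_cast h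
  have hr' : r = 1 := by
    have h1 : r ∣ r * (kp + km) := dvd_mul_right _ _
    have h2 : r * (kp + km) = 2 * r + 1 := by omega
    rw [h2] at h1
    exact Nat.dvd_one.mp ((Nat.dvd_add_right (dvd_mul_left r 2)).mp h1)
  rw [hm0, hr'] at hSn
  rw [hn1, hm0, hr'] at hnM
  rw [hr', hn1, hr'] at hS3
  have e2 := h8_three_le_sq kp
  have e3 := h8_three_le_sq km
  omega

theorem h8_s2321 [Fintype F] (χ : SLF → ℂ) (hχ : Cfsg.IsIrrCharacter SLF χ)
    (hdeg : χ 1 = (Fintype.card F : ℂ)) (g : SLF) :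
    ((g : MF) 0 1 = 0 → (g : MF) 1 0 = 0 → (g : MF) 0 0 ^ 2 ≠ 1 → χ g = 1) ∧
    ((∀ (c : F) (v : Fin 2 → F), v ≠ 0 → (g : MF).mulVec v ≠ c • v) → χ g = -1) ∧
    ((g : MF) 1 0 = 0 → (g : MF) 0 0 = (g : MF) 1 1 → (g : MF) 0 1 ≠ 0 → χ g = 0) := by
  classical
  have hchar := Cfsg.Agent.Lib.Lead.isCharacter_of_isIrrCharacter hχ
  have hcf := Cfsg.Agent.Lib.Lead.isClassFunction_of_isCharacter hchar
  obtain ⟨B, hB⟩ : ∃ B : Subgroup SLF, ∀ g : SLF, g ∈ B ↔ (g : MF) 1 0 = 0 :=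
    ⟨_, h8_mem_borel_iff⟩
  have hq1 : 1 < Fintype.card F := Fintype.one_lt_card
  have hsumU0 : ∑ b : F, χ (h8uni b) ≠ 0 := by
    by_cases hodd : Odd (Fintype.card F)
    · exact h8_sl2_sumU_ne_zero_odd hodd χ hχ hdeg
    · exact h8_sl2_sumU_ne_zero_even hodd χ hχ hdeg
  obtain ⟨μ, hμ⟩ := h8_sl2_borel_constituent χ hχ hsumU0 B hB
  have hχ1ne1 : χ 1 ≠ 1 := by
    rw [hdeg]
    intro h
    have h' : ((Fintype.card F : ℕ) : ℂ) = ((1 : ℕ) : ℂ) := by rw [h, Nat.cast_one]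
    have := Nat.cast_injective h'
    omega
  have hR1 : ∀ μ : MulChar F ℂ, Cfsg.indFun B (fun b : B => μ (((b : SLF) : MF) 0 0)) 1
      = (Fintype.card F : ℂ) + 1 := by
    intro μ
    have h1 := (h8_s2433_aux μ B hB 1).2.2.2 (by simp) (by simp) (by simp)
    rw [h1, Matrix.SpecialLinearGroup.coe_one, Matrix.one_apply_eq, map_one, mul_one]
  have hRchar : ∀ μ : MulChar F ℂ, Cfsg.IsCharacter SLF
      (Cfsg.indFun B (fun b : B => μ (((b : SLF) : MF) 0 0))) := fun μ =>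
    Cfsg.Agent.S0148.result B _ (h8_borel_char_isCharacter μ B hB)
  have hμ2 : μ ^ 2 = 1 := by
    by_contra hcon
    have hirr := (h8_s2306_aux μ B hB).mpr hcon
    have ho := Cfsg.Agent.Lib.Lead.irr_orthonormal hirr hχ
    by_cases hRe : Cfsg.indFun B (fun b : B => μ (((b : SLF) : MF) 0 0)) = χ
    · have h1 := hR1 μ
      rw [hRe, hdeg] at h1
      have h2 : (0 : ℂ) = 1 := by linear_combination h1
      exact zero_ne_one h2
    · rw [if_neg hRe] at ho
      exact hμ ho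
  have hμ1 : μ = 1 := by
    by_cases hodd : Odd (Fintype.card F)
    · by_contra hcon
      obtain ⟨χ₁, χ₂, h1, h2, hne, hdec, hd1, hd2, -⟩ := h8_s2307_aux hodd μ hμ2 hcon B hB
      have h3 : Cfsg.classInner (Cfsg.indFun B (fun b : B => μ (((b : SLF) : MF) 0 0))) χ
          = Cfsg.classInner χ₁ χ + Cfsg.classInner χ₂ χ := by
        rw [hdec]
        exact Cfsg.Agent.Lib.Lead.classInner_add_left χ₁ χ₂ χ
      rw [Cfsg.Agent.Lib.Lead.irr_orthonormal h1 hχ,
        Cfsg.Agent.Lib.Lead.irr_orthonormal h2 hχ] at h3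
      have hdegne : ∀ θ : SLF → ℂ, θ 1 = (((Fintype.card F + 1) / 2 : ℕ) : ℂ) → θ ≠ χ := by
        intro θ hθ he
        rw [he, hdeg] at hθ
        have h5 := Nat.cast_injective hθ
        obtain ⟨k, hk⟩ := hodd
        omega
      rw [if_neg (hdegne χ₁ hd1), if_neg (hdegne χ₂ hd2), add_zero] at h3
      exact hμ h3
    · apply MulChar.ext
      intro a
      rw [MulChar.one_apply_coe]
      have h2a : μ (a : F) ^ 2 = 1 := by
        rw [← MulChar.pow_apply_coe, hμ2, MulChar.one_apply_coe]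
      obtain ⟨t, ht⟩ := Nat.not_odd_iff_even.mp hodd
      obtain ⟨j, hj⟩ : ∃ j, Fintype.card F - 1 = 2 * j + 1 := ⟨t - 1, by omega⟩
      calc μ (a : F) = (μ (a : F) ^ 2) ^ j * μ (a : F) := by rw [h2a, one_pow, one_mul]
        _ = μ (a : F) ^ (2 * j + 1) := by ring
        _ = μ ((a : F) ^ (2 * j + 1)) := (map_pow μ _ _).symm
        _ = μ 1 := by rw [← hj, FiniteField.pow_card_sub_one_eq_one _ (Units.ne_zero a)]
        _ = 1 := map_one μ
  subst hμ1
  obtain ⟨R, hRdef⟩ : ∃ R : SLF → ℂ,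
      R = Cfsg.indFun B (fun b : B => (1 : MulChar F ℂ) (((b : SLF) : MF) 0 0)) := ⟨_, rfl⟩
  have hRc : Cfsg.IsCharacter SLF R := by rw [hRdef]; exact hRchar 1
  have hRone : R 1 = χ 1 + 1 := by rw [hRdef, hdeg]; exact hR1 1
  have hRχ : Cfsg.classInner R χ ≠ 0 := by rw [hRdef]; exact hμ
  obtain ⟨ψ, hψirr, hψ1, hRdec⟩ := h8_decomp_plus_one hRc hχ hRχ hRone hχ1ne1
  have htriv : Cfsg.IsIrrCharacter SLF (fun _ : SLF => (1 : ℂ)) :=
    Cfsg.Agent.Lib.Lead.isIrrCharacter_of_hom (1 : SLF →* ℂˣ)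
  have hunit : ∀ b : B, ((b : SLF) : MF) 0 0 * ((b : SLF) : MF) 1 1 = 1 := by
    intro b
    have h0 := (b : SLF).det_coe
    rw [Matrix.det_fin_two, (hB _).mp b.2] at h0
    linear_combination h0
  have hθ : (fun b : B => (1 : MulChar F ℂ) (((b : SLF) : MF) 0 0)) = fun _ => (1 : ℂ) := by
    funext b
    exact MulChar.one_apply (Ne.isUnit (left_ne_zero_of_mul_eq_one (hunit b)))
  have hfr : Cfsg.classInner R (fun _ : SLF => (1 : ℂ)) = 1 := by
    rw [hRdef, Cfsg.Agent.Lib.Helper2.frobenius_reciprocity B _ (fun _ : SLF => (1 : ℂ))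
      (fun g h => rfl), hθ]
    have h1 : Cfsg.IsIrrCharacter B (fun _ : B => (1 : ℂ)) :=
      Cfsg.Agent.Lib.Lead.isIrrCharacter_of_hom (1 : B →* ℂˣ)
    have h2 := Cfsg.Agent.Lib.Lead.irr_orthonormal h1 h1
    rw [if_pos rfl] at h2
    exact h2
  have hψt : ψ = fun _ : SLF => (1 : ℂ) := by
    have h3 : Cfsg.classInner R (fun _ : SLF => (1 : ℂ))
        = Cfsg.classInner χ (fun _ : SLF => (1 : ℂ))
          + Cfsg.classInner ψ (fun _ : SLF => (1 : ℂ)) := by
      rw [hRdec]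
      exact Cfsg.Agent.Lib.Lead.classInner_add_left χ ψ _
    rw [hfr, Cfsg.Agent.Lib.Lead.irr_orthonormal hχ htriv,
      Cfsg.Agent.Lib.Lead.irr_orthonormal hψirr htriv] at h3
    have hχt : χ ≠ fun _ : SLF => (1 : ℂ) := by
      intro h
      apply hχ1ne1
      rw [h]
    rw [if_neg hχt, zero_add] at h3
    by_contra h
    rw [if_neg h] at h3
    exact one_ne_zero h3
  have hR : ∀ x : SLF, R x = χ x + 1 := by
    intro x
    rw [hRdec, hψt]
    rfl
  refine ⟨fun h01 h10 hne => ?_, fun hell => ?_, fun h10 h00 h01 => ?_⟩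
  · have h1 := (h8_s2433_aux (1 : MulChar F ℂ) B hB g).1 h01 h10 hne
    rw [← hRdef, hR g] at h1
    have hdet : (g : MF) 0 0 * (g : MF) 1 1 = 1 := by
      have h0 := g.det_coe
      rw [Matrix.det_fin_two, h01] at h0
      linear_combination h0
    rw [MulChar.one_apply (Ne.isUnit (left_ne_zero_of_mul_eq_one hdet)),
      MulChar.one_apply (Ne.isUnit (right_ne_zero_of_mul_eq_one hdet))] at h1
    linear_combination h1
  · have h1 := (h8_s2433_aux (1 : MulChar F ℂ) B hB g).2.1 hell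
    rw [← hRdef, hR g] at h1
    linear_combination h1
  · have h1 := (h8_s2433_aux (1 : MulChar F ℂ) B hB g).2.2.1 h10 h00 h01
    rw [← hRdef, hR g] at h1
    have hdet : (g : MF) 0 0 * (g : MF) 1 1 = 1 := by
      have h0 := g.det_coe
      rw [Matrix.det_fin_two, h10] at h0
      linear_combination h0
    rw [MulChar.one_apply (Ne.isUnit (left_ne_zero_of_mul_eq_one hdet))] at h1
    linear_combination h1

end

end Cfsg.Agent.Lib.Helper8
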