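import Mathlib
import Cfsg.Prelude.Def_Characters
import Cfsg.Agent.Lib.Helper8.SL2Unip
import Cfsg.Agent.Lib.Helper8.PSL2ABA
import Cfsg.Agent.Lib.Helper8.SL2Mackey
import Cfsg.Agent.Lib.Helper8.GL2Syl
import Cfsg.Agent.Lib.Lead.CharRing
import Cfsg.Agent.Lib.Lead.CharCodeg
import Cfsg.Agent.Lib.Lead.CharComplete
import Cfsg.Agent.Lib.Lead.CharRam
import Cfsg.Agent.Lib.Lead.CharFT

set_option autoImplicit false
set_option linter.style.haveILetI false
set_option linter.unusedSectionVars false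
set_option linter.unusedVariables false

universe u

namespace Cfsg.Agent.Lib.Helper8

open Matrix
open scoped ComplexConjugate

section
variable {F : Type u} [Field F]

local notation "SLF" => Matrix.SpecialLinearGroup (Fin 2) F
local notation "MF" => Matrix (Fin 2) (Fin 2) F

theorem h8_chi_uni_sq {χ : SLF → ℂ} (hcf : Cfsg.IsClassFunction SLF χ) {b b' : F} (hb : b ≠ 0)
    (hb' : b' ≠ 0) (hsq : IsSquare (b * b')) : χ (h8uni b') = χ (h8uni b) := by
  obtain ⟨P, hP⟩ := isConj_iff.mp ((h8uni_conj_iff hb hb').mpr hsq)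
  rw [← hP]
  exact hcf _ _

theorem h8_sl2_mult_key [Fintype F] [DecidableEq F] {χ : SLF → ℂ}
    (hχ : Cfsg.IsCharacter SLF χ) (φ : AddChar F ℂ) :
    ∃ k : ℕ, (Fintype.card F : ℂ) * k = ∑ b : F, χ (h8uni b) * conj (φ b) := by
  classical
  have hQ0 : (Fintype.card F : ℂ) ≠ 0 := by
    have : Fintype.card F ≠ 0 := Fintype.card_ne_zero
    exact_mod_cast this
  have hres : Cfsg.IsCharacter (Multiplicative F) (χ ∘ (h8uniHom : Multiplicative F →* SLF)) :=
    Cfsg.Agent.Lib.Lead.isCharacter_comp h8uniHom hχ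
  have hφ : Cfsg.IsCharacter (Multiplicative F)
      (fun x => ((φ.toMonoidHom.toHomUnits x : ℂˣ) : ℂ)) :=
    Cfsg.Agent.Lib.Lead.isCharacter_of_isIrrCharacter
      (Cfsg.Agent.Lib.Lead.isIrrCharacter_of_hom _)
  obtain ⟨k, hk⟩ := Cfsg.Agent.Lib.Lead.classInner_isCharacter_nat hres hφ
  refine ⟨k, ?_⟩
  rw [← hk]
  unfold Cfsg.classInner
  have hcard : (Nat.card (Multiplicative F) : ℂ) = (Fintype.card F : ℂ) := by
    rw [Nat.card_eq_fintype_card, Fintype.card_multiplicative]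
  rw [hcard, mul_inv_cancel_left₀ hQ0]
  exact Fintype.sum_equiv Multiplicative.toAdd _ _ (fun x => by
    beta_reduce
    rw [MonoidHom.coe_toHomUnits]; rfl)

theorem h8_sl2_mult [Fintype F] [DecidableEq F] (hodd : Odd (Fintype.card F)) {χ : SLF → ℂ}
    (hχ : Cfsg.IsCharacter SLF χ) :
    ∃ m₀ s : ℕ, (Fintype.card F : ℂ) * m₀ = ∑ b : F, χ (h8uni b) ∧
      2 * (χ 1 - m₀) = ((Fintype.card F : ℂ) - 1) * s := by
  classical
  have hcf := Cfsg.Agent.Lib.Lead.isClassFunction_of_isCharacter hχ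
  have hQ0 : (Fintype.card F : ℂ) ≠ 0 := by
    have : Fintype.card F ≠ 0 := Fintype.card_ne_zero
    exact_mod_cast this
  have hF : ringChar F ≠ 2 := by
    intro h
    have h1 := FiniteField.even_card_iff_char_two.mp h
    obtain ⟨k, hk⟩ := hodd
    omega
  obtain ⟨ψ, hψ⟩ : ∃ ψ : AddChar F ℂ, ψ (1 : F) ≠ 1 :=
    AddChar.exists_apply_ne_zero.mpr one_ne_zero
  have hψ1 : ψ ≠ 1 := by
    rintro rfl
    exact hψ (AddChar.one_apply _)
  obtain ⟨K, hKdef⟩ : ∃ K : F → ℂ, ∀ c : F,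
      K c = ∑ b : F, χ (h8uni b) * conj (ψ (c * b)) := ⟨_, fun _ => rfl⟩
  have hKnat : ∀ c : F, ∃ k : ℕ, (Fintype.card F : ℂ) * k = K c := by
    intro c
    obtain ⟨k, hk⟩ := h8_sl2_mult_key hχ (AddChar.mulShift ψ c)
    refine ⟨k, ?_⟩
    rw [hk, hKdef]
    exact Finset.sum_congr rfl (fun b _ => by rw [AddChar.mulShift_apply])
  have hK0 : K 0 = ∑ b : F, χ (h8uni b) := by
    rw [hKdef]
    exact Finset.sum_congr rfl (fun b _ => by
      rw [zero_mul, AddChar.map_zero_eq_one, map_one, mul_one])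
  have hKsum : ∑ c : F, K c = (Fintype.card F : ℂ) * χ 1 := by
    have h1 : ∀ b : F, ∑ c : F, conj (ψ (c * b))
        = if b = 0 then (Fintype.card F : ℂ) else 0 := by
      intro b
      by_cases hb : b = 0
      · rw [if_pos hb, hb]
        simp
      · rw [if_neg hb, ← map_sum]
        have h2 : ∑ c : F, ψ (c * b) = ∑ x : F, ψ x :=
          Fintype.sum_equiv (Equiv.mulRight₀ b hb) (fun c => ψ (c * b)) (fun x => ψ x)
            (fun c => rfl)
        rw [h2, AddChar.sum_eq_zero_of_ne_one hψ1, map_zero]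
    simp only [hKdef]
    rw [Finset.sum_comm]
    have h3 : ∀ b : F, ∑ c : F, χ (h8uni b) * conj (ψ (c * b))
        = if b = 0 then χ (h8uni b) * (Fintype.card F : ℂ) else 0 := by
      intro b
      rw [← Finset.mul_sum, h1 b, mul_ite, mul_zero]
    rw [Finset.sum_congr rfl (fun b _ => h3 b), Finset.sum_ite_eq' Finset.univ (0 : F),
      if_pos (Finset.mem_univ _), h8uni_zero, mul_comm]
  have hKsq : ∀ c c' : F, c ≠ 0 → c' ≠ 0 → IsSquare (c * c') → K c' = K c := by
    intro c c' hc hc' hsq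
    obtain ⟨r, hr⟩ := hsq
    have hr0 : r ≠ 0 := by
      rintro rfl
      rw [mul_zero] at hr
      exact mul_ne_zero hc hc' hr
    obtain ⟨a, ha⟩ : ∃ a : F, a * c = r := ⟨r / c, div_mul_cancel₀ r hc⟩
    have ha0 : a ≠ 0 := by
      rintro rfl
      rw [zero_mul] at ha
      exact hr0 ha.symm
    have hc'eq : c' = c * (a * a) := by
      have h5 : c * c' = c * (c * (a * a)) := by rw [hr, ← ha]; ring
      exact mul_left_cancel₀ hc h5
    rw [hKdef, hKdef]
    refine Fintype.sum_equiv (Equiv.mulLeft₀ (a * a) (mul_ne_zero ha0 ha0))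
      (fun b => χ (h8uni b) * conj (ψ (c' * b))) (fun b' => χ (h8uni b') * conj (ψ (c * b')))
      (fun b => ?_)
    show χ (h8uni b) * conj (ψ (c' * b)) = χ (h8uni (a * a * b)) * conj (ψ (c * (a * a * b)))
    have h6 : c' * b = c * (a * a * b) := by rw [hc'eq]; ring
    rw [h6]
    congr 1
    by_cases hb : b = 0
    · rw [hb, mul_zero]
    · exact (h8_chi_uni_sq hcf hb (mul_ne_zero (mul_ne_zero ha0 ha0) hb)
        ⟨a * b, by ring⟩).symm
  obtain ⟨ε, hε⟩ := FiniteField.exists_nonsquare hF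
  have hε0 : ε ≠ 0 := by
    rintro rfl
    exact hε ⟨0, by ring⟩
  have hKc : ∀ c : F, c ≠ 0 → K c
      = (1 + ((quadraticChar F c : ℤ) : ℂ)) / 2 * K 1
        + (1 - ((quadraticChar F c : ℤ) : ℂ)) / 2 * K ε := by
    intro c hc
    rcases quadraticChar_dichotomy hc with h | h
    · have hsq : IsSquare c := (quadraticChar_one_iff_isSquare hc).mp h
      rw [h, hKsq 1 c one_ne_zero hc (by rwa [one_mul])]
      push_cast
      ring
    · have hsq : IsSquare (ε * c) := by
        apply (quadraticChar_one_iff_isSquare (mul_ne_zero hε0 hc)).mp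
        rw [map_mul, h, quadraticChar_neg_one_iff_not_isSquare.mpr hε]
        norm_num
      rw [h, hKsq ε c hε0 hc hsq]
      push_cast
      ring
  have hqsum : ∑ c : F, ((quadraticChar F c : ℤ) : ℂ) = 0 := by
    rw [← Int.cast_sum, quadraticChar_sum_zero hF, Int.cast_zero]
  have hKall : ∀ c : F, K c
      = ((1 + ((quadraticChar F c : ℤ) : ℂ)) / 2 * K 1
        + (1 - ((quadraticChar F c : ℤ) : ℂ)) / 2 * K ε)
        + (if c = 0 then K 0 - (K 1 + K ε) / 2 else 0) := by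
    intro c
    by_cases hc : c = 0
    · rw [if_pos hc, hc, quadraticChar_zero]
      push_cast
      ring
    · rw [if_neg hc, add_zero]
      exact hKc c hc
  have hKsum2 : ∑ c : F, K c
      = (Fintype.card F : ℂ) / 2 * (K 1 + K ε) + (K 0 - (K 1 + K ε) / 2) := by
    rw [Finset.sum_congr rfl (fun c _ => hKall c), Finset.sum_add_distrib,
      Finset.sum_ite_eq' Finset.univ (0 : F), if_pos (Finset.mem_univ _)]
    congr 1
    have h7 : ∀ c : F, (1 + ((quadraticChar F c : ℤ) : ℂ)) / 2 * K 1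
        + (1 - ((quadraticChar F c : ℤ) : ℂ)) / 2 * K ε
        = (K 1 + K ε) / 2 + ((quadraticChar F c : ℤ) : ℂ) * ((K 1 - K ε) / 2) := by
      intro c
      ring
    rw [Finset.sum_congr rfl (fun c _ => h7 c), Finset.sum_add_distrib, ← Finset.sum_mul, hqsum,
      Finset.sum_const, Finset.card_univ, nsmul_eq_mul]
    ring
  obtain ⟨m₀, hm₀⟩ := hKnat 0
  obtain ⟨k₁, hk₁⟩ := hKnat 1
  obtain ⟨k₂, hk₂⟩ := hKnat ε
  refine ⟨m₀, k₁ + k₂, ?_, ?_⟩
  · rw [hm₀, hK0]
  · rw [hKsum, ← hm₀, ← hk₁, ← hk₂] at hKsum2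
    have h8 : (Fintype.card F : ℂ) * (2 * (χ 1 - m₀))
        = (Fintype.card F : ℂ) * (((Fintype.card F : ℂ) - 1) * ((k₁ + k₂ : ℕ) : ℂ)) := by
      push_cast
      linear_combination 2 * hKsum2
    exact mul_left_cancel₀ hQ0 h8

end

end Cfsg.Agent.Lib.Helper8
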