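import Mathlib
import Cfsg.Agent.Lib.Helper8.PSL2Sharp

set_option autoImplicit false
set_option linter.style.haveILetI false
set_option linter.unusedSectionVars false
set_option maxHeartbeats 1600000
universe u w

namespace Cfsg.Agent.Lib.Helper8

open Matrix

section
variable {G : Type u} [Group G] [Finite G] {α : Type w} [Finite α] [MulAction G α]

/-- in a sharply 3-transitive group of odd degree, an element interchanging two points is an
involution -/
theorem h8s3_swap_sq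
    (hs : ∀ g : G, ∀ x₁ x₂ x₃ : α, x₁ ≠ x₂ → x₁ ≠ x₃ → x₂ ≠ x₃ → g • x₁ = x₁ → g • x₂ = x₂ →
      g • x₃ = x₃ → g = 1)
    (hpar : ∀ s : G, s ≠ 1 → s * s = 1 → ∃ z : α, s • z = z ∧ ∀ z', s • z' = z' → z' = z)
    {g : G} {a b : α} (hab : a ≠ b) (hga : g • a = b) (hgb : g • b = a) : g * g = 1 := by
  have hfixpow : ∀ j : ℕ, (g ^ 2) ^ j • a = a ∧ (g ^ 2) ^ j • b = b := by
    intro j
    induction j with
    | zero => simp
    | succ j ih =>
      have h1 : g ^ 2 • a = a := by rw [pow_two, mul_smul, hga, hgb]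
      have h2 : g ^ 2 • b = b := by rw [pow_two, mul_smul, hgb, hga]
      rw [pow_succ, mul_smul, mul_smul, h1, h2]; exact ih
  have hkpos : 0 < orderOf (g ^ 2) := orderOf_pos _
  rcases Nat.even_or_odd (orderOf (g ^ 2)) with hev | hodd
  · exfalso
    obtain ⟨j, hj⟩ := hev
    have hj0 : j ≠ 0 := by omega
    have hs1 : (g ^ 2) ^ j ≠ 1 := pow_ne_one_of_lt_orderOf hj0 (by omega)
    have hss : (g ^ 2) ^ j * (g ^ 2) ^ j = 1 := by rw [← pow_add, ← hj, pow_orderOf_eq_one]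
    obtain ⟨z, -, huz⟩ := hpar _ hs1 hss
    exact hab ((huz a (hfixpow j).1).trans (huz b (hfixpow j).2).symm)
  · obtain ⟨j, hj⟩ := hodd
    have hh : g ^ (2 * j + 1) = (g ^ 2) ^ j * g := by rw [pow_succ, pow_mul]
    have hha : g ^ (2 * j + 1) • a = b := by rw [hh, mul_smul, hga, (hfixpow j).2]
    have hhb : g ^ (2 * j + 1) • b = a := by rw [hh, mul_smul, hgb, (hfixpow j).1]
    have hh1 : g ^ (2 * j + 1) ≠ 1 := by
      intro h; rw [h, one_smul] at hha; exact hab hha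
    have hhh : g ^ (2 * j + 1) * g ^ (2 * j + 1) = 1 := by
      rw [← pow_add, ← two_mul, pow_mul, ← hj, pow_orderOf_eq_one]
    obtain ⟨z, hz, huz⟩ := hpar _ hh1 hhh
    have hcomm : g ^ (2 * j + 1) * g = g * g ^ (2 * j + 1) := by rw [← pow_succ, ← pow_succ']
    have hgz : g • z = z := by
      apply huz
      rw [← mul_smul, hcomm, mul_smul, hz]
    have hza : z ≠ a := by
      intro h; rw [h, hha] at hz; exact hab hz.symm
    have hzb : z ≠ b := by
      intro h; rw [h, hhb] at hz; exact hab hz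
    apply hs (g * g) a b z hab (Ne.symm hza) (Ne.symm hzb)
    · rw [mul_smul, hga, hgb]
    · rw [mul_smul, hgb, hga]
    · rw [mul_smul, hgz, hgz]

omit [Finite G] [Finite α] in
theorem h8T3_exists (inf : α)
    (hclosed : ∀ s s' : G, s • inf = inf → s * s = 1 → s' • inf = inf → s' * s' = 1 →
      (s * s') * (s * s') = 1) :
    ∃ T : Subgroup G, ∀ t : G, t ∈ T ↔ (t • inf = inf ∧ t * t = 1) := by
  refine ⟨{ carrier := {t | t • inf = inf ∧ t * t = 1}
            one_mem' := ⟨one_smul _ _, one_mul 1⟩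
            mul_mem' := ?_
            inv_mem' := ?_ }, fun _ => Iff.rfl⟩
  · rintro s s' ⟨h1, h2⟩ ⟨h1', h2'⟩
    exact ⟨by rw [mul_smul, h1', h1], hclosed s s' h1 h2 h1' h2'⟩
  · rintro s ⟨h1, h2⟩
    have : s⁻¹ = s := inv_eq_of_mul_eq_one_left h2
    rw [Set.mem_ofPred_eq, this]; exact ⟨h1, h2⟩

theorem h8_sharp3 (inf o p₁ : α) (hoinf : o ≠ inf) (hp1inf : p₁ ≠ inf) (hp1o : p₁ ≠ o)
    (h3 : ∀ x₁ x₂ x₃ y₁ y₂ y₃ : α, x₁ ≠ x₂ → x₁ ≠ x₃ → x₂ ≠ x₃ → y₁ ≠ y₂ → y₁ ≠ y₃ → y₂ ≠ y₃ →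
      ∃ g : G, g • x₁ = y₁ ∧ g • x₂ = y₂ ∧ g • x₃ = y₃)
    (hs : ∀ g : G, ∀ x₁ x₂ x₃ : α, x₁ ≠ x₂ → x₁ ≠ x₃ → x₂ ≠ x₃ → g • x₁ = x₁ → g • x₂ = x₂ →
      g • x₃ = x₃ → g = 1)
    (hpar : ∀ s : G, s ≠ 1 → s * s = 1 → ∃ z : α, s • z = z ∧ ∀ z', s • z' = z' → z' = z)
    (hfaith : ∀ g : G, (∀ x : α, g • x = x) → g = 1) :
    ∃ a : ℕ, 1 ≤ a ∧ Nat.card α = 2 ^ a + 1 ∧ ∃ (F : Type) (_ : Field F) (_ : Fintype F),
      Fintype.card F = 2 ^ a ∧ (1 : F) + 1 = 0 ∧
      Nonempty (G ≃* Matrix.ProjectiveSpecialLinearGroup (Fin 2) F) := by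
  classical
  have hinfo : inf ≠ o := Ne.symm hoinf
  have hsw : ∀ {g : G} {a b : α}, a ≠ b → g • a = b → g • b = a → g * g = 1 :=
    fun hab hga hgb => h8s3_swap_sq hs hpar hab hga hgb
  have hinv_of_sq : ∀ t : G, t * t = 1 → t⁻¹ = t := fun t h => inv_eq_of_mul_eq_one_left h
  have hE1 : ∀ t : G, t • inf = inf → t * t = 1 → ∀ x : α, x ≠ inf → t • x = x → t = 1 := by
    intro t ht htt x hx htx
    by_contra h1
    obtain ⟨z, -, huz⟩ := hpar t h1 htt
    exact hx ((huz x htx).trans (huz inf ht).symm)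
  have hE2 : ∀ x y : α, x ≠ inf → y ≠ inf → x ≠ y →
      ∃ t : G, t • inf = inf ∧ t * t = 1 ∧ t • x = y := by
    intro x y hx hy hxy
    obtain ⟨t, h1, h2, h3'⟩ := h3 inf x y inf y x (Ne.symm hx) (Ne.symm hy) hxy (Ne.symm hy)
      (Ne.symm hx) (Ne.symm hxy)
    refine ⟨t, h1, ?_, h2⟩
    apply hs (t * t) inf x y (Ne.symm hx) (Ne.symm hy) hxy
    · rw [mul_smul, h1, h1]
    · rw [mul_smul, h2, h3']
    · rw [mul_smul, h3', h2]
  have hE3 : ∀ t t' : G, t • inf = inf → t * t = 1 → t' • inf = inf → t' * t' = 1 →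
      ∀ x : α, x ≠ inf → t • x = t' • x → t = t' := by
    intro t t' ht htt ht' htt' x hx hxx
    by_cases hfx : t • x = x
    · rw [hE1 t ht htt x hx hfx, hE1 t' ht' htt' x hx (hxx.symm.trans hfx)]
    · have hy : t • x ≠ inf := by
        intro h; apply hx; exact smul_left_cancel t (h.trans ht.symm)
      have h1 : (t⁻¹ * t') • inf = inf := by rw [mul_smul, ht', inv_smul_eq_iff, ht]
      have h2 : (t⁻¹ * t') • x = x := by rw [mul_smul, ← hxx, inv_smul_smul]
      have h3' : (t⁻¹ * t') • (t • x) = t • x := by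
        have e1 : t' • (t • x) = x := by rw [hxx, ← mul_smul, htt', one_smul]
        rw [mul_smul, e1, hinv_of_sq t htt]
      have := hs _ inf x (t • x) (Ne.symm hx) (Ne.symm hy) (Ne.symm hfx) h1 h2 h3'
      exact inv_mul_eq_one.mp this
  -- inversion of the two-point stabilizer, commutativity
  have hinvD : ∀ u d : G, u • inf = o → u • o = inf → d • inf = inf → d • o = o →
      u * d * u⁻¹ = d⁻¹ := by
    intro u d hu1 hu2 hd1 hd2
    have huu := hsw hinfo hu1 hu2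
    have h1 : (u * d) * (u * d) = 1 := by
      apply hsw hinfo
      · rw [mul_smul, hd1, hu1]
      · rw [mul_smul, hd2, hu2]
    rw [hinv_of_sq u huu]
    apply eq_inv_of_mul_eq_one_left
    rw [← h1]; group
  have hDcomm : ∀ d d' : G, d • inf = inf → d • o = o → d' • inf = inf → d' • o = o →
      d * d' = d' * d := by
    intro d d' hd1 hd2 hd1' hd2'
    obtain ⟨u, hu1, hu2, -⟩ := h3 inf o p₁ o inf p₁ hinfo (Ne.symm hp1inf) (Ne.symm hp1o) hoinf
      (Ne.symm hp1o) (Ne.symm hp1inf)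
    have e1 := hinvD u d hu1 hu2 hd1 hd2
    have e2 := hinvD u d' hu1 hu2 hd1' hd2'
    have e3 := hinvD u (d * d') hu1 hu2 (by rw [mul_smul, hd1', hd1])
      (by rw [mul_smul, hd2', hd2])
    have e4 : (d * d')⁻¹ = d⁻¹ * d'⁻¹ := by
      calc (d * d')⁻¹ = u * (d * d') * u⁻¹ := e3.symm
        _ = (u * d * u⁻¹) * (u * d' * u⁻¹) := by group
        _ = d⁻¹ * d'⁻¹ := by rw [e1, e2]
    have := congrArg (fun x => x⁻¹) e4
    simpa using this
  have hE4 : ∀ s d : G, s • inf = inf → s * s = 1 → s ≠ 1 → d • inf = inf → d • o = o → d ≠ 1 →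
      ∃ x : α, x ≠ inf ∧ s • x = d • x := by
    intro s d hs1 hss hs_ne hd1 hd2 hd_ne
    have hdx : ∀ x : α, x ≠ inf → x ≠ o → d • x ≠ x := by
      intro x hx hxo h
      exact hd_ne (hs d inf o x hinfo (Ne.symm hx) (Ne.symm hxo) hd1 hd2 h)
    have hdinf : ∀ x : α, x ≠ inf → d • x ≠ inf := by
      intro x hx h; exact hx (smul_left_cancel d (h.trans hd1.symm))
    have hexs : ∀ x : {x : α // x ≠ inf ∧ x ≠ o},
        ∃ t : G, t • inf = inf ∧ t * t = 1 ∧ t • x.1 = d • x.1 :=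
      fun x => hE2 x.1 (d • x.1) x.2.1 (hdinf x.1 x.2.1) (Ne.symm (hdx x.1 x.2.1 x.2.2))
    let f : {x : α // x ≠ inf ∧ x ≠ o} → {t : G // t • inf = inf ∧ t * t = 1 ∧ t ≠ 1} :=
      fun x => ⟨Classical.choose (hexs x), (Classical.choose_spec (hexs x)).1,
        (Classical.choose_spec (hexs x)).2.1, by
          intro h
          have := (Classical.choose_spec (hexs x)).2.2
          rw [h, one_smul] at this
          exact hdx x.1 x.2.1 x.2.2 this.symm⟩
    have hf : ∀ x, (f x).1 • x.1 = d • x.1 := fun x => (Classical.choose_spec (hexs x)).2.2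
    have hfinj : Function.Injective f := by
      intro x x' hxx
      by_contra hne
      have hne' : x.1 ≠ x'.1 := fun h => hne (Subtype.ext h)
      have h1 := hf x
      have h2 := hf x'
      rw [← hxx] at h2
      have e : (f x).1⁻¹ * d = 1 := by
        apply hs _ inf x.1 x'.1 (Ne.symm x.2.1) (Ne.symm x'.2.1) hne'
        · rw [mul_smul, hd1, inv_smul_eq_iff, (f x).2.1]
        · rw [mul_smul, ← h1, inv_smul_smul]
        · rw [mul_smul, ← h2, inv_smul_smul]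
      have hd_eq : (f x).1 = d := inv_mul_eq_one.mp e
      have := hE1 (f x).1 (f x).2.1 (f x).2.2.1 o hoinf (by rw [hd_eq]; exact hd2)
      exact (f x).2.2.2 this
    let g' : {t : G // t • inf = inf ∧ t * t = 1 ∧ t ≠ 1} → {x : α // x ≠ inf ∧ x ≠ o} :=
      fun t => ⟨t.1 • o, by
        constructor
        · intro h; exact hoinf (smul_left_cancel t.1 (h.trans t.2.1.symm))
        · intro h; exact t.2.2.2 (hE1 t.1 t.2.1 t.2.2.1 o hoinf h)⟩
    have hginj : Function.Injective g' := by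
      intro t t' h
      have h' : t.1 • o = t'.1 • o := congrArg Subtype.val h
      exact Subtype.ext (hE3 t.1 t'.1 t.2.1 t.2.2.1 t'.2.1 t'.2.2.1 o hoinf h')
    have hbij := Function.Injective.bijective_of_nat_card_le hfinj
      (Nat.card_le_card_of_injective g' hginj)
    obtain ⟨x, hx⟩ := hbij.2 ⟨s, hs1, hss, hs_ne⟩
    refine ⟨x.1, x.2.1, ?_⟩
    have := hf x
    rw [hx] at this
    exact this
  have hE5 : ∀ g : G, g • inf = inf → (∀ x : α, x ≠ inf → g • x ≠ x) → g * g = 1 := by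
    intro g hg hfpf
    have hy1 : g • o ≠ o := hfpf o hoinf
    have hy2 : g • o ≠ inf := by intro h; exact hoinf (smul_left_cancel g (h.trans hg.symm))
    obtain ⟨s, hs1, hss, hso⟩ := hE2 o (g • o) hoinf hy2 (Ne.symm hy1)
    have hs_ne : s ≠ 1 := by rintro rfl; rw [one_smul] at hso; exact hy1 hso.symm
    by_cases hd : s * g = 1
    · have : g = s⁻¹ := eq_inv_of_mul_eq_one_right hd
      rw [this, hinv_of_sq s hss]; exact hss
    · exfalso
      have hd1 : (s * g) • inf = inf := by rw [mul_smul, hg, hs1]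
      have hd2 : (s * g) • o = o := by rw [mul_smul, ← hso, ← mul_smul, hss, one_smul]
      obtain ⟨x, hx, hsx⟩ := hE4 s (s * g) hs1 hss hs_ne hd1 hd2 hd
      rw [mul_smul] at hsx
      exact hfpf x hx (smul_left_cancel s hsx).symm
  have hclosed : ∀ s s' : G, s • inf = inf → s * s = 1 → s' • inf = inf → s' * s' = 1 →
      (s * s') * (s * s') = 1 := by
    intro s s' hs1 hss hs1' hss'
    by_cases hfp : ∀ x : α, x ≠ inf → (s * s') • x ≠ x
    · exact hE5 _ (by rw [mul_smul, hs1', hs1]) hfp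
    · push Not at hfp
      obtain ⟨x, hx, hxx⟩ := hfp
      have h1 : s • x = s' • x := by
        rw [mul_smul] at hxx
        calc s • x = s • (s • s' • x) := by rw [hxx]
          _ = s' • x := by rw [← mul_smul, hss, one_smul]
      have := hE3 s s' hs1 hss hs1' hss' x hx h1
      rw [this, hss']; exact one_mul 1
  obtain ⟨T, hTmem⟩ := h8T3_exists (G := G) inf hclosed
  obtain ⟨e, he1', hee, heo⟩ := hE2 o p₁ hoinf hp1inf (Ne.symm hp1o)
  have heT : e ∈ T := (hTmem e).mpr ⟨he1', hee⟩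
  have he_ne : e ≠ 1 := by rintro rfl; rw [one_smul] at heo; exact hp1o heo.symm
  have hTcomm : ∀ a ∈ T, ∀ b ∈ T, a * b = b * a := by
    intro a ha b hb
    have hab := (hTmem _).mp (T.mul_mem ha hb)
    have h1 : (a * b)⁻¹ = a * b := hinv_of_sq _ hab.2
    rw [_root_.mul_inv_rev, hinv_of_sq a ((hTmem a).mp ha).2, hinv_of_sq b ((hTmem b).mp hb).2] at h1
    exact h1.symm
  have hconj : ∀ d : G, d • inf = inf → ∀ t ∈ T, d * t * d⁻¹ ∈ T := by
    intro d hd t ht
    obtain ⟨ht1, htt⟩ := (hTmem t).mp ht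
    refine (hTmem _).mpr ⟨by rw [mul_smul, mul_smul, inv_smul_eq_iff.mpr hd.symm, ht1, hd], ?_⟩
    calc d * t * d⁻¹ * (d * t * d⁻¹) = d * (t * t) * d⁻¹ := by group
      _ = 1 := by rw [htt]; group
  have hex : ∀ t : G, t ∈ T → t ≠ 1 →
      ∃ d : G, d • inf = inf ∧ d • o = o ∧ d * e * d⁻¹ = t := by
    intro t ht ht_ne
    obtain ⟨ht1, htt⟩ := (hTmem t).mp ht
    have hto1 : t • o ≠ o := fun h => ht_ne (hE1 t ht1 htt o hoinf h)
    have hto2 : t • o ≠ inf := by
      intro h; exact hoinf (smul_left_cancel t (h.trans ht1.symm))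
    obtain ⟨d, hd1, hd2, hd3⟩ := h3 inf o p₁ inf o (t • o) hinfo (Ne.symm hp1inf)
      (Ne.symm hp1o) hinfo (Ne.symm hto2) (Ne.symm hto1)
    refine ⟨d, hd1, hd2, ?_⟩
    have hm := (hTmem _).mp (hconj d hd1 e heT)
    apply hE3 _ _ hm.1 hm.2 ht1 htt o hoinf
    rw [mul_smul, mul_smul, inv_smul_eq_iff.mpr hd2.symm, heo, hd3]
  have huniq : ∀ d d' : G, d • inf = inf → d • o = o → d' • inf = inf → d' • o = o →
      d * e * d⁻¹ = d' * e * d'⁻¹ → d = d' := by
    intro d d' hd1 hd2 hd1' hd2' h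
    have h' : d • p₁ = d' • p₁ := by
      have := congrArg (fun g => g • o) h
      simp only [mul_smul] at this
      rw [inv_smul_eq_iff.mpr hd2.symm, inv_smul_eq_iff.mpr hd2'.symm, heo] at this
      exact this
    have := hs (d⁻¹ * d') inf o p₁ hinfo (Ne.symm hp1inf) (Ne.symm hp1o)
      (by rw [mul_smul, hd1', inv_smul_eq_iff, hd1]) (by rw [mul_smul, hd2', inv_smul_eq_iff, hd2])
      (by rw [mul_smul, ← h', inv_smul_smul])
    exact inv_mul_eq_one.mp this
  have hTo : ∀ t ∈ T, t • o = o → t = 1 := by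
    intro t ht h
    obtain ⟨ht1, htt⟩ := (hTmem t).mp ht
    exact hE1 t ht1 htt o hoinf h
  have hreg : ∀ y : α, y ≠ inf → ∃ t ∈ T, t • o = y := by
    intro y hy
    by_cases hyo : y = o
    · exact ⟨1, T.one_mem, by rw [one_smul, hyo]⟩
    · obtain ⟨t, h1, h2, h3'⟩ := hE2 o y hoinf hy (Ne.symm hyo)
      exact ⟨t, (hTmem t).mpr ⟨h1, h2⟩, h3'⟩
  have hdec : ∀ h : G, h • inf = inf →
      ∃ d t : G, d • inf = inf ∧ d • o = o ∧ t ∈ T ∧ h = d * t := by
    intro h hh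
    have hi : h⁻¹ • inf = inf := inv_smul_eq_iff.mpr hh.symm
    have hy : h⁻¹ • o ≠ inf := by
      intro h'; exact hoinf (smul_left_cancel h⁻¹ (h'.trans hi.symm))
    obtain ⟨t, ht, hto⟩ := hreg _ hy
    obtain ⟨ht1, htt⟩ := (hTmem t).mp ht
    refine ⟨h * t, t, by rw [mul_smul, ht1, hh], by rw [mul_smul, hto, smul_inv_smul], ht, ?_⟩
    rw [mul_assoc, htt, mul_one]
  have hswap : ∀ z : α, z ≠ inf → z ≠ o → ∃ u : G, u • inf = o ∧ u • o = inf ∧ u • z = z ∧
      ∀ d : G, d • inf = inf → d • o = o → u * d * u⁻¹ = d⁻¹ := by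
    intro z hz hzo
    obtain ⟨u, hu1, hu2, hu3⟩ := h3 inf o z o inf z hinfo (Ne.symm hz) (Ne.symm hzo) hoinf
      (Ne.symm hzo) (Ne.symm hz)
    exact ⟨u, hu1, hu2, hu3, fun d hd1 hd2 => hinvD u d hu1 hu2 hd1 hd2⟩
  obtain ⟨F, iF, iFin, hcard, h2, hiso⟩ := h8_psl2_sharp T inf o hoinf e heT he_ne hee
    (fun t ht => ((hTmem t).mp ht).1) hTcomm hconj hex huniq hDcomm hTo hreg hdec hswap hfaith
  have hTcard : Nat.card α = Nat.card T + 1 := by
    have e1 : Nat.card T = Nat.card {x : α // x ≠ inf} := by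
      apply Nat.card_congr
      refine Equiv.ofBijective (fun t : T => (⟨t.1 • o, fun h => hoinf (smul_left_cancel t.1
        (h.trans ((hTmem _).mp t.2).1.symm))⟩ : {x : α // x ≠ inf})) ⟨?_, ?_⟩
      · intro t t' h
        have h' : t.1 • o = t'.1 • o := congrArg Subtype.val h
        have m1 := (hTmem _).mp t.2
        have m2 := (hTmem _).mp t'.2
        exact Subtype.ext (hE3 t.1 t'.1 m1.1 m1.2 m2.1 m2.2 o hoinf h')
      · rintro ⟨y, hy⟩
        obtain ⟨t, ht, hto⟩ := hreg y hy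
        exact ⟨⟨t, ht⟩, Subtype.ext hto⟩
    rw [e1, ← Finite.card_option, Nat.card_congr (Equiv.optionSubtypeNe inf)]
  haveI : Fact (Nat.Prime 2) := ⟨Nat.prime_two⟩
  have hp : IsPGroup 2 T := by
    intro t
    refine ⟨1, ?_⟩
    apply Subtype.ext
    rw [pow_one, pow_two]
    exact ((hTmem _).mp t.2).2
  obtain ⟨a, ha⟩ := IsPGroup.iff_card.mp hp
  have ha1 : 1 ≤ a := by
    by_contra h
    have h0 : a = 0 := by omega
    rw [h0, pow_zero] at ha
    haveI := (Nat.card_eq_one_iff_unique.mp ha).1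
    exact he_ne (congrArg Subtype.val (Subsingleton.elim (⟨e, heT⟩ : T) 1))
  exact ⟨a, ha1, by rw [hTcard, ha], F, iF, iFin, by rw [hcard, ha], h2, hiso⟩

end

theorem h8_s4702 {α : Type u} [Fintype α] [DecidableEq α] (hm : 3 ≤ Fintype.card α)
    (hodd : Odd (Fintype.card α)) (G : Subgroup (Equiv.Perm α))
    (h3 : MulAction.IsMultiplyPretransitive G α 3)
    (hfix : ∀ g : G, 3 ≤ Nat.card (MulAction.fixedBy α g) → g = 1) :
    ∃ a : ℕ, 1 ≤ a ∧ Fintype.card α = 2 ^ a + 1 ∧ ∃ (F : Type) (_ : Field F) (_ : Fintype F),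
      Fintype.card F = 2 ^ a ∧ Nonempty (G ≃* Matrix.SpecialLinearGroup (Fin 2) F) := by
  classical
  obtain ⟨inf, o, p₁, h12, h13, h23⟩ : ∃ a b c : α, a ≠ b ∧ a ≠ c ∧ b ≠ c := by
    have : 2 < (Finset.univ : Finset α).card := by rw [Finset.card_univ]; omega
    obtain ⟨a, -, b, -, c, -, hab, hac, hbc⟩ := Finset.two_lt_card.mp this
    exact ⟨a, b, c, hab, hac, hbc⟩
  have hT3 : ∀ x₁ x₂ x₃ y₁ y₂ y₃ : α, x₁ ≠ x₂ → x₁ ≠ x₃ → x₂ ≠ x₃ → y₁ ≠ y₂ → y₁ ≠ y₃ →
      y₂ ≠ y₃ → ∃ g : G, g • x₁ = y₁ ∧ g • x₂ = y₂ ∧ g • x₃ = y₃ := by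
    intro x₁ x₂ x₃ y₁ y₂ y₃ hx12 hx13 hx23 hy12 hy13 hy23
    have hinjx : Function.Injective ![x₁, x₂, x₃] := by
      intro i j h; fin_cases i <;> fin_cases j <;> simp_all
    have hinjy : Function.Injective ![y₁, y₂, y₃] := by
      intro i j h; fin_cases i <;> fin_cases j <;> simp_all
    haveI : MulAction.IsPretransitive G (Fin 3 ↪ α) := h3
    obtain ⟨g, hg⟩ := MulAction.exists_smul_eq G (⟨![x₁, x₂, x₃], hinjx⟩ : Fin 3 ↪ α)
      ⟨![y₁, y₂, y₃], hinjy⟩
    refine ⟨g, ?_, ?_, ?_⟩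
    · have := congrArg (fun f : Fin 3 ↪ α => f 0) hg; simpa using this
    · have := congrArg (fun f : Fin 3 ↪ α => f 1) hg; simpa using this
    · have := congrArg (fun f : Fin 3 ↪ α => f 2) hg; simpa using this
  have hS3 : ∀ g : G, ∀ x₁ x₂ x₃ : α, x₁ ≠ x₂ → x₁ ≠ x₃ → x₂ ≠ x₃ → g • x₁ = x₁ →
      g • x₂ = x₂ → g • x₃ = x₃ → g = 1 := by
    intro g x₁ x₂ x₃ h12 h13 h23 h1 h2 h3'
    apply hfix
    rw [Nat.card_coe_set_eq]
    have hsub : ({x₁, x₂, x₃} : Set α) ⊆ MulAction.fixedBy α g := by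
      intro x hx
      rcases hx with rfl | rfl | rfl
      · exact h1
      · exact h2
      · exact h3'
    have h3c : ({x₁, x₂, x₃} : Set α).ncard = 3 :=
      Set.ncard_eq_three.mpr ⟨x₁, x₂, x₃, h12, h13, h23, rfl⟩
    calc 3 = ({x₁, x₂, x₃} : Set α).ncard := h3c.symm
      _ ≤ (MulAction.fixedBy α g).ncard := Set.ncard_le_ncard hsub (Set.toFinite _)
  have hpar : ∀ s : G, s ≠ 1 → s * s = 1 →
      ∃ z : α, s • z = z ∧ ∀ z', s • z' = z' → z' = z := by
    intro s hs1 hss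
    have hsq : (s : Equiv.Perm α) ^ 2 = 1 := by
      rw [pow_two]; exact congrArg Subtype.val hss
    have hdvd := Equiv.Perm.two_dvd_card_support hsq
    have hcompl : ((s : Equiv.Perm α).supportᶜ).card =
        Fintype.card α - (s : Equiv.Perm α).support.card := Finset.card_compl _
    have hle : (s : Equiv.Perm α).support.card ≤ Fintype.card α := Finset.card_le_univ _
    have hoddc : Odd ((s : Equiv.Perm α).supportᶜ).card := by
      rw [hcompl]
      obtain ⟨k, hk⟩ := hdvd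
      obtain ⟨j, hj⟩ := hodd
      rw [Nat.odd_iff]; omega
    have hmemc : ∀ x : α, x ∈ (s : Equiv.Perm α).supportᶜ ↔ s • x = x := by
      intro x
      rw [Finset.mem_compl, Equiv.Perm.mem_support, not_not]; rfl
    have hne : ((s : Equiv.Perm α).supportᶜ).Nonempty := by
      rw [← Finset.card_pos]; obtain ⟨k, hk⟩ := hoddc; omega
    obtain ⟨z, hz⟩ := hne
    refine ⟨z, (hmemc z).mp hz, ?_⟩
    intro z' hz'
    by_contra hne'
    have h2 : 1 < ((s : Equiv.Perm α).supportᶜ).card :=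
      Finset.one_lt_card.mpr ⟨z', (hmemc z').mpr hz', z, hz, hne'⟩
    have h3' : 2 < ((s : Equiv.Perm α).supportᶜ).card := by
      obtain ⟨k, hk⟩ := hoddc; omega
    obtain ⟨a, ha, b, hb, c, hc, hab, hac, hbc⟩ := Finset.two_lt_card.mp h3'
    exact hs1 (hS3 s a b c hab hac hbc ((hmemc a).mp ha) ((hmemc b).mp hb) ((hmemc c).mp hc))
  have hfaith : ∀ g : G, (∀ x : α, g • x = x) → g = 1 := by
    intro g hg
    apply Subtype.ext
    ext x
    exact hg x
  obtain ⟨a, ha1, hcard, F, iF, iFin, hF, h2, ⟨iso⟩⟩ :=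
    h8_sharp3 inf o p₁ (Ne.symm h12) (Ne.symm h13) (Ne.symm h23) hT3 hS3 hpar hfaith
  refine ⟨a, ha1, by rw [← Nat.card_eq_fintype_card]; exact hcard, F, iF, iFin, hF, ?_⟩
  have hcenter : Subgroup.center (SpecialLinearGroup (Fin 2) F) = ⊥ := by
    rw [eq_bot_iff]
    intro M hM
    rw [Matrix.SpecialLinearGroup.mem_center_iff] at hM
    obtain ⟨r, hr, hM⟩ := hM
    rw [Fintype.card_fin] at hr
    have h1 : (r + 1) * (r + 1) = 0 := by linear_combination hr + (r + 1) * h2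
    have h3' : r + 1 = 0 := by simpa using h1
    have hr1 : r = 1 := by
      have : r = -1 := eq_neg_of_add_eq_zero_left h3'
      rw [this]; exact neg_eq_of_add_eq_zero_left h2
    rw [Subgroup.mem_bot]
    apply Subtype.ext
    rw [← hM, hr1]
    simp
  exact ⟨iso.trans ((QuotientGroup.quotientMulEquivOfEq hcenter).trans
    QuotientGroup.quotientBot)⟩

end Cfsg.Agent.Lib.Helper8
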