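import Mathlib
import Cfsg.Agent.Lib.Helper8.Sharp3

set_option autoImplicit false
set_option linter.style.haveILetI false
set_option linter.unusedSectionVars false
set_option maxHeartbeats 1600000
universe u w

namespace Cfsg.Agent.Lib.Helper8

open Matrix

theorem h8_perm_sharp3 {α : Type u} [Fintype α] [DecidableEq α] (hm : 3 ≤ Fintype.card α)
    (hodd : Odd (Fintype.card α)) (G : Subgroup (Equiv.Perm α))
    (h3 : MulAction.IsMultiplyPretransitive G α 3)
    (hS3 : ∀ g : G, ∀ x₁ x₂ x₃ : α, x₁ ≠ x₂ → x₁ ≠ x₃ → x₂ ≠ x₃ → g • x₁ = x₁ →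
      g • x₂ = x₂ → g • x₃ = x₃ → g = 1) :
    ∃ a : ℕ, 1 ≤ a ∧ Fintype.card α = 2 ^ a + 1 ∧ ∃ (F : Type) (_ : Field F) (_ : Fintype F),
      Fintype.card F = 2 ^ a ∧ (1 : F) + 1 = 0 ∧
      Nonempty (G ≃* Matrix.ProjectiveSpecialLinearGroup (Fin 2) F) := by
  classical
  obtain ⟨inf, o, p₁, h12, h13, h23⟩ : ∃ a b c : α, a ≠ b ∧ a ≠ c ∧ b ≠ c := by
    have : 2 < (Finset.univ : Finset α).card := by rw [Finset.card_univ]; omega
    obtain ⟨a, -, b, -, c, -, hab, hac, hbc⟩ := Finset.two_lt_card.mp this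
    exact ⟨a, b, c, hab, hac, hbc⟩
  have hT3 : ∀ x₁ x₂ x₃ y₁ y₂ y₃ : α, x₁ ≠ x₂ → x₁ ≠ x₃ → x₂ ≠ x₃ → y₁ ≠ y₂ → y₁ ≠ y₃ →
      y₂ ≠ y₃ → ∃ g : G, g • x₁ = y₁ ∧ g • x₂ = y₂ ∧ g • x₃ = y₃ := by
    intro x₁ x₂ x₃ y₁ y₂ y₃ hx12 hx13 hx23 hy12 hy13 hy23
    have hinjx : Function.Injective ![x₁, x₂, x₃] := by
      intro i j h; fin_cases i <;> fin_cases j <;> simp_all
    have hinjy : Function.Injective ![y₁, y₂, y₃] := by
      intro i j h; fin_cases i <;> fin_cases j <;> simp_all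
    haveI : MulAction.IsPretransitive G (Fin 3 ↪ α) := h3
    obtain ⟨g, hg⟩ := MulAction.exists_smul_eq G (⟨![x₁, x₂, x₃], hinjx⟩ : Fin 3 ↪ α)
      ⟨![y₁, y₂, y₃], hinjy⟩
    refine ⟨g, ?_, ?_, ?_⟩
    · have := congrArg (fun f : Fin 3 ↪ α => f 0) hg; simpa using this
    · have := congrArg (fun f : Fin 3 ↪ α => f 1) hg; simpa using this
    · have := congrArg (fun f : Fin 3 ↪ α => f 2) hg; simpa using this
  have hpar : ∀ s : G, s ≠ 1 → s * s = 1 →
      ∃ z : α, s • z = z ∧ ∀ z', s • z' = z' → z' = z := by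
    intro s hs1 hss
    have hsq : (s : Equiv.Perm α) ^ 2 = 1 := by
      rw [pow_two]; exact congrArg Subtype.val hss
    have hdvd := Equiv.Perm.two_dvd_card_support hsq
    have hcompl : ((s : Equiv.Perm α).supportᶜ).card =
        Fintype.card α - (s : Equiv.Perm α).support.card := Finset.card_compl _
    have hle : (s : Equiv.Perm α).support.card ≤ Fintype.card α := Finset.card_le_univ _
    have hoddc : Odd ((s : Equiv.Perm α).supportᶜ).card := by
      rw [hcompl]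
      obtain ⟨k, hk⟩ := hdvd
      obtain ⟨j, hj⟩ := hodd
      rw [Nat.odd_iff]; omega
    have hmemc : ∀ x : α, x ∈ (s : Equiv.Perm α).supportᶜ ↔ s • x = x := by
      intro x
      rw [Finset.mem_compl, Equiv.Perm.mem_support, not_not]; rfl
    have hne : ((s : Equiv.Perm α).supportᶜ).Nonempty := by
      rw [← Finset.card_pos]; obtain ⟨k, hk⟩ := hoddc; omega
    obtain ⟨z, hz⟩ := hne
    refine ⟨z, (hmemc z).mp hz, ?_⟩
    intro z' hz'
    by_contra hne'
    have h2 : 1 < ((s : Equiv.Perm α).supportᶜ).card :=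
      Finset.one_lt_card.mpr ⟨z', (hmemc z').mpr hz', z, hz, hne'⟩
    have h3' : 2 < ((s : Equiv.Perm α).supportᶜ).card := by
      obtain ⟨k, hk⟩ := hoddc; omega
    obtain ⟨a, ha, b, hb, c, hc, hab, hac, hbc⟩ := Finset.two_lt_card.mp h3'
    exact hs1 (hS3 s a b c hab hac hbc ((hmemc a).mp ha) ((hmemc b).mp hb) ((hmemc c).mp hc))
  have hfaith : ∀ g : G, (∀ x : α, g • x = x) → g = 1 := by
    intro g hg
    apply Subtype.ext
    ext x
    exact hg x
  obtain ⟨a, ha1, hcard, F, iF, iFin, hF, h2, ⟨iso⟩⟩ :=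
    h8_sharp3 inf o p₁ (Ne.symm h12) (Ne.symm h13) (Ne.symm h23) hT3 hS3 hpar hfaith
  exact ⟨a, ha1, by rw [← Nat.card_eq_fintype_card]; exact hcard, F, iF, iFin, hF, h2, ⟨iso⟩⟩

theorem h8_s0727 {α : Type u} [Fintype α] [DecidableEq α] {f : ℕ} (hf : 1 ≤ f)
    (hα : Fintype.card α = 2 ^ f + 1) (G : Subgroup (Equiv.Perm α))
    (h3 : MulAction.IsMultiplyPretransitive G α 3)
    (hsharp : ∀ x : Fin 3 ↪ α, MulAction.stabilizer G x = ⊥) :
    ∃ (F : Type) (_ : Field F) (_ : Fintype F), Fintype.card F = 2 ^ f ∧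
      Nonempty (G ≃* Matrix.ProjGenLinGroup (Fin 2) F) := by
  classical
  have h2f : 2 ≤ 2 ^ f := by
    calc 2 = 2 ^ 1 := by norm_num
      _ ≤ 2 ^ f := Nat.pow_le_pow_right (by norm_num) hf
  have hev : Even (2 ^ f) := (Nat.even_pow' (by omega)).mpr even_two
  have hm : 3 ≤ Fintype.card α := by rw [hα]; omega
  have hodd : Odd (Fintype.card α) := by rw [hα]; exact hev.add_one
  have hS3 : ∀ g : G, ∀ x₁ x₂ x₃ : α, x₁ ≠ x₂ → x₁ ≠ x₃ → x₂ ≠ x₃ → g • x₁ = x₁ →
      g • x₂ = x₂ → g • x₃ = x₃ → g = 1 := by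
    intro g x₁ x₂ x₃ h12 h13 h23 h1 h2 h3'
    have hinjx : Function.Injective ![x₁, x₂, x₃] := by
      intro i j h; fin_cases i <;> fin_cases j <;> simp_all
    have hmem : g ∈ MulAction.stabilizer G (⟨![x₁, x₂, x₃], hinjx⟩ : Fin 3 ↪ α) := by
      rw [MulAction.mem_stabilizer_iff]
      apply DFunLike.ext
      intro i
      fin_cases i
      · exact h1
      · exact h2
      · exact h3'
    rw [hsharp] at hmem
    exact Subgroup.mem_bot.mp hmem
  obtain ⟨a, ha1, hcard, F, iF, iFin, hF, h2, ⟨iso⟩⟩ := h8_perm_sharp3 hm hodd G h3 hS3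
  have hpow : 2 ^ a = 2 ^ f := by omega
  refine ⟨F, iF, iFin, by rw [hF, hpow], ?_⟩
  have hneg : ∀ y : F, -y = y := by
    intro y
    have : y + y = 0 := by linear_combination y * h2
    exact neg_eq_of_add_eq_zero_left this
  have hsqinj : Function.Injective (fun s : F => s * s) := by
    intro s r hsr
    have hsr' : s * s = r * r := hsr
    have h0 : (s + r) * (s + r) = 0 := by linear_combination hsr' + (r * r + s * r) * h2
    have h1 : s + r = 0 := by simpa using h0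
    have : s = -r := eq_neg_of_add_eq_zero_left h1
    rw [this, hneg]
  have hR : ∀ r : Fˣ, ∃ k : Fˣ, k ^ Fintype.card (Fin 2) = r := by
    intro r
    obtain ⟨s, hs⟩ := (Finite.injective_iff_surjective.mp hsqinj) (r : F)
    have hs' : s * s = (r : F) := hs
    have hs0 : s ≠ 0 := by
      rintro rfl
      rw [mul_zero] at hs'
      exact r.ne_zero hs'.symm
    refine ⟨Units.mk0 s hs0, ?_⟩
    apply Units.ext
    rw [Fintype.card_fin, Units.val_pow_eq_pow_val, Units.val_mk0, pow_two]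
    exact hs'
  exact ⟨iso.trans (MulEquiv.ofBijective Matrix.ProjectiveSpecialLinearGroup.toPGL
    ⟨Matrix.ProjectiveSpecialLinearGroup.toPGL_injective,
      Matrix.ProjectiveSpecialLinearGroup.toPGL_surj_of_roots hR⟩)⟩

end Cfsg.Agent.Lib.Helper8
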