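import Mathlib
import Cfsg.Prelude.Def_KGroupFacts
import Cfsg.Agent.Lib.Helper8.Schur
import Cfsg.Agent.Lib.Helper8.BilinExt

set_option autoImplicit false

namespace Cfsg.Agent.Lib.Helper8

/-- the cocycle `((a, b), (a', b')) ↦ a b'` on `ZMod m × ZMod n`, `n ∣ m` -/
noncomputable def h8_zβ (m n : ℕ) (hnm : n ∣ m) : ZMod m × ZMod n →+ ZMod m × ZMod n →+ ZMod n :=
  AddMonoidHom.mk' (fun x => AddMonoidHom.mk' (fun y => ZMod.castHom hnm (ZMod n) x.1 * y.2)
    (by intro y y'; show _ * (y.2 + y'.2) = _; rw [mul_add]))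
    (by
      intro x x'; ext y
      show ZMod.castHom hnm (ZMod n) (x.1 + x'.1) * y.2 =
        ZMod.castHom hnm (ZMod n) x.1 * y.2 + ZMod.castHom hnm (ZMod n) x'.1 * y.2
      rw [map_add, add_mul])

theorem h8_zβ_apply (m n : ℕ) (hnm : n ∣ m) (x y : ZMod m × ZMod n) :
    h8_zβ m n hnm x y = ZMod.castHom hnm (ZMod n) x.1 * y.2 := rfl

theorem h8_zprod_ext_isStem (m n : ℕ) [NeZero n] (hnm : n ∣ m) :
    Cfsg.IsStemExtension (h8_BExt.proj (h8_zβ m n hnm)) := by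
  refine ⟨h8_BExt.proj_surjective _, h8_BExt.ker_le_center _, ?_⟩
  intro x hx
  rw [h8_BExt.mem_ker_proj] at hx
  have h1 : (⟨(1 : ZMod n), 0⟩ : h8_BExt (h8_zβ m n hnm)) =
      (⟨0, (1, 0)⟩ : h8_BExt (h8_zβ m n hnm)) * ⟨0, (0, 1)⟩ *
        (⟨0, (1, 0)⟩ : h8_BExt (h8_zβ m n hnm))⁻¹ * (⟨0, (0, 1)⟩ : h8_BExt (h8_zβ m n hnm))⁻¹ := by
    rw [h8_BExt.comm_eq]
    apply h8_BExt.ext'
    · show (1 : ZMod n) = ZMod.castHom hnm (ZMod n) 1 * 1 - ZMod.castHom hnm (ZMod n) 0 * 0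
      rw [map_one, map_zero, mul_one, zero_mul, sub_zero]
    · rfl
  have h2 : x = (⟨(1 : ZMod n), 0⟩ : h8_BExt (h8_zβ m n hnm)) ^ x.z.val := by
    rw [h8_BExt.pow_central]
    apply h8_BExt.ext'
    · simp
    · exact hx
  rw [h2, h1, commutator_def]
  apply Subgroup.pow_mem
  exact Subgroup.commutator_mem_commutator (Subgroup.mem_top _) (Subgroup.mem_top _)

/-- The kernel of a finite stem extension of `ZMod m × ZMod n` is a quotient of `ZMod n`. -/
theorem h8_zmod_prod_stem {m n : ℕ} [NeZero m] [NeZero n] {Γ : Type*} [Group Γ] [Finite Γ]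
    (σ : Γ →* Multiplicative (ZMod m × ZMod n)) (hσ : Cfsg.IsStemExtension σ) :
    ∃ π : Multiplicative (ZMod n) →* σ.ker, Function.Surjective π := by
  obtain ⟨hsurj, hcen, hder⟩ := hσ
  obtain ⟨a, ha⟩ := hsurj (Multiplicative.ofAdd (1, 0))
  obtain ⟨b, hb⟩ := hsurj (Multiplicative.ofAdd (0, 1))
  set c := a * b * a⁻¹ * b⁻¹ with hc
  have hcker : c ∈ σ.ker := by
    rw [MonoidHom.mem_ker, hc, map_mul, map_mul, map_mul, map_inv, map_inv, mul_comm (σ a) (σ b)]
    group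
  have hcen' : ∀ z ∈ σ.ker, ∀ g : Γ, Commute z g := fun z hz g =>
    (Subgroup.mem_center_iff.1 (hcen hz) g).symm
  -- decomposition
  have hdec : ∀ g : Γ, ∃ z ∈ σ.ker, ∃ i j : ℕ, g = z * (a ^ i * b ^ j) := by
    intro g
    refine ⟨g * (a ^ (Multiplicative.toAdd (σ g)).1.val * b ^ (Multiplicative.toAdd (σ g)).2.val)⁻¹,
      ?_, (Multiplicative.toAdd (σ g)).1.val, (Multiplicative.toAdd (σ g)).2.val, by group⟩
    rw [MonoidHom.mem_ker, map_mul, map_inv, map_mul, map_pow, map_pow, ha, hb, ← ofAdd_nsmul,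
      ← ofAdd_nsmul, ← ofAdd_add, mul_inv_eq_one]
    apply Multiplicative.toAdd.injective
    apply Prod.ext
    · simp
    · simp
  -- N = ⟨c⟩ is normal
  have hN : (Subgroup.zpowers c).Normal := by
    constructor
    intro x hx g
    obtain ⟨k, rfl⟩ := Subgroup.mem_zpowers_iff.1 hx
    have h1 : g * c ^ k * g⁻¹ = c ^ k := by
      have := (Commute.zpow_left (hcen' c hcker g) k).eq
      calc g * c ^ k * g⁻¹ = (c ^ k * g) * g⁻¹ := by rw [this]
        _ = c ^ k := by group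
    rw [h1]
    exact Subgroup.zpow_mem _ (Subgroup.mem_zpowers c) k
  have hcomm : ∀ g h : Γ, g * h * g⁻¹ * h⁻¹ ∈ Subgroup.zpowers c := by
    intro g h
    rw [← QuotientGroup.eq_one_iff]
    have hab : Commute (QuotientGroup.mk a : Γ ⧸ Subgroup.zpowers c) (QuotientGroup.mk b) := by
      have h1 : (QuotientGroup.mk (a * b * a⁻¹ * b⁻¹) : Γ ⧸ Subgroup.zpowers c) = 1 :=
        (QuotientGroup.eq_one_iff _).2 (Subgroup.mem_zpowers c)
      rw [QuotientGroup.mk_mul, QuotientGroup.mk_mul, QuotientGroup.mk_mul, QuotientGroup.mk_inv,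
        QuotientGroup.mk_inv] at h1
      exact mul_inv_eq_iff_eq_mul.1 (mul_inv_eq_one.1 h1)
    have hz : ∀ z ∈ σ.ker, ∀ y : Γ, Commute (QuotientGroup.mk z : Γ ⧸ Subgroup.zpowers c)
        (QuotientGroup.mk y) := by
      intro z hz y
      have := (hcen' z hz y).eq
      show (QuotientGroup.mk z : Γ ⧸ Subgroup.zpowers c) * QuotientGroup.mk y =
        QuotientGroup.mk y * QuotientGroup.mk z
      rw [← QuotientGroup.mk_mul, ← QuotientGroup.mk_mul, this]
    obtain ⟨z₁, hz₁, i, j, hg⟩ := hdec g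
    obtain ⟨z₂, hz₂, k, l, hh⟩ := hdec h
    have e1 : (QuotientGroup.mk g : Γ ⧸ Subgroup.zpowers c) =
        (QuotientGroup.mk z₁ : Γ ⧸ Subgroup.zpowers c) *
          ((QuotientGroup.mk a : Γ ⧸ Subgroup.zpowers c) ^ i *
            (QuotientGroup.mk b : Γ ⧸ Subgroup.zpowers c) ^ j) := by
      rw [hg]; rfl
    have e2 : (QuotientGroup.mk h : Γ ⧸ Subgroup.zpowers c) =
        (QuotientGroup.mk z₂ : Γ ⧸ Subgroup.zpowers c) *
          ((QuotientGroup.mk a : Γ ⧸ Subgroup.zpowers c) ^ k *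
            (QuotientGroup.mk b : Γ ⧸ Subgroup.zpowers c) ^ l) := by
      rw [hh]; rfl
    have hgh : Commute (QuotientGroup.mk g : Γ ⧸ Subgroup.zpowers c)
        (QuotientGroup.mk h) := by
      rw [e1, e2]
      have hz1 := hz _ hz₁
      have hz2 := hz _ hz₂
      have hzz1 : ∀ y : Γ ⧸ Subgroup.zpowers c, Commute (QuotientGroup.mk z₁ : Γ ⧸ Subgroup.zpowers c) y := by
        intro y
        obtain ⟨y, rfl⟩ := QuotientGroup.mk_surjective y
        exact hz1 y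
      have hzz2 : ∀ y : Γ ⧸ Subgroup.zpowers c, Commute (QuotientGroup.mk z₂ : Γ ⧸ Subgroup.zpowers c) y := by
        intro y
        obtain ⟨y, rfl⟩ := QuotientGroup.mk_surjective y
        exact hz2 y
      refine Commute.mul_left (hzz1 _) ?_
      refine Commute.mul_right (hzz2 _).symm ?_
      refine Commute.mul_left ?_ ?_
      · exact Commute.mul_right (Commute.pow_pow_self _ _ _) (Commute.pow_pow hab _ _)
      · exact Commute.mul_right (Commute.pow_pow hab.symm _ _) (Commute.pow_pow_self _ _ _)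
    have e3 : (QuotientGroup.mk (g * h * g⁻¹ * h⁻¹) : Γ ⧸ Subgroup.zpowers c) =
        (QuotientGroup.mk g : Γ ⧸ Subgroup.zpowers c) * QuotientGroup.mk h *
          (QuotientGroup.mk g : Γ ⧸ Subgroup.zpowers c)⁻¹ * (QuotientGroup.mk h : Γ ⧸ Subgroup.zpowers c)⁻¹ := rfl
    rw [e3, hgh.eq]
    group
  have hkerN : σ.ker ≤ Subgroup.zpowers c := by
    refine hder.trans ?_
    rw [commutator_def, Subgroup.commutator_le]
    intro g _ h _
    rw [commutatorElement_def]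
    exact hcomm g h
  -- c ^ n = 1
  have hbn : b ^ n ∈ σ.ker := by
    rw [MonoidHom.mem_ker, map_pow, hb, ← ofAdd_nsmul]
    apply Multiplicative.toAdd.injective
    apply Prod.ext
    · simp
    · simp
  have hcn : c ^ n = 1 := by
    have h1 : a * b * a⁻¹ = c * b := by rw [hc]; group
    have h2 : a * b ^ n * a⁻¹ = c ^ n * b ^ n := by
      rw [← conj_pow, h1, (hcen' c hcker b).mul_pow]
    have h3 : a * b ^ n * a⁻¹ = b ^ n := by
      rw [← (hcen' _ hbn a).eq]; group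
    rw [h3] at h2
    exact (mul_eq_right.1 h2.symm)
  -- the surjection
  let f : ℤ →+ Additive σ.ker := zmultiplesHom _ (Additive.ofMul (⟨c, hcker⟩ : σ.ker))
  have hf : f n = 0 := by
    show (n : ℤ) • Additive.ofMul (⟨c, hcker⟩ : σ.ker) = 0
    rw [natCast_zsmul, ← ofMul_pow]
    have : (⟨c, hcker⟩ : σ.ker) ^ n = 1 := Subtype.ext hcn
    rw [this]; rfl
  refine ⟨AddMonoidHom.toMultiplicativeLeft (ZMod.lift n ⟨f, hf⟩), ?_⟩
  intro y
  obtain ⟨k, hk⟩ := Subgroup.mem_zpowers_iff.1 (hkerN y.2)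
  refine ⟨Multiplicative.ofAdd ((k : ℤ) : ZMod n), ?_⟩
  show Additive.toMul (ZMod.lift n ⟨f, hf⟩ ((k : ℤ) : ZMod n)) = y
  rw [ZMod.lift_coe]
  show Additive.toMul (k • Additive.ofMul (⟨c, hcker⟩ : σ.ker)) = y
  rw [← ofMul_zpow, toMul_ofMul]
  exact Subtype.ext hk

end Cfsg.Agent.Lib.Helper8
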